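import Cfsg.Agent.H18.SpMax
import Cfsg.Agent.H13.MaxSing
import Cfsg.Agent.H13.Simple

/-! Root elements of orthogonal groups, and classes not containing `Ω`. -/

set_option autoImplicit false

namespace Cfsg.Agent.H18

open Cfsg.Geo QuadraticMap
open scoped MatrixGroups Matrix Kronecker commutatorElement

variable {ι : Type} [Fintype ι] [DecidableEq ι] {F : Type*} [Field F] {Q : (ι → F) → F}

/-- the bundled quadratic form -/
def mkQ (hQ : IsNondegenerateQuadraticForm Q) : QuadraticForm F (ι → F) :=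
  QuadraticMap.ofPolar Q (fun a x => by rw [hQ.smul, smul_eq_mul, pow_two]) hQ.polar_bilinear.add_left
    hQ.polar_bilinear.smul_left

omit [Fintype ι] [DecidableEq ι] in
lemma nd_mkQ (hQ : IsNondegenerateQuadraticForm Q) : H13.ND (mkQ hQ) :=
  (hform_of_quad hQ).nondeg'

omit [Fintype ι] [DecidableEq ι] in
lemma quad_of_nd {Q : QuadraticForm F (ι → F)} (h : H13.ND Q) : IsNondegenerateQuadraticForm Q :=
  ⟨H13.Q_smul Q, ⟨polar_add_left Q, polar_smul_left Q, polar_add_right Q,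
    fun c v x => polar_smul_right Q c v x⟩, fun v hv => by
      obtain ⟨y, hy⟩ := h.exists_ne hv
      exact ⟨⟨y, by rwa [polar_comm]⟩, y, hy⟩⟩

lemma omegaGL_le : omegaGL Q ≤ isometryGroup F Q := Subgroup.map_subtype_le _

lemma omegaGL_le_isoG : omegaGL Q ≤ isoG (polar Q) := omegaGL_le.trans isometryGroup_le_isoG

/-- an abstract isometry as a matrix -/
noncomputable def ofOG (hQ : IsNondegenerateQuadraticForm Q) (g : H13.OG (mkQ hQ)) : GL ι F :=
  ((H13.toOG (mkQ hQ)).symm g : isometryGroup F (mkQ hQ))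

lemma ofOG_mulVec (hQ : IsNondegenerateQuadraticForm Q) (g : H13.OG (mkQ hQ)) (v : ι → F) :
    (ofOG hQ g : Matrix ι ι F) *ᵥ v = g.1 v := H13.mat_symm_mulVec g v

lemma ofOG_mem (hQ : IsNondegenerateQuadraticForm Q) {g : H13.OG (mkQ hQ)}
    (hg : g ∈ H13.Om (mkQ hQ)) : ofOG hQ g ∈ omegaGL Q :=
  ⟨_, (H13.mem_Omega_iff (Q := mkQ hQ) _).mpr (by rwa [MulEquiv.apply_symm_apply]), rfl⟩

lemma exists_ofOG (hQ : IsNondegenerateQuadraticForm Q) {g : GL ι F} (hg : g ∈ omegaGL Q) :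
    ∃ h ∈ H13.Om (mkQ hQ), ofOG hQ h = g := by
  obtain ⟨g, hg, rfl⟩ := hg
  exact ⟨_, (H13.mem_Omega_iff (Q := mkQ hQ) g).mp hg,
    congrArg Subtype.val ((H13.toOG (mkQ hQ)).symm_apply_apply g)⟩

/-- `g` is the root element of the singular pair `u`, `a` -/
structure IsRt (Q : (ι → F) → F) (u a : ι → F) (g : GL ι F) : Prop where
  hu : Q u = 0
  ha : Q a = 0
  hua : polar Q u a = 0
  eq : ∀ x, (g : Matrix ι ι F) *ᵥ x - x = polar Q a x • u - polar Q u x • a

lemma IsRt.mem {u a : ι → F} {g : GL ι F} (h : IsRt Q u a g) (x : ι → F) :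
    (g : Matrix ι ι F) *ᵥ x - x ∈ Submodule.span F {u, a} := by
  rw [h.eq]
  exact sub_mem (Submodule.smul_mem _ _ (Submodule.subset_span (by simp)))
    (Submodule.smul_mem _ _ (Submodule.subset_span (by simp)))

lemma IsRt.sqz (hQ : IsNondegenerateQuadraticForm Q) {u a : ι → F} {g : GL ι F} (h : IsRt Q u a g) :
    ((g : Matrix ι ι F) - 1) * ((g : Matrix ι ι F) - 1) = 0 := by
  have hf := hform_of_quad hQ
  refine H13.matrix_ext_mulVec fun x => ?_
  rw [← Matrix.mulVec_mulVec, Matrix.sub_mulVec, Matrix.sub_mulVec, Matrix.one_mulVec,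
    Matrix.one_mulVec, h.eq, h.eq]
  simp [hf.sub_right, hf.smul_right, polar_self_of_quad hQ, h.hu, h.ha, h.hua, hf.symm a u]

lemma IsRt.exists_eq (hQ : IsNondegenerateQuadraticForm Q) {u a : ι → F} {g : GL ι F}
    (h : IsRt Q u a g) (hu : u ≠ 0) (ha : a ∉ Submodule.span F {u}) :
    ∃ x, (g : Matrix ι ι F) *ᵥ x - x = a := by
  obtain ⟨b, hb⟩ := (nd_mkQ hQ).exists_polar_eq (H13.linearIndependent_pair_of_notMem hu ha) ![-1, 0]
  have h1 : polar Q u b = -1 := (polar_comm _ _ _).trans (hb 0)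
  have h2 : polar Q a b = 0 := (polar_comm _ _ _).trans (hb 1)
  exact ⟨b, by rw [h.eq, h1, h2]; simp⟩

section fin
variable [Finite F] (hQ : IsNondegenerateQuadraticForm Q) (hn : 5 ≤ Fintype.card ι)
include hQ hn

omit [Finite F] in
lemma isRt_sieg {u a : ι → F} (hu : Q u = 0) (ha : Q a = 0) (hua : polar Q u a = 0) :
    IsRt Q u a (ofOG hQ (H13.sieg _ u a)) ∧ ofOG hQ (H13.sieg _ u a) ∈ omegaGL Q :=
  ⟨⟨hu, ha, hua, fun x => by
    rw [ofOG_mulVec, H13.sieg_apply (Q := mkQ hQ) hu hua, show mkQ hQ a = 0 from ha, zero_smul,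
      add_zero, add_sub_assoc, add_sub_cancel_left]; rfl⟩,
    ofOG_mem hQ ((nd_mkQ hQ).sieg_mem_commutator (Or.inr (Or.inl (by simp; omega))) u a)⟩

lemma omega_le_of_rt {M : Subgroup (GL ι F)}
    (h : ∀ u a g, IsRt Q u a g → g ∈ omegaGL Q → g ∈ M) : omegaGL Q ≤ M := fun g hg => by
  obtain ⟨g, hg', rfl⟩ := exists_ofOG hQ hg
  rw [← (nd_mkQ hQ).closure_Root (by simpa using hn)] at hg'
  refine (Subgroup.closure_le (M.comap ((isometryGroup F (mkQ hQ)).subtype.comp
    (H13.toOG (mkQ hQ)).symm.toMonoidHom))).mpr ?_ hg'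
  rintro _ ⟨u, a, h1, h2, h3, rfl⟩
  exact h u a _ (isRt_sieg hQ hn h1 h2 h3).1 (isRt_sieg hQ hn h1 h2 h3).2

lemma exists_omega_add {v u : ι → F} (hu : Q u = 0) (huv : polar Q v u = 0)
    (hv : v ∉ Submodule.span F {u}) : ∃ g ∈ omegaGL Q, (g : Matrix ι ι F) *ᵥ v = v + u := by
  obtain ⟨x, a, h⟩ := (nd_mkQ hQ).exists_sieg_map_of_five (by simpa using hn) (x := v) (y := v + u)
    (by change Q _ = Q _; rw [quad_add (Q := Q), hu, huv]; ring)
    (by rwa [sub_add_cancel_left, ← Set.neg_singleton, Submodule.span_neg])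
  exact ⟨_, ofOG_mem hQ ((nd_mkQ hQ).sieg_mem_commutator (Or.inr (Or.inl (by simp; omega))) x a),
    (ofOG_mulVec hQ _ v).trans h⟩

omit [DecidableEq ι] in
lemma perp_le_of_sing (d : ι → F) {W : Submodule F (ι → F)}
    (h : ∀ x, Q x = 0 → polar Q d x = 0 → x ∈ W) (x : ι → F) (hx : polar Q d x = 0) : x ∈ W :=
  (nd_mkQ hQ).singular_induction_perp (by simpa using hn) d (p := (· ∈ W))
    (fun x h1 h2 => h x h2 h1) (fun _ _ _ _ => add_mem) x hx

omit [DecidableEq ι] in
lemma exists_sing_notMem (d : ι → F) {W : Submodule F (ι → F)}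
    (hW : Module.finrank F W + 1 < Fintype.card ι) : ∃ x, Q x = 0 ∧ polar Q d x = 0 ∧ x ∉ W := by
  by_contra! h
  have h1 := Submodule.finrank_mono (s := (hform_of_quad hQ).perp (Submodule.span F {d})) (t := W)
    fun x hx => perp_le_of_sing hQ hn d h x
      ((polar_comm _ _ _).trans (hx d (Submodule.mem_span_singleton_self d)))
  have := (hform_of_quad hQ).le_finrank_perp (Submodule.span F {d})
  have := finrank_span_singleton_le d
  omega

lemma irr_omega : Irr (omegaGL Q) := by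
  intro W hW
  by_contra! h0
  have hf := hform_of_quad hQ
  have h1 : ∀ w ∈ W, w ≠ 0 → ∀ x, polar Q w x = 0 → x ∈ W := fun w hw hw0 =>
    perp_le_of_sing hQ hn w fun x h1 h2 => by
      by_cases h3 : w ∈ Submodule.span F {x}
      · by_contra h4
        exact notMem_span_of_notMem hw hw0 h4 h3
      · obtain ⟨g, hg, h4⟩ := exists_omega_add hQ hn h1 h2 h3
        simpa [h4] using sub_mem (hW g hg w hw) hw
  obtain ⟨w, hw, hw0⟩ := (Submodule.ne_bot_iff W).mp h0.1
  obtain ⟨v, hv⟩ : ∃ v, v ∉ W := by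
    by_contra! h; exact h0.2 (eq_top_iff.mpr fun v _ => h v)
  have h2 := Submodule.finrank_mono (s := hf.perp (Submodule.span F {w})) (t := W)
    fun x hx => h1 w hw hw0 x ((polar_comm _ _ _).trans (hx w (Submodule.mem_span_singleton_self w)))
  have h3 := hf.le_finrank_perp (Submodule.span F {w})
  have h4 := hf.le_finrank_perp (Submodule.span F {v})
  have := finrank_span_singleton_le w
  have := finrank_span_singleton_le v
  have h5 := Submodule.finrank_sup_add_finrank_inf_eq W (hf.perp (Submodule.span F {v}))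
  have h6 := Submodule.finrank_le (W ⊔ hf.perp (Submodule.span F {v}))
  rw [Module.finrank_fintype_fun_eq_card] at h6
  obtain ⟨x, hx, hx0⟩ := (Submodule.ne_bot_iff (W ⊓ hf.perp (Submodule.span F {v}))).mp
    fun h => by rw [h, finrank_bot] at h5; omega
  exact hv (h1 x hx.1 hx0 v (hx.2 v (Submodule.mem_span_singleton_self v)))

lemma omega_not_le_stab {W : Submodule F (ι → F)} (h1 : W ≠ ⊥) (h2 : W ≠ ⊤) :
    ¬ omegaGL Q ≤ subspaceStabilizer W := fun h =>
  (irr_omega hQ hn W fun _ hg v hv => (mem_subspaceStabilizer.mp (h hg) v).mp hv).elim h1 h2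

lemma omega_not_le_decomp {t m : ℕ} {D : Fin t → Submodule F (ι → F)} (hD : IsMDecomposition m D)
    {i : Fin t} {v u : ι → F} (hv : v ∈ D i) (hu : Q u = 0) (huv : polar Q v u = 0) (h1 : u ∉ D i)
    (hv0 : v ≠ 0) (h2 : ∀ j, j ≠ i → v + u ∉ D j) : ¬ omegaGL Q ≤ decompositionStabilizer D :=
  fun h => by
  obtain ⟨g, hg, h3⟩ := exists_omega_add hQ hn hu huv (notMem_span_of_notMem hv hv0 h1)
  obtain ⟨k, hk⟩ := exists_mem_of_stab (h hg) hv
  rw [h3] at hk
  by_cases h4 : k = i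
  · subst h4; exact h1 (by simpa using sub_mem hk hv)
  · exact h2 k h4 hk

lemma omega_not_le_ndDecomp {t m : ℕ} {D : Fin t → Submodule F (ι → F)}
    (hD : IsNondegenerateMDecomposition (polar Q) m D) :
    ¬ omegaGL Q ≤ decompositionStabilizer D := by
  have hf := hform_of_quad hQ
  have ht := hD.decomp.two_le
  let i : Fin t := ⟨0, by omega⟩
  obtain ⟨v, hv, hv0⟩ := exists_ne_zero_of_decomp hD.decomp i
  have h1 := (hf.finrank_perp (hD.nondegenerate i)).1
  rw [hD.decomp.finrank_eq] at h1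
  have h2 := card_eq_of_isMDecomposition hD.decomp
  have h3 : 2 * m ≤ t * m := Nat.mul_le_mul_right m ht
  obtain ⟨u, hu, hu0, hu1⟩ := H13.exists_singular_mem (mkQ hQ) (H := hf.perp (D i)) (by omega)
  have h4 := hf.nondegOn_iff.mp (hD.nondegenerate i)
  refine omega_not_le_decomp hQ hn hD.decomp hv hu1 (hf.eq_zero_comm (hu v hv))
    (fun h => hu0 ((Submodule.eq_bot_iff _).mp h4 u ⟨h, hu⟩)) hv0 fun j hj h => hv0 ?_
  refine (Submodule.eq_bot_iff _).mp h4 v ⟨hv, ?_⟩
  simpa using sub_mem (show v + u ∈ hf.perp (D i) from fun w hw => hD.orthogonal j i hj _ h w hw) hu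

lemma omega_not_le_pair {m : ℕ} {D : Fin 2 → Submodule F (ι → F)} (hD : IsMDecomposition m D)
    (h : ∀ i, IsTotallySingularQuad Q (D i)) : ¬ omegaGL Q ≤ decompositionStabilizer D := by
  have hf := hform_of_quad hQ
  obtain ⟨v, hv, hv0⟩ := exists_ne_zero_of_decomp hD 0
  have h1 := card_eq_of_isMDecomposition hD
  have h4 := hf.le_finrank_perp (Submodule.span F {v})
  have := finrank_span_singleton_le v
  have h5 := Submodule.finrank_sup_add_finrank_inf_eq (D 1) (hf.perp (Submodule.span F {v}))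
  have h6 := Submodule.finrank_le (D 1 ⊔ hf.perp (Submodule.span F {v}))
  rw [Module.finrank_fintype_fun_eq_card] at h6
  rw [hD.finrank_eq] at h5
  obtain ⟨u, hu, hu0⟩ := (Submodule.ne_bot_iff (D 1 ⊓ hf.perp (Submodule.span F {v}))).mp
    fun h => by rw [h, finrank_bot] at h5; omega
  refine omega_not_le_decomp hQ hn hD hv (h 1 u hu.1)
    (hf.eq_zero_comm (hu.2 v (Submodule.mem_span_singleton_self v))) (fun h => ?_) hv0
    fun j _ => add_notMem_of_decomp hD.indep zero_ne_one hv hu.1 hv0 hu0 j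
  exact add_notMem_of_decomp hD.indep zero_ne_one hv hu.1 hv0 hu0 0 (add_mem hv h)

lemma exists_rt : ∃ u a g, IsRt Q u a g ∧ g ∈ omegaGL Q ∧ u ≠ 0 ∧ a ∉ Submodule.span F {u} := by
  obtain ⟨u, hu0, hu⟩ := H13.exists_singular (mkQ hQ) (by simp; omega)
  have := finrank_span_singleton_le u
  obtain ⟨a, h1, h2, h3⟩ := exists_sing_notMem hQ hn u (W := Submodule.span F {u}) (by omega)
  exact ⟨u, a, _, (isRt_sieg hQ hn hu h1 h2).1, (isRt_sieg hQ hn hu h1 h2).2, hu0, h3⟩

lemma scalar_of_comm_rt {X : Matrix ι ι F}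
    (h : ∀ u a g, IsRt Q u a g → g ∈ omegaGL Q → cj g X = X) : ∃ c : F, X = c • 1 := by
  obtain ⟨a, u, g, h1, h2, h3, h4⟩ := exists_rt hQ hn
  have key : ∀ a g, IsRt Q a u g → g ∈ omegaGL Q → a ≠ 0 → u ∉ Submodule.span F {a} →
      X *ᵥ u ∈ Submodule.span F {a, u} := fun a g h1 h2 h3 h4 => by
    obtain ⟨x, hx⟩ := h1.exists_eq hQ h3 h4
    have := h1.mem (X *ᵥ x)
    rwa [Matrix.mulVec_mulVec, (cj_eq_iff g X X).mp (h _ _ _ h1 h2), ← Matrix.mulVec_mulVec,
      ← Matrix.mulVec_sub, hx] at this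
  have := H13.finrank_span_pair_le (F := F) a u
  obtain ⟨b, h5, h6, h7⟩ := exists_sing_notMem hQ hn u (W := Submodule.span F {a, u}) (by omega)
  have h8 := isRt_sieg hQ hn h5 h1.ha ((polar_comm _ _ _).trans h6)
  have hu : u ∈ Submodule.span F {a, u} := Submodule.subset_span (by simp)
  have hu0 : u ≠ 0 := by rintro rfl; exact h4 (zero_mem _)
  obtain ⟨s, c, h9⟩ := Submodule.mem_span_pair.mp (key b _ h8.1 h8.2
    (by rintro rfl; exact h7 (zero_mem _)) (notMem_span_of_notMem hu hu0 h7))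
  obtain rfl : s = 0 := by
    by_contra hs
    refine h7 ((Submodule.smul_mem_iff _ hs).mp ?_)
    rw [eq_sub_of_add_eq h9]
    exact sub_mem (key a g h1 h2 h3 h4) (Submodule.smul_mem _ _ hu)
  have h10 := omega_le_of_rt hQ hn (M := (MulAction.stabilizer (Matrix ι ι F ≃ₐ[F] Matrix ι ι F)
    X).comap (MonoidHom.mk' cj fun a b => AlgEquiv.ext (cj_mul a b))) h
  refine ⟨c, sub_eq_zero.mp ?_⟩
  rcases irr_omega hQ hn (LinearMap.ker (Matrix.toLin' (X - c • 1))) (fun g hg v hv => by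
    rw [LinearMap.mem_ker, Matrix.toLin'_apply] at hv ⊢
    rw [← show cj g X = X from h10 hg, ← map_one (cj g), ← map_smul, ← map_sub, cj_mulVec, hv,
      Matrix.mulVec_zero]) with h11 | h11
  · exact absurd ((Submodule.eq_bot_iff _).mp h11 u (by
      simp [Matrix.sub_mulVec, Matrix.smul_mulVec, ← h9])) hu0
  · exact Matrix.toLin'.injective (by rw [LinearMap.ker_eq_top.mp h11, map_zero])

lemma omega_not_le_field {r : ℕ} (hr : 2 ≤ r) {K : Subalgebra F (Matrix ι ι F)}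
    (hK : IsFieldSubalgebra r K) : ¬ omegaGL Q ≤ subalgebraNormalizer K := fun h => by
  have : Nonempty ι := Fintype.card_pos_iff.mp (by omega)
  have h1 : K = ⊥ := eq_bot_iff.mpr fun k hk => by
    obtain ⟨c, rfl⟩ := scalar_of_comm_rt hQ hn (X := k) fun u a g h1 h2 => by
      have := H13.finrank_span_pair_le (F := F) u a
      exact (cj_eq_iff _ _ _).mpr (centralizes_of_small hK (h h2) h1.mem (by omega) k hk)
    exact Subalgebra.smul_mem _ (one_mem _) c
  have := hK.finrank_eq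
  rw [h1, Subalgebra.finrank_bot] at this
  omega

lemma omega_not_le_subfield {F₀ : Subfield F} (h0 : F₀ ≠ ⊤) (P : GL ι F) :
    ¬ omegaGL Q ≤ subfieldSubgroup F₀ P := fun h => by
  have hf := hform_of_quad hQ
  obtain ⟨u, a, g, h1, -, h3, h4⟩ := exists_rt hQ hn
  obtain ⟨x, hx⟩ := h1.exists_eq hQ h3 h4
  obtain ⟨i, hi⟩ : ∃ i, (g : Matrix ι ι F) *ᵥ ((P : Matrix ι ι F) *ᵥ Pi.single i 1) -
      (P : Matrix ι ι F) *ᵥ Pi.single i 1 ≠ 0 := by
    by_contra! h5
    have h6 : ((g : Matrix ι ι F) - 1) * P = 0 := Matrix.ext fun i j => by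
      rw [Matrix.sub_mul, one_mul]
      simpa [Matrix.mul_apply, Matrix.mulVec, dotProduct, Pi.single_apply] using congrFun (h5 j) i
    refine h4 ?_
    have := congrArg (· *ᵥ (((P⁻¹ : GL ι F) : Matrix ι ι F) *ᵥ x)) h6
    simp only [← Matrix.mulVec_mulVec, mulVec_inv_mulVec, Matrix.sub_mulVec, Matrix.one_mulVec, hx,
      Matrix.zero_mulVec] at this
    exact this ▸ zero_mem _
  refine h0 (eq_top_of_inL (P := P) hi fun c => ?_)
  have h5 := isRt_sieg hQ hn h1.hu (a := c • a) (by rw [hQ.smul, h1.ha, mul_zero])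
    (by rw [hf.smul_right, h1.hua, mul_zero])
  have := (inL_col i).sqz (h5.1.sqz hQ) (h h5.2)
  rwa [h5.1.eq, hf.smul_left, smul_comm, mul_smul, ← smul_sub, ← h1.eq] at this

lemma omega_not_le_tensor {a b : ℕ} (ha : 2 ≤ a) (hb : 3 ≤ b) (e : ι ≃ Fin a × Fin b) (P : GL ι F) :
    ¬ omegaGL Q ≤ tensorProductSubgroup a b e P := fun h => by
  have : Nonempty (Fin b) := ⟨⟨0, by omega⟩⟩
  refine matrix_not_comm (ι := Fin a) (F := F) (by simpa using ha) fun X Y => ?_
  obtain ⟨c, hc⟩ := scalar_of_comm_rt hQ hn (X := trans e P (X ⊗ₖ 1)) fun u a g h1 h2 => by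
    obtain ⟨x, y, h3⟩ := mem_tensorProductSubgroup.mp (h h2)
    have := H13.finrank_span_pair_le (F := F) u a
    obtain ⟨d, hd⟩ := scalar_of_small_kron h3 h1.mem (by simp; omega)
    rw [cj_kron h3, map_one, (cj_eq_iff x X X).mpr (by simp [hd])]
  rw [← map_one (trans e P), ← map_smul, (trans e P).injective.eq_iff] at hc
  obtain rfl : X = c • 1 := Matrix.ext fun i j => by
    simpa [Matrix.one_apply] using congrFun (congrFun hc (i, Classical.arbitrary _))
      (j, Classical.arbitrary _)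
  simp

lemma omega_not_le_wreath (h2 : (2 : F) ≠ 0) {k : ℕ} (hk : 3 ≤ k) (e : ι ≃ (Fin 2 → Fin k))
    (P : GL ι F) : ¬ omegaGL Q ≤ tensorWreathSubgroup k 2 e P := fun h => by
  have : Nonempty (Fin k) := ⟨⟨0, by omega⟩⟩
  obtain ⟨u, a, g, h1, h3, h4, h5⟩ := exists_rt hQ hn
  obtain ⟨x, hx⟩ := h1.exists_eq hQ h4 h5
  obtain ⟨s, hs, h6⟩ := (mem_map_trans e P _ g).mp (h h3)
  obtain ⟨b, π, rfl⟩ := exists_eq_of_mem_wreath hs
  have h7 : ∀ v, ((g * g : GL ι F) : Matrix ι ι F) *ᵥ v - v =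
      (2 : F) • ((g : Matrix ι ι F) *ᵥ v - v) := fun v => by
    have := congrArg (· *ᵥ v) (h1.sqz hQ)
    simp only [Matrix.sub_mul, Matrix.mul_sub, Matrix.sub_mulVec, mul_one, one_mul,
      Matrix.one_mulVec, Matrix.zero_mulVec] at this
    rw [Units.val_mul, two_smul]
    linear_combination (norm := abel) this
  have := H13.finrank_span_pair_le (F := F) u a
  have h8 : ∀ π : Equiv.Perm (Fin 2), π * π = 1 := by decide
  have h9 := fun v => (h7 v).symm ▸ Submodule.smul_mem _ (2 : F) (h1.mem v)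
  obtain ⟨c, hc⟩ := scalar_of_pure_small (g := g * g) (e := e) (P := P) (a := b * b ∘ π.symm)
    (by simp) (by
      rw [Units.val_mul, h6, ← map_mul, ← Units.val_mul, mul_assoc, ← mul_assoc (permGL _ _ π),
        permGL_mul_pureGL, mul_assoc, permGL_mul, h8, ← mul_assoc, pureGL_mul]) h9 (by simp; omega)
  have h10 := h7 x
  rw [eq_one_of_scalar_small hc h9 (by omega), hx, Units.val_one, Matrix.one_mulVec, sub_self,
    eq_comm, smul_eq_zero] at h10
  exact h5 (by rw [h10.resolve_left h2]; exact zero_mem _)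

end fin

end Cfsg.Agent.H18
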