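import Mathlib

/-!
Averaging an invariant form over the cosets of a subgroup.
-/

set_option autoImplicit false

namespace Cfsg.Agent.H18

open Module

theorem sum_eq_zero_of_free {C Ω Y : Type*} [AddGroup C] [Fintype C] [AddCommMonoid Y]
    (a : C → Ω → Ω) (h0 : ∀ ω, a 0 ω = ω) (h1 : ∀ c c' ω, a (c + c') ω = a c (a c' ω)) (f : Ω → Y)
    (S : Finset Ω) (h2 : ∀ ω ∈ S, ∀ c, a c ω ∈ S) (h3 : ∀ ω ∈ S, ∀ c, a c ω = ω → c = 0)
    (h4 : ∀ ω, ∑ c, f (a c ω) = 0) : ∑ ω ∈ S, f ω = 0 := by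
  classical
  induction S using Finset.strongInduction with | H S ih => ?_
  rcases S.eq_empty_or_nonempty with rfl | ⟨ω, hω⟩
  · simp
  have a1 : Finset.univ.image (a · ω) ⊆ S := fun x hx => by
    obtain ⟨c, -, rfl⟩ := Finset.mem_image.mp hx; exact h2 ω hω c
  rw [← Finset.sum_sdiff a1, Finset.sum_image fun c _ c' _ e => by
    have := h3 ω hω (-c' + c) (by rw [h1, show a c ω = a c' ω from e, ← h1, neg_add_cancel, h0])
    exact (neg_add_eq_zero.mp this).symm, h4, add_zero]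
  refine ih _ (Finset.sdiff_ssubset a1 ⟨ω, Finset.mem_image.mpr ⟨0, by simp, h0 ω⟩⟩)
    (fun x hx c => ?_) fun x hx => h3 x (Finset.mem_sdiff.mp hx).1
  obtain ⟨b1, b2⟩ := Finset.mem_sdiff.mp hx
  refine Finset.mem_sdiff.mpr ⟨h2 x b1 c, fun e => b2 ?_⟩
  obtain ⟨c', -, e⟩ := Finset.mem_image.mp e
  exact Finset.mem_image.mpr ⟨-c + c', by simp, by rw [h1, e, ← h1, neg_add_cancel, h0]⟩

variable {F : Type*} [Field F] {σ : Type} {Y V : Type*} [AddCommMonoid Y] [Module F Y]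
  [AddCommMonoid V] [Module F V] {d e : ℕ}

/-- Polynomial functions of degree at most `d`. -/
structure PD (d : ℕ) (f : (σ → F) → Y) : Prop where
  mem : f ∈ Submodule.span F {f | ∃ (p : MvPolynomial σ F) (y : Y), p.totalDegree ≤ d ∧
    f = fun c => MvPolynomial.eval c p • y}

namespace PD
variable {f f' : (σ → F) → Y}

theorem of {p : MvPolynomial σ F} (hp : p.totalDegree ≤ d) (y : Y) :
    PD d fun c => MvPolynomial.eval c p • y := ⟨Submodule.subset_span ⟨p, y, hp, rfl⟩⟩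

theorem const (y : Y) : PD d fun _ : σ → F => y := by
  simpa using of (F := F) (σ := σ) (d := d) (p := 1) (by simp) y

theorem coord (i : σ) (y : Y) : PD 1 fun c : σ → F => c i • y := by
  simpa using of (F := F) (d := 1) (p := MvPolynomial.X i) (by simp) y

theorem add (h : PD d f) (h' : PD d f') : PD d fun c => f c + f' c := ⟨add_mem h.1 h'.1⟩

theorem sub {Y : Type*} [AddCommGroup Y] [Module F Y] {f f' : (σ → F) → Y} (h : PD d f)
    (h' : PD d f') : PD d fun c => f c - f' c := ⟨sub_mem h.1 h'.1⟩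

theorem mono (h : PD d f) (H : d ≤ e) : PD e f :=
  ⟨Submodule.span_mono (by rintro _ ⟨p, y, h1, h2⟩; exact ⟨p, y, h1.trans H, h2⟩) h.1⟩

theorem app {f : (σ → F) → V →ₗ[F] Y} {g : (σ → F) → V} (hf : PD d f) (hg : PD e g) :
    PD (d + e) fun c => f c (g c) := by
  obtain ⟨hf⟩ := hf
  obtain ⟨hg⟩ := hg
  induction hf using Submodule.span_induction with
  | zero => exact const 0
  | add f f' _ _ h h' => exact h.add h'
  | smul c f _ h => exact ⟨Submodule.smul_mem _ c h.1⟩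
  | mem f hf =>
    obtain ⟨p, y, h1, rfl⟩ := hf
    induction hg using Submodule.span_induction with
    | zero => simpa using const 0
    | add g g' _ _ h h' => simpa using h.add h'
    | smul c g _ h => exact ⟨by simpa [Pi.smul_def] using Submodule.smul_mem _ c h.1⟩
    | mem g hg =>
      obtain ⟨p', x, h2, rfl⟩ := hg
      simpa [mul_smul] using of ((MvPolynomial.totalDegree_mul p' p).trans
        (add_comm e d ▸ add_le_add h2 h1)) (y x)

theorem map {g : (σ → F) → V} (hg : PD e g) (f : V →ₗ[F] Y) : PD e fun c => f (g c) := by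
  simpa using (const (d := 0) f).app hg

theorem smul {f : (σ → F) → F} {g : (σ → F) → V} (hf : PD d f) (hg : PD e g) :
    PD (d + e) fun c => f c • g c := (hf.map (LinearMap.lsmul F V)).app hg

theorem sum [Fintype F] [Fintype σ] [DecidableEq σ] (hf : PD d f)
    (h : d < (Fintype.card F - 1) * Fintype.card σ) : ∑ c, f c = 0 := by
  classical
  obtain ⟨hf⟩ := hf
  induction hf using Submodule.span_induction with
  | zero => simp
  | add f f' _ _ h h' => simp [Finset.sum_add_distrib, h, h']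
  | smul c f _ h => simp [← Finset.smul_sum, h]
  | mem f hf =>
    obtain ⟨p, y, h1, rfl⟩ := hf
    rw [← Finset.sum_smul, MvPolynomial.sum_eval_eq_zero p (h1.trans_lt h), zero_smul]

end PD

/-- Precomposition. -/
def pc (g : V →ₗ[F] V) (P : Y →ₗ[F] Y) : (V →ₗ[F] Y) →ₗ[F] V →ₗ[F] Y :=
  LinearMap.llcomp F V Y Y P ∘ₗ LinearMap.lcomp F Y g

theorem avg4 [Fintype F] {G : Type*} [Group G] (ρ : G →* V ≃ₗ[F] V) {M H : Subgroup G} [Finite M]
    (ξ : V →ₗ[F] V →ₗ[F] V →ₗ[F] V →ₗ[F] F)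
    (hξ : ∀ h ∈ M, h ∈ H → ∀ x y z w, ξ (ρ h x) (ρ h y) (ρ h z) (ρ h w) = ξ x y z w)
    (H0 : ∀ δ : V →ₗ[F] V →ₗ[F] V →ₗ[F] V →ₗ[F] F, (∀ (k : ℕ) (a : (Fin k → F) → G),
      (∀ c c', a (c + c') = a c * a c') → (∀ c, a c ∈ M) → (∀ c, a c ∈ H) →
      (∀ c ≠ 0, ∀ g ∈ M, g * a c * g⁻¹ ∈ H → g ∈ H) → ∀ x y z w d₁ d₂ d₃ d₄,
      PD d₁ (fun c => ρ (a c) x) → PD d₂ (fun c => ρ (a c) y) →
      PD d₃ (fun c => ρ (a c) z) → PD d₄ (fun c => ρ (a c) w) →
      d₁ + d₂ + d₃ + d₄ < (Fintype.card F - 1) * k → δ x y z w = 0) → δ = 0)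
    {g : G} (hg : g ∈ M) (x y z w : V) : ξ (ρ g x) (ρ g y) (ρ g z) (ρ g w) = ξ x y z w := by
  classical
  let Ω := M ⧸ H.subgroupOf M
  haveI := Fintype.ofFinite Ω
  let f : G → V →ₗ[F] V →ₗ[F] V →ₗ[F] V →ₗ[F] F := fun g =>
    pc (ρ g) (pc (ρ g) (pc (ρ g) (pc (ρ g) LinearMap.id))) ξ
  have a0 : ∀ g x y z w, f g x y z w = ξ (ρ g x) (ρ g y) (ρ g z) (ρ g w) := fun _ _ _ _ _ => rfl
  have a1 : ∀ (m : M) (ω : Ω) x y z w, f ((m⁻¹ • ω).out : G)⁻¹ x y z w =
      f (ω.out : G)⁻¹ (ρ m x) (ρ m y) (ρ m z) (ρ m w) := fun m ω x y z w => by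
    obtain ⟨h, hh⟩ := QuotientGroup.mk_out_eq_mul (H.subgroupOf M) (m⁻¹ * ω.out)
    rw [show m⁻¹ • ω = QuotientGroup.mk (m⁻¹ * ω.out) by
      conv_lhs => rw [← ω.out_eq']
      rfl, hh, a0, a0, ← hξ _ h.1.2 h.2]
    simp [← LinearEquiv.mul_apply, ← map_mul, -map_inv]
  let ω₀ : Ω := QuotientGroup.mk 1
  have a2 : ∀ ω : Ω, (ω.out : G) ∈ H ↔ ω = ω₀ := fun ω => by
    conv_rhs => rw [← ω.out_eq', eq_comm, QuotientGroup.eq]
    simp [Subgroup.mem_subgroupOf]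
  have a3 : ∑ ω : Ω, f (ω.out : G)⁻¹ = ξ := by
    rw [← Finset.add_sum_erase _ _ (Finset.mem_univ ω₀), H0 (∑ ω ∈ Finset.univ.erase ω₀, _)
      fun k a b1 b2 b3 b4 x y z w d₁ d₂ d₃ d₄ c1 c2 c3 c4 c5 => ?_, add_zero]
    · ext x y z w
      exact hξ _ (inv_mem ω₀.out.2) (inv_mem ((a2 _).mpr rfl)) x y z w
    have b0 : a 0 = 1 := by simpa using b1 0 0
    have b5 : ∀ c, (⟨a (-c), b2 _⟩ : M) = ⟨a c, b2 _⟩⁻¹ := fun c =>
      Subtype.ext (eq_inv_of_mul_eq_one_left (by rw [← b1, neg_add_cancel, b0]))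
    simp only [LinearMap.sum_apply]
    refine sum_eq_zero_of_free (fun c (ω : Ω) => (⟨a c, b2 c⟩ : M) • ω)
      (fun ω => by simp [show (⟨a 0, b2 0⟩ : M) = 1 from Subtype.ext b0])
      (fun c c' ω => by rw [← mul_smul]; congr 1; exact Subtype.ext (b1 c c')) _ _
      (fun ω hω c => ?_) (fun ω hω c e => ?_) fun ω => ?_
    · refine Finset.mem_erase.mpr ⟨fun e => (Finset.mem_erase.mp hω).1 ?_, by simp⟩
      rw [smul_eq_iff_eq_inv_smul] at e
      rw [e]
      exact QuotientGroup.eq.mpr (by simpa [Subgroup.mem_subgroupOf] using b3 c)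
    · by_contra c0
      refine (Finset.mem_erase.mp hω).1 ((a2 ω).mp (inv_mem_iff.mp
        (b4 (-c) (neg_ne_zero.mpr c0) _ (inv_mem ω.out.2) ?_)))
      conv at e => rw [← ω.out_eq']
      simpa [Subgroup.mem_subgroupOf, mul_assoc, show a (-c) = _ from congrArg Subtype.val (b5 c)] using
        QuotientGroup.eq.mp e
    · rw [← Equiv.sum_comp (Equiv.neg _)]
      simp only [Equiv.neg_apply, b5, a1]
      exact ((((c1.map (f _)).app c2).app c3).app c4).sum (by simpa)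
  have a4 := Equiv.sum_comp (MulAction.toPerm (⟨g, hg⟩ : M)⁻¹) fun ω : Ω => f (ω.out : G)⁻¹ x y z w
  simp only [MulAction.toPerm_apply, a1] at a4
  simpa only [← a3, LinearMap.sum_apply] using a4

end Cfsg.Agent.H18
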