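import Mathlib
import Cfsg.Agent.H13.Levi
import Cfsg.Agent.H13.Simple
import Cfsg.Agent.H13.RootEl

/-!
Siegel elements in a subgroup of an orthogonal group; criteria for containing `Ω`.
-/

set_option autoImplicit false

namespace Cfsg.Agent.H18

open Module QuadraticMap H13

variable {F V : Type*} [Field F] [AddCommGroup V] [Module F V] {Q : QuadraticForm F V}
  {M N : Subgroup (OG Q)} {u a b x y : V}

/-- The Siegel element with centre `u` and vector `a` lies in `M`. -/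
structure AS (M : Subgroup (OG Q)) (u a : V) : Prop where
  Qu : Q u = 0
  ua : polar Q u a = 0
  mem : sieg Q u a ∈ M

namespace AS

theorem add (h : AS M u a) (h' : AS M u b) : AS M u (a + b) :=
  ⟨h.Qu, by simp [h.ua, h'.ua], by rw [sieg_add h.Qu h.ua h'.ua]; exact mul_mem h.mem h'.mem⟩

theorem neg (h : AS M u a) : AS M u (-a) :=
  ⟨h.Qu, by simp [h.ua], by rw [sieg_neg h.Qu h.ua]; exact inv_mem h.mem⟩

theorem sub (h : AS M u a) (h' : AS M u b) : AS M u (a - b) := by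
  rw [sub_eq_add_neg]; exact h.add h'.neg

theorem self (hu : Q u = 0) (c : F) : AS M u (c • u) :=
  ⟨hu, by simp [polar_self', hu], by rw [sieg_smul_self hu]; exact one_mem _⟩

theorem zero (hu : Q u = 0) : AS M u 0 := by simpa using self (M := M) hu 0

theorem map (h : AS M u a) {k : OG Q} (hk : k ∈ M) : AS M (k.1 u) (k.1 a) :=
  ⟨by rw [OG_map, h.Qu], by rw [OG_polar, h.ua], by
    rw [← conj_sieg]; exact mul_mem (mul_mem hk h.mem) (inv_mem hk)⟩

theorem fix (h : AS M u a) {k : OG Q} (hk : k ∈ M) (hu : k.1 u = u) : AS M u (k.1 a - a) := by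
  have := h.map hk
  rw [hu] at this
  exact this.sub h

theorem smul_left {c : F} (h : AS M u (c • a)) (ha : polar Q u a = 0) : AS M (c • u) a :=
  ⟨by simp [Q_smul, h.Qu], by simp [ha], by rw [sieg_smul_left h.Qu ha]; exact h.mem⟩

theorem of_smul_left {c : F} (h : AS M (c • u) a) (hc : c ≠ 0) : AS M u (c • a) := by
  have h1 : Q u = 0 := by simpa [Q_smul, hc] using h.Qu
  have h2 : polar Q u a = 0 := by simpa [hc] using h.ua
  exact ⟨h1, by simp [h2], by rw [← sieg_smul_left h1 h2]; exact h.mem⟩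

theorem swap (h : AS M u a) (ha : Q a = 0) : AS M a u :=
  ⟨ha, by rw [polar_comm, h.ua], by rw [sieg_swap h.Qu ha h.ua]; exact h.neg.mem⟩

/-- A Siegel element fixing the centre of another one. -/
theorem act (h : AS M u a) (h' : AS M x y) (h1 : polar Q x u = 0) (h2 : polar Q y u = 0) :
    AS M u (polar Q y a • x - polar Q x a • (y + Q y • x)) := by
  have := h.fix h'.mem (sieg_apply_of_perp_perp h1 h2)
  rwa [sieg_apply h'.Qu h'.ua, add_sub_assoc, add_sub_cancel_left] at this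

theorem sum {κ : Type*} (s : Finset κ) {f : κ → V} (hu : Q u = 0) (h : ∀ i ∈ s, AS M u (f i)) :
    AS M u (∑ i ∈ s, f i) :=
  Finset.sum_induction _ (AS M u) (fun _ _ => add) (zero hu) h

end AS

/-- The centres of full groups of Siegel elements. -/
def EO (M : Subgroup (OG Q)) (u : V) : Prop := Q u = 0 ∧ ∀ a, polar Q u a = 0 → AS M u a

theorem EO.map (h : EO M u) {k : OG Q} (hk : k ∈ M) : EO M (k.1 u) :=
  ⟨by rw [OG_map, h.1], fun a ha => by
    obtain ⟨a, rfl⟩ := k.1.surjective a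
    exact (h.2 a (by rwa [OG_polar] at ha)).map hk⟩

theorem EO.smul (h : EO M u) {c : F} (hc : c ≠ 0) : EO M (c • u) :=
  ⟨by simp [Q_smul, h.1], fun a ha => by
    have : polar Q u a = 0 := by simpa [hc] using ha
    exact (h.2 _ (by simp [this])).smul_left this⟩

theorem EO.of_ne {z : V} (hx : EO M x) (hy : EO M y) (h : polar Q x y ≠ 0) (hz : Q z = 0)
    (h' : polar Q x z ≠ 0) : EO M z := by
  have h4 := hy.smul (div_ne_zero h' h)
  obtain ⟨a, h1, h5⟩ := exists_sieg_map (u := x) (x := (polar Q x z / polar Q x y) • y) (y := z)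
    hx.1 (by rw [h4.1, hz]) (by simp [h]) (by simp [h, h'])
  exact h5 ▸ h4.map (hx.2 a h1).mem

/-- The stabiliser of a subspace. -/
def stO (Q : QuadraticForm F V) (W : Submodule F V) : Subgroup (OG Q) where
  carrier := {g | ∀ w, w ∈ W ↔ g.1 w ∈ W}
  mul_mem' {a b} ha hb w := by rw [OG_mul_apply, ← ha, ← hb]
  one_mem' _ := Iff.rfl
  inv_mem' {a} ha w := by rw [ha ((a⁻¹).1 w), OG_apply_inv]

theorem mem_stO {W : Submodule F V} {g : OG Q} : g ∈ stO Q W ↔ ∀ w, w ∈ W ↔ g.1 w ∈ W := Iff.rfl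

theorem perp_pair_zero {W : Submodule F V} {z w : V} (hz : z ∈ perp Q W) (hw : w ∈ W) :
    polar Q z w = 0 := by rw [polar_comm]; exact mem_perp.mp hz w hw

variable [FiniteDimensional F V]

theorem mem_stO_of_maps {W : Submodule F V} {g : OG Q} (h : ∀ w ∈ W, g.1 w ∈ W) : g ∈ stO Q W :=
  fun w => ⟨h w, fun hw => by
    rw [← map_OG_eq_of_le h] at hw
    obtain ⟨y, h1, h2⟩ := hw
    rwa [← g.1.injective h2]⟩

theorem exists_notMem_of_not_stO {W : Submodule F V} {g : OG Q} (h : g ∉ stO Q W) :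
    ∃ w ∈ W, g.1 w ∉ W := by
  by_contra! h1
  exact h (mem_stO_of_maps h1)

theorem stO_perp (hQ : ND Q) (W : Submodule F V) : stO Q (perp Q W) = stO Q W := by
  have key : ∀ W : Submodule F V, stO Q W ≤ stO Q (perp Q W) := fun W g hg =>
    mem_stO_of_maps fun x hx => mem_perp.mpr fun w hw => by
      rw [OG_polar_right]; exact mem_perp.mp hx _ ((inv_mem hg w).mp hw)
  exact le_antisymm (by simpa only [hQ.perp_perp] using key (perp Q W)) (key W)

theorem map_mem_of_fix_perp (hQ : ND Q) {W : Submodule F V} {g : OG Q}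
    (h : ∀ z ∈ perp Q W, g.1 z = z) (x : V) : g.1 x - x ∈ W := by
  rw [← hQ.perp_perp W]
  exact mem_perp.mpr fun z hz => by
    rw [polar_sub_right, ← h z hz, OG_polar, h z hz, sub_self]

theorem mem_stO_of_fix_perp (hQ : ND Q) {W : Submodule F V} {g : OG Q}
    (h : ∀ z ∈ perp Q W, g.1 z = z) : g ∈ stO Q W :=
  mem_stO_of_maps fun w hw => by simpa using W.add_mem (map_mem_of_fix_perp hQ h w) hw

theorem exists_nonsing_perp (hQ : ND Q) {W : Submodule F V} (h : perp Q W ≠ W)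
    (h' : W ≤ perp Q W) : ∃ a ∈ perp Q W, ∃ b ∈ perp Q W, polar Q a b ≠ 0 := by
  by_contra! H
  refine h (le_antisymm (fun a ha => ?_) h')
  rw [← hQ.perp_perp W]
  exact mem_perp.mpr fun b hb => H b hb a ha

omit [FiniteDimensional F V] in
theorem exists_Q_ne {W : Submodule F V} {a b : V} (ha : a ∈ W) (hb : b ∈ W) (h : polar Q a b ≠ 0) :
    ∃ c ∈ W, Q c ≠ 0 := by
  by_contra! H
  exact h (by have := Q_add Q a b; rwa [H _ (W.add_mem ha hb), H a ha, H b hb, zero_add, zero_add,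
    eq_comm] at this)

variable [Finite F]

theorem Om_le_of_EO (hQ : ND Q) (hn : 5 ≤ finrank F V) (hx : EO M x) (hy : EO M y)
    (h : polar Q x y ≠ 0) : Om Q ≤ M := by
  rw [← hQ.closure_Root hn, Subgroup.closure_le]
  rintro _ ⟨u, a, h1, -, h2, rfl⟩
  by_cases h0 : u = 0
  · rw [h0, sieg_zero_left]; exact one_mem _
  by_cases h3 : polar Q x u = 0
  · obtain ⟨v, h4, h5, h6⟩ := hQ.exists_common_nonperp hx.1 (by rintro rfl; simp at h) h0 h3
    exact (((hx.of_ne hy h h4 h5).of_ne hx (by rwa [polar_comm]) h1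
      (by rwa [polar_comm])).2 a h2).mem
  · exact ((hx.of_ne hy h h1 h3).2 a h2).mem

theorem sieg_mem_Om (hQ : ND Q) (hn : 5 ≤ finrank F V) (u a : V) : sieg Q u a ∈ Om Q :=
  hQ.sieg_mem_commutator (good_of_five hn) u a

/-- Stabilisers of totally singular subspaces are maximal. -/
theorem Om_le_of_ts (hQ : ND Q) (hn : 5 ≤ finrank F V) {W : Submodule F V} (hW : ∀ w ∈ W, Q w = 0)
    (hd : 2 * (finrank F W + 1) = finrank F V → ¬ IsPlus Q)
    (hM : ∀ g ∈ Om Q, g ∈ stO Q W → g ∈ M) {g : OG Q} (hg : g ∈ M) (hg' : g ∉ stO Q W) :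
    Om Q ≤ M := by
  have h0 := le_perp_of_singular hW
  have h1 : ∀ w ∈ W, EO M w := fun w hw => ⟨hW w hw, fun a ha => ⟨hW w hw, ha,
    hM _ (sieg_mem_Om hQ hn _ _) (mem_stO_of_maps fun x hx => by
      rw [sieg_apply_of_perp (hW w hw) ha (mem_perp.mp (h0 hx) w hw)]
      exact W.add_mem hx (W.smul_mem _ hw))⟩⟩
  obtain ⟨w, hw, h2⟩ := exists_notMem_of_not_stO hg'
  have h3 := (h1 w hw).map hg
  generalize g.1 w = x at h2 h3
  by_cases h4 : ∀ y ∈ W, polar Q x y = 0
  swap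
  · push Not at h4
    obtain ⟨y, hy, h5⟩ := h4
    exact Om_le_of_EO hQ hn h3 (h1 y hy) h5
  obtain ⟨f, h5, h6, h7⟩ := hQ.exists_partner W h3.1 h2 h4
  have hp : HP Q x f := ⟨h3.1, h5, h6⟩
  have h8 : ∀ w ∈ W ⊔ F ∙ x, Q w = 0 := fun w hw => by
    obtain ⟨y, hy, z, hz, rfl⟩ := Submodule.mem_sup.mp hw
    obtain ⟨c, rfl⟩ := Submodule.mem_span_singleton.mp hz
    simp [Q_add, Q_smul, hW y hy, h3.1, polar_comm Q y, h4 y hy]
  have h9 : finrank F ↥(W ⊔ F ∙ x) = finrank F W + 1 := Submodule.finrank_sup_span_singleton h2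
  obtain ⟨a, a1, a2⟩ : ∃ a ∈ perp Q (W ⊔ F ∙ x), Q a ≠ 0 := by
    refine hQ.exists_nonsingular_perp _ (lt_of_le_of_ne (hQ.two_mul_finrank_le h8) fun e => ?_)
    exact hd (h9 ▸ e) ⟨_, e, h8⟩
  rw [perp_sup, Submodule.mem_inf, mem_perp_singleton] at a1
  obtain ⟨c, b, rfl⟩ := hp.exists_eq_of_perp a1.2
  have b1 : Q b ≠ 0 := by simpa [Q_add, Q_smul, h3.1, pp_left] using a2
  have b2 : ∀ y ∈ W, polar Q (b : V) y = 0 := fun y hy => by
    simpa [h4 y hy] using perp_pair_zero a1.1 hy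
  have h10 := h3.map (hM _ (sieg_mem_Om hQ hn f b) (mem_stO_of_maps fun y hy => by
    rwa [sieg_apply_of_perp_perp (h7 y hy) (b2 y hy)]))
  refine Om_le_of_EO hQ hn h3 h10 ?_
  rw [sieg_apply h5 (pp_right b)]
  simp [hp.uu, hp.uv, hp.vu, pp_left, pp_left', b1]

theorem torus_sq_mem_Om (hQ : ND Q) (hn : 5 ≤ finrank F V) {f : V} (h : HP Q u f) (c : Fˣ) :
    h.torus (c ^ 2) ∈ Om Q :=
  (hQ.mem_commutator_iff (good_of_five hn) _).mpr ⟨h.dickson_torus hQ _ _, by
    rw [h.spinor_torus, sgn_eq_one_iff]; exact ⟨c, by simp [_root_.sq]⟩⟩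

omit [FiniteDimensional F V] in
theorem AS.smul_of_torus {f : V} (h : HP Q u f) (hM : ∀ c : Fˣ, h.torus (c ^ 2) ∈ M)
    (ha : AS M u a) (c : F) : AS M u (c • a) := by
  obtain ⟨d, w, rfl⟩ := h.exists_eq_of_perp ha.ua
  have h1 : AS M u (w : V) := by simpa using ha.sub (AS.self h.Qu d)
  have h2 : ∀ s : F, AS M u (s ^ 2 • (w : V)) := fun s => by
    by_cases hs : s = 0
    · simpa [hs] using AS.zero (M := M) h.Qu
    · have := h1.map (hM (Units.mk0 s hs))
      rw [h.torus_left, h.torus_pp] at this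
      simpa using this.of_smul_left (by simpa)
  obtain ⟨s, t, h3⟩ := exists_mul_sq_add_mul_sq_eq (one_ne_zero (α := F)) one_ne_zero c
  rw [smul_add, smul_smul]
  refine (AS.self h.Qu _).add ?_
  simpa [← h3, add_smul] using (h2 s).add (h2 t)

/-- In even characteristic stabilisers of non-singular points are maximal. -/
theorem Om_le_of_ns (hQ : ND Q) (hn : 7 ≤ finrank F V) (h2 : (2 : F) = 0) {v : V} (hv : Q v ≠ 0)
    (hM : ∀ g ∈ Om Q, g ∈ stO Q (F ∙ v) → g ∈ M) {g : OG Q} (hg : g ∈ M)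
    (hg' : g ∉ stO Q (F ∙ v)) : Om Q ≤ M := by
  have hn' : 5 ≤ finrank F V := by omega
  have h0 : ∀ k ∈ Om Q, k.1 v = v → k ∈ M := fun k h1 h3 => hM k h1 (mem_stO_of_maps fun w hw => by
    obtain ⟨c, rfl⟩ := Submodule.mem_span_singleton.mp hw
    rwa [map_smul, h3])
  have h1 : ∀ u a, Q u = 0 → polar Q u a = 0 → polar Q u v = 0 → polar Q a v = 0 → AS M u a :=
    fun u a a1 a2 a3 a4 => ⟨a1, a2, h0 _ (sieg_mem_Om hQ hn' _ _) (sieg_apply_of_perp_perp a3 a4)⟩
  have vv : polar Q v v = 0 := by rw [polar_self', h2, zero_mul]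
  have h3 : ∀ u, Q u = 0 → u ≠ 0 → polar Q u v = 0 → ∃ f, HP Q u f ∧ polar Q f v = 0 :=
    fun u a1 a2 a3 => by
      obtain ⟨f, b1, b2, b3⟩ := hQ.exists_partner (F ∙ v) a1 (fun h => by
        obtain ⟨c, rfl⟩ := Submodule.mem_span_singleton.mp h
        exact a2 (by rw [show c = 0 by simpa [Q_smul, hv] using a1, zero_smul]))
        fun h hh => by
          obtain ⟨c, rfl⟩ := Submodule.mem_span_singleton.mp hh
          simp [a3]
      exact ⟨f, ⟨a1, b1, b2⟩, b3 v (Submodule.mem_span_singleton_self v)⟩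
  have h4 : ∀ u a, AS M u a → u ≠ 0 → polar Q u v = 0 → polar Q a v ≠ 0 → EO M u :=
    fun u a a1 a2 a3 a4 => ⟨a1.Qu, fun b hb => by
      obtain ⟨f, b1, b2⟩ := h3 u a1.Qu a2 a3
      have b3 := a1.smul_of_torus b1 (fun c => h0 _ (torus_sq_mem_Om hQ hn' b1 c)
        (b1.torus_pp _ ⟨v, mem_perp_pair.mpr ⟨a3, b2⟩⟩)) (polar Q b v / polar Q a v)
      simpa using (h1 u (b - (polar Q b v / polar Q a v) • a) a1.Qu (by simp [hb, a1.ua]) a3
        (by simp [a4])).add b3⟩
  have h5 : g.1 v ∉ F ∙ v := fun h => hg' (mem_stO_of_maps fun w hw => by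
    obtain ⟨c, rfl⟩ := Submodule.mem_span_singleton.mp hw
    rw [map_smul]; exact Submodule.smul_mem _ _ h)
  obtain ⟨C, hC⟩ := (Submodule.span F {v, g.1 v}).exists_isCompl
  obtain ⟨u, a1, a2, a3⟩ := exists_singular_mem Q (H := perp Q (Submodule.span F {v, g.1 v}) ⊓ C) (by
    have h1 := hQ.finrank_perp (Submodule.span F {v, g.1 v})
    have h2 := Submodule.finrank_add_eq_of_isCompl hC
    have h3 := Submodule.finrank_sup_add_finrank_inf_eq (perp Q (Submodule.span F {v, g.1 v})) C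
    have h4 := Submodule.finrank_le (perp Q (Submodule.span F {v, g.1 v}) ⊔ C)
    have h5 := finrank_span_pair_le (F := F) v (g.1 v)
    omega)
  obtain ⟨a4, a5⟩ := mem_perp_pair.mp a1.1
  obtain ⟨a, b1, b2⟩ := hQ.exists_perp_one (Submodule.span F {u, g.1 v}) (x := v) fun h => by
    obtain ⟨s, t, h6⟩ := Submodule.mem_span_pair.mp h
    have hs : s ≠ 0 := by
      rintro rfl
      have ht : t ≠ 0 := by rintro rfl; exact hv (by rw [← h6]; simp)
      exact h5 (Submodule.mem_span_singleton.mpr ⟨t⁻¹, by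
        conv_lhs => rw [← h6]
        simp [smul_smul, ht]⟩)
    exact a2 (Submodule.disjoint_def.mp hC.disjoint u (Submodule.mem_span_pair.mpr
      ⟨s⁻¹, -(s⁻¹ * t), by conv_lhs => arg 1; rw [← h6]
                           match_scalars <;> field_simp; simp⟩) a1.2)
  have b3 := b1 u (Submodule.subset_span (by simp))
  have b4 := b1 (g.1 v) (Submodule.subset_span (by simp))
  have b5 := (h1 ((g⁻¹).1 u) ((g⁻¹).1 a) (by rw [OG_map, a3]) (by rw [OG_polar, polar_comm, b3])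
    (by rw [← OG_polar_right, polar_comm, a5]) (by rw [← OG_polar_right, b4])).map hg
  rw [OG_apply_inv, OG_apply_inv] at b5
  have b6 := h4 u a b5 a2 (by rwa [polar_comm]) (b2 ▸ one_ne_zero)
  obtain ⟨f, c1, c2⟩ := h3 u a3 a2 (by rwa [polar_comm])
  obtain ⟨c, c3, c4⟩ := hQ.exists_nonsingular_perp (Submodule.span F {u, f, v}) (by
    have := finrank_span_triple_le (F := F) u f v
    omega)
  rw [mem_perp_span] at c3
  have c5 := c3 u (by simp)
  have c6 := c3 f (by simp)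
  have c7 := c3 v (by simp)
  refine Om_le_of_EO hQ hn' b6 (b6.map (h1 f c c1.Qv c6 c2 (by rwa [polar_comm])).mem) ?_
  rw [sieg_apply c1.Qv c6]
  simp [c1.uu, c1.uv, c1.vu, c5, c4, polar_comm Q c u]

end Cfsg.Agent.H18
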