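import Mathlib
import Cfsg.Agent.H18.OMxA

/-!
Non-degenerate blocks of a subgroup of an orthogonal group.
-/

set_option autoImplicit false

namespace Cfsg.Agent.H18

open Module QuadraticMap H13

variable {F V : Type*} [Field F] [AddCommGroup V] [Module F V] {Q : QuadraticForm F V}
  {M N : Subgroup (OG Q)} {u a b x y : V} {U B W : Submodule F V}

theorem nd_sep (hU : ND (Q.restrict U)) (hx : x ∈ U) (h : ∀ y ∈ U, polar Q y x = 0) : x = 0 :=
  Submodule.disjoint_def.mp (nd_restrict_iff.mp hU) x hx (mem_perp.mpr h)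

theorem nd_map (hU : ND (Q.restrict U)) (g : OG Q) : ND (Q.restrict (U.map g.1.toLinearMap)) :=
  nd_restrict_iff.mpr (Submodule.disjoint_def.mpr (by
    rintro _ ⟨x, hx, rfl⟩ h
    rw [nd_sep hU hx fun y hy => by simpa using mem_perp.mp h _ ⟨y, hy, rfl⟩, map_zero]))

theorem finrank_map_OG (U : Submodule F V) (g : OG Q) :
    finrank F (U.map g.1.toLinearMap) = finrank F U := LinearEquiv.finrank_map_eq _ _

variable [FiniteDimensional F V]

theorem exists_hp_mem (hU : ND (Q.restrict U)) (hu : u ∈ U) (h1 : Q u = 0) (h0 : u ≠ 0) :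
    ∃ f ∈ U, HP Q u f := by
  obtain ⟨f, hf⟩ := hU.exists_hp (u := ⟨u, hu⟩) h1 (by simpa)
  exact ⟨f, f.2, h1, hf.Qv, hf.uv⟩

theorem exists_pair_perp (hU : ND (Q.restrict U)) (h3 : 3 ≤ finrank F U) {f : V} (hu : u ∈ U)
    (hf : f ∈ U) (h : HP Q u f) : ∃ a ∈ U, ∃ b ∈ U, polar Q u a = 0 ∧ polar Q f a = 0 ∧
      polar Q u b = 0 ∧ polar Q f b = 0 ∧ polar Q a b ≠ 0 := by
  have h' : HP (Q.restrict U) ⟨u, hu⟩ ⟨f, hf⟩ := ⟨h.Qu, h.Qv, h.uv⟩
  have h1 := h'.finrank_pp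
  have : Nontrivial (pp (Q.restrict U) ⟨u, hu⟩ ⟨f, hf⟩) :=
    Module.nontrivial_of_finrank_pos (R := F) (by omega)
  obtain ⟨a, ha⟩ := exists_ne (0 : pp (Q.restrict U) ⟨u, hu⟩ ⟨f, hf⟩)
  obtain ⟨b, hb⟩ := (h'.nd_pp hU).exists_ne ha
  exact ⟨a.1, a.1.2, b.1, b.1.2, pp_left a, pp_right a, pp_left b, pp_right b, hb⟩

theorem exists_add_perp (hQ : ND Q) (hU : ND (Q.restrict U)) (x : V) :
    ∃ y ∈ U, ∃ z ∈ perp Q U, x = y + z := by
  obtain ⟨y, z, h⟩ := exists_add_of_isCompl (hQ.isCompl hU) x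
  exact ⟨y, y.2, z, z.2, h⟩

theorem exists_ext_map (hQ : ND Q) (hU : ND (Q.restrict U)) (hx : x ∈ U) (hy : y ∈ U) (h0 : x ≠ 0)
    (h1 : y ≠ 0) (h : Q y = Q x) : ∃ g : OG Q, g.1 x = y ∧ ∀ z ∈ perp Q U, g.1 z = z := by
  obtain ⟨k, hk⟩ := hU.witt_one (x := ⟨x, hx⟩) (y := ⟨y, hy⟩) (by simpa) (by simpa) h
  exact ⟨extOG (hQ.isCompl hU) k, (extOG_apply_mem _ k ⟨x, hx⟩).trans (by rw [hk]),
    fun z hz => extOG_apply_perp _ k hz⟩

theorem exists_perp_one_mem (hU : ND (Q.restrict U)) (hx : x ∈ U) (hu : u ∈ U) (h : x ∉ F ∙ u) :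
    ∃ b ∈ U, polar Q u b = 0 ∧ polar Q x b = 1 := by
  obtain ⟨b, h1, h2⟩ := hU.exists_perp_one (F ∙ ⟨u, hu⟩) (x := ⟨x, hx⟩) fun h' => h (by
    obtain ⟨c, hc⟩ := Submodule.mem_span_singleton.mp h'
    exact Submodule.mem_span_singleton.mpr ⟨c, congrArg Subtype.val hc⟩)
  exact ⟨b, b.2, by rw [polar_comm]; exact h1 _ (Submodule.mem_span_singleton_self _),
    by rw [polar_comm]; exact h2⟩

theorem mem_span_of_perp_mem (hU : ND (Q.restrict U)) (hx : x ∈ U) (hu : u ∈ U)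
    (h : ∀ b ∈ U, polar Q u b = 0 → polar Q x b = 0) : ∃ c : F, x = c • u := by
  by_contra h1
  obtain ⟨b, h2, h3, h4⟩ := exists_perp_one_mem hU hx hu fun h' => h1 (by
    obtain ⟨c, hc⟩ := Submodule.mem_span_singleton.mp h'
    exact ⟨c, hc.symm⟩)
  simp [h b h2 h3] at h4

theorem finrank_inf_perp (hU : ND (Q.restrict U)) (hx : x ∈ U) (h0 : x ≠ 0) :
    finrank F ↥(U ⊓ perp Q (F ∙ x)) + 1 = finrank F U := by
  have h1 := hU.finrank_perp (F ∙ ⟨x, hx⟩)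
  rw [finrank_span_singleton (by simpa)] at h1
  rw [← h1, ← Submodule.finrank_map_subtype_eq U]
  refine congrArg (fun S : Submodule F V => finrank F S + 1) (Submodule.ext fun y => ?_)
  simp only [Submodule.mem_inf, mem_perp_singleton, Submodule.mem_map, Submodule.subtype_apply]
  exact ⟨fun h => ⟨⟨y, h.1⟩, h.2, rfl⟩, by rintro ⟨z, h, rfl⟩; exact ⟨z.2, h⟩⟩

theorem le_finrank_inf_perp (hQ : ND Q) (U : Submodule F V) (x : V) :
    finrank F U ≤ finrank F ↥(U ⊓ perp Q (F ∙ x)) + 1 := by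
  have h1 := hQ.finrank_perp (F ∙ x)
  have h2 := Submodule.finrank_sup_add_finrank_inf_eq U (perp Q (F ∙ x))
  have h3 := Submodule.finrank_le (U ⊔ perp Q (F ∙ x))
  have h4 : finrank F (F ∙ x) ≤ 1 := (finrank_span_le_card _).trans (by simp)
  omega

variable [Finite F]

theorem sing_ind (hU : ND (Q.restrict U)) (h3 : 3 ≤ finrank F U) {p : V → Prop}
    (h1 : ∀ x ∈ U, Q x = 0 → p x) (h2 : ∀ x y, p x → p y → p (x + y)) : ∀ x ∈ U, p x := by
  obtain ⟨u, a1, a2, a3⟩ := exists_singular_mem Q h3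
  obtain ⟨f, b1, b2⟩ := exists_hp_mem hU a1 a3 a2
  exact singular_induction a3 a1 b1 (b2.uv ▸ one_ne_zero) h1 fun x _ y _ => h2 x y

theorem exists_sing_ne (hU : ND (Q.restrict U)) (h3 : 3 ≤ finrank F U) (hx : x ∉ perp Q U) :
    ∃ e ∈ U, Q e = 0 ∧ polar Q e x ≠ 0 := by
  by_contra! H
  exact hx (mem_perp.mpr (sing_ind hU h3 H fun y z h1 h2 => by simp [h1, h2]))

theorem exists_comp (hQ : ND Q) (hn : 5 ≤ finrank F V) (hU : ND (Q.restrict U))
    (h3 : 3 ≤ finrank F U) (hu : u ∈ U) (h1 : Q u = 0) (h0 : u ≠ 0) (g : OG Q) :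
    ∃ x : OG Q, ((∀ z ∈ perp Q U, x.1 z = z) ∧ ∃ c : F, c ≠ 0 ∧ x.1 u = c • u) ∧ g * x ∈ Om Q := by
  obtain ⟨f, hf, h⟩ := exists_hp_mem hU hu h1 h0
  refine hQ.exists_mul_mem_Om (good_of_five hn) ⟨fun _ _ => rfl, 1, one_ne_zero, by simp⟩ ?_ ?_
    (fun h2 => ?_) g
  · rintro x y ⟨a1, c, a2, a3⟩ ⟨b1, d, b2, b3⟩
    exact ⟨fun z hz => by rw [OG_mul_apply, b1 z hz, a1 z hz], d * c, mul_ne_zero b2 a2, by
      rw [OG_mul_apply, b3, map_smul, a3, smul_smul]⟩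
  · obtain ⟨a, a1, b, a2, a3, -, a4, -, a5⟩ := exists_pair_perp hU h3 hu hf h
    obtain ⟨c, c1, c2⟩ := exists_Q_ne (W := U ⊓ perp Q (F ∙ u)) ⟨a1, mem_perp_singleton.mpr a3⟩
      ⟨a2, mem_perp_singleton.mpr a4⟩ a5
    exact ⟨c, c2, fun z hz => refl_apply_of_perp (mem_perp.mp hz c c1.1), 1, one_ne_zero, by
      rw [one_smul, refl_apply_of_perp (by rw [polar_comm]; exact mem_perp_singleton.mp c1.2)]⟩
  · obtain ⟨c, c1, c2⟩ := exists_sgn_eq_neg_one h2
    exact ⟨h.torus (Units.mk0 c c1), ⟨fun z hz => h.torus_pp _ ⟨z, mem_perp_pair.mpr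
      ⟨mem_perp.mp hz u hu, mem_perp.mp hz f hf⟩⟩, c, c1, h.torus_left _⟩, h.dickson_torus hQ _ _,
      by rw [h.spinor_torus]; exact c2⟩

/-- A non-degenerate subspace whose full isometry group lies in `N`. -/
structure Blk (N : Subgroup (OG Q)) (U : Submodule F V) : Prop where
  nd : ND (Q.restrict U)
  three : 3 ≤ finrank F U
  le : ∀ g : OG Q, (∀ z ∈ perp Q U, g.1 z = z) → g ∈ N

/-- A subspace carrying all Siegel elements of `M` centred in it. -/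
structure MB (M : Subgroup (OG Q)) (B : Submodule F V) : Prop where
  nd : ND (Q.restrict B)
  three : 3 ≤ finrank F B
  as : ∀ x ∈ B, ∀ y ∈ B, Q x = 0 → polar Q x y = 0 → AS M x y
  mem : ∀ x ∈ B, x ≠ 0 → ∀ y, AS M x y → y ∈ B

namespace Blk

variable (h : Blk N U) (hQ : ND Q) (hn : 5 ≤ finrank F V) (hM : ∀ g ∈ Om Q, g ∈ N → g ∈ M)
include h hQ hn hM

theorem as (hu : u ∈ U) (ha : a ∈ U) (h1 : Q u = 0) (h2 : polar Q u a = 0) : AS M u a :=
  ⟨h1, h2, hM _ (sieg_mem_Om hQ hn _ _) (h.le _ fun z hz =>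
    sieg_apply_of_perp_perp (mem_perp.mp hz u hu) (mem_perp.mp hz a ha))⟩

theorem smul (hu : u ∈ U) (h0 : u ≠ 0) (ha : AS M u a) (c : F) : AS M u (c • a) := by
  obtain ⟨f, hf, h1⟩ := exists_hp_mem h.nd hu ha.Qu h0
  exact ha.smul_of_torus h1 (fun c => hM _ (torus_sq_mem_Om hQ hn h1 c) (h.le _ fun z hz =>
    h1.torus_pp _ ⟨z, mem_perp_pair.mpr ⟨mem_perp.mp hz u hu, mem_perp.mp hz f hf⟩⟩)) c

theorem map (hu : u ∈ U) (h0 : u ≠ 0) (ha : AS M u a) {g : OG Q} (hg : g ∈ N) :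
    AS M (g.1 u) (g.1 a) := by
  obtain ⟨x, ⟨a1, c, a2, a3⟩, a4⟩ := exists_comp hQ hn h.nd h.three hu ha.Qu h0 g
  have a5 : (x⁻¹).1 a - a ∈ U := map_mem_of_fix_perp hQ (g := x⁻¹)
    (fun z hz => by conv_lhs => rw [← a1 z hz, OG_inv_apply_apply]) a
  have a6 := (h.as hQ hn hM hu a5 ha.Qu (by
    rw [polar_sub_right, ← OG_polar_left, a3]; simp [ha.ua])).add ha
  rw [sub_add_cancel] at a6
  have a7 := (h.smul hQ hn hM hu h0 a6 c⁻¹).map (hM _ a4 (mul_mem hg (h.le _ a1)))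
  rw [OG_mul_apply, OG_mul_apply, map_smul, OG_apply_inv, a3, map_smul, map_smul] at a7
  simpa [smul_smul, a2] using a7.of_smul_left a2

theorem Om_le (hirr : ∀ B : Submodule F V, B ≤ perp Q U → B ≠ ⊥ →
    (∀ g ∈ N, (∀ x ∈ U, g.1 x = x) → ∀ b ∈ B, g.1 b ∈ B) → perp Q U ≤ B)
    (hu : u ∈ U) (h0 : u ≠ 0) (ha : AS M u a) (ha' : a ∉ U) : Om Q ≤ M := by
  let B : Submodule F V :=
    { carrier := {b | b ∈ perp Q U ∧ AS M u b}
      add_mem' := fun h1 h2 => ⟨add_mem h1.1 h2.1, h1.2.add h2.2⟩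
      zero_mem' := ⟨zero_mem _, AS.zero ha.Qu⟩
      smul_mem' := fun c _ h1 => ⟨Submodule.smul_mem _ c h1.1, h.smul hQ hn hM hu h0 h1.2 c⟩ }
  have key : ∀ y ∈ U, ∀ z ∈ perp Q U, polar Q u (y + z) = 0 → AS M u y := fun y hy z hz h1 =>
    h.as hQ hn hM hu hy ha.Qu (by simpa [mem_perp.mp hz u hu] using h1)
  have h1 := hirr B (fun _ h => h.1) (by
    obtain ⟨y, hy, z, hz, rfl⟩ := exists_add_perp hQ h.nd a
    exact B.ne_bot_iff.mpr ⟨z, ⟨hz, by simpa using ha.sub (key y hy z hz ha.ua)⟩,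
      fun e => ha' (by simpa [e])⟩) fun g h1 h2 b hb => ⟨mem_perp.mpr fun w hw => by
        rw [← h2 w hw, OG_polar]; exact mem_perp.mp hb.1 w hw, by
      simpa only [h2 u hu] using h.map hQ hn hM hu h0 hb.2 h1⟩
  have h2 : ∀ b, polar Q u b = 0 → AS M u b := fun b hb => by
    obtain ⟨y, hy, z, hz, rfl⟩ := exists_add_perp hQ h.nd b
    exact (key y hy z hz hb).add (h1 hz).2
  obtain ⟨f, hf, h3⟩ := exists_hp_mem h.nd hu ha.Qu h0
  obtain ⟨g, h4, h5⟩ := exists_ext_map hQ h.nd hu hf h0 h3.ne_right (h3.Qv.trans h3.Qu.symm)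
  refine Om_le_of_EO hQ hn ⟨ha.Qu, h2⟩ (y := f) ⟨h3.Qv, fun b hb => ?_⟩ (h3.uv ▸ one_ne_zero)
  obtain ⟨b, rfl⟩ := g.1.surjective b
  rw [← h4] at hb ⊢
  exact h.map hQ hn hM hu h0 (h2 b (by rwa [OG_polar] at hb)) (h.le _ h5)

theorem mb (hirr : ∀ B : Submodule F V, B ≤ perp Q U → B ≠ ⊥ →
    (∀ g ∈ N, (∀ x ∈ U, g.1 x = x) → ∀ b ∈ B, g.1 b ∈ B) → perp Q U ≤ B) (H : ¬ Om Q ≤ M) :
    MB M U :=
  ⟨h.nd, h.three, fun _ hx _ hy => h.as hQ hn hM hx hy, fun _ hx h0 _ hy => by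
    by_contra h1
    exact H (h.Om_le hQ hn hM hirr hx h0 hy h1)⟩

end Blk

/-- The tangent space at a singular point of `B` projects onto a line of `U`. -/
def RP (Q : QuadraticForm F V) (U B : Submodule F V) : Prop :=
  ∀ x ∈ B, Q x = 0 → x ∉ U → ∀ y ∈ B, polar Q x y = 0 → ∃ c : F, y - c • x ∈ perp Q U ∨
    (x ∈ perp Q U ∧ y ∈ perp Q U)

omit [FiniteDimensional F V] [Finite F] in
theorem RP.map (h : RP Q U B) (g : OG Q) : RP Q (U.map g.1.toLinearMap) (B.map g.1.toLinearMap) := by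
  have key : ∀ z ∈ perp Q U, g.1 z ∈ perp Q (U.map g.1.toLinearMap) := fun z hz =>
    mem_perp.mpr (by rintro _ ⟨w, hw, rfl⟩; simpa using mem_perp.mp hz w hw)
  rintro _ ⟨x, hx, rfl⟩ h1 h2 _ ⟨y, hy, rfl⟩ h3
  obtain ⟨c, hc⟩ := h x hx (by simpa using h1) (fun e => h2 ⟨x, e, rfl⟩) y hy (by simpa using h3)
  exact ⟨c, hc.imp (fun e => by simpa using key _ e) fun e => ⟨key _ e.1, key _ e.2⟩⟩

namespace MB

omit [FiniteDimensional F V] [Finite F] in
theorem map (h : MB M B) {g : OG Q} (hg : g ∈ M) : MB M (B.map g.1.toLinearMap) :=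
  ⟨nd_map h.nd g, by rw [finrank_map_OG]; exact h.three, by
    rintro _ ⟨x, hx, rfl⟩ _ ⟨y, hy, rfl⟩ h1 h2
    exact (h.as x hx y hy (by simpa using h1) (by simpa using h2)).map hg, by
    rintro _ ⟨x, hx, rfl⟩ h0 y hy
    have := hy.map (inv_mem hg)
    rw [LinearEquiv.coe_coe, OG_inv_apply_apply] at this
    exact ⟨_, h.mem x hx (by rintro rfl; simp at h0) _ this, OG_apply_inv g y⟩⟩

variable (hU : MB M U) (hB : MB M B)
include hU hB

omit [Finite F] in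
theorem perp_of_sing {e : V} (he : e ∈ U) (h1 : Q e = 0) (h0 : e ≠ 0) (hx : x ∈ B) (h2 : Q x = 0)
    (h3 : x ∉ U) (h4 : ∀ a ∈ U, polar Q e a = 0 → polar Q x a = 0) (hy : y ∈ B)
    (h5 : polar Q x y = 0) : polar Q e y = 0 ∧ ∀ a ∈ U, polar Q e a = 0 → polar Q y a = 0 := by
  have ee : polar Q e e = 0 := by simp [polar_self', h1]
  have key : ∀ y ∈ B, polar Q x y = 0 → polar Q e y = 0 → ∀ a ∈ U, polar Q e a = 0 →
      polar Q y a = 0 := fun y a1 a2 a3 a a4 a5 => by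
    have := hU.mem e he h0 _ ((hU.as e he a a4 h1 a5).act (hB.as x hx y a1 h2 a2) (h4 e he ee)
      (by rwa [polar_comm]))
    rw [h4 a a4 a5, zero_smul, sub_zero] at this
    by_contra h6
    exact h3 ((U.smul_mem_iff h6).mp this)
  have h6 : polar Q e y = 0 := by
    by_contra h6
    obtain ⟨f, hf, hp⟩ := exists_hp_mem hU.nd he h1 h0
    obtain ⟨a, a1, b, a2, a3, -, a4, -, a5⟩ := exists_pair_perp hU.nd hU.three he hf hp
    have a6 := (hB.as x hx y hy h2 h5).act (hU.as e he a a1 h1 a3)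
      (by rw [polar_comm]; exact h4 e he ee) (by rw [polar_comm]; exact h4 a a1 a3)
    have := key _ (hB.mem x hx (by rintro rfl; exact h3 (zero_mem _)) _ a6) a6.ua
      (by simp [ee, a3]) b a2 a4
    simp [a4, h6, a5] at this
  exact ⟨h6, key y hy h5 h6⟩

theorem false_of_nonsing (hQ : ND Q) (h4 : finrank F B ≤ finrank F U) (h4' : 4 ≤ finrank F B)
    (hq : (∃ s : F, s ≠ 0 ∧ s ≠ 1) ∨ 6 ≤ finrank F B) {x₁ x₂ : V} (a1 : x₁ ∈ U)
    (a2 : x₂ ∈ perp Q U) (a3 : x₂ ≠ 0) (a4 : Q x₁ ≠ 0) (hx : x₁ + x₂ ∈ B)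
    (h2 : Q (x₁ + x₂) = 0) : False := by
  have x0 : x₁ ≠ 0 := by rintro rfl; simp at a4
  have n2 : ∀ c : F, c • x₂ ∈ U → c = 0 := fun c hc => by
    simpa [a3] using nd_sep hU.nd hc fun y hy => by simp [mem_perp.mp a2 y hy]
  have xn : x₁ + x₂ ∉ U := fun h => by simpa using n2 1 (by simpa using (U.add_mem_iff_right a1).mp h)
  have xa : ∀ a ∈ U, polar Q (x₁ + x₂) a = polar Q x₁ a := fun a ha => by
    simp [perp_pair_zero a2 ha]
  have hY := finrank_inf_perp hB.nd hx (by rintro h; exact xn (h ▸ zero_mem _))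
  have key : ∀ u ∈ U, Q u = 0 → u ≠ 0 → polar Q x₁ u = 0 → u ∈ B := fun u b1 b2 b3 b4 => by
    obtain ⟨a, c1, c2, c3⟩ := exists_perp_one_mem hU.nd a1 b1 fun h => by
      obtain ⟨c, rfl⟩ := Submodule.mem_span_singleton.mp h
      simp [Q_smul, b2] at a4
    have k1 : ∀ y ∈ B, polar Q (x₁ + x₂) y = 0 → polar Q u y = 0 → ∀ a ∈ U, polar Q u a = 0 →
        polar Q y a • (x₁ + x₂) - polar Q x₁ a • (y + Q y • (x₁ + x₂)) ∈ U :=
      fun y d1 d2 d3 a d4 d5 => by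
        rw [← xa a d4]
        exact hU.mem u b1 b3 _ ((hU.as u b1 a d4 b2 d5).act (hB.as _ hx y d1 h2 d2)
          (by rwa [xa u b1]) (by rwa [polar_comm]))
    have k2 : ∀ y ∈ B, polar Q (x₁ + x₂) y = 0 → polar Q u y = 0 →
        y - (polar Q y a - Q y) • x₂ ∈ U := fun y d1 d2 d3 => by
      have := U.sub_mem (U.smul_mem (polar Q y a - Q y) a1) (k1 y d1 d2 d3 a c1 c2)
      convert this using 1
      rw [c3]; module
    have k3 : ∀ y ∈ B, polar Q (x₁ + x₂) y = 0 → polar Q u y = 0 → ∃ γ : F,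
        y = (polar Q y a - Q y) • (x₁ + x₂) + γ • u + Q y • x₁ := fun y d1 d2 d3 => by
      obtain ⟨γ, hγ⟩ := mem_span_of_perp_mem hU.nd (U.sub_mem (k2 y d1 d2 d3)
        (U.smul_mem (polar Q y a) a1)) b1 fun b e1 e2 => by
          have := k1 y d1 d2 d3 (b - polar Q x₁ b • a) (sub_mem e1 (U.smul_mem _ c1))
            (by simp [e2, c2])
          simp only [polar_sub_right, polar_smul_right, c3, smul_eq_mul, mul_one, sub_self,
            zero_smul, sub_zero] at this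
          have e3 : polar Q y b - polar Q x₁ b * polar Q y a = 0 := by
            by_contra e3
            exact xn ((U.smul_mem_iff e3).mp this)
          simp only [polar_sub_left, polar_smul_left, perp_pair_zero a2 e1, smul_eq_mul]
          linear_combination e3
      exact ⟨γ, by rw [← hγ]; module⟩
    have k4 := le_finrank_inf_perp hQ (B ⊓ perp Q (F ∙ (x₁ + x₂))) u
    rcases hq with ⟨s, s0, s1⟩ | hq
    · have k5 : B ⊓ perp Q (F ∙ (x₁ + x₂)) ⊓ perp Q (F ∙ u) ≤ Submodule.span F {x₁ + x₂, u} := by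
        rintro y ⟨⟨d1, d2⟩, d3⟩
        replace d2 := mem_perp_singleton.mp d2
        replace d3 := mem_perp_singleton.mp d3
        obtain ⟨γ, hγ⟩ := k3 y d1 d2 d3
        have e1 := n2 (s * (s - 1) * Q y) (by
          have := U.sub_mem (k2 _ (B.smul_mem s d1) (by simp only [polar_smul_right, d2, smul_zero])
            (by simp [d3])) (U.smul_mem s (k2 y d1 d2 d3))
          convert this using 1
          rw [Q_smul, polar_smul_left, smul_eq_mul]; module)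
        have e2 : Q y = 0 := by simpa [s0, sub_eq_zero, s1] using e1
        exact Submodule.mem_span_pair.mpr ⟨_, γ, by rw [e2, zero_smul, add_zero] at hγ; exact hγ.symm⟩
      have k6 := Submodule.eq_of_le_of_finrank_le k5 ((finrank_span_pair_le _ _).trans (by omega))
      exact (k6.ge (Submodule.subset_span (by simp))).1.1
    · have k5 : B ⊓ perp Q (F ∙ (x₁ + x₂)) ⊓ perp Q (F ∙ u) ≤
          Submodule.span F {x₁ + x₂, u, x₁} := by
        rintro y ⟨⟨d1, d2⟩, d3⟩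
        obtain ⟨γ, hγ⟩ := k3 y d1 (mem_perp_singleton.mp d2) (mem_perp_singleton.mp d3)
        rw [hγ]
        exact add_mem (add_mem (Submodule.smul_mem _ _ (Submodule.subset_span (by simp)))
          (Submodule.smul_mem _ _ (Submodule.subset_span (by simp))))
          (Submodule.smul_mem _ _ (Submodule.subset_span (by simp)))
      have := (Submodule.finrank_mono k5).trans (finrank_span_triple_le _ _ _)
      omega
  have hP := finrank_inf_perp hU.nd a1 x0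
  obtain ⟨u, b1, b2, b3⟩ := exists_singular_mem Q (H := U ⊓ perp Q (F ∙ x₁)) (by omega)
  obtain ⟨p, c1, c2, c3⟩ := exists_perp_one_mem hU.nd b1.1 a1 fun h => by
    obtain ⟨c, rfl⟩ := Submodule.mem_span_singleton.mp h
    exact b2 (by rw [show c = 0 by simpa [Q_smul, a4] using b3, zero_smul])
  have h5 : U ⊓ perp Q (F ∙ x₁) ≤ B ⊓ perp Q (F ∙ (x₁ + x₂)) := fun y hy =>
    ⟨singular_induction b3 b1 (v := p) ⟨c1, mem_perp_singleton.mpr c2⟩ (c3 ▸ one_ne_zero)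
      (p := (· ∈ B)) (fun z hz e => by
        by_cases e0 : z = 0
        · simp [e0]
        · exact key z hz.1 e e0 (mem_perp_singleton.mp hz.2)) (fun _ _ _ _ => add_mem) y hy,
      mem_perp_singleton.mpr (by rw [xa y hy.1]; exact mem_perp_singleton.mp hy.2)⟩
  have h6 := Submodule.finrank_lt_finrank_of_lt (lt_of_le_of_ne h5 fun e => xn
    (e.ge ⟨hx, mem_perp_singleton.mpr (by rw [polar_self', h2, mul_zero])⟩).1)
  omega

theorem rp_of (hQ : ND Q) (h : ∀ x₁ ∈ U, ∀ x₂ ∈ perp Q U, x₂ ≠ 0 → Q x₁ ≠ 0 → x₁ + x₂ ∈ B →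
    Q (x₁ + x₂) = 0 → ∀ y ∈ B, polar Q (x₁ + x₂) y = 0 → ∃ c : F, y - c • (x₁ + x₂) ∈ perp Q U) :
    RP Q U B := fun x hx h1 h2 y hy h3 => by
  obtain ⟨x₁, a1, x₂, a2, rfl⟩ := exists_add_perp hQ hU.nd x
  have xa : ∀ a ∈ U, polar Q (x₁ + x₂) a = polar Q x₁ a := fun a ha => by
    simp [perp_pair_zero a2 ha]
  by_cases h4 : Q x₁ = 0
  swap
  · obtain ⟨c, hc⟩ := h x₁ a1 x₂ a2 (by rintro rfl; exact h2 (by simpa)) h4 hx h1 y hy h3
    exact ⟨c, Or.inl hc⟩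
  by_cases h5 : x₁ = 0
  · subst h5
    refine ⟨0, Or.inr ⟨by simpa, mem_perp.mpr (sing_ind hU.nd hU.three (fun e b1 b2 => ?_)
      fun y z h1 h2 => by simp [h1, h2])⟩⟩
    by_cases b3 : e = 0
    · simp [b3]
    · exact (hU.perp_of_sing hB b1 b2 b3 hx h1 h2 (fun a b4 _ => by rw [xa a b4, polar_zero_left]) hy h3).1
  obtain ⟨y₁, b1, y₂, b2, rfl⟩ := exists_add_perp hQ hU.nd y
  obtain ⟨c, hc⟩ := mem_span_of_perp_mem hU.nd b1 a1 fun b b3 b4 => by
    simpa [perp_pair_zero b2 b3] using (hU.perp_of_sing hB a1 h4 h5 hx h1 h2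
      (fun a b4 b5 => by rwa [xa a b4]) hy h3).2 b b3 b4
  exact ⟨c, Or.inl (by
    rw [hc, smul_add, add_sub_add_left_eq_sub]; exact sub_mem b2 (Submodule.smul_mem _ _ a2))⟩

theorem rp (hQ : ND Q) (h4 : finrank F B ≤ finrank F U) (h4' : 4 ≤ finrank F B)
    (hq : (∃ s : F, s ≠ 0 ∧ s ≠ 1) ∨ 6 ≤ finrank F B) : RP Q U B :=
  hU.rp_of hB hQ fun _ a1 _ a2 a3 a4 a5 a6 =>
    (hU.false_of_nonsing hB hQ h4 h4' hq a1 a2 a3 a4 a5 a6).elim

theorem eq_of_sing (hd : finrank F B = finrank F U) (h : RP Q U B) (hx : x ∈ B) (hx' : x ∈ U)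
    (h1 : Q x = 0) (h0 : x ≠ 0) : B = U := by
  have key : ∀ x ∈ B, x ∈ U → Q x = 0 → x ≠ 0 → ∀ y ∈ B, polar Q x y = 0 → y ∈ U :=
    fun x a1 a2 a3 a4 y a5 a6 => hU.mem x a2 a4 y (hB.as x a1 y a5 a3 a6)
  obtain ⟨f, hf, hp⟩ := exists_hp_mem hB.nd hx h1 h0
  by_cases h2 : f ∈ U
  · refine Submodule.eq_of_le_of_finrank_eq (fun y hy => ?_) hd
    simpa using U.add_mem (key x hx hx' h1 h0 (y - polar Q x y • f)
      (sub_mem hy (B.smul_mem _ hf)) (by simp [hp.uv])) (U.smul_mem (polar Q x y) h2)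
  obtain ⟨a, a1, b, a2, a3, a4, a5, -, a6⟩ := exists_pair_perp hB.nd hB.three hx hf hp
  obtain ⟨c, hc | hc⟩ := h f hf hp.Qv h2 a a1 a4
  · have h3 := mem_perp.mp hc x hx'
    simp only [polar_sub_right, polar_smul_right, a3, hp.uv, smul_eq_mul, mul_one, zero_sub,
      neg_eq_zero] at h3
    rw [h3, zero_smul, sub_zero] at hc
    exact (a6 (perp_pair_zero hc (key x hx hx' h1 h0 b a2 a5))).elim
  · simpa [hp.uv] using mem_perp.mp hc.1 x hx'

theorem le_finrank (hd : finrank F B = finrank F U) (h : RP Q U B) (hne : B ≠ U) :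
    finrank F B ≤ finrank F ↥(B ⊓ perp Q U) + 1 := by
  by_contra! H
  have key : ∀ x ∈ B, Q x = 0 → B ⊓ perp Q U ≤ perp Q (F ∙ x) := fun x a1 a2 => by
    by_cases a3 : x = 0
    · exact fun y _ => mem_perp_singleton.mpr (by simp [a3])
    have a4 : x ∉ U := fun e => hne (hU.eq_of_sing hB hd h a1 e a2 a3)
    have a5 := finrank_inf_perp hB.nd a1 a3
    by_cases a6 : x ∈ perp Q U
    · have := Submodule.finrank_mono (show B ⊓ perp Q (F ∙ x) ≤ B ⊓ perp Q U from fun y hy => by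
        obtain ⟨c, hc | hc⟩ := h x a1 a2 a4 y hy.1 (mem_perp_singleton.mp hy.2)
        · exact ⟨hy.1, by simpa using add_mem hc (Submodule.smul_mem _ c a6)⟩
        · exact ⟨hy.1, hc.2⟩)
      omega
    have a7 := Submodule.finrank_mono (show B ⊓ perp Q (F ∙ x) ≤
        (B ⊓ perp Q U ⊓ perp Q (F ∙ x)) ⊔ F ∙ x from fun y hy => by
      obtain ⟨c, hc⟩ := h x a1 a2 a4 y hy.1 (mem_perp_singleton.mp hy.2)
      exact Submodule.mem_sup.mpr ⟨_, ⟨⟨sub_mem hy.1 (B.smul_mem c a1), hc.resolve_right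
        fun e => a6 e.1⟩, mem_perp_singleton.mpr (by
          simp [mem_perp_singleton.mp hy.2, polar_self', a2])⟩, _,
        Submodule.smul_mem _ c (Submodule.mem_span_singleton_self x), sub_add_cancel _ _⟩)
    rw [Submodule.finrank_sup_span_singleton (p := B ⊓ perp Q U ⊓ perp Q (F ∙ x))
      fun e => a6 e.1.2] at a7
    exact inf_eq_left.mp (Submodule.eq_of_le_of_finrank_le inf_le_left (by omega))
  obtain ⟨x, a1, a2, a3⟩ := exists_singular_mem Q hB.three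
  have h1 : B ⊓ perp Q U = ⊥ := eq_bot_iff.mpr fun y hy => nd_sep hB.nd hy.1
    (sing_ind hB.nd hB.three (fun x b1 b2 => mem_perp_singleton.mp (key x b1 b2 hy))
      fun y z h1 h2 => by simp [h1, h2])
  have a4 : x ∉ U := fun e => hne (hU.eq_of_sing hB hd h a1 e a3 a2)
  have a5 := finrank_inf_perp hB.nd a1 a2
  have a6 := Submodule.finrank_mono (show B ⊓ perp Q (F ∙ x) ≤ F ∙ x from fun y hy => by
    obtain ⟨c, hc | hc⟩ := h x a1 a3 a4 y hy.1 (mem_perp_singleton.mp hy.2)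
    · exact Submodule.mem_span_singleton.mpr ⟨c, (sub_eq_zero.mp
        (h1.le ⟨sub_mem hy.1 (B.smul_mem c a1), hc⟩)).symm⟩
    · exact (a2 (h1.le ⟨a1, hc.1⟩)).elim)
  rw [finrank_span_singleton a2] at a6
  have := hB.three
  omega

/-- Two blocks in one orbit coincide or are orthogonal. -/
theorem eq_or_le (hd : finrank F B = finrank F U) (h : RP Q U B)
    (h' : ∀ g ∈ M, RP Q B (B.map g.1.toLinearMap)) : B = U ∨ B ≤ perp Q U := by
  by_contra! H
  obtain ⟨b, b1, b2⟩ := SetLike.not_le_iff_exists.mp H.2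
  obtain ⟨e, e1, e2, e3⟩ := exists_sing_ne hU.nd hU.three b2
  have e0 : e ≠ 0 := by rintro rfl; simp at e3
  have h1 := hU.le_finrank hB hd h H.1
  have key : ∀ a ∈ U, polar Q e a = 0 → polar Q a b • e - polar Q e b • (a + Q a • e) ∈ B :=
    fun a a1 a2 => by
      have a3 := (hU.as e e1 a a1 e2 a2).mem
      have a4 : B.map (sieg Q e a).1.toLinearMap = B := by
        by_contra a4
        have a5 := hB.le_finrank (hB.map a3) (finrank_map_OG _ _) (h' _ a3) a4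
        have a6 := Submodule.finrank_sup_add_finrank_inf_eq (B ⊓ perp Q U)
          (B.map (sieg Q e a).1.toLinearMap ⊓ perp Q B)
        rw [show B ⊓ perp Q U ⊓ (B.map (sieg Q e a).1.toLinearMap ⊓ perp Q B) = ⊥ from
          eq_bot_iff.mpr fun y hy => nd_sep hB.nd hy.1.1 (mem_perp.mp hy.2.2), finrank_bot] at a6
        have a7 := Submodule.finrank_mono (sup_le (show B ⊓ perp Q U ≤
          B.map (sieg Q e a).1.toLinearMap from fun y hy => ⟨y, hy.1, sieg_apply_of_perp_perp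
            (mem_perp.mp hy.2 e e1) (mem_perp.mp hy.2 a a1)⟩)
          (inf_le_left (b := perp Q B)))
        have := hB.three
        rw [finrank_map_OG] at a5 a7
        omega
      have := B.sub_mem (a4.le ⟨b, b1, rfl⟩) b1
      rwa [LinearEquiv.coe_coe, sieg_apply e2 a2, add_sub_assoc, add_sub_cancel_left] at this
  obtain ⟨f, hf, hp⟩ := exists_hp_mem hU.nd e1 e2 e0
  obtain ⟨a, a1, a', a2, a3, -, a4, -, a5⟩ := exists_pair_perp hU.nd hU.three e1 hf hp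
  have h2 := B.sub_mem (B.add_mem (key a a1 a3) (key a' a2 a4)) (key _ (add_mem a1 a2) (by simp [a3, a4]))
  rw [show polar Q a b • e - polar Q e b • (a + Q a • e) + (polar Q a' b • e - polar Q e b •
    (a' + Q a' • e)) - (polar Q (a + a') b • e - polar Q e b • (a + a' + Q (a + a') • e)) =
    (polar Q e b * polar Q a a') • e by rw [Q_add, polar_add_left]; module,
    B.smul_mem_iff (mul_ne_zero e3 a5)] at h2
  exact H.1 (hU.eq_of_sing hB hd h h2 e1 e2 e0)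

end MB

theorem MB.map_eq_or_le (hU : MB M U) (h : ∀ g ∈ M, RP Q U (U.map g.1.toLinearMap)) {g : OG Q}
    (hg : g ∈ M) : U.map g.1.toLinearMap = U ∨ U.map g.1.toLinearMap ≤ perp Q U :=
  hU.eq_or_le (hU.map hg) (finrank_map_OG _ _) (h g hg) fun k hk => by
    have := (h _ (mul_mem (mul_mem (inv_mem hg) hk) hg)).map g
    rwa [← map_OG_mul, ← mul_assoc, ← mul_assoc, mul_inv_cancel, one_mul, map_OG_mul] at this

end Cfsg.Agent.H18
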