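import Mathlib
import Cfsg.Agent.H18.OMxB

/-!
Maximality of stabilisers of non-degenerate subspaces and of orthogonal decompositions in `Ω`.
-/

set_option autoImplicit false

namespace Cfsg.Agent.H18

open Module QuadraticMap H13

variable {F V : Type*} [Field F] [AddCommGroup V] [Module F V] {Q : QuadraticForm F V}
  {M N : Subgroup (OG Q)} {u a b x y : V} {U B W : Submodule F V}

/-- The condition for the irreducibility of the isometry group of a subspace. -/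
def IrC (Q : QuadraticForm F V) (W : Submodule F V) : Prop :=
  (∃ s : F, s ≠ 0 ∧ s ^ 2 ≠ 1) ∨ 3 ≤ finrank F W ∨ ∀ z ∈ W, Q z = 0 → z = 0

theorem exists_sq_ne_one [Finite F] (h : 3 < Nat.card F) : ∃ s : F, s ≠ 0 ∧ s ^ 2 ≠ 1 := by
  classical
  by_contra! H
  have := Fintype.ofFinite F
  have h1 := Finset.card_le_card (show Finset.univ ⊆ ({0, 1, -1} : Finset F) from fun s _ => by
    by_cases h0 : s = 0
    · simp [h0]
    · simpa [h0] using H s h0)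
  rw [Finset.card_univ, ← Nat.card_eq_fintype_card] at h1
  have := h1.trans Finset.card_le_three
  omega

theorem exists_ne_zero_one [Finite F] (h : 2 < Nat.card F) : ∃ s : F, s ≠ 0 ∧ s ≠ 1 := by
  classical
  by_contra! H
  have := Fintype.ofFinite F
  have h1 := Finset.card_le_card (show Finset.univ ⊆ ({0, 1} : Finset F) from fun s _ => by
    by_cases h0 : s = 0
    · simp [h0]
    · simpa [h0] using H s h0)
  rw [Finset.card_univ, ← Nat.card_eq_fintype_card] at h1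
  have := h1.trans Finset.card_le_two
  omega

variable [FiniteDimensional F V]

theorem irC_of [Finite F] (hW : ND (Q.restrict W))
    (h : ¬ (Nat.card F ≤ 3 ∧ finrank F W = 2 ∧ IsPlus (Q.restrict W))) : IrC Q W := by
  by_contra H
  simp only [IrC, not_or] at H
  obtain ⟨h1, h2, h3⟩ := H
  push Not at h3
  obtain ⟨z, a1, a2, a3⟩ := h3
  obtain ⟨f, a4, a5⟩ := exists_hp_mem hW a1 a2 a3
  have h4 := Submodule.finrank_mono (sp_le.mpr ⟨a1, a4⟩)
  rw [finrank_span_pair_eq a5.li] at h4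
  refine h ⟨by by_contra h5; exact h1 (exists_sq_ne_one (by omega)), by omega, F ∙ ⟨z, a1⟩, by
    rw [finrank_span_singleton (by simpa)]; omega, fun w hw => ?_⟩
  obtain ⟨c, rfl⟩ := Submodule.mem_span_singleton.mp hw
  simp [Q_smul, restrict_apply', a2]

theorem le_of_invariant (hQ : ND Q) (hW : ND (Q.restrict W)) (h : IrC Q W) (h1 : B ≤ W)
    (h0 : B ≠ ⊥) (hB : ∀ g : OG Q, (∀ z ∈ perp Q W, g.1 z = z) → ∀ b ∈ B, g.1 b ∈ B) : W ≤ B := by
  have key : ∀ b ∈ B, b ≠ 0 → ∀ w ∈ W, w ≠ 0 → Q w = Q b → w ∈ B := fun b a1 a2 w a3 a4 a5 => by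
    obtain ⟨g, rfl, a6⟩ := exists_ext_map hQ hW (h1 a1) a3 a2 a4 a5
    exact hB g a6 b a1
  have k2 : ∀ b ∈ B, b ≠ 0 → Q b = 0 → W ≤ B := fun b a1 a2 a3 => by
    obtain ⟨f, a4, a5⟩ := exists_hp_mem hW (h1 a1) a3 a2
    refine singular_induction a3 (h1 a1) a4 (a5.uv ▸ one_ne_zero) (p := (· ∈ B)) (fun w a6 a7 => ?_)
      fun _ _ _ _ => add_mem
    by_cases a8 : w = 0
    · simp [a8]
    · exact key b a1 a2 w a6 a8 (a7.trans a3.symm)
  obtain ⟨b, b1, b2⟩ := B.ne_bot_iff.mp h0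
  by_cases b3 : Q b = 0
  · exact k2 b b1 b2 b3
  by_cases h2 : ∀ z ∈ W, Q z = 0 → z = 0
  · have k3 : ∀ a ∈ W, polar Q a b ≠ 0 → a ∈ B := fun a a1 a2 => by
      have := B.sub_mem b1 (hB (refl Q a) (fun z hz => refl_apply_of_perp (mem_perp.mp hz a a1)) b b1)
      rwa [refl_apply, sub_sub_cancel, B.smul_mem_iff (mul_ne_zero a2 (inv_ne_zero fun e => by
        simp [h2 a a1 e] at a2))] at this
    obtain ⟨y, y1, y2⟩ : ∃ y ∈ W, polar Q y b ≠ 0 := by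
      by_contra! H
      exact b2 (nd_sep hW (h1 b1) H)
    intro a a1
    by_cases a2 : polar Q a b = 0
    · simpa using B.sub_mem (k3 (a + y) (add_mem a1 y1) (by simpa [a2])) (k3 y y1 y2)
    · exact k3 a a1 a2
  push Not at h2
  obtain ⟨z, a1, a2, a3⟩ := h2
  obtain ⟨f, a4, a5⟩ := exists_hp_mem hW a1 a2 a3
  have k3 : ∀ s : F, s ≠ 0 → ∀ r ∈ W, polar Q z r = 0 → polar Q f r = 0 →
      z + r + (s ^ 2 * Q b - Q r) • f ∈ B := fun s s0 r r1 r2 r3 =>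
    key (s • b) (B.smul_mem s b1) (smul_ne_zero s0 b2) _ (add_mem (add_mem a1 r1) (W.smul_mem _ a4))
      (fun e => by simpa [a5.vu, a5.vv, r3] using congrArg (polar Q f) e) (by
        simp [Q_add, Q_smul, a5.Qu, a5.Qv, a5.uv, r2, polar_comm Q r f, r3])
  refine k2 f ?_ a5.ne_right a5.Qv
  rcases h with ⟨s, s0, s1⟩ | h | h
  · have := B.sub_mem (k3 s s0 0 (zero_mem _) (by simp) (by simp))
      (k3 1 one_ne_zero 0 (zero_mem _) (by simp) (by simp))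
    rwa [add_sub_add_left_eq_sub, ← sub_smul, B.smul_mem_iff (by
      simpa [← sub_mul, sub_eq_zero, b3] using s1)] at this
  · obtain ⟨c, c1, d, c2, c3, c4, c5, c6, c7⟩ := exists_pair_perp hW h a1 a4 a5
    have := B.sub_mem (B.add_mem (k3 1 one_ne_zero c c1 c3 c4) (k3 1 one_ne_zero d c2 c5 c6))
      (B.add_mem (k3 1 one_ne_zero _ (add_mem c1 c2) (by simp [c3, c5]) (by simp [c4, c6]))
        (k3 1 one_ne_zero 0 (zero_mem _) (by simp) (by simp)))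
    rwa [show z + c + (1 ^ 2 * Q b - Q c) • f + (z + d + (1 ^ 2 * Q b - Q d) • f) -
      (z + (c + d) + (1 ^ 2 * Q b - Q (c + d)) • f + (z + 0 + (1 ^ 2 * Q b - Q 0) • f)) =
      polar Q c d • f by rw [Q_add, map_zero]; module, B.smul_mem_iff c7] at this
  · exact (a3 (h z a1 a2)).elim

theorem mem_stO_iff_map {g : OG Q} : g ∈ stO Q W ↔ W.map g.1.toLinearMap = W :=
  ⟨fun h => map_OG_eq_of_le fun w => (h w).mp, fun h => mem_stO_of_maps fun w hw => h.le ⟨w, hw, rfl⟩⟩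

theorem exists_swapO (hQ : ND Q) (hW : ND (Q.restrict W)) (hU : ND (Q.restrict U))
    (h : W ≤ perp Q U) (φ : W ≃ₗ[F] U) (hφ : ∀ w : W, Q (φ w) = Q w) :
    ∃ g : OG Q, (∀ w ∈ W, g.1 w ∈ U) ∧ (∀ u ∈ U, g.1 u ∈ W) ∧
      ∀ z ∈ perp Q W, z ∈ perp Q U → g.1 z = z := by
  let p := W.projectionOnto _ (hQ.isCompl hW)
  let L : V →ₗ[F] V := LinearMap.id - W.subtype ∘ₗ p + U.subtype ∘ₗ φ.toLinearMap ∘ₗ p
  have h1 : ∀ (w : W), ∀ z ∈ perp Q W, L (w + z) = φ w + z := fun w z hz => by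
    have : p (w + z) = w := by simp [p, Submodule.projectionOnto_apply_of_mem_right _ hz]
    simp only [L, LinearMap.add_apply, LinearMap.sub_apply, LinearMap.comp_apply, this]
    simp; abel
  have h2 : ∀ x ∈ perp Q U, ∃ w : W, ∃ z ∈ perp Q W, z ∈ perp Q U ∧ x = w + z := fun x hx => by
    obtain ⟨w, a1, z, a2, rfl⟩ := exists_add_perp hQ hW x
    exact ⟨⟨w, a1⟩, z, a2, ((perp Q U).add_mem_iff_right (h a1)).mp hx, rfl⟩
  obtain ⟨g, h3, h4⟩ := witt_quad_extend Q hQ (perp Q U) (L ∘ₗ (perp Q U).subtype) (by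
    rw [← LinearMap.ker_eq_bot, LinearMap.ker_eq_bot']
    rintro ⟨x, hx⟩ e
    obtain ⟨w, z, a1, a2, rfl⟩ := h2 x hx
    rw [LinearMap.comp_apply, Submodule.subtype_apply, h1 w z a1] at e
    have a3 : (φ w : V) = 0 := nd_sep hU (φ w).2 fun y hy => by
      rw [eq_neg_of_add_eq_zero_left e]; simp [mem_perp.mp a2 y hy]
    rw [a3, zero_add] at e
    simpa [e] using a3) (by
    rintro ⟨x, hx⟩
    obtain ⟨w, z, a1, a2, rfl⟩ := h2 x hx
    rw [LinearMap.comp_apply, Submodule.subtype_apply, h1 w z a1, Q_add, Q_add, hφ,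
      mem_perp.mp a1 _ w.2, mem_perp.mp a2 _ (φ w).2])
  have h5 : ∀ w : W, g w = φ w := fun w => (h4 ⟨w, h w.2⟩).trans (by simpa using h1 w 0 (zero_mem _))
  have h6 : ∀ z ∈ perp Q W, z ∈ perp Q U → g z = z := fun z a1 a2 =>
    (h4 ⟨z, a2⟩).trans (by simpa using h1 0 z a1)
  refine ⟨⟨g, h3⟩, fun w hw => (h5 ⟨w, hw⟩).symm ▸ (φ _).2, fun u hu => ?_, h6⟩
  rw [← hQ.perp_perp W]
  refine mem_perp.mpr fun x hx => ?_
  obtain ⟨y, a1, z, a2, rfl⟩ := exists_add_perp hQ hU x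
  have a3 := ((perp Q W).add_mem_iff_right (show y ∈ perp Q W from
    mem_perp.mpr fun w hw => perp_pair_zero (h hw) a1)).mp hx
  obtain ⟨w, hw⟩ := φ.surjective ⟨y, a1⟩
  rw [← h6 z a3 a2, show y = g w by rw [h5, hw], ← map_add]
  exact (OG_polar ⟨g, h3⟩ _ _).trans (perp_pair_zero (add_mem (h w.2) a2) hu)

variable [Finite F]

/-- Stabilisers of non-degenerate subspaces are maximal. -/
theorem Om_le_of_nd (hQ : ND Q) (hn : 5 ≤ finrank F V) (hU : ND (Q.restrict U))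
    (h4 : 4 ≤ finrank F U) (hq : (∃ s : F, s ≠ 0 ∧ s ≠ 1) ∨ 6 ≤ finrank F U)
    (hW : IrC Q (perp Q U)) (hiso : ∀ g : OG Q, ¬ U.map g.1.toLinearMap ≤ perp Q U)
    (hM : ∀ g ∈ Om Q, g ∈ stO Q U → g ∈ M) {g : OG Q} (hg : g ∈ M) (hg' : g ∉ stO Q U) :
    Om Q ≤ M := by
  by_contra H
  have h : Blk (stO Q U) U := ⟨hU, by omega, fun _ => mem_stO_of_fix_perp hQ⟩
  have h1 := h.mb hQ hn hM (fun B h1 h2 h3 => le_of_invariant hQ (hQ.nd_perp hU) hW h1 h2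
    fun g h4 => by
      rw [hQ.perp_perp] at h4
      exact h3 g (mem_stO_of_maps fun w hw => by rwa [h4 w hw]) h4) H
  exact hg' (mem_stO_iff_map.mpr ((h1.map_eq_or_le (fun k hk => h1.rp (h1.map hk) hQ
    (finrank_map_OG _ _).le (by rwa [finrank_map_OG]) (by rwa [finrank_map_OG])) hg).resolve_right
      (hiso g)))

/-- An orthogonal decomposition into non-degenerate subspaces. -/
structure ODQ (Q : QuadraticForm F V) {κ : Type*} (E : κ → Submodule F V) : Prop where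
  nd : ∀ i, ND (Q.restrict (E i))
  orth : ∀ i j, i ≠ j → E j ≤ perp Q (E i)
  top : iSup E = ⊤

/-- The stabiliser of a family of subspaces. -/
def dsO (Q : QuadraticForm F V) {κ : Type*} (E : κ → Submodule F V) : Subgroup (OG Q) where
  carrier := {g | ∃ π : Equiv.Perm κ, ∀ i, (E i).map g.1.toLinearMap = E (π i)}
  mul_mem' := by
    rintro a b ⟨σ, hσ⟩ ⟨τ, hτ⟩
    exact ⟨τ.trans σ, fun i => by rw [map_OG_mul, hτ, hσ, Equiv.trans_apply]⟩
  one_mem' := ⟨1, fun i => map_OG_one _⟩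
  inv_mem' := by
    rintro a ⟨σ, hσ⟩
    refine ⟨σ.symm, fun i => ?_⟩
    have h := hσ (σ.symm i)
    rw [Equiv.apply_symm_apply] at h
    rw [← h, ← map_OG_mul, inv_mul_cancel, map_OG_one]

variable {κ : Type*} {E : κ → Submodule F V}

namespace ODQ

variable (h : ODQ Q E) (hQ : ND Q)
include h hQ

omit [Finite F] [FiniteDimensional F V] in
theorem eq_zero (hx : ∀ i, x ∈ perp Q (E i)) : x = 0 :=
  hQ x fun y => by
    rw [polar_comm]
    exact Submodule.iSup_induction E (motive := fun y => polar Q y x = 0)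
      (h.top.ge Submodule.mem_top) (fun i y hy => mem_perp.mp (hx i) y hy) (by simp)
      fun y z hy hz => by simp [hy, hz]

omit [Finite F] in
theorem mem_of_perp {j : κ} (hx : ∀ i, i ≠ j → x ∈ perp Q (E i)) : x ∈ E j := by
  obtain ⟨w, a1, z, a2, rfl⟩ := exists_add_perp hQ (h.nd j) x
  have : z = 0 := h.eq_zero hQ fun i => by
    by_cases hi : i = j
    · rwa [hi]
    · exact ((perp Q (E i)).add_mem_iff_right (h.orth i j hi a1)).mp (hx i hi)
  simpa [this]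

omit [Finite F] in
theorem loc {j : κ} {g : OG Q} (hg : ∀ z ∈ perp Q (E j), g.1 z = z) (i : κ) : g ∈ stO Q (E i) := by
  by_cases hij : j = i
  · exact hij ▸ mem_stO_of_fix_perp hQ hg
  · exact mem_stO_of_maps fun w hw => by rwa [hg w (h.orth j i hij hw)]

omit [Finite F] h hQ in
theorem mem_dsO_of_stO {g : OG Q} (hg : ∀ i, g ∈ stO Q (E i)) : g ∈ dsO Q E :=
  ⟨1, fun i => mem_stO_iff_map.mp (hg i)⟩

omit [Finite F] in
theorem blk {i : κ} (h3 : 3 ≤ finrank F (E i)) : Blk (dsO Q E) (E i) :=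
  ⟨h.nd i, h3, fun _ hg => mem_dsO_of_stO (h.loc hQ hg)⟩

omit [Finite F] hQ in
theorem mem_dsO [Finite κ] {k : ℕ} (hk : ∀ i, finrank F (E i) = k) (h0 : 0 < k) {g : OG Q}
    (π : κ → κ) (H : ∀ i, ∀ x ∈ E i, g.1 x ∈ E (π i)) : g ∈ dsO Q E := by
  have h1 : ∀ i, (E i).map g.1.toLinearMap = E (π i) := fun i => Submodule.eq_of_le_of_finrank_eq
    (by rintro _ ⟨x, hx, rfl⟩; exact H i x hx) (by rw [finrank_map_OG, hk, hk])
  refine ⟨Equiv.ofBijective π (Finite.injective_iff_bijective.mp fun i j hij => ?_), h1⟩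
  by_contra h4
  have h5 : E i = E j := Submodule.map_injective_of_injective g.1.injective (by rw [h1, h1, hij])
  have := hk i
  rw [(nd_restrict_iff.mp (h.nd i)).eq_bot_of_le (h5.le.trans (h.orth i j h4)), finrank_bot] at this
  omega

omit [Finite F] in
theorem exists_swap [Finite κ] [DecidableEq κ] {k : ℕ} (hk : ∀ i, finrank F (E i) = k) (h0 : 0 < k)
    {j l : κ} (hjl : j ≠ l) (φ : E j ≃ₗ[F] E l) (hφ : ∀ w : E j, Q (φ w) = Q w) :
    ∃ g ∈ dsO Q E, (∀ x ∈ E j, g.1 x ∈ E l) ∧ (∀ x ∈ E l, g.1 x ∈ E j) ∧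
      ∀ z ∈ perp Q (E j), z ∈ perp Q (E l) → g.1 z = z := by
  obtain ⟨s, c1, c2, c3⟩ := exists_swapO hQ (h.nd j) (h.nd l) (h.orth l j hjl.symm) φ hφ
  refine ⟨s, h.mem_dsO hk h0 (Equiv.swap j l) fun a x hx => ?_, c1, c2, c3⟩
  by_cases h4 : a = j
  · subst h4; simpa using c1 x hx
  by_cases h5 : a = l
  · subst h5; simpa using c2 x hx
  rwa [Equiv.swap_apply_of_ne_of_ne h4 h5,
    c3 x (h.orth _ _ (Ne.symm h4) hx) (h.orth _ _ (Ne.symm h5) hx)]

omit [Finite F] in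
theorem perp_le {i : κ} (H : ∀ j, j ≠ i → E j ≤ B) : perp Q (E i) ≤ B := fun x hx => by
  obtain ⟨y, hy, h1⟩ : ∃ y ∈ E i, x - y ∈ perp Q (E i) ⊓ B := by
    refine Submodule.iSup_induction E (motive := fun x => ∃ y ∈ E i, x - y ∈ perp Q (E i) ⊓ B)
      (h.top.ge Submodule.mem_top) (fun j y hy => ?_) ⟨0, zero_mem _, by simp⟩ ?_
    · by_cases hj : j = i
      · exact ⟨y, hj ▸ hy, by simp⟩
      · exact ⟨0, zero_mem _, by simpa using ⟨h.orth i j (Ne.symm hj) hy, H j hj hy⟩⟩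
    · rintro x y ⟨a, a1, a2⟩ ⟨b, b1, b2⟩
      exact ⟨a + b, add_mem a1 b1, by rw [add_sub_add_comm]; exact add_mem a2 b2⟩
  have : y = 0 := nd_sep (h.nd i) hy (mem_perp.mp (by simpa using sub_mem hx h1.1))
  simpa [this] using h1.2

omit [Finite F] in
theorem irr [Finite κ] {k : ℕ} (hk : ∀ i, finrank F (E i) = k) (h0 : 0 < k) (hc : ∀ i, IrC Q (E i))
    (hi : ∀ i j, ∃ φ : E i ≃ₗ[F] E j, ∀ w, Q (φ w) = Q w) (i : κ) (B : Submodule F V)
    (h1 : B ≤ perp Q (E i)) (h2 : B ≠ ⊥)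
    (h3 : ∀ g ∈ dsO Q E, (∀ x ∈ E i, g.1 x = x) → ∀ b ∈ B, g.1 b ∈ B) : perp Q (E i) ≤ B := by
  classical
  obtain ⟨b, b1, b2⟩ := B.ne_bot_iff.mp h2
  obtain ⟨j, hj⟩ : ∃ j, b ∉ perp Q (E j) := by
    by_contra! H
    exact b2 (h.eq_zero hQ H)
  have hji : j ≠ i := by rintro rfl; exact hj (h1 b1)
  have h4 : ∀ g : OG Q, (∀ z ∈ perp Q (E j), g.1 z = z) → ∀ b ∈ B, g.1 b ∈ B := fun g hg =>
    h3 g (mem_dsO_of_stO (h.loc hQ hg)) fun x hx => hg x (h.orth j i hji hx)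
  have h5 : E j ≤ B := (le_of_invariant hQ (h.nd j) (hc j) (B := B ⊓ E j) inf_le_right (fun e => by
    obtain ⟨y, a1, z, a2, rfl⟩ := exists_add_perp hQ (h.nd j) b
    have a3 : y ≠ 0 := by rintro rfl; exact hj (by simpa)
    have a4 : ∀ g : OG Q, (∀ z ∈ perp Q (E j), g.1 z = z) → g.1 y = y := fun g hg =>
      sub_eq_zero.mp (e.le ⟨by simpa [hg z a2] using B.sub_mem (h4 g hg _ b1) b1,
        map_mem_of_fix_perp hQ hg y⟩)
    let C : Submodule F V :=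
      { carrier := {y | y ∈ E j ∧ ∀ g : OG Q, (∀ z ∈ perp Q (E j), g.1 z = z) → g.1 y = y}
        add_mem' := fun h1 h2 => ⟨add_mem h1.1 h2.1, fun g hg => by
          rw [map_add, h1.2 g hg, h2.2 g hg]⟩
        zero_mem' := ⟨zero_mem _, fun _ _ => map_zero _⟩
        smul_mem' := fun c _ h1 => ⟨Submodule.smul_mem _ c h1.1, fun g hg => by
          rw [map_smul, h1.2 g hg]⟩ }
    have a5 := le_of_invariant hQ (h.nd j) (hc j) (B := C) (fun _ h => h.1)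
      (C.ne_bot_iff.mpr ⟨y, ⟨a1, a4⟩, a3⟩) fun g hg b hb => by rwa [hb.2 g hg]
    obtain ⟨w, w1, w2⟩ : ∃ w ∈ E j, polar Q w y ≠ 0 := by
      by_contra! H
      exact a3 (nd_sep (h.nd j) a1 H)
    obtain ⟨v, v1, v2⟩ := exists_Q_ne w1 a1 w2
    refine refl_ne_one hQ v2 (OG_ext_of_isCompl (fun w hw => ?_) (fun z hz => ?_)
      (hQ.isCompl (h.nd j)))
    · exact (a5 hw).2 _ fun z hz => refl_apply_of_perp (mem_perp.mp hz v v1)
    · exact refl_apply_of_perp (mem_perp.mp hz v v1))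
    fun g hg b hb => ⟨h4 g hg b hb.1, (h.loc hQ hg j b).mp hb.2⟩).trans inf_le_left
  refine h.perp_le hQ fun l hl => ?_
  by_cases hjl : j = l
  · rwa [← hjl]
  obtain ⟨φ, hφ⟩ := hi j l
  obtain ⟨s, c1, -, c2, c3⟩ := h.exists_swap hQ hk h0 hjl φ hφ
  intro x hx
  rw [← OG_inv_apply_apply s x]
  exact h3 _ (inv_mem c1) (fun x hx => by
    conv_lhs => rw [← c3 x (h.orth j i hji hx) (h.orth l i hl hx), OG_inv_apply_apply]) _ (h5 (c2 x hx))

theorem Om_le_of_rp [Finite κ] (hn : 5 ≤ finrank F V) {k : ℕ} (hk : ∀ i, finrank F (E i) = k)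
    (h3 : 3 ≤ k) (hi : ∀ i j, ∃ φ : E i ≃ₗ[F] E j, ∀ w, Q (φ w) = Q w)
    (hM : ∀ g ∈ Om Q, g ∈ dsO Q E → g ∈ M)
    (hR : (∀ i, MB M (E i)) → ∀ i, ∀ g ∈ M, RP Q (E i) ((E i).map g.1.toLinearMap))
    {g : OG Q} (hg : g ∈ M) (hg' : g ∉ dsO Q E) : Om Q ≤ M := by
  classical
  by_contra H
  have h1 : ∀ i, MB M (E i) := fun i => (h.blk hQ (by rwa [hk])).mb hQ hn hM
    (h.irr hQ hk (by omega) (fun j => Or.inr (Or.inl (by rwa [hk]))) hi i) H
  have h2 : ∀ i j, ∃ s ∈ M, (E j).map s.1.toLinearMap = E i := fun i j => by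
    by_cases hij : j = i
    · exact ⟨1, one_mem _, hij ▸ map_OG_one _⟩
    obtain ⟨φ, hφ⟩ := hi j i
    obtain ⟨s, c1, c2, -⟩ := h.exists_swap hQ hk (by omega) hij φ hφ
    obtain ⟨u, a1, a2, a3⟩ := exists_singular_mem Q (h1 j).three
    obtain ⟨x, ⟨a4, -⟩, a5⟩ := exists_comp hQ hn (h.nd j) (h1 j).three a1 a3 a2 s
    refine ⟨_, hM _ a5 (mul_mem c1 (mem_dsO_of_stO (h.loc hQ a4))), ?_⟩
    rw [map_OG_mul, mem_stO_iff_map.mp (h.loc hQ a4 j)]
    exact Submodule.eq_of_le_of_finrank_eq (by rintro _ ⟨x, hx, rfl⟩; exact c2 x hx)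
      (by rw [finrank_map_OG, hk, hk])
  have h4 : ∀ i, ∃ j, ∀ x ∈ E i, g.1 x ∈ E j := fun i => by
    obtain ⟨u, a1, a2, -⟩ := exists_singular_mem Q (h1 i).three
    obtain ⟨j, hj⟩ : ∃ j, g.1 u ∉ perp Q (E j) := by
      by_contra! H
      exact a2 (by simpa using h.eq_zero hQ H)
    obtain ⟨s, s1, s2⟩ := h2 i j
    have := (h1 j).map_eq_or_le (hR h1 j) (mul_mem hg s1)
    rw [map_OG_mul, s2] at this
    exact ⟨j, fun x hx => (this.resolve_right fun e => hj (e ⟨u, a1, rfl⟩)).le ⟨x, hx, rfl⟩⟩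
  choose π hπ using h4
  exact hg' (h.mem_dsO hk (by omega) π hπ)

/-- Stabilisers of decompositions into isometric subspaces of dimension at least four. -/
theorem Om_le [Finite κ] (hn : 5 ≤ finrank F V) {k : ℕ} (hk : ∀ i, finrank F (E i) = k)
    (h4 : 4 ≤ k) (hq : (∃ s : F, s ≠ 0 ∧ s ≠ 1) ∨ 6 ≤ k)
    (hi : ∀ i j, ∃ φ : E i ≃ₗ[F] E j, ∀ w, Q (φ w) = Q w)
    (hM : ∀ g ∈ Om Q, g ∈ dsO Q E → g ∈ M) {g : OG Q} (hg : g ∈ M) (hg' : g ∉ dsO Q E) :
    Om Q ≤ M :=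
  h.Om_le_of_rp hQ hn hk (by omega) hi hM (fun h1 i g hg => (h1 i).rp ((h1 i).map hg) hQ
    (finrank_map_OG _ _).le (by rwa [finrank_map_OG, hk]) (by rwa [finrank_map_OG, hk])) hg hg'

end ODQ

end Cfsg.Agent.H18
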