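import Mathlib
import Cfsg.Agent.H18.OMxC

/-!
Decompositions into three-dimensional blocks, pairs of singular subspaces.
-/

set_option autoImplicit false

namespace Cfsg.Agent.H18

open Module QuadraticMap H13

variable {F V : Type*} [Field F] [AddCommGroup V] [Module F V] {Q : QuadraticForm F V}
  {M N : Subgroup (OG Q)} {u a b x y : V} {U B W : Submodule F V}

theorem exists_avoid [Finite F] (h : 3 < Nat.card F) {a b c d e : F} (h1 : a ≠ 0 ∨ b ≠ 0)
    (h2 : c ≠ 0 ∨ d ≠ 0 ∨ e ≠ 0) : ∃ t : F, a + t * b ≠ 0 ∧ c + t * d + t ^ 2 * e ≠ 0 := by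
  open Polynomial in
  obtain ⟨t, ht⟩ := exists_eval_ne_zero_of_natDegree_lt_card
    ((C a + X * C b) * (C c + X * C d + X ^ 2 * C e)) (mul_ne_zero (fun h0 => by
      have h3 := congrArg (coeff · 0) h0
      have h4 := congrArg (coeff · 1) h0
      simp [coeff_X, coeff_C] at h3 h4
      tauto) fun h0 => by
      have h3 := congrArg (coeff · 0) h0
      have h4 := congrArg (coeff · 1) h0
      have h5 := congrArg (coeff · 2) h0
      simp [coeff_X, coeff_C, coeff_X_pow] at h3 h4 h5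
      tauto) (by
      have : ((C a + X * C b) * (C c + X * C d + X ^ 2 * C e)).natDegree ≤ 3 := by compute_degree
      rw [← Nat.cast_card]
      exact_mod_cast this.trans_lt h)
  simp only [eval_mul, eval_add, eval_C, eval_X, eval_pow, mul_ne_zero_iff] at ht
  exact ⟨t, ht⟩

variable [FiniteDimensional F V]

theorem nd_inf_perp (hU : ND (Q.restrict U)) (hx : x ∈ U) (h : polar Q x x ≠ 0) :
    ND (Q.restrict (U ⊓ perp Q (F ∙ x))) :=
  nd_restrict_iff.mpr (Submodule.disjoint_def.mpr fun y hy h1 => by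
    obtain ⟨c, rfl⟩ := mem_span_of_perp_mem hU hy.1 hx fun b b1 b2 =>
      perp_pair_zero h1 ⟨b1, mem_perp_singleton.mpr b2⟩
    rw [show c = 0 from (mul_eq_zero.mp (by
      rw [← smul_eq_mul, ← polar_smul_right]; exact mem_perp_singleton.mp hy.2)).resolve_right h,
      zero_smul])

variable {κ : Type*} {E : κ → Submodule F V}

theorem ODQ.exists_nonsing [Finite κ] (h : ODQ Q E) (hQ : ND Q) (hx : Q x ≠ 0) :
    ∃ j, ∃ y ∈ E j, x - y ∈ perp Q (E j) ∧ Q y ≠ 0 := by
  have := Fintype.ofFinite κ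
  by_contra! H
  choose p h1 r h2 h3 using fun j => exists_add_perp hQ (h.nd j) x
  have h4 : ∀ i j, polar Q (p i) (p j) = 0 := fun i j => by
    by_cases hij : i = j
    · rw [hij, polar_self', H j _ (h1 j) (by simpa [h3 j] using h2 j), mul_zero]
    · exact mem_perp.mp (h.orth i j hij (h1 j)) _ (h1 i)
  refine hx ?_
  rw [show x = ∑ j, p j from sub_eq_zero.mp (h.eq_zero hQ fun i => ?_)]
  · simpa using Q_sum_of_singular _ (fun j => H j _ (h1 j) (by simpa [h3 j] using h2 j)) h4 fun _ => 1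
  · classical
    rw [← Finset.add_sum_erase _ _ (Finset.mem_univ i), ← sub_sub]
    exact sub_mem (by simpa [h3 i] using h2 i) (sum_mem fun j hj =>
      h.orth i j (Finset.ne_of_mem_erase hj).symm (h1 j))

variable [Finite F]

theorem exists_norm_perp (hU : ND (Q.restrict U)) (h3 : 3 ≤ finrank F U) (hx : x ∈ U)
    (h : polar Q x x ≠ 0) (c : F) : ∃ b ∈ U, polar Q x b = 0 ∧ Q b = c := by
  obtain ⟨b, hb⟩ := (nd_inf_perp hU hx h).exists_eq (by
    have := finrank_inf_perp hU hx (by rintro rfl; simp at h)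
    omega) c
  exact ⟨b, b.2.1, mem_perp_singleton.mp b.2.2, hb⟩

/-- Stabilisers of decompositions into isometric subspaces of dimension three. -/
theorem ODQ.Om_le_three [Finite κ] (h : ODQ Q E) (hQ : ND Q) (hn : 5 ≤ finrank F V)
    (hk : ∀ i, finrank F (E i) = 3) (h2 : (2 : F) ≠ 0) (hq : 3 < Nat.card F)
    (hi : ∀ i j, ∃ φ : E i ≃ₗ[F] E j, ∀ w, Q (φ w) = Q w)
    (hM : ∀ g ∈ Om Q, g ∈ dsO Q E → g ∈ M) {g : OG Q} (hg : g ∈ M) (hg' : g ∉ dsO Q E) :
    Om Q ≤ M := by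
  refine h.Om_le_of_rp hQ hn hk le_rfl hi hM (fun h1 i g hg => (h1 i).rp_of ((h1 i).map hg) hQ ?_)
    hg hg'
  have hB := (h1 i).map hg
  have hd : finrank F ((E i).map g.1.toLinearMap) = 3 := by rw [finrank_map_OG, hk]
  generalize (E i).map g.1.toLinearMap = B at hB hd
  intro x₁ a1 x₂ a2 a3 a4 a5 a6 y a7 a8
  have x0 : x₁ + x₂ ≠ 0 := fun e => a3 (nd_sep (h.nd i) (by
    rw [eq_neg_of_add_eq_zero_right e]; exact neg_mem a1) (mem_perp.mp a2))
  by_cases a9 : y ∈ F ∙ (x₁ + x₂)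
  · obtain ⟨c, rfl⟩ := Submodule.mem_span_singleton.mp a9
    exact ⟨c, by simp⟩
  have hY : Submodule.span F {x₁ + x₂, y} = B ⊓ perp Q (F ∙ (x₁ + x₂)) :=
    Submodule.eq_of_le_of_finrank_eq (sp_le.mpr ⟨⟨a5, mem_perp_singleton.mpr (by
      rw [polar_self', a6, mul_zero])⟩, a7, mem_perp_singleton.mpr a8⟩) (by
      have := finrank_inf_perp hB.nd a5 x0
      rw [finrank_span_pair_eq (linearIndependent_pair_of_notMem x0 a9)]; omega)
  have xx : polar Q x₁ x₁ ≠ 0 := by rw [polar_self']; exact mul_ne_zero h2 a4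
  obtain ⟨y₁, b1, y₂, b2, rfl⟩ := exists_add_perp hQ (h.nd i) y
  obtain ⟨c, p, b3, b4, rfl⟩ : ∃ c : F, ∃ p ∈ E i, polar Q x₁ p = 0 ∧ y₁ = p + c • x₁ :=
    ⟨polar Q x₁ y₁ / polar Q x₁ x₁, _, sub_mem b1 (Submodule.smul_mem _ _ a1), by
      rw [polar_sub_right, polar_smul_right, smul_eq_mul, div_mul_cancel₀ _ xx, sub_self],
      (sub_add_cancel _ _).symm⟩
  by_cases b5 : p = 0
  · exact ⟨c, by simpa [b5] using sub_mem b2 (Submodule.smul_mem _ c a2)⟩
  exfalso
  have hP := nd_inf_perp (h.nd i) a1 xx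
  have hP2 := finrank_inf_perp (h.nd i) a1 (by rintro rfl; simp at a4)
  have b6 : p ∈ E i ⊓ perp Q (F ∙ x₁) := ⟨b3, mem_perp_singleton.mpr b4⟩
  obtain ⟨w, c1, c2⟩ : ∃ w ∈ E i ⊓ perp Q (F ∙ x₁), w ∉ F ∙ p := by
    by_contra! H
    have := Submodule.finrank_mono (show _ ≤ F ∙ p from H)
    rw [finrank_span_singleton b5, hk] at *
    omega
  have c3 : polar Q w p ≠ 0 ∨ Q p ≠ 0 := by
    by_contra! H
    refine b5 (nd_sep hP b6 fun z hz => ?_)
    rw [← Submodule.eq_of_le_of_finrank_eq (sp_le.mpr ⟨b6, c1⟩) (by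
      rw [finrank_span_pair_eq (linearIndependent_pair_of_notMem b5 c2), hk] at *; omega)] at hz
    obtain ⟨s, t, rfl⟩ := Submodule.mem_span_pair.mp hz
    simp [polar_self', H.1, H.2]
  obtain ⟨t, c4, c5⟩ := exists_avoid hq (a := polar Q w p) (b := 2 * Q p) (c := Q w)
    (d := polar Q w p) (e := Q p) (c3.imp_right (mul_ne_zero h2)) (Or.inr c3)
  obtain ⟨a, d1, d2, d3, d4⟩ : ∃ a ∈ E i ⊓ perp Q (F ∙ x₁), polar Q a p ≠ 0 ∧ Q a ≠ 0 ∧ a ∉ F ∙ p :=
    ⟨w + t • p, add_mem c1 (Submodule.smul_mem _ _ b6), by simpa [polar_self'] using c4, by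
      rw [Q_add, Q_smul, polar_smul_right, smul_eq_mul, add_right_comm]; exact c5,
      by rwa [Submodule.add_mem_iff_left _ (Submodule.smul_mem _ _
        (Submodule.mem_span_singleton_self p))]⟩
  have d5 := mem_perp_singleton.mp d1.2
  obtain ⟨j, z, e1, e2, e3⟩ := h.exists_nonsing hQ (x := x₂) (by
    rw [Q_add, mem_perp.mp a2 _ a1, add_zero] at a6
    exact fun e => a4 (by simpa [e] using a6))
  have hji : i ≠ j := by
    rintro rfl
    exact e3 (by rw [nd_sep (h.nd i) e1 (mem_perp.mp (by simpa using sub_mem a2 e2)), map_zero])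
  obtain ⟨b, e4, e5, e6⟩ := exists_norm_perp (h.nd j) (hk j).ge e1
    (by rw [polar_self']; exact mul_ne_zero h2 e3) (Q a)
  have e7 := h.orth i j hji e4
  have e8 : polar Q b (x₁ + x₂) = 0 := by
    have := mem_perp.mp e2 b e4
    rw [polar_sub_right, polar_comm Q b z, e5, sub_zero] at this
    rw [polar_add_right, this, perp_pair_zero e7 a1, add_zero]
  have e9 := hM _ (hQ.refl_mul_refl_mem_commutator d3 e6.symm) (mul_mem
    (ODQ.mem_dsO_of_stO (h.loc hQ fun z hz => refl_apply_of_perp (mem_perp.mp hz a d1.1)))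
    (ODQ.mem_dsO_of_stO (h.loc hQ fun z hz => refl_apply_of_perp (mem_perp.mp hz b e4))))
  have f1 := (hB.as _ a5 _ a7 a6 a8).fix e9 (by
    rw [OG_mul_apply, refl_apply_of_perp e8, refl_apply_of_perp (by
      simp [polar_comm Q a x₁, d5, mem_perp.mp a2 a d1.1])])
  obtain ⟨s, r, f2⟩ := Submodule.mem_span_pair.mp (hY.ge ⟨hB.mem _ a5 x0 _ f1,
    mem_perp_singleton.mpr f1.ua⟩)
  rw [OG_mul_apply, refl_apply b, map_sub, map_smul, refl_apply a,
    refl_apply_of_perp (mem_perp.mp e7 a d1.1)] at f2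
  generalize polar Q b (p + c • x₁ + y₂) * (Q b)⁻¹ = β at f2
  rw [show polar Q a (p + c • x₁ + y₂) = polar Q a p by
    simp [polar_comm Q a x₁, d5, mem_perp.mp b2 a d1.1]] at f2
  have f3 : (polar Q a p * (Q a)⁻¹) • a + r • p + (s + r * c) • x₁ = 0 := nd_sep (h.nd i)
    (add_mem (add_mem (Submodule.smul_mem _ _ d1.1) (Submodule.smul_mem _ _ b3))
      (Submodule.smul_mem _ _ a1)) (mem_perp.mp (by
        rw [show (polar Q a p * (Q a)⁻¹) • a + r • p + (s + r * c) • x₁ =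
          -(β • b + s • x₂ + r • y₂) by linear_combination (norm := module) f2]
        exact neg_mem (add_mem (add_mem (Submodule.smul_mem _ _ e7) (Submodule.smul_mem _ _ a2))
          (Submodule.smul_mem _ _ b2))))
  have f4 : s + r * c = 0 := by simpa [d5, b4, h2, a4] using congrArg (polar Q x₁) f3
  rw [f4, zero_smul, add_zero] at f3
  refine d4 ((Submodule.smul_mem_iff _ (mul_ne_zero d2 (inv_ne_zero d3))).mp ?_)
  rw [eq_neg_of_add_eq_zero_left f3]
  exact neg_mem (Submodule.smul_mem _ _ (Submodule.mem_span_singleton_self p))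

end Cfsg.Agent.H18
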