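import Cfsg.Agent.H18.OmFld

/-! Small-field exceptions for decompositions of orthogonal spaces. -/

set_option autoImplicit false

namespace Cfsg.Agent.H18

open Cfsg.Geo QuadraticMap Module
open scoped MatrixGroups Matrix Kronecker commutatorElement

variable {ι : Type} [Fintype ι] [DecidableEq ι] {F : Type*} [Field F] {Q : (ι → F) → F}
  {H : Subgroup (GL ι F)}

/-- two pairs of vectors spanning the two anisotropic planes of `O₄⁺(2)` -/
def uu4 (R : Type*) [CommRing R] (k l : Fin 2) : Fin 2 ⊕ Fin 2 → R :=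
  ![![Sum.elim ![1, 0] ![1, 0], Sum.elim ![1, 1] ![0, 1]],
    ![Sum.elim ![0, 1] ![0, 1], Sum.elim ![1, 1] ![1, 0]]] k l

/-- the standard hyperbolic form in dimension four -/
def qq4 {R : Type*} [CommRing R] (c : Fin 2 ⊕ Fin 2 → R) : R :=
  c (.inl 0) * c (.inr 0) + c (.inl 1) * c (.inr 1)

set_option synthInstance.maxSize 1000 in
lemma uu4_a : ∀ a b : Fin 2 ⊕ Fin 2 → ZMod 2, qq4 a = 1 → qq4 b = 1 → qq4 (a + b) = 1 →
    ∃ k, (∃ x y : ZMod 2, x • uu4 _ k 0 + y • uu4 _ k 1 = a) ∧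
      ∃ x y : ZMod 2, x • uu4 _ k 0 + y • uu4 _ k 1 = b := by decide +kernel

lemma uu4_b : ∀ a : Fin 2 ⊕ Fin 2 → ZMod 2, ∃ x y z w : ZMod 2,
    (x • uu4 _ 0 0 + y • uu4 _ 0 1) + (z • uu4 _ 1 0 + w • uu4 _ 1 1) = a := by decide +kernel

lemma uu4_map {R S : Type*} [CommRing R] [CommRing S] (φ : R →+* S) (k l : Fin 2) :
    φ ∘ uu4 R k l = uu4 S k l := by
  ext i; fin_cases k <;> fin_cases l <;> fin_cases i <;> simp [uu4]

lemma comp_comb {R S : Type*} [CommRing R] [CommRing S] (φ : R →+* S) (k : Fin 2) (x y : R) :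
    φ ∘ (x • uu4 R k 0 + y • uu4 R k 1) = φ x • uu4 S k 0 + φ y • uu4 S k 1 := by
  rw [← uu4_map φ, ← uu4_map φ]; ext i; simp

variable (hQ : IsNondegenerateQuadraticForm Q)
include hQ

lemma even_inf_map [Finite F] (hn : 5 ≤ Fintype.card ι) {g : GL ι F} (hg : g ∈ omegaGL Q)
    {U : Submodule F (ι → F)} (h1 : IsTotallySingularQuad Q U)
    (h2 : 2 * finrank F U = Fintype.card ι) :
    Even (finrank F ↥(U ⊓ U.map (Matrix.toLin' (g : Matrix ι ι F))) + finrank F U) := by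
  obtain ⟨h, h3, rfl⟩ := exists_ofOG hQ hg
  have hG : H13.Good (mkQ hQ) := H13.good_of_five (by simpa using hn)
  rw [show Matrix.toLin' (ofOG hQ h : Matrix ι ι F) = (h.1 : _ →ₗ[F] _) from
    LinearMap.ext (ofOG_mulVec hQ h)]
  exact ((nd_mkQ hQ).even_inf_map_iff hG (by simp [h2]) rfl h1 h).mpr
    (Abelianization.commutator_subset_ker (H13.dickson (nd_mkQ hQ) hG) h3)

lemma le_stab_max [Finite F] (hn : 5 ≤ Fintype.card ι) (hp : IsPlusTypeOn Q ⊤)
    {W : Submodule F (ι → F)} (h1 : IsTotallySingularQuad Q W)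
    (h2 : 2 * (finrank F W + 1) = Fintype.card ι) : ∃ M, IsTotallySingularQuad Q M ∧
      2 * finrank F M = Fintype.card ι ∧ subspaceStabilizer W ⊓ omegaGL Q ≤ subspaceStabilizer M := by
  obtain ⟨M, a1, a2, a3⟩ := exists_ts_ge hQ hp h1
  refine ⟨M, a2, a3, le_subspaceStabilizer fun g hg v hv => ?_⟩
  obtain ⟨k, hk⟩ := even_inf_map hQ hn hg.2 a2 a3
  have h3 := Submodule.finrank_mono (le_inf a1 ((map_eq_of_mem_stab hg.1).ge.trans
    (Submodule.map_mono a1)))
  have h4 := LinearEquiv.finrank_map_eq (.ofInjectiveEndo _ (toLin'_injective g)) M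
  have h5 := Submodule.finrank_mono (inf_le_left (a := M)
    (b := M.map (Matrix.toLin' (g : Matrix ι ι F))))
  have h6 := Submodule.eq_of_le_of_finrank_le (inf_le_right (a := M)
    (b := M.map (Matrix.toLin' (g : Matrix ι ι F)))) (h4.le.trans (by omega))
  exact (h6.ge ⟨v, hv, rfl⟩).1

lemma pair_le_stab [Finite F] (hn : 5 ≤ Fintype.card ι) {m : ℕ} (hm : Odd m)
    {D : Fin 2 → Submodule F (ι → F)} (hD : IsMDecomposition m D)
    (h : ∀ i, IsTotallySingularQuad Q (D i)) :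
    decompositionStabilizer D ⊓ omegaGL Q ≤ subspaceStabilizer (D 0) :=
  le_subspaceStabilizer fun g ⟨⟨σ, hσ⟩, hg⟩ v hv => by
    have h1 := even_inf_map hQ hn hg (h 0) (by rw [hD.finrank_eq, card_eq_of_isMDecomposition hD])
    by_cases h2 : σ 0 = 0
    · exact h2 ▸ (hσ 0).le ⟨v, hv, rfl⟩
    · rw [hσ, (hD.indep.pairwiseDisjoint (Ne.symm h2)).eq_bot, hD.finrank_eq, finrank_bot,
        zero_add] at h1
      exact absurd h1 (Nat.not_even_iff_odd.mpr hm)

omit [DecidableEq ι] in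
lemma nd_pair {u v : ι → F} (h2 : (2 : F) = 0) (h : polar Q u v = 1) :
    LinearIndependent F ![u, v] ∧ IsNondegenerateOn (polar Q) (Submodule.span F {u, v}) := by
  have hf := hform_of_quad hQ
  have h1 : ∀ a b : F, polar Q (a • u + b • v) v = a ∧ polar Q (a • u + b • v) u = b := fun a b => by
    simp [hf.add_left, hf.smul_left, polar_self_two hQ h2, h, hf.symm v u]
  refine ⟨LinearIndependent.pair_iff.mpr fun a b hab => ?_, hf.nondegOn_iff.mpr
    (eq_bot_iff.mpr fun x ⟨hx, hx'⟩ => ?_)⟩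
  · simpa [hab, hf.zero_left, eq_comm] using h1 a b
  · obtain ⟨a, b, rfl⟩ := Submodule.mem_span_pair.mp hx
    have := h1 a b
    rw [hx' _ (Submodule.subset_span (by simp)), hx' _ (Submodule.subset_span (by simp))] at this
    simp [← this.1, ← this.2]

section
variable [Fintype F] {t : ℕ} {D : Fin t → Submodule F (ι → F)}

lemma not_irr_of_plus (h : Fintype.card F ≤ 3) (hD : IsOrthogonalMDecomposition Q 2 D)
    (hp : ∀ i, IsPlusTypeOn Q (D i)) (hH : H ≤ decompositionStabilizer D ⊓ isometryGroup F Q) :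
    ¬ Irr H := fun hi => by
  choose v h1 h2 h3 using fun i => exists_one_of_plus hQ h (hD.decomp.nondegenerate i)
    (hD.decomp.decomp.finrank_eq i) (hp i)
  have h4 := hD.decomp.decomp.two_le
  rcases hi (Submodule.span F (Set.range v)) (fun g hg w hw => by
    refine Submodule.span_le (p := Submodule.comap (Matrix.toLin' (g : Matrix ι ι F))
      (Submodule.span F (Set.range v))) |>.mpr (Set.range_subset_iff.mpr fun i => ?_) hw
    obtain ⟨j, hj⟩ := exists_mem_of_stab (hH hg).1 (h1 i)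
    exact Submodule.span_mono (by simp) (h3 j _ hj ((mem_isometryGroup'.mp (hH hg).2 _).trans (h2 i))))
    with h5 | h5
  · have := h2 ⟨0, by omega⟩
    rw [Submodule.span_eq_bot.mp h5 _ ⟨_, rfl⟩, quad_zero hQ] at this
    exact zero_ne_one this
  · have := finrank_range_le_card (R := F) v
    rw [Set.finrank, h5, finrank_top, finrank_fintype_fun_eq_card,
      card_eq_of_isMDecomposition hD.decomp.decomp, Fintype.card_fin] at this
    omega

lemma oSub_of_four (h : Fintype.card F = 4) (hD : IsOrthogonalMDecomposition Q 2 D)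
    (hp : ∀ i, IsPlusTypeOn Q (D i)) : OSub Q (decompositionStabilizer D ⊓ isometryGroup F Q) := by
  have hf := hform_of_quad hQ
  obtain ⟨F₀, h0⟩ := exists_prime_subfield (F := F) (by rw [h]; decide)
  obtain ⟨F₁, r, -, h1, h3⟩ := exists_prime_index_subfield F₀ h0
  obtain ⟨φ⟩ := exists_equiv_F4 h
  have h2 : (2 : F) = 0 := by_contra fun h2 => absurd (h ▸ two_ne_zero_iff_odd.mp h2) (by decide)
  have h4 : ∀ c d : F, c ^ 2 + c * d + d ^ 2 = 1 → c ∈ F₁ ∧ d ∈ F₁ := fun c d h => by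
    obtain ⟨c, rfl⟩ := φ.surjective c
    obtain ⟨d, rfl⟩ := φ.surjective d
    obtain ⟨h5 | h5, h6 | h6⟩ := (by decide : ∀ c d : F4, c ^ 2 + c * d + d ^ 2 = 1 →
      (c = 0 ∨ c = 1) ∧ (d = 0 ∨ d = 1)) c d (φ.injective (by simpa using h)) <;>
      simp [h5, h6, zero_mem, one_mem]
  obtain ⟨w, hw⟩ : ∃ w : F, w * (w + 1) = 1 := ⟨φ ⟨0, 1⟩, by
    simpa using congrArg φ (by decide : (⟨0, 1⟩ : F4) * (⟨0, 1⟩ + 1) = 1)⟩
  have h5 : ∀ i, ∃ b : Basis (Fin 2) F (D i), ∀ c d : F,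
      Q (c • (b 0 : ι → F) + d • (b 1 : ι → F)) = c ^ 2 + c * d + d ^ 2 := fun i => by
    obtain ⟨x, hx, y, hy, a1, a2, a3, -⟩ := exists_hyp_of_plus hQ (hD.decomp.nondegenerate i)
      (hD.decomp.decomp.finrank_eq i) (hp i)
    have a4 : polar Q (x + y) (w • x + (w + 1) • y) = 1 := by
      simp only [hf.add_left, hf.add_right, hf.smul_right, polar_self_two hQ h2, a3, hf.symm y x,
        RingHom.id_apply]
      linear_combination w * h2
    refine ⟨basisOfLinearIndependentOfCardEqFinrank (b := ![⟨_, add_mem hx hy⟩,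
      ⟨_, add_mem ((D i).smul_mem w hx) ((D i).smul_mem (w + 1) hy)⟩])
      (.of_comp (D i).subtype (by convert (nd_pair hQ h2 a4).1; ext j; fin_cases j <;> rfl))
      (by simp [hD.decomp.decomp.finrank_eq]), fun c d => ?_⟩
    simp only [coe_basisOfLinearIndependentOfCardEqFinrank, Matrix.cons_val_zero, Matrix.cons_val_one]
    rw [show c • (x + y) + d • (w • x + (w + 1) • y) = (c + d * w) • x + (c + d * (w + 1)) • y by
      module, quad_hyp hQ a1 a2 a3]
    linear_combination d ^ 2 * hw + c * d * w * h2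
  choose b hb using h5
  obtain ⟨e, P, a1, -, a2⟩ := exists_block hD.decomp.decomp b
  have h5 : ∀ c : Fin 2 × Fin t → F, Q ((P : Matrix ι ι F) *ᵥ (c ∘ e)) =
      ∑ i, (c (0, i) ^ 2 + c (0, i) * c (1, i) + c (1, i) ^ 2) := fun c => by
    rw [a1, Fintype.sum_prod_type_right, quad_sum_orth hQ _ fun i j h => hD.decomp.orthogonal i j h _
      (Submodule.sum_mem _ fun k _ => Submodule.smul_mem _ _ (b i _).2) _
      (Submodule.sum_mem _ fun k _ => Submodule.smul_mem _ _ (b j _).2)]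
    simp [hb]
  refine ⟨F₁, r, P, 1, h1, h3, one_ne_zero, fun u hu => ?_, fun g hg => ?_⟩
  · beta_reduce
    rw [show u = (u ∘ e.symm) ∘ e by ext; simp, h5, one_mul]
    exact sum_mem fun i _ => add_mem (add_mem (pow_mem (hu _) 2) (mul_mem (hu _) (hu _)))
      (pow_mem (hu _) 2)
  · obtain ⟨ρ, a, h6⟩ := a2 g hg.1
    refine mem_subfieldSubgroup_iff.mpr ⟨1, one_ne_zero, fun i j => ?_⟩
    have h7 := mem_isometryGroup'.mp hg.2 ((P : Matrix ι ι F) *ᵥ (Pi.single (e j) 1 ∘ e))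
    rw [h6, trans_mulVec, h5, h5, Finset.sum_eq_single (ρ.symm (e j).2) (fun k _ hk => by
      simp [blockMon_apply, (ρ.eq_symm_apply).not.mp hk]) (by simp),
      Finset.sum_eq_single (e j).2 (fun k _ hk => by simp [Pi.single_apply, Prod.ext_iff, hk])
      (by simp)] at h7
    have h8 := h4 (a (e j).2 0 (e j).1) (a (e j).2 1 (e j).1) (by
      revert h7; generalize e j = p; obtain ⟨p, q⟩ := p
      fin_cases p <;> simp [blockMon_apply])
    rw [h6, trans_apply, cj_inv_cj, one_mul, Matrix.submatrix_apply, blockMon_apply]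
    split_ifs
    · generalize (e i).1 = k
      fin_cases k
      exacts [h8.1, h8.2]
    · exact zero_mem _

lemma oframe_five (h : Fintype.card F = 5) (hD : IsOrthogonalMDecomposition Q 2 D)
    (hp : ∀ i, IsPlusTypeOn Q (D i)) :
    ∃ D' : Fin (Fintype.card ι) → Submodule F (ι → F), IsOrthogonalMDecomposition Q 1 D' ∧
      decompositionStabilizer D ⊓ isometryGroup F Q ≤ decompositionStabilizer D' := by
  have hf := hform_of_quad hQ
  have h5 : (5 : F) = 0 := by simpa [h] using FiniteField.cast_card_eq_zero F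
  have h2 : (2 : F) ≠ 0 := fun h2 => one_ne_zero (by linear_combination h5 - 2 * h2 : (1 : F) = 0)
  have := hD.decomp.decomp.two_le
  obtain ⟨x, hx, y, hy, a1, a2, a3, -⟩ := exists_hyp_of_plus hQ (hD.decomp.nondegenerate ⟨0, by omega⟩)
    (hD.decomp.decomp.finrank_eq _) (hp _)
  have a4 : polar Q ((1 : F) • x + (1 : F) • y) ((2 : F) • x + (3 : F) • y) = 0 := by
    simp only [hf.add_left, hf.add_right, hf.smul_right, polar_self_of_quad hQ, a1, a2, a3,
      hf.symm y x, RingHom.id_apply, one_smul]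
    linear_combination h5
  refine exists_oframe hQ h2 hD (v := ![(1 : F) • x + (1 : F) • y, (2 : F) • x + (3 : F) • y])
    (fun k => by fin_cases k <;> exact add_mem (Submodule.smul_mem _ _ hx) (Submodule.smul_mem _ _ hy))
    one_ne_zero (fun k => ?_) (fun k l h => ?_) fun a ha => ?_
  · fin_cases k
    · exact (quad_hyp hQ a1 a2 a3 _ _).trans (one_mul _)
    · exact (quad_hyp hQ a1 a2 a3 _ _).trans (by linear_combination h5)
  · fin_cases k <;> fin_cases l
    exacts [absurd rfl h, a4, (hf.symm _ _).trans a4, absurd rfl h]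
  · let φ := ZMod.ringEquivOfPrime F (by decide) h
    obtain ⟨a, rfl⟩ : ∃ b : Fin 2 → ZMod 5, φ ∘ b = a := ⟨φ.symm ∘ a, by ext; simp⟩
    have h4 : ∑ k, a k ^ 2 = 1 := φ.injective (by simpa using ha)
    simp only [Function.comp, EmbeddingLike.map_eq_zero_iff]
    clear ha; revert a; decide

lemma oframe_minus_three (h : Fintype.card F = 3) (hD : IsOrthogonalMDecomposition Q 2 D) {i : Fin t}
    (hp : ¬ IsPlusTypeOn Q (D i)) :
    ∃ D' : Fin (Fintype.card ι) → Submodule F (ι → F), IsOrthogonalMDecomposition Q 1 D' ∧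
      decompositionStabilizer D ⊓ isometryGroup F Q ≤ decompositionStabilizer D' := by
  have hf := hform_of_quad hQ
  have h3 := three_eq_zero h
  have h2 : (2 : F) ≠ 0 := fun h2 => one_ne_zero (by linear_combination h3 - h2 : (1 : F) = 0)
  obtain ⟨b, a1, a2⟩ := hf.exists_orth_basis h2 (hD.decomp.nondegenerate i)
    (hD.decomp.decomp.finrank_eq _)
  have a3 : ∀ k, Q (b k) ≠ 0 := fun k h => a2 k (by rw [polar_self_of_quad hQ, h, mul_zero])
  refine exists_oframe hQ h2 hD (v := fun k => b k) (fun k => (b k).2) (a3 0) (fun k => ?_) a1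
    fun a ha => ?_
  · fin_cases k
    · rfl
    rcases sq_eq_sq_iff_eq_or_eq_neg.mp ((pow_pred_card h (a3 1)).trans (pow_pred_card h (a3 0)).symm)
      with h4 | h4
    · exact h4
    refine absurd ⟨Submodule.span F {(b 0 : ι → F) + b 1}, (Submodule.span_singleton_le_iff_mem _ _).mpr
      (add_mem (b 0).2 (b 1).2), fun w hw => ?_, ?_⟩ hp
    · obtain ⟨c, rfl⟩ := Submodule.mem_span_singleton.mp hw
      rw [hQ.smul, quad_add (Q := Q), h4, a1 0 1 (by decide)]; ring
    · rw [finrank_span_singleton fun h => a2 0 ?_, hD.decomp.decomp.finrank_eq]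
      simpa [hf.add_right, a1 0 1, hf.zero_right] using congrArg (polar Q (b 0)) h
  · let φ := ZMod.ringEquivOfPrime F (by decide) h
    obtain ⟨a, rfl⟩ : ∃ b : Fin 2 → ZMod 3, φ ∘ b = a := ⟨φ.symm ∘ a, by ext; simp⟩
    have h4 : ∑ k, a k ^ 2 = 1 := φ.injective (by simpa using ha)
    simp only [Function.comp, map_eq_zero]
    clear ha; revert a; decide

lemma refine_two (h : Fintype.card F = 2) (hD : IsOrthogonalMDecomposition Q 4 D)
    (hp : ∀ i, IsPlusTypeOn Q (D i)) :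
    ∃ D' : Fin (t * 2) → Submodule F (ι → F), IsOrthogonalMDecomposition Q 2 D' ∧
      (∀ i, ¬ IsPlusTypeOn Q (D' i)) ∧
      decompositionStabilizer D ⊓ isometryGroup F Q ≤ decompositionStabilizer D' := by
  have hf := hform_of_quad hQ
  have h2 : (2 : F) = 0 := by simpa [h] using FiniteField.cast_card_eq_zero F
  let φ := ZMod.ringEquivOfPrime F (by decide) h
  choose e he using fun i => (nd_restrict hQ (hD.decomp.nondegenerate i)).equiv_QPlus
    ((plus_iff_restrict hQ).mp (hp i)) (m := 2) (hD.decomp.decomp.finrank_eq i)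
  let ψ : Fin t → (Fin 2 ⊕ Fin 2 → F) →ₗ[F] ι → F := fun i => (D i).subtype ∘ₗ (e i).symm
  have a1 : ∀ i c, Q (ψ i c) = qq4 c := fun i c => by
    refine (he i ((e i).symm c)).symm.trans ?_
    simp [H13.QPlus_apply, qq4]
  have a2 : ∀ i c, ψ i c ∈ D i := fun i c => ((e i).symm c).2
  have a3 : ∀ i, ∀ v ∈ D i, ∃ c : Fin 2 ⊕ Fin 2 → ZMod 2, ψ i (φ ∘ c) = v := fun i v hv =>
    ⟨φ.symm ∘ e i ⟨v, hv⟩, by simp [ψ, Function.comp_def]⟩
  have a4 : ∀ c : Fin 2 ⊕ Fin 2 → ZMod 2, qq4 (φ ∘ c) = φ (qq4 c) := fun c => by simp [qq4]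
  have a5 : ∀ i k l k' l', polar Q (ψ i (uu4 F k l)) (ψ i (uu4 F k' l')) =
      if k = k' ∧ l ≠ l' then 1 else 0 := fun i k l k' l' => by
    rw [polar, ← map_add, a1, a1, a1, ← uu4_map (φ : ZMod 2 →+* F), ← uu4_map (φ : ZMod 2 →+* F)]
    refine Eq.trans (by simp [qq4]) ((congrArg φ ((by decide : ∀ k l k' l', qq4 (uu4 (ZMod 2) k l +
      uu4 _ k' l') - qq4 (uu4 _ k l) - qq4 (uu4 _ k' l') = if k = k' ∧ l ≠ l' then 1 else 0)
      k l k' l')).trans (by split_ifs <;> simp))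
  have a6 : ∀ i k l, Q (ψ i (uu4 F k l)) = 1 := fun i k l => by
    rw [a1]; fin_cases k <;> fin_cases l <;> simp [qq4, uu4]
  let A : Fin t × Fin 2 → Submodule F (ι → F) := fun p =>
    .span F {ψ p.1 (uu4 F p.2 0), ψ p.1 (uu4 F p.2 1)}
  have b1 := fun p : Fin t × Fin 2 => nd_pair hQ h2 ((a5 p.1 p.2 0 p.2 1).trans (by simp))
  have b2 : ∀ p, finrank F (A p) = 2 := fun p => H13.finrank_span_pair_eq (b1 p).1
  have b3 : ∀ i k (x y : ZMod 2), ψ i (φ ∘ (x • uu4 _ k 0 + y • uu4 _ k 1)) ∈ A (i, k) :=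
    fun i k x y => Submodule.mem_span_pair.mpr ⟨φ x, φ y, by
      rw [← map_smul, ← map_smul, ← map_add]; exact congrArg _ (comp_comb (φ : ZMod 2 →+* F) k x y).symm⟩
  have b4 : ∀ p q, p ≠ q → AreOrthogonalFor (polar Q) (A p) (A q) := by
    rintro ⟨i, k⟩ ⟨j, l⟩ hpq u hu v hv
    obtain ⟨a, b, rfl⟩ := Submodule.mem_span_pair.mp hu
    obtain ⟨c, d, rfl⟩ := Submodule.mem_span_pair.mp hv
    by_cases hij : i = j
    · subst hij
      simp [hf.add_left, hf.add_right, hf.smul_left, hf.smul_right, a5,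
        show k ≠ l from fun h => hpq (by rw [h])]
    · exact hD.decomp.orthogonal i j hij _ (add_mem (Submodule.smul_mem _ _ (a2 _ _))
        (Submodule.smul_mem _ _ (a2 _ _))) _ (add_mem (Submodule.smul_mem _ _ (a2 _ _))
        (Submodule.smul_mem _ _ (a2 _ _)))
  have b5 : ∀ p, ¬ IsPlusTypeOn Q (A p) := fun p ⟨U, c1, c2, c3⟩ => by
    obtain ⟨x, hx, hx0⟩ := (Submodule.ne_bot_iff U).mp fun h => by
      rw [h, finrank_bot, b2] at c3; omega
    obtain ⟨a, b, rfl⟩ := Submodule.mem_span_pair.mp (c1 hx)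
    have := c2 _ hx
    rw [quad_add (Q := Q), hQ.smul, hQ.smul, a6, a6, hf.smul_left, hf.smul_right, a5] at this
    obtain ⟨a, rfl⟩ := φ.surjective a
    obtain ⟨b, rfl⟩ := φ.surjective b
    obtain ⟨rfl, rfl⟩ := (by decide : ∀ a b : ZMod 2, a ^ 2 + b ^ 2 + a * b = 0 → a = 0 ∧ b = 0) a b
      (φ.injective (by simpa [-ZMod.pow_card] using this))
    simp at hx0
  have := hD.decomp.decomp.two_le
  have b6 : IsMDecomposition 2 (A ∘ finProdFinEquiv.symm) := by
    refine ⟨by omega, two_pos, fun _ => b2 _, iSupIndep.comp (fun p => disjoint_iff.mpr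
      (eq_bot_iff.mpr ((inf_le_inf_left _ (iSup₂_le fun q hq v hv w hw => b4 q p hq v hv w hw)).trans
        (hf.nondegOn_iff.mp (b1 p).2).le))) finProdFinEquiv.symm.injective, ?_⟩
    rw [Function.comp_def, finProdFinEquiv.symm.iSup_comp (g := A), eq_top_iff,
      ← hD.decomp.decomp.iSup_eq_top]
    refine iSup_le fun i v hv => ?_
    obtain ⟨c, rfl⟩ := a3 i v hv
    obtain ⟨x, y, z, w, rfl⟩ := uu4_b c
    rw [show ∀ a b : Fin 2 ⊕ Fin 2 → ZMod 2, φ ∘ (a + b) = φ ∘ a + φ ∘ b from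
      fun a b => by ext; simp, map_add]
    exact add_mem (Submodule.mem_iSup_of_mem _ (b3 _ _ _ _)) (Submodule.mem_iSup_of_mem _ (b3 _ _ _ _))
  refine ⟨_, ⟨⟨b6, fun _ => (b1 _).2, fun i j h => b4 _ _ (finProdFinEquiv.symm.injective.ne h)⟩,
    fun i j => isometric_of_type hQ (b1 _).2 (b1 _).2 (m := 0) (b2 _) (b2 _)
      (iff_of_false (b5 _) (b5 _))⟩, fun _ => b5 _, fun g hg => mem_stab_of_le b6 fun p => ?_⟩
  obtain ⟨⟨i, k⟩, rfl⟩ := finProdFinEquiv.surjective p
  obtain ⟨σ, hσ⟩ := hg.1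
  obtain ⟨c, hc⟩ := a3 _ _ ((hσ i).le ⟨_, a2 i (uu4 F k 0), rfl⟩)
  obtain ⟨d, hd⟩ := a3 _ _ ((hσ i).le ⟨_, a2 i (uu4 F k 1), rfl⟩)
  have b7 := mem_isometryGroup'.mp hg.2
  obtain ⟨l, ⟨x, y, rfl⟩, z, w, rfl⟩ := uu4_a c d
    (φ.injective (by rw [← a4, ← a1 (σ i), hc, map_one]; exact (b7 _).trans (a6 _ _ _)))
    (φ.injective (by rw [← a4, ← a1 (σ i), hd, map_one]; exact (b7 _).trans (a6 _ _ _)))
    (φ.injective (by
      rw [← a4, ← a1 (σ i), show φ ∘ (c + d) = φ ∘ c + φ ∘ d by ext; simp, map_add, hc, hd,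
        ← map_add, map_one]
      refine (b7 _).trans ?_
      rw [quad_add (Q := Q), a6, a6, a5]; simp only [true_and, ne_eq, zero_ne_one, not_false_eq_true,
        if_true]; linear_combination h2))
  refine ⟨finProdFinEquiv (σ i, l), fun v hv => ?_⟩
  simp only [Function.comp, Equiv.symm_apply_apply] at hv ⊢
  obtain ⟨a, b, rfl⟩ := Submodule.mem_span_pair.mp hv
  rw [Matrix.mulVec_add, Matrix.mulVec_smul, Matrix.mulVec_smul]
  exact add_mem (Submodule.smul_mem _ _ (hc ▸ b3 _ _ _ _ :)) (Submodule.smul_mem _ _ (hd ▸ b3 _ _ _ _ :))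

end

end Cfsg.Agent.H18
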