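import Mathlib
import Cfsg.Agent.H18.OMxD
import Cfsg.Agent.H18.OmRef
import Cfsg.Agent.H12.MaxB

/-!
Maximality of reducible and imprimitive subgroups of `Ω`, in matrix form.
-/

set_option autoImplicit false

namespace Cfsg.Agent.H18

open Cfsg.Geo QuadraticMap Module H13
open scoped MatrixGroups Matrix

variable {ι : Type} [Fintype ι] [DecidableEq ι] {F : Type*} [Field F] {Q : (ι → F) → F}
  (hQ : IsNondegenerateQuadraticForm Q) {W U : Submodule F (ι → F)} {t m : ℕ}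
  {D : Fin t → Submodule F (ι → F)}
include hQ

/-- abstract isometries as matrices -/
noncomputable def jO : OG (mkQ hQ) →* GL ι F :=
  (isometryGroup F (mkQ hQ)).subtype.comp (toOG (mkQ hQ)).symm.toMonoidHom

lemma jO_apply (g : OG (mkQ hQ)) : jO hQ g = ofOG hQ g := rfl

lemma map_jO : (Om (mkQ hQ)).map (jO hQ) = omegaGL Q :=
  le_antisymm (by rintro _ ⟨g, hg, rfl⟩; exact ofOG_mem hQ hg) fun _ hg => exists_ofOG hQ hg

lemma max_omega {S : Subgroup (GL ι F)} (T : Subgroup (OG (mkQ hQ)))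
    (hS : ∀ g, ofOG hQ g ∈ S ↔ g ∈ T) (hne : ¬ omegaGL Q ≤ S)
    (h : ∀ M : Subgroup (OG (mkQ hQ)), (∀ g ∈ Om _, g ∈ T → g ∈ M) → M ≤ Om _ →
      ∀ g ∈ M, g ∉ T → Om _ ≤ M) : IsMaximalIn (omegaGL Q) (S ⊓ omegaGL Q) := by
  refine H12.isMaximalIn_of_hom (jO hQ) _ (map_jO hQ) (· ∈ T) (fun g _ => hS g) ?_ h
  obtain ⟨g, h1, h2⟩ := SetLike.not_le_iff_exists.mp hne
  obtain ⟨g, h3, rfl⟩ := exists_ofOG hQ h1
  exact ⟨g, h3, mt (hS g).mpr h2⟩

lemma ofOG_mem_stab (g : OG (mkQ hQ)) : ofOG hQ g ∈ subspaceStabilizer W ↔ g ∈ stO _ W := by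
  simp only [mem_subspaceStabilizer, ofOG_mulVec, mem_stO]

lemma toLin'_ofOG (g : OG (mkQ hQ)) :
    Matrix.toLin' (ofOG hQ g : Matrix ι ι F) = g.1.toLinearMap :=
  LinearMap.ext fun v => ofOG_mulVec hQ g v

lemma ofOG_mem_dec (g : OG (mkQ hQ)) : ofOG hQ g ∈ decompositionStabilizer D ↔ g ∈ dsO _ D := by
  change (∃ _, ∀ _, _) ↔ ∃ _, ∀ _, _
  rw [toLin'_ofOG]

omit [Fintype ι] [DecidableEq ι] in
lemma odq_of (hD : IsNondegenerateMDecomposition (polar Q) m D) : ODQ (mkQ hQ) D :=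
  ⟨fun i => nd_restrict hQ (hD.nondegenerate i), fun i j h _ hx =>
    mem_perp.mpr fun y hy => hD.orthogonal i j h y hy _ hx, hD.decomp.iSup_eq_top⟩

omit [Fintype ι] [DecidableEq ι] in
lemma nondegOn_of_nd (h : ND ((mkQ hQ).restrict W)) : IsNondegenerateOn (polar Q) W :=
  fun w hw h0 => by
    obtain ⟨y, hy⟩ := h.exists_ne (x := ⟨w, hw⟩) fun h => h0 (congrArg Subtype.val h)
    exact ⟨⟨y, y.2, by rw [polar_comm]; exact hy⟩, y, y.2, hy⟩

omit [Fintype ι] [DecidableEq ι] in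
lemma perp_mkQ : (hform_of_quad hQ).perp W = perp (mkQ hQ) W := by
  ext x
  rw [mem_perp]
  exact forall₂_congr fun y _ => by rw [polar_comm]; rfl

variable [Fintype F]

theorem max_ts (hn : 5 ≤ Fintype.card ι) (h0 : W ≠ ⊥) (hW : IsTotallySingularQuad Q W)
    (hd : 2 * (finrank F W + 1) = Fintype.card ι → ¬ IsPlusTypeOn Q ⊤) :
    IsMaximalIn (omegaGL Q) (subspaceStabilizer W ⊓ omegaGL Q) :=
  have : Nonempty ι := Fintype.card_pos_iff.mp (by omega)
  max_omega hQ _ (ofOG_mem_stab hQ) (omega_not_le_stab hQ hn h0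
    (IsTotallySingularQuad.ne_top hQ hW)) fun _ h1 _ _ h2 h3 => Om_le_of_ts (nd_mkQ hQ)
      (by simpa using hn) hW (by simpa [plus_top_iff hQ] using hd) h1 h2 h3

theorem max_ns (hn : 7 ≤ Fintype.card ι) (h2 : ¬ Odd (Fintype.card F)) {v : ι → F} (hv : Q v ≠ 0) :
    IsMaximalIn (omegaGL Q) (subspaceStabilizer (Submodule.span F {v}) ⊓ omegaGL Q) :=
  have h3 := finrank_span_of_quad hQ hv
  max_omega hQ _ (ofOG_mem_stab hQ) (omega_not_le_stab hQ (by omega)
    (fun h => by rw [h] at h3; simp at h3) fun h => by rw [h] at h3; simp at h3; omega)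
    fun _ h1 _ _ h4 h5 => Om_le_of_ns (nd_mkQ hQ) (by simpa using hn)
      (not_not.mp (mt two_ne_zero_iff_odd.mp h2)) hv h1 h4 h5

theorem max_nd (hn : 11 ≤ Fintype.card ι) (h0 : W ≠ ⊥) (h1 : W ≠ ⊤)
    (hW : IsNondegenerateOn (polar Q) W) (hd : 2 * finrank F W = Fintype.card ι →
      ¬ AreIsometricFor Q W ((hform_of_quad hQ).perp W))
    (hex : ¬ (Fintype.card F ≤ 3 ∧ ∃ U : Submodule F (ι → F), finrank F U = 2 ∧
      IsNondegenerateOn (polar Q) U ∧ IsPlusTypeOn Q U ∧ (U = W ∨ (AreOrthogonalFor (polar Q) U W ∧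
        finrank F U + finrank F W = Fintype.card ι)))) :
    IsMaximalIn (omegaGL Q) (subspaceStabilizer W ⊓ omegaGL Q) := by
  refine max_omega hQ _ (ofOG_mem_stab hQ) (omega_not_le_stab hQ (by omega) h0 h1)
    fun M a1 _ g a2 a3 => ?_
  have b0 := nd_mkQ hQ
  have b1 := nd_restrict hQ hW
  have b2 := b0.nd_perp b1
  have b3 := b0.finrank_perp W
  rw [finrank_fintype_fun_eq_card] at b3
  by_cases h : finrank F (perp (mkQ hQ) W) ≤ finrank F W
  · refine Om_le_of_nd b0 (by simp; omega) b1 (by omega) (Or.inr (by omega)) (irC_of b2 fun H =>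
      hex ⟨by simpa using H.1, _, H.2.1, nondegOn_of_nd hQ b2, (plus_iff_restrict hQ).mpr H.2.2,
        Or.inr ⟨fun u hu v hv => perp_pair_zero hu hv, by omega⟩⟩) (fun k hk => ?_) a1 a2 a3
    have b4 := Submodule.finrank_mono hk
    rw [finrank_map_OG] at b4
    refine hd (by omega) (areIsometric_of_map (g := ofOG hQ k) ((toOG _).symm k).2 ?_)
    rw [toLin'_ofOG, perp_mkQ]
    exact Submodule.eq_of_le_of_finrank_le hk (by rwa [finrank_map_OG])
  · rw [← stO_perp b0] at a1 a3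
    refine Om_le_of_nd b0 (by simp; omega) b2 (by omega) (Or.inr (by omega)) (by
      rw [b0.perp_perp]
      exact irC_of b1 fun H => hex ⟨by simpa using H.1, _, H.2.1, hW,
        (plus_iff_restrict hQ).mpr H.2.2, Or.inl rfl⟩) (fun k hk => ?_) a1 a2 a3
    have b4 := Submodule.finrank_mono hk
    rw [finrank_map_OG, b0.perp_perp] at b4
    exact h b4

theorem max_odec (hn : 5 ≤ Fintype.card ι) (hD : IsOrthogonalMDecomposition Q m D)
    (h : (m = 3 ∧ Odd (Fintype.card F) ∧ Fintype.card F ≠ 3) ∨ (4 ≤ m ∧ 2 < Fintype.card F) ∨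
      6 ≤ m) : IsMaximalIn (omegaGL Q) (decompositionStabilizer D ⊓ omegaGL Q) := by
  refine max_omega hQ _ (ofOG_mem_dec hQ) (omega_not_le_ndDecomp hQ hn hD.decomp)
    fun M a1 _ g a2 a3 => ?_
  have b1 := odq_of hQ hD.decomp
  have b2 := hD.decomp.decomp.finrank_eq
  rcases h with ⟨rfl, h1, h2⟩ | h | h
  · refine b1.Om_le_three (nd_mkQ hQ) (by simpa using hn) b2 (two_ne_zero_iff_odd.mpr h1) ?_
      hD.isometric a1 a2 a3
    have := Fintype.one_lt_card (α := F)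
    obtain ⟨k, hk⟩ := h1
    rw [Nat.card_eq_fintype_card]; omega
  · exact b1.Om_le (nd_mkQ hQ) (by simpa using hn) b2 h.1
      (Or.inl (exists_ne_zero_one (by simpa using h.2))) hD.isometric a1 a2 a3
  · exact b1.Om_le (nd_mkQ hQ) (by simpa using hn) b2 (by omega) (Or.inr h) hD.isometric a1 a2 a3

end Cfsg.Agent.H18
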