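import Mathlib
import Cfsg.Agent.H18.OMxE

/-!
Non-maximality of some geometric subgroups of `Ω`: abstract part.
-/

set_option autoImplicit false

namespace Cfsg.Agent.H18

open Module QuadraticMap H13

variable {F V : Type*} [Field F] [AddCommGroup V] [Module F V] {Q : QuadraticForm F V}
  {u a b v w x y : V} {U W : Submodule F V} {κ : Type*} {E : κ → Submodule F V}

/-- isometries mapping a set into itself -/
def mapS [Finite V] (Q : QuadraticForm F V) (S : Set V) : Subgroup (OG Q) where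
  carrier := {g | ∀ x ∈ S, g.1 x ∈ S}
  mul_mem' ha hb x hx := ha _ (hb x hx)
  one_mem' _ h := h
  inv_mem' {g} hg x hx := by
    obtain ⟨y, h1, rfl⟩ := ((Set.toFinite S).injOn_iff_bijOn_of_mapsTo (f := g.1) hg).mp
      g.1.injective.injOn |>.surjOn hx
    rwa [OG_inv_apply_apply]

theorem not_dsO (h : ODQ Q E) {g : OG Q} {i j : κ} (hij : j ≠ i) (ha : a ∈ E i) (ha0 : a ≠ 0)
    (h1 : g.1 a = a) (hb : b ∈ E i) (hb0 : b ≠ 0) (h2 : g.1 b ∈ E j) : g ∉ dsO Q E := by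
  rintro ⟨π, hπ⟩
  have k : ∀ {i j x}, i ≠ j → x ∈ E i → x ∈ E j → x = 0 := fun {i j x} hij h1 h2 =>
    nd_sep (h.nd i) h1 fun y hy => mem_perp.mp (h.orth i j hij h2) y hy
  have h3 : π i = i := by_contra fun h3 => ha0 (k h3 (h1 ▸ (hπ i).le ⟨a, ha, rfl⟩) ha)
  exact hb0 (g.1.map_eq_zero_iff.mp (k hij h2 (h3 ▸ (hπ i).le ⟨b, hb, rfl⟩)))

/-- the vectors of given norm inside the blocks -/
def blkS (Q : QuadraticForm F V) (E : κ → Submodule F V) (c : F) : Set V :=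
  {v | (∃ i, v ∈ E i) ∧ Q v = c}

theorem blkS_map {c : F} {g : OG Q} (hg : g ∈ dsO Q E) (hx : x ∈ blkS Q E c) :
    g.1 x ∈ blkS Q E c := by
  obtain ⟨π, hπ⟩ := hg
  obtain ⟨⟨i, hi⟩, h⟩ := hx
  exact ⟨⟨π i, (hπ i).le ⟨x, hi, rfl⟩⟩, (OG_map _ _).trans h⟩

variable [FiniteDimensional F V]

theorem exists_sieg_not_mem (hQ : ND Q) (hu : Q u = 0) (hW : u ∉ W) (hw : w ∈ W) (h0 : w ≠ 0)
    (hd : finrank F W + 2 < finrank F V) : ∃ a, polar Q u a = 0 ∧ (sieg Q u a).1 w ∉ W := by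
  by_cases h : polar Q u w = 0
  · obtain ⟨a, h1, h2⟩ := hQ.exists_perp_one (F ∙ u) (x := w) fun h => by
      obtain ⟨c, rfl⟩ := Submodule.mem_span_singleton.mp h
      exact hW ((W.smul_mem_iff fun h => h0 (by simp [h])).mp hw)
    have h3 : polar Q u a = 0 := (polar_comm _ _ _).trans (h1 u (Submodule.mem_span_singleton_self u))
    refine ⟨a, h3, fun h4 => hW ?_⟩
    rw [sieg_apply_of_perp hu h3 h, h2, one_smul] at h4
    simpa using W.sub_mem h4 hw
  · obtain ⟨a, h1, h2⟩ := SetLike.not_le_iff_exists.mp (show ¬ perp Q (F ∙ u) ≤ W ⊔ F ∙ u from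
      fun h => by
        have := Submodule.finrank_mono h
        have := hQ.finrank_perp (F ∙ u)
        have := Submodule.finrank_add_le_finrank_add_finrank W (F ∙ u)
        have := finrank_span_singleton (K := F) (v := u) fun h => hW (h ▸ W.zero_mem)
        omega)
    have h3 := mem_perp_singleton.mp h1
    refine ⟨a, h3, fun h4 => h2 ?_⟩
    rw [sieg_apply hu h3] at h4
    rw [← Submodule.smul_mem_iff _ h, show polar Q u w • a = (w - (w + polar Q a w • u -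
      polar Q u w • (a + Q a • u))) + (polar Q a w - polar Q u w * Q a) • u by module]
    exact Submodule.add_mem_sup (W.sub_mem hw h4) (Submodule.smul_mem _ _
      (Submodule.mem_span_singleton_self u))

theorem sieg_mem_stO (hu : u ∈ U) (hU : ∀ x ∈ U, Q x = 0) (ha : polar Q u a = 0) :
    sieg Q u a ∈ stO Q U := mem_stO_of_maps fun w hw => by
  rw [sieg_apply_of_perp (hU u hu) ha (mem_perp.mp (le_perp_of_singular hU hw) u hu)]
  exact add_mem hw (U.smul_mem _ hu)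

variable [Finite F]

theorem exists_Om_add (hQ : ND Q) (hn : 5 ≤ finrank F V) (hu : Q u = 0) (h : polar Q u v = 0)
    (hv : v ∉ F ∙ u) : ∃ g ∈ Om Q, g.1 v = v + u := by
  obtain ⟨a, h1, h2⟩ := hQ.exists_perp_one (F ∙ u) hv
  have h3 : polar Q u a = 0 := (polar_comm _ _ _).trans (h1 u (Submodule.mem_span_singleton_self u))
  exact ⟨_, sieg_mem_Om hQ hn u a, by rw [sieg_apply_of_perp hu h3 h, h2, one_smul]⟩

theorem exists_fix_not_mem (hQ : ND Q) (hn : 5 ≤ finrank F V) (hw : w ∈ W) (h : w ∉ F ∙ v)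
    (hd : finrank F W + 3 < finrank F V) : ∃ g ∈ Om Q, g.1 v = v ∧ g.1 w ∉ W := by
  obtain ⟨b, h1, h2⟩ := hQ.exists_perp_one _ h
  obtain ⟨u, h3, h4, h5⟩ : ∃ u, Q u = 0 ∧ polar Q v u = 0 ∧ polar Q u w ≠ 0 := by
    by_contra! H
    have := hQ.singular_induction_perp hn v (p := fun x => polar Q x w = 0) (fun x h1 h2 =>
      H x h2 h1) (fun _ _ _ _ h h' => by rw [polar_add_left, h, h', add_zero]) b
      ((polar_comm _ _ _).trans (h1 v (Submodule.mem_span_singleton_self v)))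
    exact one_ne_zero (h2.symm.trans this)
  obtain ⟨a, h6, h7⟩ := SetLike.not_le_iff_exists.mp (show ¬ perp Q (.span F {u, v}) ≤ W ⊔ F ∙ u from
    fun h => by
      have := Submodule.finrank_mono h
      have := hQ.finrank_perp (.span F {u, v})
      have := finrank_span_pair_le (F := F) u v
      have := Submodule.finrank_add_le_finrank_add_finrank W (F ∙ u)
      have := finrank_span_singleton (K := F) (v := u) fun h => h5 (by simp [h])
      omega)
  obtain ⟨h8, h9⟩ := mem_perp_pair.mp h6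
  refine ⟨_, sieg_mem_Om hQ hn u a, sieg_apply_of_perp_perp ((polar_comm _ _ _).trans h4)
    ((polar_comm _ _ _).trans h9), fun h4 => h7 ?_⟩
  rw [sieg_apply h3 h8] at h4
  rw [← Submodule.smul_mem_iff _ h5, show polar Q u w • a = (w - (w + polar Q a w • u -
    polar Q u w • (a + Q a • u))) + (polar Q a w - polar Q u w * Q a) • u by module]
  exact Submodule.add_mem_sup (W.sub_mem hw h4) (Submodule.smul_mem _ _
    (Submodule.mem_span_singleton_self u))

variable [Finite V]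

theorem ODQ.not_Om_le (h : ODQ Q E) (hQ : ND Q) (hn : 5 ≤ finrank F V) {c : F} (hc : c ≠ 0) {i : κ}
    (hv : v ∈ E i) (h1 : Q v = c) (hd : finrank F (E i) + 3 ≤ finrank F V) :
    ¬ Om Q ≤ mapS Q (blkS Q E c) := fun H => by
  obtain ⟨u, h2, h3, h4⟩ := exists_singular_mem Q (H := perp Q (E i))
    (by have := hQ.finrank_perp (E i); omega)
  obtain ⟨g, h5, h6⟩ := exists_Om_add hQ hn h4 ((polar_comm _ _ _).trans (mem_perp.mp h2 v hv))
    fun h => by
      obtain ⟨d, rfl⟩ := Submodule.mem_span_singleton.mp h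
      exact hc (by rw [← h1, Q_smul, h4, mul_zero])
  obtain ⟨⟨j, hj⟩, -⟩ := H h5 v ⟨⟨i, hv⟩, h1⟩
  rw [h6] at hj
  by_cases hij : i = j
  · subst hij
    exact h3 (nd_sep (h.nd i) (by simpa using sub_mem hj hv) (mem_perp.mp h2))
  · refine hc (h1 ▸ ?_)
    rw [nd_sep (h.nd i) hv (mem_perp.mp (by simpa using sub_mem (h.orth i j hij hj) h2)), map_zero]

omit [Finite F] in
theorem ODQ.exists_frame_elt (h : ODQ Q E) (hQ : ND Q) (h2 : (2 : F) ≠ 0) {c : F} (hc : c ≠ 0)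
    (hP : ∀ i, ∀ s ∈ E i, ∀ r ∈ E i, Q s = c → Q r = c → r = s ∨ r = -s ∨ polar Q s r = 0)
    {i j k : κ} (hij : i ≠ j) (hik : i ≠ k) (hjk : j ≠ k) (hv : v ∈ E i) (hx : x ∈ E j)
    (hy : y ∈ E k) (h3 : Q v = c) (h4 : Q x = c) (h5 : Q y = c) (hd : 2 ≤ finrank F (E i)) :
    ∃ g ∈ Om Q, g ∈ mapS Q (blkS Q E c) ∧ g ∉ dsO Q E := by
  have o : ∀ {i j x y}, i ≠ j → x ∈ E i → y ∈ E j → polar Q x y = 0 := fun {i j x y} hij h1 h2 =>
    mem_perp.mp (h.orth i j hij h2) x h1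
  have a1 : ∀ s ∈ blkS Q E c, ∀ r ∈ blkS Q E c, r = s ∨ r = -s ∨ polar Q s r = 0 := by
    rintro s ⟨⟨i, hi⟩, hs⟩ r ⟨⟨j, hj⟩, hr⟩
    by_cases hij : i = j
    · exact hP i s hi r (hij ▸ hj) hs hr
    · exact Or.inr (Or.inr (o hij hi hj))
  have a2 : ∀ s ∈ blkS Q E c, -s ∈ blkS Q E c := fun s ⟨⟨i, hi⟩, hs⟩ =>
    ⟨⟨i, neg_mem hi⟩, by rwa [QuadraticMap.map_neg]⟩
  have a3 : ∀ {s r}, Q s = c → Q r = c → polar Q s r = 0 → Q (s - r) = 2 * c :=
    fun hs hr h => by rw [Q_sub, hs, hr, h]; ring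
  have a4 : ∀ s ∈ blkS Q E c, ∀ r ∈ blkS Q E c, polar Q s r = 0 →
      refl Q (s - r) ∈ mapS Q (blkS Q E c) := fun s hs r hr h z hz => by
    have b1 : (refl Q (s - r)).1 s = r := refl_sub_apply (hs.2.trans hr.2.symm)
      (a3 hs.2 hr.2 h ▸ mul_ne_zero h2 hc)
    have b2 : (refl Q (s - r)).1 r = s := by
      simpa only [← OG_mul_apply, refl_mul_self, OG_one_apply, eq_comm] using
        congrArg (refl Q (s - r)).1 b1
    rcases a1 s hs z hz with rfl | rfl | h6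
    · rwa [b1]
    · rw [map_neg, b1]; exact a2 r hr
    rcases a1 r hr z hz with rfl | rfl | h7
    · rwa [b2]
    · rw [map_neg, b2]; exact a2 s hs
    · rwa [refl_apply_of_perp (by rw [polar_sub_left, h6, h7, sub_zero])]
  have a0 : v ≠ 0 := by rintro rfl; exact hc (by simpa using h3.symm)
  obtain ⟨a, ⟨h6, h7⟩, h8⟩ := Submodule.exists_mem_ne_zero_of_ne_bot
    (p := E i ⊓ perp Q (F ∙ v)) fun h' => by
      have := finrank_inf_perp (h.nd i) hv a0
      rw [h', finrank_bot] at this; omega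
  replace h7 := mem_perp_singleton.mp h7
  refine ⟨refl Q (v - x) * refl Q (v - y), hQ.refl_mul_refl_mem_commutator
    (a3 h3 h4 (o hij hv hx) ▸ mul_ne_zero h2 hc) ((a3 h3 h4 (o hij hv hx)).trans
      (a3 h3 h5 (o hik hv hy)).symm), mul_mem (a4 v ⟨⟨i, hv⟩, h3⟩ x ⟨⟨j, hx⟩, h4⟩ (o hij hv hx))
      (a4 v ⟨⟨i, hv⟩, h3⟩ y ⟨⟨k, hy⟩, h5⟩ (o hik hv hy)), not_dsO h hik.symm h6 h8 ?_ hv a0 ?_⟩
  · rw [OG_mul_apply, refl_apply_of_perp (x := a), refl_apply_of_perp]
    · rw [polar_sub_left, h7, o hij.symm hx h6, sub_zero]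
    · rw [polar_sub_left, h7, o hik.symm hy h6, sub_zero]
  · rwa [OG_mul_apply, refl_sub_apply (h3.trans h5.symm) (a3 h3 h5 (o hik hv hy) ▸ mul_ne_zero h2 hc),
      refl_apply_of_perp (by rw [polar_sub_left, o hik hv hy, o hjk hx hy, sub_zero])]

omit [Finite F] in
theorem ODQ.exists_add_elt (h : ODQ Q E) (hQ : ND Q) (h2 : (2 : F) = 0) (T : AddSubgroup F)
    (hT : ∀ c ∈ T, c = 0 ∨ c = 1)
    (hP : ∀ i, ∀ s ∈ E i, ∀ r ∈ E i, Q s = 1 → Q r = 1 → polar Q s r ∈ T) {p q : κ → V}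
    (hp : ∀ i, p i ∈ E i) (hq : ∀ i, q i ∈ E i) (h3 : ∀ i, HP Q (p i) (q i))
    {i j k : κ} (hij : i ≠ j) (hik : i ≠ k) (hjk : j ≠ k) :
    (∀ x ∈ AddSubgroup.closure (blkS Q E 1), ∀ y ∈ AddSubgroup.closure (blkS Q E 1),
      polar Q x y ∈ T) ∧
    ∃ g ∈ Om Q, g ∈ mapS Q (AddSubgroup.closure (blkS Q E 1)) ∧ g ∉ dsO Q E := by
  have o : ∀ {i j x y}, i ≠ j → x ∈ E i → y ∈ E j → polar Q x y = 0 := fun {i j x y} hij h1 h2 =>
    mem_perp.mp (h.orth i j hij h2) x h1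
  have a1 : ∀ x ∈ AddSubgroup.closure (blkS Q E 1), ∀ y ∈ AddSubgroup.closure (blkS Q E 1),
      polar Q x y ∈ T := fun x hx y hy => by
    induction hx, hy using AddSubgroup.closure_induction₂ with
    | mem s r hs hr =>
      obtain ⟨⟨i, hi⟩, hs⟩ := hs
      obtain ⟨⟨j, hj⟩, hr⟩ := hr
      by_cases hij : i = j
      · exact hP i s hi r (hij ▸ hj) hs hr
      · exact o hij hi hj ▸ zero_mem T
    | zero_left => simp
    | zero_right => simp
    | add_left _ _ _ _ _ _ h1 h2 => rw [polar_add_left]; exact add_mem h1 h2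
    | add_right _ _ _ _ _ _ h1 h2 => rw [polar_add_right]; exact add_mem h1 h2
    | neg_left _ _ _ _ h1 => rw [polar_neg_left]; exact neg_mem h1
    | neg_right _ _ _ _ h1 => rw [polar_neg_right]; exact neg_mem h1
  have a2 : ∀ a ∈ AddSubgroup.closure (blkS Q E 1), Q a = 1 →
      refl Q a ∈ mapS Q (AddSubgroup.closure (blkS Q E 1)) := fun a ha h1 x hx => by
    rw [refl_apply, h1, inv_one, mul_one]
    rcases hT _ (a1 a ha x hx) with h | h <;> rw [h]
    · simpa using hx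
    · rw [one_smul]; exact sub_mem hx ha
  have a3 : ∀ i, Q (p i + q i) = 1 := fun i => by rw [Q_add, (h3 i).1, (h3 i).2, (h3 i).3]; simp
  have a4 := fun i => add_mem (hp i) (hq i)
  have a5 : ∀ i, p i + q i ∈ AddSubgroup.closure (blkS Q E 1) := fun i =>
    AddSubgroup.subset_closure ⟨⟨i, a4 i⟩, a3 i⟩
  have a6 : Q (p i + q i + (p j + q j) + (p k + q k)) = 1 := by
    rw [Q_add, Q_add, a3, a3, a3, o hij (a4 i) (a4 j), polar_add_left, o hik (a4 i) (a4 k),
      o hjk (a4 j) (a4 k)]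
    linear_combination h2
  have a7 : ∀ i, polar Q (p i) (p i + q i) = 1 := fun i => by
    rw [polar_add_right, (h3 i).3, polar_self', (h3 i).1]; simp
  refine ⟨a1, refl Q (p i + q i + (p j + q j) + (p k + q k)) * refl Q (p i + q i),
    hQ.refl_mul_refl_mem_commutator (a6 ▸ one_ne_zero) (a6.trans (a3 i).symm),
    mul_mem (a2 _ (add_mem (add_mem (a5 i) (a5 j)) (a5 k)) a6) (a2 _ (a5 i) (a3 i)), ?_⟩
  rintro ⟨π, hπ⟩
  have a8 := (hπ j).le ⟨p j, hp j, rfl⟩
  rw [LinearEquiv.coe_coe, OG_mul_apply, refl_apply_of_perp (o hij (a4 i) (hp j)), refl_apply, a6,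
    polar_add_left, polar_add_left, o hij (a4 i) (hp j), o hjk.symm (a4 k) (hp j), polar_comm, a7]
    at a8
  by_cases h9 : i = π j
  · have := o (h9 ▸ hik.symm) (hp k) a8
    rw [polar_sub_right, polar_smul_right, polar_add_right, polar_add_right, o hjk.symm (hp k) (hp j),
      o hik.symm (hp k) (a4 i), o hjk.symm (hp k) (a4 j), a7] at this
    simp at this
  · have := o h9 (hp i) a8
    rw [polar_sub_right, polar_smul_right, polar_add_right, polar_add_right, o hij (hp i) (hp j),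
      o hik (hp i) (a4 k), o hij (hp i) (a4 j), a7] at this
    simp at this

omit [Finite F] in
theorem ODQ.exists_swap_elt (h : ODQ Q E) (hQ : ND Q) (hn : 5 ≤ finrank F V) [Finite F]
    (h2 : (2 : F) = 0) {p q : κ → V} (hp : ∀ i, p i ∈ E i) (hq : ∀ i, q i ∈ E i)
    (h3 : ∀ i, Q (p i) = 1) (h4 : ∀ i, Q (q i) = 1) (h5 : ∀ i, polar Q (p i) (q i) = 1)
    (hP : ∀ i, ∀ x ∈ E i, Q x = 1 → x = p i ∨ x = q i ∨ x = p i + q i ∨
      (polar Q (p i) x = 0 ∧ polar Q (q i) x = 0))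
    {i j : κ} (hij : i ≠ j) (hd : 3 ≤ finrank F (E i)) :
    ∃ g ∈ Om Q, g ∈ mapS Q (blkS Q E 1) ∧ g ∉ dsO Q E := by
  have o : ∀ {i j x y}, i ≠ j → x ∈ E i → y ∈ E j → polar Q x y = 0 := fun {i j x y} hij h1 h2 =>
    mem_perp.mp (h.orth i j hij h2) x h1
  have t : ∀ x : V, x + x = 0 := fun x => by rw [← two_smul F, h2, zero_smul]
  have s : ∀ x, polar Q x x = 0 := fun x => by rw [polar_self', h2, zero_mul]
  have a1 : Q (p i + p j) = 0 := by rw [Q_add, h3, h3, o hij (hp i) (hp j)]; linear_combination h2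
  have a2 : Q (q i + q j) = 0 := by rw [Q_add, h4, h4, o hij (hq i) (hq j)]; linear_combination h2
  have a3 : polar Q (p i + p j) (q i + q j) = 0 := by
    simp only [polar_add_left, polar_add_right, h5, o hij (hp i) (hq j), o hij.symm (hp j) (hq i)]
    linear_combination h2
  have a4 : ∀ x, (sieg Q (p i + p j) (q i + q j)).1 x =
      x + polar Q (q i + q j) x • (p i + p j) - polar Q (p i + p j) x • (q i + q j) := fun x => by
    rw [sieg_apply a1 a3, a2, zero_smul, add_zero]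
  have a5 : ∀ i j, i ≠ j → ∀ g : OG Q, (∀ x, g.1 x = x + polar Q (q i + q j) x • (p i + p j) -
      polar Q (p i + p j) x • (q i + q j)) → (g.1 (p i) = p j ∧ g.1 (q i) = q j) ∧ ∀ x ∈ E i,
      polar Q (p i) x = 0 → polar Q (q i) x = 0 → g.1 x = x := fun i j hij g hg => by
    refine ⟨⟨?_, ?_⟩, fun x hx h6 h7 => ?_⟩ <;> rw [hg, polar_add_left, polar_add_left]
    · rw [polar_comm, h5, s, o hij.symm (hp j) (hp i), o hij.symm (hq j) (hp i)]
      simp [← add_assoc, t]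
    · rw [h5, s, o hij.symm (hp j) (hq i), o hij.symm (hq j) (hq i)]
      simp [neg_eq_iff_add_eq_zero, t]
    · simp [h6, h7, o hij.symm (hp j) hx, o hij.symm (hq j) hx]
  have a6 : ∀ i j, i ≠ j → ∀ g : OG Q, (∀ x, g.1 x = x + polar Q (q i + q j) x • (p i + p j) -
      polar Q (p i + p j) x • (q i + q j)) → ∀ x ∈ E i, Q x = 1 → ∃ k, g.1 x ∈ E k :=
    fun i j hij g hg x hx h6 => by
      obtain ⟨⟨b1, b2⟩, b3⟩ := a5 i j hij g hg
      rcases hP i x hx h6 with rfl | rfl | rfl | h7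
      · exact ⟨j, b1 ▸ hp j⟩
      · exact ⟨j, b2 ▸ hq j⟩
      · exact ⟨j, by rw [map_add, b1, b2]; exact add_mem (hp j) (hq j)⟩
      · exact ⟨i, (b3 x hx h7.1 h7.2).symm ▸ hx⟩
  obtain ⟨a, ⟨⟨h6, h7⟩, h8⟩, h9⟩ := Submodule.exists_mem_ne_zero_of_ne_bot
    (p := E i ⊓ perp Q (F ∙ p i) ⊓ perp Q (F ∙ q i)) fun h' => by
      have := le_finrank_inf_perp hQ (E i) (p i)
      have := le_finrank_inf_perp hQ (E i ⊓ perp Q (F ∙ p i)) (q i)
      rw [h', finrank_bot] at this; omega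
  obtain ⟨⟨e1, -⟩, e3⟩ := a5 i j hij _ a4
  refine ⟨_, sieg_mem_Om hQ hn (p i + p j) (q i + q j), fun x ⟨⟨k, hk⟩, hx⟩ =>
    ⟨?_, (OG_map _ _).trans hx⟩, not_dsO h hij.symm h6 h9 (e3 a h6 (mem_perp_singleton.mp h7)
      (mem_perp_singleton.mp h8)) (hp i) (fun h => by simpa [h] using h3 i)
      (by rw [e1]; exact hp j)⟩
  by_cases c1 : k = i
  · exact a6 i j hij _ a4 x (c1 ▸ hk) hx
  by_cases c2 : k = j
  · exact a6 j i hij.symm _ (fun x => by rw [a4, add_comm (p i), add_comm (q i)]) x (c2 ▸ hk) hx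
  · refine ⟨k, ?_⟩
    simpa [a4, o (Ne.symm c1) (hp i) hk, o (Ne.symm c1) (hq i) hk,
      o (Ne.symm c2) (hp j) hk, o (Ne.symm c2) (hq j) hk] using hk

end Cfsg.Agent.H18
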