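import Mathlib
import Cfsg.Agent.H18.NmA

/-!
Orthonormal frames: dihedral lemma, classes of reflections, monomial isometries.
-/

set_option autoImplicit false

namespace Cfsg.Agent.H18

open Module QuadraticMap H13

theorem dih {G : Type*} [Group G] [Finite G] {a s : G} (ha : a * a = 1) (hs : s * s = 1)
    {P : G → Prop} (h1 : P a) (h2 : P s) (h3 : ∀ y, P y → P (a * y * a))
    (h4 : ∀ y, P y → P (s * y * s)) : (∃ y, P y ∧ y * a * y = s) ∨
      ∃ z, z ≠ 1 ∧ z * z = 1 ∧ z * a = a * z ∧ z * s = s * z ∧ P (z * a) ∧ P (z * s) := by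
  have ha' : a⁻¹ = a := inv_eq_of_mul_eq_one_right ha
  have hs' : s⁻¹ = s := inv_eq_of_mul_eq_one_right hs
  have a1 : ∀ n : ℕ, a * (a * s) ^ n * a = ((a * s) ^ n)⁻¹ := fun n => by
    rw [← inv_pow, mul_inv_rev, ha', hs', show s * a = a * (a * s) * a⁻¹ by
      rw [← mul_assoc, ha, one_mul, ha'], conj_pow, ha']
  have a2 : ∀ n : ℕ, P ((a * s) ^ n * a) ∧ P ((a * s) ^ (n + 1) * a) := fun n => by
    induction n with
    | zero => exact ⟨by simpa using h1, by simpa using h3 s h2⟩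
    | succ n ih =>
      refine ⟨ih.2, ?_⟩
      convert h3 _ (h4 _ ih.1) using 1
      rw [pow_succ', pow_succ]; group
  obtain ⟨k, hk | hk⟩ := Nat.even_or_odd' (orderOf (a * s))
  · have h5 : (a * s) ^ k * (a * s) ^ k = 1 := by rw [← pow_add, ← two_mul, ← hk, pow_orderOf_eq_one]
    have h6 := orderOf_pos (a * s)
    have h7 : (a * s) ^ k * a = a * (a * s) ^ k := by
      have := a1 k
      rw [inv_eq_of_mul_eq_one_right h5] at this
      nth_rw 2 [← this]
      rw [← mul_assoc, ← mul_assoc, ha, one_mul]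
    have h8 : (a * s) ^ k * s = (a * s) ^ (k - 1) * a := by
      obtain ⟨j, rfl⟩ : ∃ j, k = j + 1 := ⟨k - 1, by omega⟩
      rw [pow_succ, mul_assoc, mul_assoc, hs, mul_one, Nat.add_sub_cancel]
    refine Or.inr ⟨(a * s) ^ k, pow_ne_one_of_lt_orderOf (by omega) (by omega), h5, h7, ?_,
      (a2 k).1, h8 ▸ (a2 _).1⟩
    refine mul_left_cancel (a := a) ?_
    rw [← mul_assoc, ← h7, mul_assoc, ← mul_assoc a, pow_mul_comm']
  · refine Or.inl ⟨_, (a2 k).1, ?_⟩
    have h5 : (a * s) ^ k * (a * s) ^ k * (a * s) = 1 := by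
      rw [← pow_add, ← two_mul, ← pow_succ, ← hk, pow_orderOf_eq_one]
    rw [mul_assoc _ a a, ha, mul_one, ← mul_assoc]
    exact (eq_inv_of_mul_eq_one_left (by rw [mul_assoc, h5])).trans hs'

variable {F V : Type*} [Field F] [AddCommGroup V] [Module F V] {Q : QuadraticForm F V}
  {M : Subgroup (OG Q)} {b s u v w x y : V} {g : OG Q}

theorem OG_polar_fix (h : g.1 x = x) (y : V) : polar Q x (g.1 y) = polar Q x y := by
  nth_rw 1 [← h]; exact OG_polar _ _ _

/-- the class of vectors `v` with `r_v r_b ∈ M` -/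
def Cl (M : Subgroup (OG Q)) (b v : V) : Prop := Q v = Q b ∧ refl Q v * refl Q b ∈ M

namespace Cl

theorem mul (h : Cl M b v) (h' : Cl M b w) : refl Q v * refl Q w ∈ M := by
  simpa [refl_inv, mul_assoc, ← mul_assoc (refl Q b), refl_mul_self] using mul_mem h.2 (inv_mem h'.2)

theorem of_mul (h : Cl M b v) (h1 : Q w = Q v) (h2 : refl Q w * refl Q v ∈ M) : Cl M b w :=
  ⟨h1.trans h.1, by simpa [mul_assoc, ← mul_assoc (refl Q v), refl_mul_self] using mul_mem h2 h.2⟩

theorem neg (h : Cl M b v) : Cl M b (-v) := ⟨by simpa using h.1, by simpa [refl_neg] using h.2⟩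

theorem map (hg : g ∈ M) (h : Cl M b v) (h1 : Cl M b (g.1 v)) (h2 : Cl M b w) : Cl M b (g.1 w) :=
  h1.of_mul (by simp [h.1, h2.1]) (by
    simpa [← conj_refl, mul_assoc] using mul_mem (mul_mem hg (h2.mul h)) (inv_mem hg))

theorem refl' (h : Cl M b v) (h' : Cl M b w) : Cl M b ((refl Q v).1 w) :=
  h.of_mul (by simp [h.1, h'.1]) (by
    simpa [← conj_refl, refl_inv, mul_assoc, refl_mul_self] using h.mul h')

theorem step [Finite V] [FiniteDimensional F V] (hQ : ND Q) (h2 : (2 : F) ≠ 0) (hb : Q b ≠ 0)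
    (h : Cl M b v) (h' : Cl M b s) (hv : v ∉ F ∙ s) :
    (∃ c d : F, c ≠ 0 ∧ Cl M b (c • (v - d • s)) ∧ polar Q s (v - d • s) = 0) ∨
      ∃ w, Cl M b w ∧ ∃ c : F, c * c = 1 ∧ (refl Q w).1 s = c • v := by
  have k : ∀ v, Cl M b v → ∀ y, (∃ w, Cl M b w ∧ y = refl Q w) →
      ∃ w, Cl M b w ∧ refl Q v * y * refl Q v = refl Q w := by
    rintro v hv _ ⟨w, hw, rfl⟩
    exact ⟨_, hv.refl' hw, by rw [← conj_refl, refl_inv]⟩
  have hs : Q s ≠ 0 := h'.1 ▸ hb
  have hv' : Q v ≠ 0 := h.1 ▸ hb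
  rcases dih (refl_mul_self s) (refl_mul_self v) (P := fun y => ∃ w, Cl M b w ∧ y = refl Q w)
    ⟨s, h', rfl⟩ ⟨v, h, rfl⟩ (k s h') (k v h) with ⟨_, ⟨w, h3, rfl⟩, h4⟩ |
      ⟨z, h3, h4, h5, h6, ⟨f, a1, a2⟩, f', a3, a4⟩
  · nth_rw 2 [← refl_inv w] at h4
    rw [conj_refl, refl_eq_refl_iff hQ (by simpa using hs) hv'] at h4
    obtain ⟨c, -, hc⟩ := h4
    have := congrArg Q hc
    rw [OG_map, Q_smul, h'.1, h.1] at this
    exact Or.inr ⟨w, h3, c, mul_right_cancel₀ hb (by linear_combination -this), hc⟩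
  have key : ∀ {s f}, Q s ≠ 0 → Q f ≠ 0 → z * refl Q s = refl Q s * z → z * refl Q s = refl Q f →
      z = refl Q s * refl Q f ∧ polar Q s f = 0 := fun {s f} h1 h7 h8 h9 => by
    have b1 : z = refl Q s * refl Q f := by rw [← h9, h8, ← mul_assoc, refl_mul_self, one_mul]
    refine ⟨b1, by_contra fun b2 => h3 ?_⟩
    have b3 : refl Q ((refl Q s).1 f) = refl Q f := by
      rw [← conj_refl, refl_inv, ← b1, h9]
    obtain ⟨c, -, hc⟩ := (refl_eq_refl_iff hQ (by simpa using h7) h7).mp b3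
    have b4 : s = ((polar Q s f * (Q s)⁻¹)⁻¹ * (1 - c)) • f := by
      rw [mul_smul, eq_inv_smul_iff₀ (mul_ne_zero b2 (inv_ne_zero h1))]
      rw [refl_apply] at hc
      linear_combination (norm := module) -hc
    rw [b1, (refl_eq_refl_iff hQ h1 h7).mpr ⟨_, fun h => h1 (by rw [b4, h]; simp), b4⟩,
      refl_mul_self]
  obtain ⟨b1, b2⟩ := key hs (a1.1 ▸ hb) h5 a2
  obtain ⟨b3, b4⟩ := key hv' (a3.1 ▸ hb) h6 a4
  have b5 : z.1 v = -v := by
    rw [b3, OG_mul_apply, refl_apply_of_perp ((polar_comm _ _ _).trans b4), refl_apply_self hv']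
  rw [b1, OG_mul_apply, refl_apply, refl_apply] at b5
  generalize polar Q s _ * (Q s)⁻¹ = d at b5
  generalize polar Q f _ * (Q f)⁻¹ = c at b5
  have b6 : v - (d / 2) • s = (c / 2) • f := by
    refine smul_right_injective V h2 ?_
    simp only [smul_sub, smul_smul, mul_div_cancel₀ _ h2]
    linear_combination (norm := module) b5
  have b7 : c / 2 ≠ 0 := fun h => hv (Submodule.mem_span_singleton.mpr ⟨d / 2, by
    rw [h, zero_smul, sub_eq_zero] at b6; exact b6.symm⟩)
  exact Or.inl ⟨(c / 2)⁻¹, d / 2, inv_ne_zero b7, by rwa [b6, inv_smul_smul₀ b7], by simp [b6, b2]⟩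

end Cl

theorem refl_fix_of_odd {c : F} (h : (refl Q w).1 s = c • v) (hv : v ∉ F ∙ s) (hc : c * c = 1)
    (h1 : polar Q x s = 0) (h2 : polar Q x v = 0) : (refl Q w).1 x = x := by
  refine refl_apply_of_perp ?_
  have h3 := congrArg (polar Q x) h
  rw [refl_apply] at h h3
  rw [polar_sub_right, polar_smul_right, polar_smul_right, h1, h2, smul_zero, zero_sub, neg_eq_zero,
    smul_eq_mul, mul_eq_zero, polar_comm _ x] at h3
  refine h3.resolve_left fun h4 => hv (Submodule.mem_span_singleton.mpr ⟨c, ?_⟩)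
  rw [h4, zero_smul, sub_zero] at h
  rw [h, smul_smul, hc, one_smul]

/-- isometries fixing a subspace of codimension at most `k` -/
def RK (k : ℕ) (g : OG Q) : Prop :=
  ∃ W : Submodule F V, finrank F V ≤ finrank F W + k ∧ ∀ w ∈ W, g.1 w = w

theorem RK.conj {k : ℕ} (h : RK k g) (x : OG Q) : RK k (x * g * x⁻¹) := by
  obtain ⟨W, h1, h2⟩ := h
  refine ⟨W.map x.1.toLinearMap, by rwa [finrank_map_OG], ?_⟩
  rintro _ ⟨w, hw, rfl⟩
  simp [OG_mul_apply, OG_inv_apply_apply, h2 w hw]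

theorem RK.mul [FiniteDimensional F V] {k l : ℕ} {g' : OG Q} (h : RK k g) (h' : RK l g') :
    RK (k + l) (g * g') := by
  obtain ⟨W, h1, h2⟩ := h
  obtain ⟨W', h3, h4⟩ := h'
  refine ⟨W ⊓ W', ?_, fun w hw => by rw [OG_mul_apply, h4 w hw.2, h2 w hw.1]⟩
  have := Submodule.finrank_sup_add_finrank_inf_eq W W'
  have := Submodule.finrank_le (W ⊔ W')
  omega

theorem rk_refl [FiniteDimensional F V] (hQ : ND Q) (v : V) : RK 1 (refl Q v) :=
  ⟨perp Q (F ∙ v), by have := le_finrank_inf_perp hQ ⊤ v; rwa [top_inf_eq, finrank_top] at this,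
    fun _ hw => refl_apply_of_perp (mem_perp_singleton.mp hw)⟩

theorem rk_refl_refl [FiniteDimensional F V] (hQ : ND Q) (v w : V) : RK 2 (refl Q v * refl Q w) :=
  (rk_refl hQ v).mul (rk_refl hQ w)

/-- orthonormal basis -/
structure ON (Q : QuadraticForm F V) {ι : Type*} [Fintype ι] [DecidableEq ι] (e : ι → V) : Prop where
  two : (2 : F) ≠ 0
  pol : ∀ i j, polar Q (e i) (e j) = if i = j then 1 else 0
  sum : ∀ x, ∑ i, polar Q (e i) x • e i = x

variable {ι : Type*} [Fintype ι] [DecidableEq ι] {e : ι → V} {i j k l : ι} {c d : F}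

open Classical in
/-- support -/
noncomputable def spt (Q : QuadraticForm F V) (e : ι → V) (x : V) : Finset ι :=
  Finset.univ.filter fun i => polar Q (e i) x ≠ 0

omit [DecidableEq ι] in
theorem mem_spt : i ∈ spt Q e x ↔ polar Q (e i) x ≠ 0 := by simp [spt]

open Classical in
/-- moved basis vectors -/
noncomputable def mvd (e : ι → V) (g : OG Q) : Finset ι := Finset.univ.filter fun i => g.1 (e i) ≠ e i

omit [DecidableEq ι] in
theorem mem_mvd : i ∈ mvd e g ↔ g.1 (e i) ≠ e i := by simp [mvd]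

omit [DecidableEq ι] in
theorem exists_not_mem (s : Finset ι) (h : s.card < Fintype.card ι) : ∃ i, i ∉ s := by
  obtain ⟨i, -, hi⟩ := Finset.exists_mem_notMem_of_card_lt_card (t := Finset.univ) h
  exact ⟨i, hi⟩

theorem exists_two_not_mem (s : Finset ι) (h : s.card + 1 < Fintype.card ι) :
    ∃ i j, i ≠ j ∧ i ∉ s ∧ j ∉ s := by
  obtain ⟨i, hi⟩ := exists_not_mem s (by omega)
  obtain ⟨j, hj⟩ := exists_not_mem (insert i s) (by rw [Finset.card_insert_of_notMem hi]; omega)
  rw [Finset.mem_insert, not_or] at hj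
  exact ⟨i, j, Ne.symm hj.1, hi, hj.2⟩

/-- monomial isometries -/
def Mon [Finite V] (Q : QuadraticForm F V) (e : ι → V) : Subgroup (OG Q) :=
  mapS Q {x | ∃ j, ∃ c : F, x = c • e j}

omit [Fintype ι] [DecidableEq ι] in
theorem mem_Mon [Finite V] : g ∈ Mon Q e ↔ ∀ i, ∃ j, ∃ c : F, g.1 (e i) = c • e j :=
  ⟨fun h i => h _ ⟨i, 1, by simp⟩, by
    rintro h _ ⟨i, c, rfl⟩
    obtain ⟨j, d, h⟩ := h i
    exact ⟨j, c * d, by rw [map_smul, h, smul_smul]⟩⟩

namespace ON

variable (h : ON Q e)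
include h

theorem ext (H : ∀ i, polar Q (e i) x = polar Q (e i) y) : x = y := by
  rw [← h.sum x, ← h.sum y]; simp only [H]

theorem nd : ND Q := fun _ hx => h.ext fun i => by rw [polar_comm, hx, polar_zero_right]

theorem pol_eq (x y : V) : polar Q x y = ∑ i, polar Q (e i) x * polar Q (e i) y := by
  nth_rw 1 [← h.sum x]; simp [polar_sum_left]

theorem pol_self (i : ι) : polar Q (e i) (e i) = 1 := by simp [h.pol]

theorem pol_ne (hij : i ≠ j) : polar Q (e i) (e j) = 0 := by simp [h.pol, hij]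

theorem Q_e (i : ι) : Q (e i) = 2⁻¹ := by
  have := h.pol_self i
  rw [polar_self'] at this
  exact eq_inv_of_mul_eq_one_right this

theorem Q_ne (i : ι) : Q (e i) ≠ 0 := h.Q_e i ▸ inv_ne_zero h.two

theorem li : LinearIndependent F e := Fintype.linearIndependent_iff.mpr fun c hc i => by
  simpa [polar_sum_right, h.pol] using congrArg (polar Q (e i)) hc

theorem mem_span {S : Finset ι} (H : spt Q e x ⊆ S) : x ∈ Submodule.span F (e '' S) := by
  rw [← h.sum x]
  refine Submodule.sum_mem _ fun i _ => ?_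
  by_cases hi : i ∈ S
  · exact Submodule.smul_mem _ _ (Submodule.subset_span ⟨i, hi, rfl⟩)
  · simp [not_not.mp (mt mem_spt.mpr fun h => hi (H h))]

open Classical in
theorem fin : FiniteDimensional F V :=
  ⟨⟨Finset.univ.image e, eq_top_iff.mpr fun x _ => by simpa using h.mem_span (Finset.subset_univ _)⟩⟩

theorem finrank_eq : finrank F V = Fintype.card ι := by
  rw [← finrank_span_eq_card h.li, show Submodule.span F (Set.range e) = ⊤ from
    eq_top_iff.mpr fun x _ => by simpa using h.mem_span (Finset.subset_univ _), finrank_top]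

theorem card_le {S T : Finset ι} (H : ∀ i ∈ T, spt Q e (g.1 (e i)) ⊆ S) : T.card ≤ S.card := by
  classical
  have := h.fin
  have h1 : LinearIndependent F fun i : T => (⟨g.1 (e i), h.mem_span (H i i.2)⟩ :
      Submodule.span F (e '' S)) := .of_comp (Submodule.subtype _)
    ((h.li.comp _ Subtype.val_injective).map' g.1.toLinearMap g.1.ker)
  have h2 := h1.fintype_card_le_finrank
  have h3 := finrank_span_finset_le_card (R := F) (S.image e)
  rw [Finset.coe_image, Set.finrank] at h3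
  have := Finset.card_image_le (s := S) (f := e)
  simp only [Fintype.card_coe] at h2
  omega

theorem sq_eq (H : g.1 (e i) = c • e j) : c * c = 1 := by
  have := OG_polar g (e i) (e i)
  simpa [H, h.pol_self, -polar_self] using this

theorem spt_subset (H : g.1 x = -x) : spt Q e x ⊆ mvd e g := fun i hi => mem_mvd.mpr fun h1 => by
  have := OG_polar_fix h1 x
  rw [H, polar_neg_right, neg_eq_iff_add_eq_zero, ← two_mul] at this
  exact mul_ne_zero h.two (mem_spt.mp hi) this

theorem spt_pair (i j : ι) (c d : F) : spt Q e (c • e i + d • e j) ⊆ {i, j} := fun k hk => by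
  by_contra h1
  simp only [Finset.mem_insert, Finset.mem_singleton, not_or] at h1
  simp [mem_spt, h.pol, h1] at hk

theorem card_mvd [Finite V] {k : ℕ} (hg : g ∈ Mon Q e) (H : RK k g) : (mvd e g).card ≤ 2 * k := by
  have := h.fin
  obtain ⟨W, h1, h2⟩ := H
  obtain ⟨S, h3, h4, h5⟩ := exists_linearIndependent F (Set.range fun i => e i - g.1 (e i))
  have h6 : ∀ x ∈ S, x ∈ perp Q W := fun x hx => by
    obtain ⟨i, rfl⟩ := h3 hx
    exact mem_perp.mpr fun w hw => by rw [polar_sub_right, OG_polar_fix (h2 w hw), sub_self]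
  have := Fintype.ofFinite S
  have h7 := (LinearIndependent.of_comp (Submodule.subtype _) (v := fun x : S =>
    (⟨x, h6 x x.2⟩ : perp Q W)) h5).fintype_card_le_finrank
  have h8 := h.nd.finrank_perp W
  refine (Finset.card_le_card (t := Finset.univ.biUnion fun x : S => spt Q e x) fun i hi => ?_).trans
    ((Finset.card_biUnion_le_card_mul _ _ 2 fun x _ => ?_).trans (by rw [Finset.card_univ]; omega))
  · by_contra h9
    simp only [Finset.mem_biUnion, Finset.mem_univ, true_and, not_exists, mem_spt, not_not] at h9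
    have a1 : Submodule.span F S ≤ perp Q (F ∙ e i) := Submodule.span_le.mpr fun x hx =>
      mem_perp_singleton.mpr (h9 ⟨x, hx⟩)
    have a2 := mem_perp_singleton.mp (a1 (h4.ge (Submodule.subset_span ⟨i, rfl⟩)))
    obtain ⟨j, c, hj⟩ := mem_Mon.mp hg i
    refine mem_mvd.mp hi ?_
    by_cases hij : i = j
    · subst hij
      simp only [hj, polar_sub_right, polar_smul_right, h.pol_self, smul_eq_mul, mul_one] at a2
      rw [hj, ← sub_eq_zero.mp a2, one_smul]
    · simp [hj, h.pol_self, h.pol_ne hij, -polar_self] at a2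
  · obtain ⟨i, hi⟩ := h3 x.2
    obtain ⟨j, c, hj⟩ := mem_Mon.mp hg i
    refine (Finset.card_le_card (t := {i, j}) ?_).trans Finset.card_le_two
    rw [← hi]
    simpa [hj, sub_eq_add_neg] using h.spt_pair i j 1 (-c)

theorem refl_e (i : ι) (x : V) : (refl Q (e i)).1 x = x - (2 * polar Q (e i) x) • e i := by
  rw [refl_apply, h.Q_e, inv_inv, mul_comm]

theorem refl_e_mem [Finite V] (i : ι) : refl Q (e i) ∈ Mon Q e := mem_Mon.mpr fun j => by
  by_cases hij : i = j
  · exact ⟨j, -1, by simp [hij, refl_apply_self (h.Q_ne j)]⟩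
  · exact ⟨j, 1, by simp [refl_apply_of_perp (h.pol_ne hij)]⟩

theorem mon_of_refl [Finite V] (hu : Q u ≠ 0) (hi : i ∈ spt Q e u) (H : (refl Q u).1 (e i) = c • e j) :
    refl Q u ∈ Mon Q e ∧ spt Q e u ⊆ {i, j} := by
  have h1 := mul_ne_zero (polar_comm Q _ _ ▸ mem_spt.mp hi) (inv_ne_zero hu)
  have h2 : spt Q e u ⊆ {i, j} := by
    rw [refl_apply] at H
    rw [show u = _ • e i + _ • e j from by
      rw [← inv_smul_smul₀ h1 u, show _ • u = e i - c • e j by rw [← H]; abel, smul_sub, smul_smul,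
        sub_eq_add_neg, ← neg_smul]]
    exact h.spt_pair ..
  refine ⟨mem_Mon.mpr fun k => ?_, h2⟩
  by_cases hk : k ∈ spt Q e u
  · rcases Finset.mem_insert.mp (h2 hk) with rfl | hk
    · exact ⟨j, c, H⟩
    · refine ⟨i, c, ?_⟩
      have := congrArg (fun x => c • (refl Q u).1 x) H
      simp only [← OG_mul_apply, refl_mul_self, OG_one_apply, map_smul, smul_smul, h.sq_eq H,
        one_smul] at this
      rw [Finset.mem_singleton.mp hk, this]
  · exact ⟨k, 1, by rw [one_smul, refl_apply_of_perp (polar_comm Q _ _ ▸ not_not.mp (mt mem_spt.mpr hk))]⟩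

theorem card_spt_of_mon [Finite V] (hu : Q u ≠ 0) (H : refl Q u ∈ Mon Q e) : (spt Q e u).card ≤ 2 := by
  rcases (spt Q e u).eq_empty_or_nonempty with h1 | ⟨i, hi⟩
  · simp [h1]
  obtain ⟨j, c, hj⟩ := mem_Mon.mp H i
  exact (Finset.card_le_card (h.mon_of_refl hu hi hj).2).trans Finset.card_le_two

theorem sq_of_mon [Finite V] (hu : Q u ≠ 0) (H : refl Q u ∈ Mon Q e) (hi : i ∈ spt Q e u)
    (hj : j ∈ spt Q e u) : polar Q (e i) u ^ 2 = polar Q (e j) u ^ 2 := by
  by_cases hij : i = j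
  · rw [hij]
  have k : ∀ {i j}, i ≠ j → i ∈ spt Q e u → j ∈ spt Q e u → polar Q (e i) u ^ 2 = Q u :=
    fun {i j} hij hi hj => by
      obtain ⟨k, c, hk⟩ := mem_Mon.mp H i
      obtain rfl : j = k := by simpa [hij.symm] using (h.mon_of_refl hu hi hk).2 hj
      have := congrArg (polar Q (e i)) hk
      simp only [refl_apply, polar_sub_right, polar_smul_right, h.pol_self, h.pol_ne hij, smul_zero,
        polar_comm Q u, smul_eq_mul] at this
      field_simp at this
      linear_combination -this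
  rw [k hij hi hj, k (Ne.symm hij) hj hi]

theorem Q_root (hij : i ≠ j) (hc : c * c = 1) : Q (e i - c • e j) = 1 := by
  have := h.two
  rw [Q_sub, Q_smul, h.Q_e, h.Q_e, polar_smul_right, h.pol_ne hij]
  field_simp
  linear_combination hc

theorem refl_root (hij : i ≠ j) (hc : c * c = 1) : (refl Q (e i - c • e j)).1 (e i) = c • e j := by
  simp [refl_apply, h.Q_root hij hc, h.pol_self, h.pol_ne hij.symm, -polar_self]

theorem refl_root' (hij : i ≠ j) (hc : c * c = 1) : (refl Q (e i - c • e j)).1 (e j) = c • e i := by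
  simp [refl_apply, h.Q_root hij hc, h.pol_self, h.pol_ne hij, -polar_self, smul_sub, smul_smul, hc]

theorem refl_root_ne (hi : i ≠ k) (hj : j ≠ k) : (refl Q (e i - c • e j)).1 (e k) = e k :=
  refl_apply_of_perp (by simp [h.pol_ne hi, h.pol_ne hj])

theorem refl_root_mem [Finite V] (hij : i ≠ j) (hc : c * c = 1) :
    refl Q (e i - c • e j) ∈ Mon Q e :=
  (h.mon_of_refl (by simp [h.Q_root hij hc]) (by simp [mem_spt, h.pol_self, h.pol_ne hij, -polar_self])
    (h.refl_root hij hc)).1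

theorem card_spt_le [Finite V] (hu : Q u ≠ 0) (hv : Q v ≠ 0) (huv : polar Q u v = 0)
    (H : refl Q u * refl Q v ∈ Mon Q e) : (spt Q e u ∪ spt Q e v).card ≤ 4 := by
  have := h.fin
  refine (Finset.card_le_card (Finset.union_subset (h.spt_subset ?_) (h.spt_subset ?_))).trans
    (h.card_mvd H (rk_refl_refl h.nd u v))
  · rw [OG_mul_apply, refl_apply_of_perp ((polar_comm _ _ _).trans huv), refl_apply_self hu]
  · rw [OG_mul_apply, refl_apply_self hv, map_neg, refl_apply_of_perp huv]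

variable [Finite V] (hM : ∀ g ∈ Om Q, g ∈ Mon Q e → g ∈ M)
include hM

theorem d_mem (i j : ι) : refl Q (e i) * refl Q (e j) ∈ M :=
  have := h.fin
  hM _ (h.nd.refl_mul_refl_mem_commutator (h.Q_ne i) ((h.Q_e i).trans (h.Q_e j).symm))
    (mul_mem (h.refl_e_mem i) (h.refl_e_mem j))

theorem cl_e (i j : ι) : Cl M (e i) (e j) := ⟨(h.Q_e j).trans (h.Q_e i).symm, h.d_mem hM j i⟩

theorem cl_root (hij : i ≠ j) (hc : c * c = 1) (hkl : k ≠ l) (hd : d * d = 1) :
    Cl M (e i - c • e j) (e k - d • e l) :=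
  have := h.fin
  ⟨(h.Q_root hkl hd).trans (h.Q_root hij hc).symm, hM _ (h.nd.refl_mul_refl_mem_commutator
    (by simp [h.Q_root hkl hd]) ((h.Q_root hkl hd).trans (h.Q_root hij hc).symm))
    (mul_mem (h.refl_root_mem hkl hd) (h.refl_root_mem hij hc))⟩

end ON

end Cfsg.Agent.H18
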