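import Mathlib
import Cfsg.Agent.H18.FrA

/-!
Orthonormal frames: an overgroup of the monomial group in which the stabiliser of a frame line is
monomial is monomial.
-/

set_option autoImplicit false

namespace Cfsg.Agent.H18

open Module QuadraticMap H13

variable {F V : Type*} [Field F] [AddCommGroup V] [Module F V] {Q : QuadraticForm F V}
  {M : Subgroup (OG Q)} {s u v w x y : V} {g t : OG Q}
  {ι : Type*} [Fintype ι] [DecidableEq ι] {e : ι → V} {a b i j k l m : ι} {c d : F} [Finite V]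

/-- standing hypotheses -/
structure FrH (M : Subgroup (OG Q)) (e : ι → V) : Prop where
  on : ON Q e
  nine : 9 ≤ Fintype.card ι
  le : ∀ g ∈ Om Q, g ∈ Mon Q e → g ∈ M
  nf : ∀ g ∈ M, ∀ a b, ∀ c : F, g.1 (e a) = c • e b → g ∈ Mon Q e

omit [Finite V] in
theorem ON.d_apply (h : ON Q e) (hij : i ≠ j) (x : V) : (refl Q (e i) * refl Q (e j)).1 x =
    x - (2 * polar Q (e i) x) • e i - (2 * polar Q (e j) x) • e j := by
  rw [OG_mul_apply, h.refl_e, h.refl_e, polar_sub_right, polar_smul_right, h.pol_ne hij]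
  module

omit [Finite V] in
theorem ON.zero_of_d (h : ON Q e) (hij : i ≠ j) (H : (refl Q (e i) * refl Q (e j)).1 x = x) :
    polar Q (e i) x = 0 ∧ polar Q (e j) x = 0 := by
  rw [h.d_apply hij] at H
  have h1 := congrArg (polar Q (e i)) H
  have h2 := congrArg (polar Q (e j)) H
  simp [h.pol_self, h.pol_ne hij, h.pol_ne hij.symm, h.two, -polar_self] at h1 h2
  exact ⟨h1, h2⟩

omit [Finite V] in
theorem ON.d_mul_self (h : ON Q e) (hij : i ≠ j) :
    refl Q (e i) * refl Q (e j) * (refl Q (e i) * refl Q (e j)) = 1 := by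
  have := conj_refl (refl Q (e i)) (e j)
  rw [refl_apply_of_perp (h.pol_ne hij), refl_inv] at this
  rw [← mul_assoc, this, refl_mul_self]

omit [Finite V] in
theorem ON.disj (h : ON Q e) (h1 : (spt Q e x).card = 2) (h2 : (spt Q e y).card ≤ 2)
    (h3 : polar Q x y = 0) (h4 : ¬ spt Q e y ⊆ spt Q e x) (hi : i ∈ spt Q e x) :
    i ∉ spt Q e y := fun hi' => by
  obtain ⟨j, h5, h6⟩ := Finset.not_subset.mp h4
  rw [h.pol_eq, Finset.sum_eq_single i (fun k _ hk => ?_) (by simp)] at h3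
  · exact mul_ne_zero (mem_spt.mp hi) (mem_spt.mp hi') h3
  by_contra h7
  have a1 : ({i, j, k} : Finset ι) ⊆ spt Q e y := by
    simp only [Finset.insert_subset_iff, Finset.singleton_subset_iff]
    exact ⟨hi', h5, mem_spt.mpr (right_ne_zero_of_mul h7)⟩
  have := Finset.card_le_card a1
  rw [Finset.card_eq_three.mpr ⟨i, j, k, fun h => h6 (h ▸ hi), Ne.symm hk,
    fun h => h6 (h ▸ mem_spt.mpr (left_ne_zero_of_mul h7)), rfl⟩] at this
  omega

namespace FrH

variable (h : FrH M e)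
include h

theorem fix (hg : g ∈ M) (H : g.1 (e a) = e a) : g ∈ Mon Q e := h.nf g hg a a 1 (by simpa using H)

theorem conj_mem (hg : g ∈ M) (ht : t ∈ M) (H : t.1 ((g⁻¹).1 (e a)) = (g⁻¹).1 (e a)) :
    g * t * g⁻¹ ∈ Mon Q e :=
  h.fix (a := a) (mul_mem (mul_mem hg ht) (inv_mem hg)) (by
    rw [OG_mul_apply, OG_mul_apply, H, OG_apply_inv])

theorem conj_d (hg : g ∈ M) (hi : polar Q (e a) (g.1 (e i)) = 0)
    (hj : polar Q (e a) (g.1 (e j)) = 0) : refl Q (g.1 (e i)) * refl Q (g.1 (e j)) ∈ Mon Q e := by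
  refine h.fix (a := a) ?_ (by
    rw [OG_mul_apply, refl_apply_of_perp ((polar_comm Q _ _).trans hj),
      refl_apply_of_perp ((polar_comm Q _ _).trans hi)])
  simpa [← conj_refl, mul_assoc] using mul_mem (mul_mem hg (h.on.d_mem h.le i j)) (inv_mem hg)

theorem card_of_mon (hij : i ≠ j) (H : refl Q (g.1 (e i)) * refl Q (g.1 (e j)) ∈ Mon Q e) :
    (spt Q e (g.1 (e i))).card ≤ 4 :=
  (Finset.card_le_card Finset.subset_union_left).trans (h.on.card_spt_le (by simp [h.on.Q_ne])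
    (by simp [h.on.Q_ne]) (by simp [h.on.pol_ne hij]) H)

theorem z2 (hg : g ∈ M) (hij : i ≠ j) (hi : polar Q (e i) (g.1 (e a)) = 0)
    (hj : polar Q (e j) (g.1 (e a)) = 0) : g ∈ Mon Q e := by
  have o := h.on
  have := o.fin
  have : Nonempty ι := ⟨i⟩
  have h1 := h.card_of_mon hij (h.conj_d (a := a) (inv_mem hg)
    (by rw [← OG_polar_left, polar_comm, hi]) (by rw [← OG_polar_left, polar_comm, hj]))
  obtain ⟨Z, hZ⟩ : ∃ Z, Z = (spt Q e ((g⁻¹).1 (e i)))ᶜ := ⟨_, rfl⟩
  have h2 : 5 ≤ Z.card := by have := h.nine; rw [hZ, Finset.card_compl]; omega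
  have h3 : ∀ k ∈ Z, polar Q (e k) ((g⁻¹).1 (e i)) = 0 := fun k hk => by
    simpa [hZ, mem_spt] using hk
  have h4 : ∀ k ∈ Z, ∀ l ∈ Z, refl Q (g.1 (e k)) * refl Q (g.1 (e l)) ∈ Mon Q e := fun k hk l hl =>
    h.conj_d (a := i) hg (by rw [polar_comm, OG_polar_left, h3 k hk])
      (by rw [polar_comm, OG_polar_left, h3 l hl])
  have h5 : ∀ k, Q (g.1 (e k)) ≠ 0 := fun k => by simp [o.Q_ne]
  have h6 : ∀ S : Finset ι, S.card ≤ 4 → ∃ k ∈ Z, ¬ spt Q e (g.1 (e k)) ⊆ S := fun S hS => by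
    by_contra! H
    have := o.card_le H
    omega
  obtain ⟨k, l, a1, a2, a3⟩ := Finset.one_lt_card_iff.mp (show 1 < Z.card by omega)
  obtain ⟨k', a4, a5⟩ := h6 _ (h.card_of_mon a3 (h4 k a1 l a2))
  obtain ⟨m, a6, a7⟩ := Finset.not_subset.mp a5
  obtain ⟨m', c, a8⟩ := mem_Mon.mp (h4 k' a4 k a1) m
  rw [OG_mul_apply, refl_apply_of_perp (x := e m)
    (polar_comm Q _ _ ▸ not_not.mp (mt mem_spt.mpr a7))] at a8
  have a9 : ∀ k ∈ Z, refl Q (g.1 (e k)) ∈ Mon Q e := fun k hk => by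
    simpa [mul_assoc, refl_mul_self] using mul_mem (h4 k hk k' a4) (o.mon_of_refl (h5 _) a6 a8).1
  have b1 := fun k hk => o.card_spt_of_mon (h5 k) (a9 k hk)
  by_contra H
  have b2 : ∀ k ∈ Z, (spt Q e (g.1 (e k))).card = 2 := fun k hk => (b1 k hk).antisymm (by
    by_contra! b2
    obtain ⟨m, hm⟩ := Finset.card_le_one_iff_subset_singleton.mp (Nat.le_of_lt_succ b2)
    have := o.mem_span hm
    rw [Finset.coe_singleton, Set.image_singleton, Submodule.mem_span_singleton] at this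
    obtain ⟨c, hc⟩ := this
    exact H (h.nf g hg k m c hc.symm))
  obtain ⟨p, c1, c2⟩ := h6 _ ((b1 k a1).trans (by omega))
  obtain ⟨q, c3, c4⟩ := h6 (spt Q e (g.1 (e k)) ∪ spt Q e (g.1 (e p)))
    ((Finset.card_union_le _ _).trans (by have := b1 k a1; have := b1 p c1; omega))
  have c5 := fun h => c4 (Finset.Subset.trans h Finset.subset_union_left)
  have c6 := fun h => c4 (Finset.Subset.trans h Finset.subset_union_right)
  have n1 : k ≠ p := fun h => c2 (h ▸ le_rfl)
  have n2 : k ≠ q := fun h => c5 (h ▸ le_rfl)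
  have n3 : p ≠ q := fun h => c6 (h ▸ le_rfl)
  have d1 := fun i => o.disj (i := i) (b2 k a1) (b1 p c1) (by simp [o.pol_ne n1]) c2
  have d2 := fun i => o.disj (i := i) (b2 k a1) (b1 q c3) (by simp [o.pol_ne n2]) c5
  have d3 := fun i => o.disj (i := i) (b2 p c1) (b1 q c3) (by simp [o.pol_ne n3]) c6
  have e1 := (o.cl_root h.le n1 (one_mul 1) n1 (one_mul 1)).mul
    (o.cl_root h.le n1 (one_mul 1) n3 (one_mul 1))
  have e0 : ∀ k ∈ Z, ∀ l ∈ Z, (refl Q (e k - (1 : F) • e l)).1 ((g⁻¹).1 (e i)) = (g⁻¹).1 (e i) :=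
    fun k hk l hl => refl_apply_of_perp (by
      rw [polar_sub_left, polar_smul_left, h3 k hk, h3 l hl, smul_zero, sub_zero])
  have e2 := o.card_mvd (h.conj_mem (a := i) hg e1 (by
    rw [OG_mul_apply, e0 p c1 q c3, e0 k a1 p c1])) ((rk_refl_refl o.nd _ _).conj g)
  have e3 : ∀ {t : OG Q} {k p}, t.1 (e k) = e p →
      (∀ i ∈ spt Q e (g.1 (e k)), i ∉ spt Q e (g.1 (e p))) →
      spt Q e (g.1 (e k)) ⊆ mvd e (g * t * g⁻¹) :=
    fun {t k p} h1 h2 i hi => mem_mvd.mpr fun h3 => h2 i hi (by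
      have := OG_polar_fix h3 (g.1 (e k))
      rw [OG_mul_apply, OG_mul_apply, OG_inv_apply_apply, h1] at this
      rwa [mem_spt, this, ← mem_spt])
  have e4 := Finset.card_le_card (Finset.union_subset (Finset.union_subset
    (e3 (t := refl Q (e k - (1 : F) • e p) * refl Q (e p - (1 : F) • e q)) (by
      rw [OG_mul_apply, o.refl_root_ne n1.symm n2.symm, o.refl_root n1 (one_mul 1), one_smul])
      d1)
    (e3 (by rw [OG_mul_apply, o.refl_root n3 (one_mul 1), one_smul F (e q), o.refl_root_ne n2 n3]) d3))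
    (e3 (by rw [OG_mul_apply, o.refl_root' n3 (one_mul 1), map_smul,
      o.refl_root' n1 (one_mul 1), one_smul, one_smul]) fun i h1 h2 => d2 i h2 h1))
  rw [Finset.card_union_of_disjoint (Finset.disjoint_union_left.mpr ⟨Finset.disjoint_left.mpr d2,
    Finset.disjoint_left.mpr d3⟩), Finset.card_union_of_disjoint (Finset.disjoint_left.mpr d1),
    b2 k a1, b2 p c1, b2 q c3] at e4
  omega

theorem of_card (hg : g ∈ M) (H : (spt Q e (g.1 (e a))).card ≤ 6) : g ∈ Mon Q e := by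
  obtain ⟨i, j, h1, h2, h3⟩ := exists_two_not_mem (spt Q e (g.1 (e a))) (by have := h.nine; omega)
  exact h.z2 hg h1 (not_not.mp (mt mem_spt.mpr h2)) (not_not.mp (mt mem_spt.mpr h3))

theorem of_conj (hg : g ∈ M) (hij : i ≠ j) (hkl : k ≠ l)
    (H : g * (refl Q (e i) * refl Q (e j)) = refl Q (e k) * refl Q (e l) * g) : g ∈ Mon Q e := by
  obtain ⟨a, ha⟩ := exists_not_mem ({i, j} : Finset ι)
    (Finset.card_le_two.trans_lt (by have := h.nine; omega))
  simp only [Finset.mem_insert, Finset.mem_singleton, not_or] at ha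
  obtain ⟨h1, h2⟩ := h.on.zero_of_d (x := g.1 (e a)) hkl (by
    rw [← OG_mul_apply, ← H, OG_mul_apply, h.on.d_apply hij]
    simp [h.on.pol_ne (Ne.symm ha.1), h.on.pol_ne (Ne.symm ha.2)])
  exact h.z2 hg hkl h1 h2

section root

variable (hij : i ≠ j) (hc : c * c = 1) (hv : Cl M (e i - c • e j) v) (hv' : refl Q v ∉ Mon Q e)
include hij hc hv hv'

theorem full (a : ι) : polar Q (e a) v ≠ 0 := fun H => by
  obtain ⟨k, l, h1, h2, h3⟩ := exists_two_not_mem {a} (by have := h.nine; simp; omega)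
  rw [Finset.mem_singleton] at h2 h3
  refine hv' ?_
  simpa [mul_assoc, refl_mul_self] using mul_mem (h.fix (a := a) (hv.mul (h.on.cl_root h.le hij hc h1
    (one_mul 1))) (by rw [OG_mul_apply, h.on.refl_root_ne h2 h3,
      refl_apply_of_perp (polar_comm Q _ _ ▸ H)])) (h.on.refl_root_mem h1 (one_mul 1))

theorem step (hkl : k ≠ l) (hd : d * d = 1) : v ∉ F ∙ (e k - d • e l) ∧
    ((∃ f, Cl M (e i - c • e j) f ∧ refl Q f ∉ Mon Q e ∧ polar Q (e k - d • e l) f = 0 ∧
      ∀ x, polar Q x v = 0 → polar Q x (e k - d • e l) = 0 → polar Q x f = 0) ∨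
    ∃ w, Cl M (e i - c • e j) w ∧ ∃ ε : F, ε * ε = 1 ∧ (refl Q w).1 (e k - d • e l) = ε • v) := by
  have o := h.on
  have := o.fin
  have h1 := h.full hij hc hv hv'
  have h2 : ∀ a, a ∉ ({k, l} : Finset ι) → polar Q (e a) (e k - d • e l) = 0 := fun a ha => by
    simp only [Finset.mem_insert, Finset.mem_singleton, not_or] at ha
    simp [o.pol, ha]
  have h3 := Finset.card_le_two (a := k) (b := l)
  have h4 := h.nine
  have h5 : v ∉ F ∙ (e k - d • e l) := fun H => by
    obtain ⟨a, ha⟩ := exists_not_mem ({k, l} : Finset ι) (by omega)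
    obtain ⟨t, rfl⟩ := Submodule.mem_span_singleton.mp H
    exact h1 a (by rw [polar_smul_right, h2 a ha, smul_zero])
  refine ⟨h5, ((hv.step o.nd o.two (by simp [o.Q_root hij hc]) (o.cl_root h.le hij hc hkl hd)
    h5).imp_left fun ⟨s, t, a1, a2, a3⟩ => ⟨_, a2, fun H => ?_, by rw [polar_smul_right, a3, smul_zero],
      fun x b1 b2 => by rw [polar_smul_right, polar_sub_right, polar_smul_right, b1, b2]; simp⟩)⟩
  have := (Finset.card_le_card (s := {k, l}ᶜ) fun a ha => mem_spt.mpr ?_).trans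
    (o.card_spt_of_mon (by simp [a2.1, o.Q_root hij hc]) H)
  · rw [Finset.card_compl] at this; omega
  · rw [polar_smul_right, polar_sub_right, polar_smul_right, h2 a (Finset.mem_compl.mp ha)]
    simp [a1, h1]

theorem odd (hkl : k ≠ l) (hd : d * d = 1) (H : polar Q (e k - d • e l) v = 0) :
    ∃ w, Cl M (e i - c • e j) w ∧ ∃ ε : F, ε * ε = 1 ∧ (refl Q w).1 (e k - -d • e l) = ε • v := by
  refine (h.step hij hc hv hv' hkl (by simpa using hd)).2.resolve_left ?_
  rintro ⟨f, a1, a2, a3, a4⟩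
  have a5 := a4 _ H (by simp [h.on.pol_self, h.on.pol_ne hkl, h.on.pol_ne hkl.symm, hd, -polar_self])
  simp only [polar_sub_left, polar_smul_left, smul_eq_mul] at a3 a5
  exact h.full hij hc a1 a2 k (mul_left_cancel₀ h.on.two (by linear_combination a3 + a5))

theorem not_perp (hab : a ≠ b) (hd : d * d = 1) : polar Q (e a - d • e b) v ≠ 0 := fun H => by
  have o := h.on
  have h4 := h.nine
  obtain ⟨k, l, hkl, h2, h3⟩ := exists_two_not_mem ({a, b} : Finset ι)
    (by have := Finset.card_le_two (a := a) (b := b); omega)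
  simp only [Finset.mem_insert, Finset.mem_singleton, not_or] at h2 h3
  have h5 : ∀ η : F, polar Q (e a - d • e b) (e k - η • e l) = 0 := fun η => by
    simp [o.pol_ne (Ne.symm h2.1), o.pol_ne (Ne.symm h2.2), o.pol_ne (Ne.symm h3.1),
      o.pol_ne (Ne.symm h3.2)]
  obtain ⟨v, η, hη, hv, hv', H, w, a1, ε, a2, a3⟩ : ∃ (v : V) (η : F), η * η = 1 ∧
      Cl M (e i - c • e j) v ∧ refl Q v ∉ Mon Q e ∧ polar Q (e a - d • e b) v = 0 ∧
      ∃ w, Cl M (e i - c • e j) w ∧ ∃ ε : F, ε * ε = 1 ∧ (refl Q w).1 (e k - η • e l) = ε • v := by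
    rcases (h.step hij hc hv hv' hkl (one_mul 1)).2 with ⟨f, a1, a2, a3, a4⟩ | h1
    · exact ⟨f, -1, by simp, a1, a2, a4 _ H (h5 1), h.odd hij hc a1 a2 hkl (one_mul 1) a3⟩
    · exact ⟨v, 1, one_mul 1, hv, hv', H, h1⟩
  obtain ⟨w', b1, ε', b2, b3⟩ := h.odd hij hc hv hv' hab hd H
  have c1 := refl_fix_of_odd a3 (h.step hij hc hv hv' hkl hη).1 a2 (h5 η) H
  have c2 := refl_fix_of_odd b3 (h.step hij hc hv hv' hab (by simpa using hd)).1 b2
    (by simp [o.pol_self, o.pol_ne hab, o.pol_ne hab.symm, hd, -polar_self]) H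
  have c3 : (refl Q w).1 v = ε • (e k - η • e l) := by
    have := congrArg (fun x => ε • (refl Q w).1 x) a3
    simp only [← OG_mul_apply, refl_mul_self, OG_one_apply, map_smul, smul_smul, a2, one_smul] at this
    exact this.symm
  have c4 : ∀ m, 2 * polar Q (e m) ((refl Q w * refl Q w').1 (e a)) =
      polar Q (e m) (e a - d • e b + ε' • ε • (e k - η • e l)) := fun m => by
    rw [← smul_eq_mul, ← polar_smul_right, ← map_smul, show (2 : F) • e a = (e a - d • e b) +
      (e a - -d • e b) by module, map_add, OG_mul_apply, OG_mul_apply, c2, c1, b3, map_smul, c3]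
  obtain ⟨m, t, c5⟩ := mem_Mon.mp (h.of_card (a := a) (a1.mul b1) ((Finset.card_le_card
    (t := {a, b, k, l}) fun m hm => by
      by_contra H
      simp only [Finset.mem_insert, Finset.mem_singleton, not_or] at H
      exact mul_ne_zero o.two (mem_spt.mp hm) (by rw [c4]; simp [o.pol, H])).trans
        (Finset.card_le_four.trans (by omega)))) a
  have c6 := c4 a
  have c7 := c4 k
  rw [c5] at c6 c7
  by_cases c8 : a = m
  · subst c8
    simp [o.pol, h2.1, h2.2, hkl, left_ne_zero_of_mul_eq_one a2, left_ne_zero_of_mul_eq_one b2] at c7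
  · simp [o.pol, c8, hab, Ne.symm h2.1, Ne.symm h3.1] at c6

end root

theorem fix_root (ht : t ∈ M) (hij : i ≠ j) (hc : c * c = 1)
    (H : t.1 (e i - c • e j) = e i - c • e j) : t ∈ Mon Q e := by
  have o := h.on
  have h1 := o.cl_root h.le hij hc hij hc
  have h2 := Cl.map ht h1 (H.symm ▸ h1) (o.cl_root h.le hij hc hij (d := -c) (by simpa using hc))
  have h3 := o.card_spt_of_mon (by rw [h2.1, o.Q_root hij hc]; simp) (by_contra fun h3 =>
    h.not_perp hij hc h2 h3 hij hc (by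
      rw [OG_polar_fix H]; simp [o.pol_self, o.pol_ne hij, o.pol_ne hij.symm, hc, -polar_self]))
  refine h.of_card (a := i) ht ((Finset.card_le_card (t := {i, j} ∪ spt Q e (t.1 (e i - -c • e j)))
    fun m hm => ?_).trans ((Finset.card_union_le _ _).trans ?_))
  · by_contra H'
    simp only [Finset.mem_union, Finset.mem_insert, Finset.mem_singleton, not_or, mem_spt,
      not_not] at H'
    refine mul_ne_zero o.two (mem_spt.mp hm) ?_
    rw [← smul_eq_mul, ← polar_smul_right, ← map_smul, show (2 : F) • e i = (e i - c • e j) +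
      (e i - -c • e j) by module, map_add, H, polar_add_right, H'.2]
    simp [o.pol, H'.1]
  · have := Finset.card_le_two (a := i) (b := j)
    omega

theorem exists_odd (hg : g ∈ M) (hg' : g ∉ Mon Q e) (hij : i ≠ j) (hkl : k ≠ l) :
    ∃ y ∈ M, y * y = 1 ∧ RK 2 y ∧ y ∉ Mon Q e ∧ g⁻¹ * y ∈ Mon Q e ∧
      g⁻¹ * y * (refl Q (e i) * refl Q (e j)) = refl Q (e k) * refl Q (e l) * (g⁻¹ * y) := by
  have o := h.on
  have := o.fin
  have h1 := o.d_mem h.le i j
  have h2 := mul_mem (mul_mem hg (o.d_mem h.le k l)) (inv_mem hg)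
  have h3 := o.d_mul_self hij
  have h4 : g * (refl Q (e k) * refl Q (e l)) * g⁻¹ * (g * (refl Q (e k) * refl Q (e l)) * g⁻¹) =
      1 := by rw [conj_mul, o.d_mul_self hkl]; simp
  have h5 : ∀ a ∈ M, a * a = 1 → ∀ y : OG Q, y ∈ M ∧ y * y = 1 ∧ RK 2 y →
      a * y * a ∈ M ∧ a * y * a * (a * y * a) = 1 ∧ RK 2 (a * y * a) := fun a h1 h2 y h3 => by
    nth_rw 4 6 8 [← inv_eq_of_mul_eq_one_right h2]
    exact ⟨mul_mem (mul_mem h1 h3.1) h1, by rw [conj_mul, h3.2.1]; simp, h3.2.2.conj a⟩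
  rcases dih h3 h4 (P := fun y => y ∈ M ∧ y * y = 1 ∧ RK 2 y) ⟨h1, h3, rk_refl_refl o.nd _ _⟩
    ⟨h2, h4, (rk_refl_refl o.nd _ _).conj g⟩ (h5 _ h1 h3) (h5 _ h2 h4) with
    ⟨y, ⟨a1, a2, a3⟩, a4⟩ | ⟨z, a1, a2, a3, a4, ⟨a5, -, a6⟩, -⟩
  · have a5 : g⁻¹ * y * (refl Q (e i) * refl Q (e j)) = refl Q (e k) * refl Q (e l) * (g⁻¹ * y) := by
      rw [← mul_right_inj g, ← mul_assoc g, ← mul_assoc g, mul_inv_cancel, one_mul, ← mul_assoc g,
        ← mul_assoc _ g⁻¹, ← a4, mul_assoc _ y, a2, mul_one]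
    have a6 := h.of_conj (mul_mem (inv_mem hg) a1) hij hkl a5
    exact ⟨y, a1, a2, a3, fun H => hg' (by simpa using mul_mem H (inv_mem a6)), a6, a5⟩
  exfalso
  have b1 : z ∈ M := by simpa [mul_assoc, h3, -mul_assoc] using (mul_mem_cancel_right h1).mp a5
  have b2 := h.of_conj b1 hij hij a3
  have b3 := h.of_conj (mul_mem (mul_mem (inv_mem hg) b1) hg) hkl hkl (by
    rw [← mul_right_inj g, ← mul_left_inj g⁻¹]
    simpa [mul_assoc] using a4)
  have b4 : (mvd e z).card ≤ 6 := by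
    have := o.card_mvd (mul_mem b2 (mul_mem (o.refl_e_mem i) (o.refl_e_mem j))) a6
    have := Finset.card_le_two (a := i) (b := j)
    refine (Finset.card_le_card (t := {i, j} ∪ mvd e (z * (refl Q (e i) * refl Q (e j))))
      fun m hm => ?_).trans ((Finset.card_union_le _ _).trans (by omega))
    by_contra H
    simp only [Finset.mem_union, Finset.mem_insert, Finset.mem_singleton, not_or, mem_mvd,
      not_not] at H hm
    rw [OG_mul_apply, o.d_apply hij] at H
    exact hm (by simpa [o.pol_ne (Ne.symm H.1.1), o.pol_ne (Ne.symm H.1.2)] using H.2)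
  obtain ⟨a, ha⟩ : ∃ a, (g⁻¹ * z * g).1 (e a) ≠ e a := by
    by_contra! H
    have : g⁻¹ * z * g = 1 := OG_ext fun x => by
      rw [← o.sum x, map_sum, map_sum]
      simp only [map_smul, H, OG_one_apply]
    exact a1 (by simpa [mul_assoc] using congrArg (fun x => g * x * g⁻¹) this)
  obtain ⟨b, c, hb⟩ := mem_Mon.mp b3 a
  have b5 : z.1 (g.1 (e a - c • e b)) = -g.1 (e a - c • e b) := by
    have : z.1 (g.1 (e a)) = g.1 (c • e b) := by
      rw [← hb, ← OG_mul_apply, ← OG_mul_apply]; congr 2; group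
    rw [map_sub, map_sub, this, ← this, ← OG_mul_apply z z, a2, OG_one_apply, neg_sub]
  have b6 := (Finset.card_le_card (o.spt_subset b5)).trans b4
  by_cases hab : a = b
  · subst hab
    refine hg' (h.of_card (a := a) hg ((Finset.card_le_card fun m hm => mem_spt.mpr ?_).trans b6))
    rw [← one_smul F (e a), smul_smul, ← sub_smul, map_smul, polar_smul_right, mul_one]
    exact mul_ne_zero (sub_ne_zero.mpr fun h => ha (by rw [hb, ← h, one_smul])) (mem_spt.mp hm)
  obtain ⟨p, q, c1, c2, c3⟩ := exists_two_not_mem (spt Q e (g.1 (e a - c • e b)))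
    (by have := h.nine; omega)
  have c4 := h.fix_root (mul_mem (mul_mem (inv_mem hg) (o.d_mem h.le p q)) hg) hab (o.sq_eq hb) (by
    rw [OG_mul_apply, OG_mul_apply, o.d_apply c1, not_not.mp (mt mem_spt.mpr c2),
      not_not.mp (mt mem_spt.mpr c3)]
    simp [OG_inv_apply_apply])
  exact hg' (inv_mem_iff.mp (h.of_card (a := p) (inv_mem hg) ((h.card_of_mon c1 (by
    rw [← conj_refl, ← conj_refl]; simpa [mul_assoc] using c4)).trans (by omega))))

theorem card_mul {y z : OG Q} (hy : y ∈ M) (h1 : y * y = 1) (h2 : z * z = 1) (h3 : RK 2 y)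
    (h4 : RK 2 z) (h5 : y ∉ Mon Q e) (h6 : y * z ∈ Mon Q e) : (mvd e (y * z)).card ≤ 4 := by
  have o := h.on
  have := o.fin
  obtain ⟨a, ha⟩ := exists_not_mem (mvd e (y * z))
    ((o.card_mvd h6 (h3.mul h4)).trans_lt (by have := h.nine; omega))
  rw [mem_mvd, not_not] at ha
  have a1 : z.1 (e a) = y.1 (e a) := by
    simpa only [← OG_mul_apply, ← mul_assoc, h1, one_mul] using congrArg y.1 ha
  have a2 : ∀ y : OG Q, y * y = 1 → y.1 (y.1 (e a) - e a) = -(y.1 (e a) - e a) := fun y h => by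
    rw [map_sub, ← OG_mul_apply, h, OG_one_apply, neg_sub]
  have a3 := a2 z h2
  rw [a1] at a3
  replace a2 := a2 y h1
  have a4 : y.1 (e a) - e a ≠ 0 := fun H => h5 (h.fix hy (sub_eq_zero.mp H))
  generalize y.1 (e a) - e a = q at a2 a3 a4
  obtain ⟨W, b1, b2⟩ := h3
  obtain ⟨W', b3, b4⟩ := h4
  have b5 : ∀ (y : OG Q) (w : V), y.1 q = -q → y.1 w = w → w ∈ perp Q (F ∙ q) := fun y w h1 h2 => by
    have := OG_polar_fix h2 q
    rw [h1, polar_neg_right, neg_eq_iff_add_eq_zero, ← two_mul, polar_comm] at this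
    exact mem_perp_singleton.mpr ((mul_eq_zero.mp this).resolve_left o.two)
  refine o.card_mvd (k := 2) h6 ⟨(W ⊓ W') ⊔ F ∙ q, ?_, fun w hw => ?_⟩
  · have := Submodule.finrank_sup_add_finrank_inf_eq W W'
    have := Submodule.finrank_mono (sup_le (fun w hw => b5 y w a2 (b2 w hw))
      fun w hw => b5 z w a3 (b4 w hw) : W ⊔ W' ≤ _)
    have := o.nd.finrank_perp (F ∙ q)
    have := finrank_span_singleton (K := F) a4
    have := Submodule.finrank_lt_finrank_of_lt (s := W ⊓ W') (t := (W ⊓ W') ⊔ F ∙ q)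
      (left_lt_sup.mpr fun H => a4 (by
        have := b2 q (H (Submodule.mem_span_singleton_self q)).1
        rw [a2, neg_eq_iff_add_eq_zero, ← two_smul F] at this
        exact (smul_eq_zero.mp this).resolve_left o.two))
    omega
  · obtain ⟨w, h8, _, h7, rfl⟩ := Submodule.mem_sup.mp hw
    obtain ⟨c, rfl⟩ := Submodule.mem_span_singleton.mp h7
    simp [OG_mul_apply, b2 w h8.1, b4 w h8.2, a2, a3]

theorem le_Mon (hg : g ∈ M) : g ∈ Mon Q e := by
  by_contra hg'
  have o := h.on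
  obtain ⟨f⟩ := Function.Embedding.nonempty_of_card_le (α := Fin 8) (β := ι)
    (by have := h.nine; simp; omega)
  have n : ∀ i j : Fin 8, i ≠ j → f i ≠ f j := fun i j => f.injective.ne
  obtain ⟨y, a1, a2, a3, a4, -⟩ := h.exists_odd hg hg' (n 0 1 (by decide)) (n 0 1 (by decide))
  have key : ∀ i j k l : Fin 8, i ≠ j → i ≠ k → i ≠ l → j ≠ k → j ≠ l → k ≠ l → ∃ z ∈ M, z * z = 1 ∧
      RK 2 z ∧ z ∉ Mon Q e ∧ y * z ∈ Mon Q e ∧ mvd e (y * z) = {f i, f j, f k, f l} := by
    intro i j k l h1 h2 h3 h4 h5 h6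
    obtain ⟨z, b1, b2, b3, b4, b5, b6⟩ := h.exists_odd a1 a4 (n i j h1) (n k l h6)
    rw [inv_eq_of_mul_eq_one_right a2] at b5 b6
    refine ⟨z, b1, b2, b3, b4, b5, (Finset.eq_of_subset_of_card_le (fun m hm => mem_mvd.mpr
      fun H => ?_) ((h.card_mul a1 a2 b2 a3 b3 a4 b5).trans (Finset.card_eq_four.mpr ⟨_, _, _, _,
        n i j h1, n i k h2, n i l h3, n j k h4, n j l h5, n k l h6, rfl⟩).ge)).symm⟩
    have := congrArg (fun g : OG Q => polar Q (e m) (g.1 (e m))) b6
    simp only [OG_mul_apply (y * z), OG_mul_apply _ (y * z), OG_polar_fix H, H, o.d_apply (n i j h1),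
      o.d_apply (n k l h6)] at this
    simp only [Finset.mem_insert, Finset.mem_singleton] at hm
    rcases hm with rfl | rfl | rfl | rfl <;>
      simp [o.pol, o.two, h1, h2, h3, h4, h5, h6, h1.symm, h2.symm, h3.symm, h4.symm, h5.symm,
        h6.symm, eq_sub_iff_add_eq] at this
  obtain ⟨z, b1, b2, b3, b4, b5, b6⟩ := key 0 1 2 3 (by decide) (by decide) (by decide) (by decide)
    (by decide) (by decide)
  obtain ⟨z', -, c2, c3, -, c5, c6⟩ := key 4 5 6 7 (by decide) (by decide) (by decide) (by decide)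
    (by decide) (by decide)
  have d1 : z * z' = (y * z)⁻¹ * (y * z') := by
    rw [mul_inv_rev, inv_eq_of_mul_eq_one_right b2]; group
  have := (Finset.card_le_card (s := Finset.univ.map f) fun m hm => mem_mvd.mpr fun H => ?_).trans
    (h.card_mul b1 b2 c2 b3 c3 b4 (d1 ▸ mul_mem (inv_mem b5) c5))
  · simp at this
  have d2 : m ∈ mvd e (y * z) ↔ m ∈ mvd e (y * z') := by
    rw [d1, OG_mul_apply] at H
    rw [mem_mvd, mem_mvd, ← OG_apply_inv (y * z) ((y * z').1 _), H]
  obtain ⟨m, -, rfl⟩ := Finset.mem_map.mp hm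
  rw [b6, c6] at d2
  simp only [Finset.mem_insert, Finset.mem_singleton, f.apply_eq_iff_eq] at d2
  clear hm H
  revert m; decide

end FrH

end Cfsg.Agent.H18
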