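import Mathlib
import Cfsg.Agent.H18.FrB
import Cfsg.Agent.H18.FrD

/-!
Orthonormal frames: overgroups containing a non-monomial reflection (up to a frame reflection).
-/

set_option autoImplicit false

namespace Cfsg.Agent.H18

open Module QuadraticMap H13

variable {F V : Type*} [Field F] [AddCommGroup V] [Module F V] {Q : QuadraticForm F V}
  {M : Subgroup (OG Q)} {s u v w x y f : V} {g t : OG Q}
  {ι : Type*} [Fintype ι] [DecidableEq ι] {e : ι → V} {a b i j k l m : ι} {c d : F}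

theorem AS.smul_prime [Fintype F] (hp : (Fintype.card F).Prime) (h : AS M u x) (c : F) :
    AS M u (c • x) := by
  obtain ⟨n, rfl⟩ := (ZMod.ringEquivOfPrime F hp rfl).surjective c
  obtain ⟨n, rfl⟩ := ZMod.natCast_zmod_surjective n
  rw [map_natCast]
  induction n with
  | zero => simpa using AS.zero h.Qu
  | succ n ih => simpa [add_smul] using ih.add h

theorem Cl.smul (h : Cl M x v) (hc : c * c = 1) : Cl M x (c • v) :=
  ⟨by rw [Q_smul, h.1, pow_two, hc, one_mul], by
    rw [refl_smul (left_ne_zero_of_mul_eq_one hc)]; exact h.2⟩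

namespace ON

variable (h : ON Q e)
include h

theorem zero_of (H : spt Q e x ⊆ {i, j, k}) (h1 : a ≠ i) (h2 : a ≠ j) (h3 : a ≠ k) :
    polar Q (e a) x = 0 := not_not.mp (mt mem_spt.mpr fun h => by simpa [h1, h2, h3] using H h)

theorem sq_half [Finite V] (hu : Q u = 2⁻¹) (H : refl Q u ∈ Mon Q e) (hi : polar Q (e i) u ≠ 0)
    (hj : polar Q (e j) u ≠ 0) (hij : i ≠ j) : 2 * polar Q (e i) u ^ 2 = 1 ∧
      ∀ k, k ≠ i → k ≠ j → polar Q (e k) u = 0 := by
  have h0 : Q u ≠ 0 := hu ▸ inv_ne_zero h.two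
  obtain ⟨k, c, hk⟩ := mem_Mon.mp H i
  have h1 := (h.mon_of_refl h0 (mem_spt.mpr hi) hk).2
  obtain rfl : j = k := by simpa [hij.symm] using h1 (mem_spt.mpr hj)
  refine ⟨?_, fun k h2 h3 => not_not.mp (mt mem_spt.mpr fun h => by simpa [h2, h3] using h1 h)⟩
  have := congrArg (polar Q (e i)) hk
  simp only [refl_apply, polar_sub_right, polar_smul_right, h.pol_self, h.pol_ne hij, smul_zero,
    polar_comm Q u, smul_eq_mul, hu, inv_inv] at this
  linear_combination -this

theorem refl_of_odd {ε : F} (hv : Q v = 2⁻¹) (hε : ε * ε = 1) (hw : Q w ≠ 0)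
    (H : (refl Q w).1 (e j) = ε • v) (h1 : v ∉ F ∙ e j) : 1 - ε * polar Q (e j) v ≠ 0 ∧ ∀ y,
      (refl Q w).1 y = y - ((polar Q (e j) y - ε * polar Q v y) / (1 - ε * polar Q (e j) v)) •
        (e j - ε • v) := by
  have h2 := h.two
  have h3 : Q (e j - ε • v) = 1 - ε * polar Q (e j) v := by
    rw [Q_sub, Q_smul, hv, h.Q_e, polar_smul_right, pow_two, hε]; field_simp; simp; ring
  have h4 : e j - ε • v = (polar Q w (e j) * (Q w)⁻¹) • w := by rw [← H, refl_apply]; abel
  have h5 : polar Q w (e j) * (Q w)⁻¹ ≠ 0 := fun h0 => h1 (Submodule.mem_span_singleton.mpr ⟨ε, by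
    rw [h0, zero_smul, sub_eq_zero] at h4; rw [h4, smul_smul, hε, one_smul]⟩)
  refine ⟨by rw [← h3, h4, Q_smul]; exact mul_ne_zero (pow_ne_zero _ h5) hw, fun y => ?_⟩
  rw [← refl_smul h5, ← h4, refl_apply, h3]
  simp [div_eq_mul_inv]

variable [Finite V] (hM : ∀ g ∈ Om Q, g ∈ Mon Q e → g ∈ M)
include hM

theorem cl_map (hg : g ∈ M) (hg' : g ∈ Mon Q e) (hv : Cl M (e b) v) : Cl M (e b) (g.1 v) := by
  obtain ⟨j, c, hj⟩ := mem_Mon.mp hg' b
  exact Cl.map hg (h.cl_e hM b b) (hj ▸ (h.cl_e hM b j).smul (h.sq_eq hj)) hv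

theorem exists_cl (hg : g ∈ M) (H : g.1 (e a) = c • e j) (hg' : g ∉ Mon Q e) (b : ι) :
    ∃ f, Cl M (e b) f ∧ refl Q f ∉ Mon Q e := by
  have := h.fin
  by_contra! h1
  have h2 := fun v => Cl.map (w := v) hg (h.cl_e hM b a)
    (by rw [H]; exact (h.cl_e hM b j).smul (h.sq_eq H))
  obtain ⟨i, hi⟩ := not_forall.mp (mt mem_Mon.mpr hg')
  have hia : i ≠ a := fun h => hi ⟨j, c, by rw [h, H]⟩
  have : Nonempty ι := ⟨i⟩
  obtain ⟨k, l, h3, h4, h5⟩ := Finset.one_lt_card_iff.mp (show 1 < (spt Q e (g.1 (e i))).card by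
    by_contra! b2
    obtain ⟨m, hm⟩ := Finset.card_le_one_iff_subset_singleton.mp b2
    have := h.mem_span hm
    rw [Finset.coe_singleton, Set.image_singleton, Submodule.mem_span_singleton] at this
    obtain ⟨c, hc⟩ := this
    exact hi ⟨m, c, hc.symm⟩)
  rw [mem_spt] at h3 h4
  have h6 := (h.sq_half (by simp [h.Q_e]) (h1 _ (h2 _ (h.cl_e hM b i))) h3 h4 h5).1
  have h7 : polar Q (e j) (g.1 (e i)) = 0 := by
    have := OG_polar g (e a) (e i)
    simpa [H, h.pol_ne hia.symm, left_ne_zero_of_mul_eq_one (h.sq_eq H)] using this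
  generalize hs : polar Q (e k) (g.1 (e i)) = s at h6
  have h8 : Q (s • (e i - (1 : F) • e a)) = Q (e b) := by
    rw [Q_smul, h.Q_root hia (one_mul 1), h.Q_e, mul_one]
    exact eq_inv_of_mul_eq_one_right h6
  have s0 : s ≠ 0 := by rwa [← hs]
  have h9 := h2 _ ⟨h8, hM _ (h.nd.refl_mul_refl_mem_commutator (by rw [h8]; exact h.Q_ne b) h8)
    (mul_mem (by rw [refl_smul s0]; exact h.refl_root_mem hia (one_mul 1)) (h.refl_e_mem b))⟩
  have a1 : k ≠ j := fun h => h3 (by rw [h, h7])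
  have a2 : l ≠ j := fun h => h4 (by rw [h, h7])
  have := (h.sq_half (h9.1.trans (h.Q_e b)) (h1 _ h9) (i := k) (j := l)
    (by simp [H, h.pol_ne a1, s0, h3]) (by simp [H, h.pol_ne a2, s0, h4]) h5).2 j a1.symm a2.symm
  simp [H, h7, h.pol_self, s0, left_ne_zero_of_mul_eq_one (h.sq_eq H), -polar_self] at this

theorem step1 (hv : Cl M (e b) v) (h1 : v ∉ F ∙ e j) :
    (∃ f, Cl M (e b) f ∧ polar Q (e j) f = 0 ∧ ∃ c : F, c ≠ 0 ∧
      ∀ l, l ≠ j → polar Q (e l) f = c * polar Q (e l) v) ∨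
    ∃ w, Cl M (e b) w ∧ ∃ ε : F, ε * ε = 1 ∧ (refl Q w).1 (e j) = ε • v :=
  have := h.fin
  (hv.step h.nd h.two (h.Q_ne b) (h.cl_e hM b j) h1).imp_left fun ⟨c, d, a1, a2, a3⟩ =>
    ⟨_, a2, by rw [polar_smul_right, a3, smul_zero], c, a1, fun l hl => by simp [h.pol_ne hl]⟩

theorem odd_odd {w' : V} {ε ε' : F} (hv : Cl M (e b) v) (hw : Cl M (e b) w) (hw' : Cl M (e b) w')
    (hε : ε * ε = 1) (hε' : ε' * ε' = 1) (H : (refl Q w).1 (e j) = ε • v)
    (H' : (refl Q w').1 (e k) = ε' • v) (h1 : v ∉ F ∙ e j) (h2 : v ∉ F ∙ e k) (hjk : j ≠ k)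
    (hij : i ≠ j) (hik : i ≠ k) : ∃ D : F, D ≠ 0 ∧
      D = (1 - ε * polar Q (e j) v) * (1 - ε' * polar Q (e k) v) ∧ ∃ y, Cl M (e b) y ∧
      polar Q (e j) y = 0 ∧
      (∀ l, l ≠ i → l ≠ j → l ≠ k → D * polar Q (e l) y = -polar Q (e i) v * polar Q (e l) v) ∧
      D * polar Q (e i) y = D - polar Q (e i) v ^ 2 ∧ D * polar Q (e k) y =
        ε' * polar Q (e i) v * (1 - ε * polar Q (e j) v - ε' * polar Q (e k) v) := by
  have h3 := hv.1.trans (h.Q_e b)
  obtain ⟨a1, a2⟩ := h.refl_of_odd h3 hε (hw.1 ▸ h.Q_ne b) H h1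
  obtain ⟨a3, a4⟩ := h.refl_of_odd h3 hε' (hw'.1 ▸ h.Q_ne b) H' h2
  have a5 : polar Q v v = 1 := by rw [polar_self', h3, mul_inv_cancel₀ h.two]
  have a6 : ∀ i, polar Q v (e i) = polar Q (e i) v := fun _ => polar_comm ..
  refine ⟨_, mul_ne_zero a1 a3, rfl, _, hw.refl' (hw'.refl' (h.cl_e hM b i)), ?_, fun l b1 b2 b3 => ?_,
    ?_, ?_⟩ <;> rw [a2, a4] <;> clear a2 a4 H H' <;>
    simp only [polar_sub_right, polar_smul_right, smul_eq_mul, h.pol, a5, a6, hjk,
      hij.symm, hik.symm, hjk.symm, hij, hik, if_true, if_false, *] <;>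
    rcases mul_self_eq_one_iff.mp hε with rfl | rfl <;>
    rcases mul_self_eq_one_iff.mp hε' with rfl | rfl <;>
    simp only [one_mul, neg_mul, sub_neg_eq_add] at a1 a3 ⊢ <;> field_simp <;> ring

omit [Finite V] hM in
theorem not_mem_span (hi : i ∈ spt Q e v) (hij : i ≠ j) : v ∉ F ∙ e j := fun H => by
  obtain ⟨c, rfl⟩ := Submodule.mem_span_singleton.mp H
  simp [mem_spt, h.pol_ne hij] at hi

theorem four (hf : Cl M (e b) f) (h1 : 4 ≤ (spt Q e f).card)
    (h2 : ∀ y, Cl M (e b) y → (spt Q e y).card < (spt Q e f).card → refl Q y ∈ Mon Q e) :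
    (spt Q e f).card = 4 ∧ ∀ i ∈ spt Q e f, 4 * polar Q (e i) f ^ 2 = 1 := by
  have a0 : ∀ s : Finset ι, s.card < (spt Q e f).card → ∃ i ∈ spt Q e f, i ∉ s := fun s hs =>
    Finset.exists_mem_notMem_of_card_lt_card hs
  have a1 : ∀ j, f ∉ F ∙ e j := fun j => by
    obtain ⟨i, b1, b2⟩ := a0 {j} (by simp; omega)
    exact h.not_mem_span b1 (by simpa using b2)
  have a2 : ∀ j ∈ spt Q e f, ∃ w, Cl M (e b) w ∧ ∃ ε : F, ε * ε = 1 ∧ (refl Q w).1 (e j) = ε • f :=
    fun j hj => (h.step1 hM hf (a1 j)).resolve_left fun ⟨y, b1, b2, c, b3, b4⟩ => by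
      have b5 : spt Q e y = (spt Q e f).erase j := Finset.ext fun l => by
        by_cases hl : l = j <;> simp [mem_spt, hl, b2, b4, b3]
      have := h.card_spt_of_mon (b1.1 ▸ h.Q_ne b) (h2 y b1 (b5 ▸ Finset.card_erase_lt_of_mem hj))
      rw [b5, Finset.card_erase_of_mem hj] at this
      omega
  choose! w a2 ε a3 a4 using a2
  have a5 : ∀ i ∈ spt Q e f, ∀ j ∈ spt Q e f, ∀ k ∈ spt Q e f, j ≠ k → i ≠ j → i ≠ k →
      ∃ D : F, D ≠ 0 ∧ D = (1 - ε j * polar Q (e j) f) * (1 - ε k * polar Q (e k) f) ∧ ∃ y,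
      (∀ l m, l ≠ m → polar Q (e l) y ≠ 0 → polar Q (e m) y ≠ 0 → 2 * polar Q (e l) y ^ 2 = 1 ∧
        ∀ k, k ≠ l → k ≠ m → polar Q (e k) y = 0) ∧
      (∀ l, l ≠ i → l ≠ j → l ≠ k → D * polar Q (e l) y = -polar Q (e i) f * polar Q (e l) f) ∧
      D * polar Q (e i) y = D - polar Q (e i) f ^ 2 ∧ D * polar Q (e k) y =
        ε k * polar Q (e i) f * (1 - ε j * polar Q (e j) f - ε k * polar Q (e k) f) :=
    fun i hi j hj k hk hjk hij hik => by
      obtain ⟨D, b1, b2, y, b3, b4, b5, b6⟩ := h.odd_odd hM hf (a2 j hj) (a2 k hk) (a3 j hj) (a3 k hk)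
        (a4 j hj) (a4 k hk) (a1 j) (a1 k) hjk hij hik
      refine ⟨D, b1, b2, y, fun l m c1 c2 c3 => h.sq_half (b3.1.trans (h.Q_e b)) (h2 y b3
        ((Finset.card_le_card fun l hl => ?_).trans_lt (Finset.card_erase_lt_of_mem hj))) c2 c3 c1,
        b5, b6⟩
      have c4 : l ≠ j := fun h => mem_spt.mp hl (h ▸ b4)
      refine Finset.mem_erase.mpr ⟨c4, ?_⟩
      by_cases c5 : l = i
      · rwa [c5]
      by_cases c6 : l = k
      · rwa [c6]
      exact mem_spt.mpr fun H => mul_ne_zero b1 (mem_spt.mp hl) (by rw [b5 l c5 c4 c6, H, mul_zero])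
  have a6 : ∀ j ∈ spt Q e f, ∀ k ∈ spt Q e f, j ≠ k →
      ε j * polar Q (e j) f + ε k * polar Q (e k) f = 1 := fun j hj k hk hjk => by
    by_contra H
    obtain ⟨i, hi, b1⟩ := a0 {j, k} (Finset.card_le_two.trans_lt (by omega))
    obtain ⟨l, hl, b2⟩ := a0 {i, j, k} (Finset.card_le_three.trans_lt (by omega))
    simp only [Finset.mem_insert, Finset.mem_singleton, not_or] at b1 b2
    have key : ∀ i ∈ spt Q e f, ∀ l ∈ spt Q e f, i ≠ j → i ≠ k → l ≠ i → l ≠ j → l ≠ k →
        polar Q (e i) f ^ 2 = (1 - ε j * polar Q (e j) f) * (1 - ε k * polar Q (e k) f) ∧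
        2 * polar Q (e l) f ^ 2 = (1 - ε j * polar Q (e j) f) * (1 - ε k * polar Q (e k) f) :=
      fun i hi l hl c1 c2 c3 c4 c5 => by
        obtain ⟨D, d1, d2, y, d3, d4, d5, d6⟩ := a5 i hi j hj k hk hjk c1 c2
        have d7 := d4 l c3 c4 c5
        obtain ⟨d8, d9⟩ := d3 l k c5 (fun h => by
          simpa [h, mem_spt.mp hi, mem_spt.mp hl] using d7) fun h => H (by
            rw [h, mul_zero, eq_comm, mul_eq_zero, mul_eq_zero, or_iff_right (not_or.mpr
              ⟨left_ne_zero_of_mul_eq_one (a3 k hk), mem_spt.mp hi⟩)] at d6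
            linear_combination -d6)
        rw [d9 i c3.symm c2, mul_zero] at d5
        rw [← d2]
        refine ⟨by linear_combination d5, mul_left_cancel₀ d1 ?_⟩
        linear_combination D ^ 2 * d8 - 2 * (D * polar Q (e l) y - polar Q (e i) f *
          polar Q (e l) f) * d7 - 2 * polar Q (e l) f ^ 2 * d5
    have c1 := key i hi l hl b1.1 b1.2 b2.1 b2.2.1 b2.2.2
    have c2 := key l hl i hi b2.2.1 b2.2.2 (Ne.symm b2.1) b1.1 b1.2
    exact mem_spt.mp hl (pow_eq_zero_iff two_ne_zero |>.mp (by linear_combination c1.2 - c2.1))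
  have a7 : ∀ j ∈ spt Q e f, 2 * (ε j * polar Q (e j) f) = 1 := fun j hj => by
    obtain ⟨k, hk, b1⟩ := a0 {j} (by simp; omega)
    obtain ⟨l, hl, b2⟩ := a0 {j, k} (Finset.card_le_two.trans_lt (by omega))
    simp only [Finset.mem_insert, Finset.mem_singleton, not_or] at b1 b2
    linear_combination a6 j hj k hk (Ne.symm b1) + a6 j hj l hl (Ne.symm b2.1) -
      a6 k hk l hl (Ne.symm b2.2)
  have a8 : ∀ i ∈ spt Q e f, 4 * polar Q (e i) f ^ 2 = 1 := fun i hi => by
    linear_combination (2 * (ε i * polar Q (e i) f) + 1) * a7 i hi -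
      4 * polar Q (e i) f ^ 2 * a3 i hi
  refine ⟨h1.antisymm' (by_contra fun H => ?_), a8⟩
  obtain ⟨j, hj, -⟩ := a0 ∅ (by rw [Finset.card_empty]; omega)
  obtain ⟨k, hk, b1⟩ := a0 {j} (by simp; omega)
  obtain ⟨i, hi, b2⟩ := a0 {j, k} (Finset.card_le_two.trans_lt (by omega))
  obtain ⟨l, hl, b3⟩ := a0 {i, j, k} (Finset.card_le_three.trans_lt (by omega))
  obtain ⟨m, hm, b4⟩ := a0 {l, i, j, k} (Finset.card_le_four.trans_lt (by omega))
  simp only [Finset.mem_insert, Finset.mem_singleton, not_or] at b1 b2 b3 b4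
  obtain ⟨D, d1, d2, y, d3, d4, -⟩ := a5 i hi j hj k hk (Ne.symm b1) b2.1 b2.2
  have d5 := d4 l b3.1 b3.2.1 b3.2.2
  have d6 := (d3 l m (Ne.symm b4.1) (fun h => by simpa [h, mem_spt.mp hi, mem_spt.mp hl] using d5)
    fun h => by simpa [h, mem_spt.mp hi, mem_spt.mp hm] using d4 m b4.2.1 b4.2.2.1 b4.2.2.2).1
  have d7 : 4 * D = 1 := by
    rw [d2]
    linear_combination (2 * (ε k * polar Q (e k) f) - 2) * a7 j hj - a7 k hk
  have d8 : polar Q (e l) y = -4 * polar Q (e i) f * polar Q (e l) f := by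
    linear_combination 4 * d5 - polar Q (e l) y * d7
  rw [d8] at d6
  exact one_ne_zero (by linear_combination d6 - 8 * polar Q (e l) f ^ 2 * a8 i hi - 2 * a8 l hl :
    (1 : F) = 0)

theorem eq_sq5 (H : ∀ y, Cl M (e b) y → (spt Q e y).card ≤ 4 → ∀ l ∈ spt Q e y, ∀ m ∈ spt Q e y,
    polar Q (e l) y ^ 2 = polar Q (e m) y ^ 2) (hv : Cl M (e b) v) (h1 : spt Q e v ⊆ {i, j, k, l, m})
    (hi : i ∈ spt Q e v) (hl : l ∈ spt Q e v) (hm : m ∈ spt Q e v) (hij : i ≠ j) (hik : i ≠ k)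
    (hjk : j ≠ k) (hli : l ≠ i) (hlj : l ≠ j) (hlk : l ≠ k) (hmi : m ≠ i) (hmj : m ≠ j)
    (hmk : m ≠ k) : polar Q (e l) v ^ 2 = polar Q (e m) v ^ 2 := by
  have a1 : ∀ y, Cl M (e b) y → ∀ a ∈ ({j, k} : Finset ι), polar Q (e a) y = 0 → ∀ c : F, c ≠ 0 →
      (∀ s, s ≠ i → s ≠ j → s ≠ k → polar Q (e s) y = c * polar Q (e s) v) →
      polar Q (e l) v ^ 2 = polar Q (e m) v ^ 2 := fun y b1 a ha b2 c b3 b4 => by
    have := H y b1 ((Finset.card_le_card (t := ({i, j, k, l, m} : Finset ι).erase a) fun s hs =>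
      Finset.mem_erase.mpr ⟨fun h => mem_spt.mp hs (h ▸ b2), by_contra fun h => ?_⟩).trans ?_)
      l (by simp [mem_spt, b4 l hli hlj hlk, b3, mem_spt.mp hl])
      m (by simp [mem_spt, b4 m hmi hmj hmk, b3, mem_spt.mp hm])
    · rw [b4 l hli hlj hlk, b4 m hmi hmj hmk, mul_pow, mul_pow] at this
      exact mul_left_cancel₀ (pow_ne_zero 2 b3) this
    · refine mem_spt.mp hs ?_
      rw [b4 s, not_not.mp (mt mem_spt.mpr fun h' => h (h1 h')), mul_zero] <;>
        exact fun h' => h (by simp [h'])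
    · rw [Finset.card_erase_of_mem (by rcases Finset.mem_insert.mp ha with h | h <;> simp_all)]
      have := Finset.card_le_five (a := i) (b := j) (c := k) (d := l) (e := m)
      omega
  rcases h.step1 hM hv (h.not_mem_span hi hij) with ⟨y, b1, b2, c, b3, b4⟩ | ⟨w, b1, ε, b2, b3⟩
  · exact a1 y b1 j (by simp) b2 c b3 fun s _ h _ => b4 s h
  rcases h.step1 hM hv (h.not_mem_span hi hik) with ⟨y, c1, c2, c, c3, c4⟩ | ⟨w', c1, ε', c2, c3⟩
  · exact a1 y c1 k (by simp) c2 c c3 fun s _ _ h => c4 s h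
  obtain ⟨D, d1, -, y, d2, d3, d4, -⟩ := h.odd_odd hM hv b1 c1 b2 c2 b3 c3 (h.not_mem_span hi hij)
    (h.not_mem_span hi hik) hjk hij hik
  exact a1 y d2 j (by simp) d3 (-polar Q (e i) v / D) (by simp [d1, mem_spt.mp hi])
    fun s e1 e2 e3 => by field_simp; linear_combination d4 s e1 e2 e3

variable [Fintype F] (hp : (Fintype.card F).Prime) (hn : 9 ≤ Fintype.card ι)
include hp hn

theorem fin_le {T : Finset ι} (hT : T.card ≤ 3) (hu : spt Q e u ⊆ T) (hi : i ∈ spt Q e u)
    (H : ∀ x, spt Q e x ⊆ T → polar Q u x = 0 → AS M u x) (hk : k ∉ T) (h1 : AS M u (e k)) :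
    Om Q ≤ M := by
  have := h.fin
  have z : ∀ a ∉ T, polar Q (e a) u = 0 := fun a ha => not_not.mp (mt mem_spt.mpr fun h => ha (hu h))
  have h2 : ∀ l ∉ T, AS M u (e l) := fun l hl => by
    by_cases hkl : k = l
    · rwa [← hkl]
    obtain ⟨m, hm⟩ := exists_not_mem (insert k (insert l T)) ((Finset.card_insert_le _ _).trans_lt
      (by have := Finset.card_insert_le l T; omega))
    simp only [Finset.mem_insert, not_or] at hm
    have := h1.map ((h.cl_root hM hkl (one_mul 1) hkl (one_mul 1)).mul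
      (h.cl_root hM hkl (one_mul 1) (Ne.symm hm.2.1) (one_mul 1)))
    rwa [OG_mul_apply, OG_mul_apply, h.refl_root_ne (Ne.symm hkl) hm.1, h.refl_root hkl (one_mul 1),
      one_smul F (e l), refl_apply_of_perp (x := u), refl_apply_of_perp] at this <;>
      simp [z, hk, hl, hm]
  have h3 : EO M u := ⟨h1.Qu, fun x hx => by
    have a1 : AS M u (∑ a ∈ Tᶜ, polar Q (e a) x • e a) := AS.sum _ h1.Qu fun a ha =>
      (h2 a (Finset.mem_compl.mp ha)).smul_prime hp _
    simpa using (H (x - ∑ a ∈ Tᶜ, polar Q (e a) x • e a) (fun a ha => by_contra fun H => by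
      simp [mem_spt, polar_sum_right, h.pol, H] at ha) (by simp [hx, a1.ua])).add a1⟩
  refine Om_le_of_EO h.nd (by rw [h.finrank_eq]; omega) h3 (h3.map (h.d_mem hM i k)) ?_
  have hik : i ≠ k := fun h => hk (by rw [← h]; exact hu hi)
  rw [h.d_apply hik, z k hk]
  simp [h1.Qu, polar_comm Q u, mem_spt.mp hi, h.two]

theorem as_of_sq {T : Finset ι} (H : ∀ v w, spt Q e v ⊆ T → spt Q e w ⊆ T → Q v ≠ 0 → Q w = Q v →
    refl Q v * refl Q w * (refl Q v * refl Q w) ∈ M) (hu : spt Q e u ⊆ T) (hx : spt Q e x ⊆ T)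
    (h1 : Q u = 0) (h2 : polar Q u x = 0) (h3 : Q x ≠ 0) : AS M u x := by
  have := H x (x - Q x • u) hx (fun a ha => by_contra fun H => by
    simp [mem_spt, not_not.mp (mt mem_spt.mpr fun h => H (hx h)),
      not_not.mp (mt mem_spt.mpr fun h => H (hu h))] at ha) h3 (by
        simp [Q_sub, Q_smul, h1, polar_comm Q x, h2])
  rw [← sieg_eq_refl_mul_refl h1 h2 h3, ← sieg_add h1 h2 h2] at this
  simpa [← two_smul F, smul_smul, h.two] using AS.smul_prime hp ⟨h1, by simp [h2], this⟩ 2⁻¹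

theorem le_of_three (hij : i ≠ j) (hik : i ≠ k) (hjk : j ≠ k) (hf : Cl M (e b) f)
    (h1 : spt Q e f ⊆ {i, j, k}) (h2 : refl Q f ∉ Mon Q e) (h3 : (3 : F) ≠ 0) : Om Q ≤ M := by
  have t2 := h.two
  have K := fun v w => h.sq_mem hp hM (by omega) hij hik hjk hf h1 h2 (v := v) (w := w)
  have s : ∀ {i j k} (x y z : F), spt Q e (x • e i + y • e j + z • e k) ⊆ {i, j, k} :=
    fun x y z a ha => by_contra fun H => by
      simp only [Finset.mem_insert, Finset.mem_singleton, not_or] at H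
      simp [mem_spt, h.pol, H] at ha
  have p : ∀ {i j k : ι}, i ≠ j → i ≠ k → j ≠ k → ∀ x y z : F,
      Q (x • e i + y • e j + z • e k) = (x ^ 2 + y ^ 2 + z ^ 2) / 2 := fun h1 h2 h3 x y z => by
    simp [Q_add, Q_smul, h.Q_e, h.pol, h1, h2, h3]; ring
  by_cases hs : ∃ t : F, t ^ 2 = -1
  · obtain ⟨t, ht⟩ := hs
    have a1 : Q ((1 : F) • e i + t • e j + (0 : F) • e k) = 0 := by rw [p hij hik hjk]; simp [ht]
    refine h.fin_le hM hp hn (T := {i, j}) (Finset.card_le_two.trans (by omega))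
      (u := (1 : F) • e i + t • e j + (0 : F) • e k) (by simpa using h.spt_pair i j 1 t) (i := i)
      (by simp [mem_spt, h.pol, hij]) (fun x b1 b2 => ?_) (k := k) (by simp [hik.symm, hjk.symm])
      (h.as_of_sq hM hp hn K (s ..) (by simpa using s (i := i) (j := j) (k := k) 0 0 1) a1
        (by simp [h.pol, hik, hjk]) (h.Q_ne k))
    convert AS.self a1 (polar Q (e i) x) using 1
    refine h.ext fun a => ?_
    by_cases c1 : a = i
    · simp [c1, h.pol, hij]
    by_cases c2 : a = j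
    · simp [h.pol] at b2
      simp [c2, h.pol, hij.symm]
      linear_combination -t * b2 + polar Q (e j) x * ht
    · have : a ∉ ({i, j} : Finset ι) := by simp [c1, c2]
      simp [h.pol, c1, c2, not_not.mp (mt mem_spt.mpr fun h => this (b1 h))]
  have := Fact.mk hp
  have : CharP F (Fintype.card F) := charP_of_card_eq_prime rfl
  obtain ⟨x, y, hxy⟩ := CharP.sq_add_sq F (Fintype.card F) (-1)
  generalize (x : F) = x, (y : F) = y at hxy
  push_cast at hxy
  have x0 : x ≠ 0 := fun h => hs ⟨y, by simpa [h] using hxy⟩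
  obtain ⟨l, hl⟩ := exists_not_mem ({i, j, k} : Finset ι) (Finset.card_le_three.trans_lt (by omega))
  obtain ⟨m, n, hmn, hm, hn'⟩ := exists_two_not_mem (insert l {i, j, k} : Finset ι)
    (by have := Finset.card_le_four (a := l) (b := i) (c := j) (d := k); omega)
  have hl' := hl
  simp only [Finset.mem_insert, Finset.mem_singleton, not_or] at hl hm hn'
  have a1 : Q (x • e i + y • e j + (1 : F) • e k) = 0 := by simp [p hij hik hjk, hxy, -one_smul]
  have a2 : AS M (x • e i + y • e j + (1 : F) • e k) (y • e i + -x • e j + (0 : F) • e k) :=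
    h.as_of_sq hM hp hn K (s ..) (s ..) a1
      (by simp [h.pol, hij, hik, hjk, hij.symm, hik.symm, hjk.symm]; ring)
      (by rw [p hij hik hjk]; simp [add_comm, hxy, t2])
  refine h.fin_le hM hp hn Finset.card_le_three (s x y 1) (i := i) (by simp [mem_spt, h.pol, hij, hik, x0])
    (fun z b1 b2 => ?_) hl' ?_
  · convert (AS.self a1 (polar Q (e k) z)).add (a2.smul_prime hp
      ((polar Q (e k) z * y - polar Q (e j) z) / x)) using 1
    refine h.ext fun a => ?_
    simp [h.pol] at b2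
    by_cases c1 : a = i
    · simp [c1, h.pol, hij, hik]; field_simp
      linear_combination b2 - polar Q (e k) z * hxy
    by_cases c2 : a = j
    · simp [c2, h.pol, hij.symm, hjk]; field_simp; ring
    by_cases c3 : a = k
    · simp [c3, h.pol, hik.symm, hjk.symm]
    · simp [h.pol, c1, c2, c3, h.zero_of b1 c1 c2 c3]
  have g1 := (h.cl_root hM (Ne.symm hl.2.2) (one_mul 1) (Ne.symm hl.2.2) (one_mul 1)).mul
    (h.cl_root hM (Ne.symm hl.2.2) (one_mul 1) hmn (one_mul 1))
  have g2 := mul_mem (h.refl_root_mem (Ne.symm hl.2.2) (one_mul 1)) (h.refl_root_mem hmn (one_mul 1))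
  have z := fun a => h.zero_of (a := a) h1
  have t4 : (4 : F) ≠ 0 := by rw [show (4 : F) = 2 * 2 by norm_num]; exact mul_ne_zero t2 t2
  have a3 : Q ((3 / 4 * y) • e i + (-(3 / 4) * x) • e j + (5 / 4 : F) • e l) = Q (e l) := by
    rw [p hij (Ne.symm hl.1) (Ne.symm hl.2.1), h.Q_e]; field_simp; linear_combination 9 * hxy
  have K' := h.sq_mem hp hM (by omega) hij (Ne.symm hl.1) (Ne.symm hl.2.1) (h.cl_map hM g1 g2 hf)
    (fun a ha => by_contra fun H => by
      simp only [Finset.mem_insert, Finset.mem_singleton, not_or] at H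
      by_cases c : a = k <;>
        simp [mem_spt, OG_mul_apply, refl_apply, h.Q_root, hmn, Ne.symm hl.2.2, z, hm, hn', hl, h.pol,
          H, c, -one_smul] at ha)
    (fun H => h2 (by simpa [← conj_refl, mul_assoc] using mul_mem (mul_mem (inv_mem g2) H) g2))
    (by simpa using s (i := i) (j := j) (k := l) 0 0 1) (s (3 / 4 * y) (-(3 / 4) * x) (5 / 4))
    (h.Q_ne l) a3
  have a4 := a2.fix K' (by
    simp only [OG_mul_apply]
    rw [refl_apply_of_perp (x := _ + _), refl_apply_of_perp (x := _ + _),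
      refl_apply_of_perp (x := _ + _), refl_apply_of_perp] <;>
      simp [h.pol, hl, hij, hik, hjk, hij.symm, mul_comm, mul_left_comm])
  have a5 : ∀ n : F, n = 5 ∨ n = 17 → n ≠ 0 := by
    rintro _ (rfl | rfl) H
    exacts [hs ⟨2, by linear_combination H⟩, hs ⟨4, by linear_combination H⟩]
  have t5 := a5 _ (Or.inl rfl)
  have t17 := a5 _ (Or.inr rfl)
  have a6 : polar Q (e l) (y • e i + -x • e j + (0 : F) • e k) = 0 := by simp [h.pol, hl]
  have a7 : polar Q (y • e i + -x • e j + (0 : F) • e k) (y • e i + -x • e j + (0 : F) • e k) = -1 := by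
    simp [h.pol, hij, hij.symm, -polar_self]; linear_combination hxy
  rw [show (3 / 4 * y) • e i + (-(3 / 4) * x) • e j + (5 / 4 : F) • e l =
    (3 / 4 : F) • (y • e i + -x • e j + (0 : F) • e k) + (5 / 4 : F) • e l by module] at a3 a4
  generalize y • e i + -x • e j + (0 : F) • e k = a at a2 a3 a4 a6 a7
  convert ((a2.smul_prime hp ((17 ^ 2 + 15 ^ 2) / 4 ^ 3 - 1)).sub a4).smul_prime hp
    (4 ^ 3 / (2 * 17 * 3 * 5)) using 1
  simp only [OG_mul_apply, refl_apply, a3, h.Q_e, inv_inv, polar_add_left, polar_add_right,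
    polar_sub_right, polar_smul_left, polar_smul_right, h.pol_self, a6, a7,
    (polar_comm Q a _).trans a6, smul_eq_mul]
  match_scalars <;> field_simp <;> ring

theorem le_of_four (hij : i ≠ j) (hik : i ≠ k) (hil : i ≠ l) (hjk : j ≠ k) (hjl : j ≠ l) (hkl : k ≠ l)
    (hf : Cl M (e b) ((2⁻¹ : F) • (e i + e j + e k + e l)))
    (H : ∀ y, Cl M (e b) y → (spt Q e y).card < 4 → refl Q y ∈ Mon Q e) : Om Q ≤ M := by
  have t2 := h.two
  obtain ⟨m, hm⟩ := exists_not_mem ({i, j, k, l} : Finset ι) (Finset.card_le_four.trans_lt (by omega))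
  obtain ⟨n, o, hno, hn', ho⟩ := exists_two_not_mem ({m, i, j, k, l} : Finset ι)
    (by have := Finset.card_le_five (a := m) (b := i) (c := j) (d := k) (e := l); omega)
  simp only [Finset.mem_insert, Finset.mem_singleton, not_or] at hm hn' ho
  have g0 : ∀ a, a ≠ m → ∀ v, Cl M (e b) v → polar Q (e n - (1 : F) • e o) v = 0 →
      Cl M (e b) ((refl Q (e a - (1 : F) • e m)).1 v) := fun a ha v h1 h2 => by
    have := h.cl_map hM ((h.cl_root hM ha (one_mul 1) ha (one_mul 1)).mul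
      (h.cl_root hM ha (one_mul 1) hno (one_mul 1)))
      (mul_mem (h.refl_root_mem ha (one_mul 1)) (h.refl_root_mem hno (one_mul 1))) h1
    rwa [OG_mul_apply, refl_apply_of_perp h2] at this
  by_cases h3 : (3 : F) = 0
  · have a1 : Q (e i + e j + e k) = 0 := by
      simp [Q_add, h.Q_e, h.pol, hij, hik, hjk]; field_simp; linear_combination h3
    have a2 : AS M (e i + e j + e k) (e i - (1 : F) • e j) := by
      have b1 : polar Q (e i + e j + e k) (e i - (1 : F) • e j) = 0 := by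
        simp [h.pol, hij, hij.symm, hik.symm, hjk.symm]
      refine ⟨a1, b1, ?_⟩
      rw [sieg_eq_refl_mul_refl a1 b1 (by simp [h.Q_root hij, -one_smul]), h.Q_root hij (one_mul 1),
        show e i - (1 : F) • e j - (1 : F) • (e i + e j + e k) = e j - (1 : F) • e k by
          linear_combination (norm := module) h3 • -e j]
      exact (h.cl_root hM hij (one_mul 1) hij (one_mul 1)).mul (h.cl_root hM hij (one_mul 1) hjk (one_mul 1))
    refine h.fin_le hM hp hn (T := {i, j, k}) (u := e i + e j + e k) Finset.card_le_three (fun a ha => by_contra fun H => by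
        simp only [Finset.mem_insert, Finset.mem_singleton, not_or] at H
        simp [mem_spt, h.pol, H] at ha) (i := i) (by simp [mem_spt, h.pol, hij, hik])
      (fun x b1 b2 => ?_) (k := l) (by simp [hil.symm, hjl.symm, hkl.symm]) ?_
    · convert (AS.self a1 (polar Q (e k) x)).add (a2.smul_prime hp
        (polar Q (e i) x - polar Q (e k) x)) using 1
      refine h.ext fun a => ?_
      simp only [polar_add_left] at b2
      by_cases c1 : a = i
      · simp [c1, h.pol, hij, hik]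
      by_cases c2 : a = j
      · simp [c2, h.pol, hij.symm, hjk]; linear_combination b2 - polar Q (e k) x * h3
      by_cases c3 : a = k
      · simp [c3, h.pol, hik.symm, hjk.symm]
      · simp [h.pol, c1, c2, c3, h.zero_of b1 c1 c2 c3]
    have a3 := g0 k (Ne.symm hm.2.2.1) _ ((h.cl_e hM b j).refl' hf)
      (by simp [h.refl_e, h.pol, hn', ho])
    have a4 : (refl Q (e k - (1 : F) • e m)).1 ((refl Q (e j)).1 ((2⁻¹ : F) • (e i + e j + e k + e l))) =
        (2⁻¹ : F) • (e i - (1 : F) • e j + (e l + e m)) := by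
      simp only [h.refl_e, map_smul, map_add, map_sub, h.pol, hij.symm, hjk, hjl, if_true, if_false,
        polar_smul_right, polar_add_right, smul_eq_mul,
        h.refl_root (Ne.symm hm.2.2.1) (one_mul 1), h.refl_root_ne hik.symm hm.1,
        h.refl_root_ne hjk.symm hm.2.1, h.refl_root_ne hkl hm.2.2.2]
      match_scalars <;> field_simp <;> ring
    rw [a4] at a3
    have a5 := a2.fix (a3.mul (h.cl_e hM b n)) (by
      rw [OG_mul_apply, refl_apply_of_perp (x := _ + _), refl_apply_of_perp] <;>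
        simp [h.pol, hn', hm, hij, hik, hjk, hij.symm, hil.symm, hjl.symm, hkl.symm])
    have a6 : AS M (e i + e j + e k) (e l + e m) := by
      convert a5.neg.sub a2 using 1
      rw [OG_mul_apply, refl_apply_of_perp (x := _ - _) (by simp [h.pol, hn']), refl_apply, a3.1, h.Q_e]
      simp only [polar_add_left, polar_sub_left, polar_sub_right, polar_smul_left, polar_smul_right,
        h.pol, hij, hij.symm, hil.symm, hjl.symm, hm, if_true, if_false, smul_eq_mul]
      match_scalars <;> field_simp <;> ring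
    convert (a6.fix (h.d_mem hM l n) (by
      rw [h.d_apply (Ne.symm hn'.2.2.2.2)]; simp [h.pol, hn', hil.symm, hjl.symm, hkl.symm])).smul_prime hp
        (-2⁻¹) using 1
    rw [h.d_apply (Ne.symm hn'.2.2.2.2)]
    simp only [polar_add_right, h.pol, hn', Ne.symm hm.2.2.2, if_true, if_false]
    match_scalars <;> field_simp <;> ring
  have a3 := g0 l (Ne.symm hm.2.2.2) _ hf (by simp [h.pol, hn', ho])
  simp only [map_smul, map_add, h.refl_root (Ne.symm hm.2.2.2) (one_mul 1),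
    h.refl_root_ne hil.symm hm.1, h.refl_root_ne hjl.symm hm.2.1, h.refl_root_ne hkl.symm hm.2.2.1] at a3
  have a4 := hf.refl' a3
  have t4 : (4 : F) ≠ 0 := by rw [show (4 : F) = 2 * 2 by norm_num]; exact mul_ne_zero t2 t2
  rw [show (refl Q ((2⁻¹ : F) • (e i + e j + e k + e l))).1 ((2⁻¹ : F) • (e i + e j + e k + (1 : F) • e m)) =
      (4⁻¹ : F) • ((2 : F) • e m - e i - e j - e k - (3 : F) • e l) by
    rw [refl_apply, hf.1, h.Q_e]
    simp only [polar_add_left, polar_add_right, polar_smul_left, polar_smul_right, h.pol, hij, hik, hjk,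
      hij.symm, hik.symm, hjk.symm, hil.symm, hjl.symm, hkl.symm, Ne.symm hm.1, Ne.symm hm.2.1,
      Ne.symm hm.2.2.1, Ne.symm hm.2.2.2, if_true, if_false, smul_eq_mul]
    match_scalars <;> field_simp <;> ring] at a4
  have := h.eq_sq5 hM (fun y b1 b2 l hl m hm => by
    by_cases b3 : refl Q y ∈ Mon Q e
    · exact h.sq_of_mon (b1.1 ▸ h.Q_ne b) b3 hl hm
    have b4 := (h.four hM b1 (by_contra fun h => b3 (H y b1 (by omega)))
      fun z c1 c2 => H z c1 (by omega)).2
    exact mul_left_cancel₀ t4 ((b4 l hl).trans (b4 m hm).symm)) a4 (i := i) (j := j) (k := l) (l := k)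
    (m := m) (fun a ha => by_contra fun H => by
      simp only [Finset.mem_insert, Finset.mem_singleton, not_or] at H
      simp [mem_spt, h.pol, H] at ha)
    (by simp [mem_spt, h.pol, hij, hik, hil, Ne.symm hm.1, t4])
    (by simp [mem_spt, h.pol, hik.symm, hjk.symm, hkl, Ne.symm hm.2.2.1, t4])
    (by simp [mem_spt, h.pol, hm, t2, t4]) hij hil hjl hik.symm hjk.symm hkl hm.1 hm.2.1 hm.2.2.2
  simp [h.pol, hik.symm, hjk.symm, hkl, Ne.symm hm.2.2.1, hm] at this
  field_simp at this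
  exact (h3 (by linear_combination -this)).elim

theorem Om_le (hg : g ∈ M) (hg' : g ∉ Mon Q e) : Om Q ≤ M := by
  by_cases h0 : ∀ g ∈ M, ∀ a b, ∀ c : F, g.1 (e a) = c • e b → g ∈ Mon Q e
  · exact (hg' (FrH.le_Mon ⟨h, hn, hM, h0⟩ hg)).elim
  push Not at h0
  obtain ⟨g, hg, a, b, c, h1, h2⟩ := h0
  obtain ⟨f, ⟨h3, h4⟩, h5⟩ := (measure fun f => (spt Q e f).card).wf.has_min _ (h.exists_cl hM hg h1 h2 b)
  replace h5 : ∀ y, Cl M (e b) y → (spt Q e y).card < (spt Q e f).card → refl Q y ∈ Mon Q e :=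
    fun y b1 b2 => by_contra fun b3 => h5 y ⟨b1, b3⟩ b2
  rcases lt_or_ge (spt Q e f).card 4 with h6 | h6
  · by_cases h7 : (3 : F) = 0
    · have b1 : ∀ x : F, x ≠ 0 → x * x = 1 := fun x hx => by
        have := Fact.mk hp
        have : CharP F (Fintype.card F) := charP_of_card_eq_prime rfl
        have b2 := (Nat.prime_dvd_prime_iff_eq hp Nat.prime_three).mp
          ((CharP.cast_eq_zero_iff F _ 3).mp (by exact_mod_cast h7))
        simpa [b2, pow_two] using FiniteField.pow_card_sub_one_eq_one x hx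
      have b2 : ((spt Q e f).card : F) = 1 := by
        rw [← mul_inv_cancel₀ h.two, ← h.Q_e b, ← h3.1, ← polar_self', h.pol_eq, Finset.card_eq_sum_ones,
          Nat.cast_sum, ← Finset.sum_subset (Finset.subset_univ (spt Q e f)) fun a _ ha => by
            rw [not_not.mp (mt mem_spt.mpr ha), zero_mul]]
        exact Finset.sum_congr rfl fun a ha => by rw [b1 _ (mem_spt.mp ha), Nat.cast_one]
      obtain ⟨i, hi⟩ := Finset.card_eq_one.mp (show (spt Q e f).card = 1 by
        generalize (spt Q e f).card = n at b2 h6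
        interval_cases n
        · simp at b2
        · rfl
        · exact (one_ne_zero (by linear_combination b2 : (1 : F) = 0)).elim
        · exact (one_ne_zero (by linear_combination h7 - b2 : (1 : F) = 0)).elim)
      have := h.mem_span hi.le
      rw [Finset.coe_singleton, Set.image_singleton, Submodule.mem_span_singleton] at this
      obtain ⟨c, rfl⟩ := this
      exact (h4 (by
        rw [refl_smul fun H => h.Q_ne b (by simpa [H] using h3.1.symm)]; exact h.refl_e_mem i)).elim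
    obtain ⟨T, b1, b2⟩ := Finset.exists_superset_card_eq (n := 3) (s := spt Q e f) (by omega) (by omega)
    obtain ⟨i, j, k, c1, c2, c3, rfl⟩ := Finset.card_eq_three.mp b2
    exact h.le_of_three hM hp hn c1 c2 c3 h3 b1 h4 h7
  obtain ⟨h7, h8⟩ := h.four hM h3 h6 h5
  obtain ⟨s, s1, s2⟩ : ∃ s : ι → F, (∀ i, s i * s i = 1) ∧ ∀ i ∈ spt Q e f, s i = 2 * polar Q (e i) f :=
    ⟨fun i => if i ∈ spt Q e f then 2 * polar Q (e i) f else 1, fun i => by
      dsimp only
      split_ifs with hi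
      exacts [by linear_combination h8 i hi, one_mul 1], fun i hi => if_pos hi⟩
  have o : ON Q fun i => s i • e i := ⟨h.two, fun i j => by
    by_cases hij : i = j <;> simp [h.pol, hij, s1, -polar_self], fun x => by
      simpa [smul_smul, mul_right_comm _ _ (s _), s1] using h.sum x⟩
  have s0 := fun i => left_ne_zero_of_mul_eq_one (s1 i)
  have b1 : Mon Q (fun i => s i • e i) = Mon Q e := congrArg (mapS Q) (Set.ext fun x =>
    ⟨fun ⟨j, c, h⟩ => ⟨j, c * s j, by rw [h, smul_smul]⟩,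
      fun ⟨j, c, h⟩ => ⟨j, c * s j, by rw [h, smul_smul, mul_assoc, s1, mul_one]⟩⟩)
  have b2 : ∀ y, Cl M (s b • e b) y ↔ Cl M (e b) y := fun y => by
    simp [Cl, Q_smul, pow_two, s1, refl_smul (s0 b)]
  obtain ⟨i, j, k, l, c1, c2, c3, c4, c5, c6, c7⟩ := Finset.card_eq_four.mp h7
  refine o.le_of_four (b1 ▸ hM) hp hn c1 c2 c3 c4 c5 c6 (b := b) ((b2 _).mpr ?_) fun y d1 d2 =>
    b1 ▸ h5 y ((b2 y).mp d1) (by convert d2 using 2; ext; simp [mem_spt, s0])
  convert h3
  rw [← h.sum f, ← Finset.sum_subset (Finset.subset_univ (spt Q e f)) fun a _ ha => by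
    rw [not_not.mp (mt mem_spt.mpr ha), zero_smul]]
  simp [c7] at s2
  simp [c7, c1, c2, c3, c4, c5, c6, s2, smul_smul, h.two, add_assoc]

end ON

end Cfsg.Agent.H18
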