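import Mathlib
import Cfsg.Agent.H18.OMxE
import Cfsg.Agent.H12.FldC

/-!
Unitary subgroups of orthogonal groups.
-/

set_option autoImplicit false

namespace Cfsg.Agent.H18

open Module QuadraticMap H13

variable {F V : Type*} [Field F] [AddCommGroup V] [Module F V] {Q : QuadraticForm F V}
  {M : Subgroup (OG Q)} {u a b c x y : V} {W : Submodule F V} {ω : V →ₗ[F] V} {t d : F}

/-- vectors all of whose multiples give Siegel elements in `M` -/
def BS (M : Subgroup (OG Q)) (hu : Q u = 0) : Submodule F V where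
  carrier := {c | ∀ s : F, AS M u (s • c)}
  add_mem' ha hb s := by rw [smul_add]; exact (ha s).add (hb s)
  zero_mem' s := by rw [smul_zero]; exact AS.zero hu
  smul_mem' r c hc s := by rw [smul_smul]; exact hc _

theorem BS.as {hu : Q u = 0} (h : c ∈ BS M hu) : AS M u c := one_smul F c ▸ h 1

theorem exists_polar_ne [FiniteDimensional F V] (hQ : ND Q) (h : 2 * finrank F W < finrank F V) :
    ∃ a ∈ perp Q W, ∃ b ∈ perp Q W, polar Q a b ≠ 0 := by
  by_contra! H
  have := Submodule.finrank_mono (show perp Q W ≤ W from fun x hx =>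
    (hQ.perp_perp W).le fun y hy => H y hy x hx)
  have := hQ.finrank_perp W
  omega

theorem exists_sing_notMem' [FiniteDimensional F V] [Finite F] {P : Submodule F V}
    (h : finrank F W + 3 ≤ finrank F P) : ∃ z ∈ P, Q z = 0 ∧ z ∉ W := by
  obtain ⟨W', hW⟩ := W.exists_isCompl
  obtain ⟨z, h1, h2, h3⟩ := exists_singular_mem Q (H := P ⊓ W') (by
    have := Submodule.finrank_sup_add_finrank_inf_eq P W'
    have := Submodule.finrank_le (P ⊔ W')
    have := Submodule.finrank_add_eq_of_isCompl hW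
    omega)
  exact ⟨z, h1.1, h3, fun h4 => h2 (Submodule.disjoint_def.mp hW.disjoint z h4 h1.2)⟩

theorem finrank_sp_sup [FiniteDimensional F V] (a b c d : V) : finrank F ↥(sp F a b ⊔ sp F c d) ≤ 4 :=
  (Submodule.finrank_add_le_finrank_add_finrank _ _).trans
    (add_le_add (finrank_span_pair_le a b) (finrank_span_pair_le c d))

/-- `ω` generates a quadratic extension over which the form is hermitian -/
structure UO (Q : QuadraticForm F V) (ω : V →ₗ[F] V) (t d : F) : Prop where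
  sq : ∀ x, ω (ω x) = t • ω x - d • x
  adj : ∀ x y, polar Q (ω x) y = t * polar Q x y - polar Q x (ω y)
  Qw : ∀ x, Q (ω x) = d * Q x
  tr : ∀ x, polar Q x (ω x) = t * Q x
  irr : ∀ s r : F, s ^ 2 + s * r * t + r ^ 2 * d = 0 → r = 0

namespace UO
variable (h : UO Q ω t d)
include h

theorem mem_of (hW : ∀ x ∈ W, ω x ∈ W) {s r : F} (h1 : s • x + r • ω x ∈ W) (h2 : x ∉ W) :
    s = 0 ∧ r = 0 := by
  have h3 := sub_mem (W.smul_mem (s + r * t) h1) (W.smul_mem r (hW _ h1))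
  rw [map_add, map_smul, map_smul, h.sq, show (s + r * t) • (s • x + r • ω x) -
    r • (s • ω x + r • (t • ω x - d • x)) = (s ^ 2 + s * r * t + r ^ 2 * d) • x by module] at h3
  have h4 : s ^ 2 + s * r * t + r ^ 2 * d = 0 := by
    by_contra h4; exact h2 ((W.smul_mem_iff h4).mp h3)
  have h5 := h.irr s r h4
  exact ⟨by simpa [h5] using h4, h5⟩

theorem inv : ∀ x ∈ sp F u (ω u), ω x ∈ sp F u (ω u) := fun x hx => by
  obtain ⟨s, r, rfl⟩ := Submodule.mem_span_pair.mp hx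
  exact Submodule.mem_span_pair.mpr ⟨-(r * d), s + r * t, by simp [h.sq]; module⟩

theorem mem_symm (h1 : x ∈ sp F u (ω u)) (h0 : x ≠ 0) : u ∈ sp F x (ω x) := by
  obtain ⟨s, r, h2⟩ := Submodule.mem_span_pair.mp h1
  by_contra h3
  obtain ⟨rfl, rfl⟩ := h.mem_of h.inv (h2 ▸ (sp_le.mp le_rfl).1 : s • u + r • ω u ∈ sp F x (ω x)) h3
  exact h0 (by simpa using h2.symm)

theorem mem_perp_iff : x ∈ perp Q (sp F u (ω u)) ↔ polar Q x u = 0 ∧ polar Q (ω x) u = 0 := by
  rw [mem_perp_pair, h.adj x, polar_comm Q u, polar_comm Q (ω u)]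
  exact and_congr_right fun h1 => by simp [h1]

theorem perp_symm (h1 : x ∈ perp Q (sp F u (ω u))) : u ∈ perp Q (sp F x (ω x)) :=
  mem_perp_pair.mpr (h.mem_perp_iff.mp h1)

theorem inv_perp (h1 : x ∈ perp Q (sp F u (ω u))) : ω x ∈ perp Q (sp F u (ω u)) := by
  rw [h.mem_perp_iff] at h1 ⊢
  simp [h.sq, h1]

theorem self_perp (hu : Q u = 0) : u ∈ perp Q (sp F u (ω u)) :=
  mem_perp_pair.mpr ⟨by simp [hu], by rw [polar_comm, h.tr, hu, mul_zero]⟩

theorem comm (hb : Q b = 0) (μ : F) (x : V) :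
    (sieg Q b (μ • ω b)).1 (ω x) = ω ((sieg Q b (μ • ω b)).1 x) := by
  have h1 : polar Q b (μ • ω b) = 0 := by simp [h.tr, hb]
  have h2 : polar Q b (ω x) = t * polar Q b x - polar Q (ω b) x := by rw [h.adj]; ring
  have h3 : polar Q (ω b) (ω x) = d * polar Q b x := by
    have := h.adj (ω b) x
    rw [h.sq] at this
    simp at this
    linear_combination -this
  simp only [sieg_apply hb h1, Q_smul, h.Qw, hb, polar_smul_left, h2, h3, map_add, map_sub, map_smul,
    h.sq, smul_eq_mul]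
  module

variable [FiniteDimensional F V] [Finite F] (hQ : ND Q) (hn : 9 ≤ finrank F V)
  (hT : ∀ b (μ : F), Q b = 0 → AS M b (μ • ω b))
include hT

omit [FiniteDimensional F V] [Finite F] in
theorem act (ha : AS M u a) (hc : Q c = 0) (h1 : c ∈ perp Q (sp F u (ω u))) :
    polar Q (ω c) a • c - polar Q c a • ω c ∈ BS M ha.Qu := fun μ => by
  have h2 := h.mem_perp_iff.mp h1
  convert ha.act (hT c μ hc) h2.1 (by simp [h2.2]) using 1
  simp [Q_smul, h.Qw, hc]; module

include hQ hn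

omit [Finite F] in
theorem perp_le (hu : Q u = 0) (ha : AS M u a) (h1 : Q a = 0) (h2 : a ∈ perp Q (sp F u (ω u)))
    (h3 : a ∉ sp F u (ω u)) (hc : c ∈ perp Q (sp F u (ω u))) (h4 : polar Q c a = 0) :
    c ∈ BS M hu := by
  have a1 := mem_perp_pair.mp (h.self_perp h1)
  have a2 : ∀ c ∈ perp Q (sp F u (ω u)), polar Q c a = 0 → polar Q c (ω a) = 1 →
      c - Q c • ω a ∈ BS M hu := fun c b1 b2 b3 => by
    have b4 := h.act hT ha (c := c - Q c • ω a) (by simp [Q_sub, Q_smul, h.Qw, h1, b3])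
      (sub_mem b1 (Submodule.smul_mem _ _ (h.inv_perp h2)))
    rw [h.adj] at b4
    simpa [b2, b3, a1.2, h.Qw, h1] using neg_mem b4
  obtain ⟨c₀, b1, b2⟩ := hQ.exists_perp_one (sp F u (ω u) ⊔ F ∙ a) (x := ω a) fun b1 => by
    obtain ⟨y, hy, _, b2, b3⟩ := Submodule.mem_sup.mp b1
    obtain ⟨s, rfl⟩ := Submodule.mem_span_singleton.mp b2
    simpa using (h.mem_of h.inv (s := -s) (r := 1) (by simpa [← b3]) h3).2
  have b3 : c₀ ∈ perp Q (sp F u (ω u)) := fun y hy =>
    (polar_comm _ _ _).trans (b1 y (Submodule.mem_sup_left hy))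
  have b4 := b1 a (Submodule.mem_sup_right (Submodule.mem_span_singleton_self a))
  obtain ⟨w, c1, w', c2, c3⟩ := exists_polar_ne hQ (W := sp F u (ω u) ⊔ sp F a (ω a)) (by
    have := finrank_sp_sup (F := F) u (ω u) a (ω a); omega)
  rw [perp_sup] at c1 c2
  have c4 := mem_perp_pair.mp c1.2
  have c5 := mem_perp_pair.mp c2.2
  rw [polar_comm, polar_comm Q (ω a)] at c4 c5
  have c6 : ω a ∈ BS M hu := by
    have := sub_mem (add_mem (a2 _ (add_mem b3 c1.1) (by simp [b4, c4]) (by simp [b2, c4]))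
      (a2 _ (add_mem b3 c2.1) (by simp [b4, c5]) (by simp [b2, c5]))) (add_mem (a2 _ b3 b4 b2)
      (a2 _ (add_mem (add_mem b3 c1.1) c2.1) (by simp [b4, c4, c5]) (by simp [b2, c4, c5])))
    refine (Submodule.smul_mem_iff _ c3).mp ?_
    convert this using 1
    simp only [Q_add, polar_add_left]
    module
  have c7 : ∀ c ∈ perp Q (sp F u (ω u)), polar Q c a = 0 → polar Q c (ω a) = 1 → c ∈ BS M hu :=
    fun c d1 d2 d3 => by simpa using add_mem (a2 c d1 d2 d3) (Submodule.smul_mem _ (Q c) c6)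
  simpa using sub_mem (c7 _ (add_mem hc (Submodule.smul_mem _ (1 - polar Q c (ω a)) b3))
    (by simp [h4, b4]) (by simp [b2])) (Submodule.smul_mem _ (1 - polar Q c (ω a)) (c7 _ b3 b4 b2))

theorem pi (ha : AS M u a) (h3 : a ∉ sp F u (ω u)) : perp Q (sp F u (ω u)) ≤ BS M ha.Qu := by
  have a0 := hQ.perp_perp (sp F u (ω u))
  obtain ⟨c₁, a1, a2, a3⟩ := exists_sing_notMem' (Q := Q) (W := sp F u (ω u))
    (P := perp Q (sp F u (ω u))) (by
      have := hQ.finrank_perp (sp F u (ω u))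
      have : finrank F (sp F u (ω u)) ≤ 2 := finrank_span_pair_le _ _
      omega)
  obtain ⟨c, a4, a5, a6, a7⟩ : ∃ c ∈ perp Q (sp F u (ω u)), Q c = 0 ∧ c ∉ sp F u (ω u) ∧
      polar Q c a ≠ 0 := by
    by_contra! H
    obtain ⟨v, b1, b2⟩ := hQ.exists_perp_polar_ne a3
    refine h3 (a0.le fun y hy => singular_induction (p := fun y => polar Q y a = 0) a2 a1 b1 b2
      (fun x b3 b4 => ?_) (fun x _ y _ b3 b4 => by simp [b3, b4]) y hy)
    by_cases b5 : x ∈ sp F u (ω u)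
    · simpa [H c₁ a1 a2 a3] using H (c₁ + x) (add_mem a1 b3) (by
        rw [Q_add, a2, b4, perp_pair_zero a1 b5]; simp) (by rwa [Submodule.add_mem_iff_left _ b5])
    · exact H x b3 b4 b5
  have b1 := h.act hT ha a5 a4
  have b2 : polar Q (ω c) a • c - polar Q c a • ω c ∉ sp F u (ω u) := fun b2 => a7 (neg_eq_zero.mp
    (h.mem_of h.inv (s := polar Q (ω c) a) (by rwa [neg_smul, ← sub_eq_add_neg]) a6).2)
  have b3 := sub_mem (Submodule.smul_mem _ (polar Q (ω c) a) a4)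
    (Submodule.smul_mem _ (polar Q c a) (h.inv_perp a4))
  have b4 : Q (polar Q (ω c) a • c - polar Q c a • ω c) = 0 := by
    simp [Q_sub, Q_smul, h.Qw, h.tr, a5]
  generalize polar Q (ω c) a • c - polar Q c a • ω c = e at b1 b2 b3 b4
  have c1 := fun c => h.perp_le hQ hn hT (c := c) ha.Qu (BS.as b1) b4 b3 b2
  have c2 := h.inv_perp b3
  have c3 := fun c => h.perp_le hQ hn hT (c := c) ha.Qu (BS.as (c1 _ c2 (by
    rw [polar_comm, h.tr, b4, mul_zero]))) (by rw [h.Qw, b4, mul_zero]) c2 fun c3 => by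
      simpa using (h.mem_of h.inv (s := 0) (r := 1) (by simpa) b2).2
  obtain ⟨r, d1, d2⟩ := hQ.exists_perp_one (sp F u (ω u) ⊔ F ∙ e) (x := ω e) fun d1 => by
    obtain ⟨y, hy, _, d2, d3⟩ := Submodule.mem_sup.mp d1
    obtain ⟨s, rfl⟩ := Submodule.mem_span_singleton.mp d2
    simpa using (h.mem_of h.inv (s := -s) (r := 1) (by simpa [← d3]) b2).2
  have d3 : r ∈ perp Q (sp F u (ω u)) := fun y hy =>
    (polar_comm _ _ _).trans (d1 y (Submodule.mem_sup_left hy))
  intro p hp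
  simpa using add_mem (c3 _ (sub_mem hp (Submodule.smul_mem _ (polar Q p (ω e)) d3)) (by simp [d2]))
    (Submodule.smul_mem _ (polar Q p (ω e)) (c1 r d3
      (d1 e (Submodule.mem_sup_right (Submodule.mem_span_singleton_self e)))))

theorem pi_of_notMem {hu : Q u = 0} (h1 : perp Q (sp F u (ω u)) ≤ BS M hu) (hx : Q x = 0)
    (h2 : x ∉ perp Q (sp F u (ω u))) : perp Q (sp F x (ω x)) ≤ BS M hx := by
  obtain ⟨c, a1, a2, a3⟩ := exists_singular_mem Q (H := perp Q (sp F u (ω u) ⊔ sp F x (ω x))) (by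
    have := hQ.finrank_perp (sp F u (ω u) ⊔ sp F x (ω x))
    have := finrank_sp_sup (F := F) u (ω u) x (ω x)
    omega)
  rw [perp_sup] at a1
  exact h.pi hQ hn hT ((BS.as (h.pi hQ hn hT ((BS.as (h1 a1.1)).swap a3) (fun a4 => h2
    (h.perp_symm (sp_le.mpr ⟨a1.2, h.inv_perp a1.2⟩ a4))) (h.perp_symm a1.2))).swap hx)
    fun a4 => h2 (sp_le.mpr ⟨a1.1, h.inv_perp a1.1⟩ (h.mem_symm a4 a2))

theorem eo {hu : Q u = 0} (h1 : perp Q (sp F u (ω u)) ≤ BS M hu) : EO M u := by
  refine ⟨hu, hQ.singular_induction_perp (by omega) u (fun x a1 a2 => ?_) fun _ _ _ _ => AS.add⟩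
  by_cases a3 : x ∈ perp Q (sp F u (ω u))
  · exact BS.as (h1 a3)
  obtain ⟨y, a4, a, a5, a6⟩ := exists_polar_ne hQ (W := sp F u (ω u) ⊔ sp F x (ω x)) (by
    have := finrank_sp_sup (F := F) u (ω u) x (ω x); omega)
  rw [perp_sup] at a4 a5
  simpa [a6, (mem_perp_pair.mp a5.2).1] using (h1 a5.1 (polar Q y a)⁻¹).act
    (BS.as (h.pi_of_notMem hQ hn hT h1 a2 a3 a4.2)) (by rwa [polar_comm]) (h.mem_perp_iff.mp a4.1).1

theorem Om_le_of_as (ha : AS M u a) (h0 : u ≠ 0) (h3 : a ∉ sp F u (ω u)) : Om Q ≤ M := by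
  obtain ⟨x, a1, a2⟩ := hQ.exists_hyp ha.Qu h0
  have a3 := h.pi hQ hn hT ha h3
  exact Om_le_of_EO hQ (by omega) (h.eo hQ hn hT a3) (h.eo hQ hn hT (h.pi_of_notMem hQ hn hT a3 a1
    fun a4 => by simpa [a2] using (mem_perp_pair.mp a4).1)) (by simp [a2])

omit hT in
theorem eq_of_lines {θ : V →ₗ[F] V} (H : ∀ v, Q v = 0 → θ v ∈ sp F v (ω v)) :
    ∃ s r : F, ∀ v, θ v = s • v + r • ω v := by
  have key : ∀ v w (s r : F), Q v = 0 → v ≠ 0 → Q w = 0 → polar Q v w = 0 → w ∉ sp F v (ω v) →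
      θ v = s • v + r • ω v → θ w = s • w + r • ω w := fun v w s r a1 a2 a3 a4 a5 a6 => by
    obtain ⟨s', r', b1⟩ := Submodule.mem_span_pair.mp (H (v + w) (by simp [Q_add, a1, a3, a4]))
    obtain ⟨s'', r'', b2⟩ := Submodule.mem_span_pair.mp (H w a3)
    rw [map_add θ, map_add, a6, ← b2] at b1
    obtain ⟨b3, b4⟩ := h.mem_of h.inv (s := s'' - s') (r := r'' - r') (Submodule.mem_span_pair.mpr
      ⟨s' - s, r' - r, by linear_combination (norm := module) b1⟩) a5
    rw [sub_eq_zero] at b3 b4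
    obtain ⟨b5, b6⟩ := h.mem_of (W := ⊥) (by simp) (s := s' - s) (r := r' - r) (x := v) (by
      rw [Submodule.mem_bot]; subst b3 b4; linear_combination (norm := module) b1) a2
    rw [← b2, b3, b4, sub_eq_zero.mp b5, sub_eq_zero.mp b6]
  obtain ⟨v, a1, a2⟩ := exists_singular Q (by omega)
  obtain ⟨s, r, a3⟩ := Submodule.mem_span_pair.mp (H v a2)
  refine ⟨s, r, hQ.singular_induction_top a2 a1 (fun w a4 => ?_) fun x y hx hy => by
    simp only [map_add, hx, hy]; module⟩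
  obtain ⟨z, b1, b2, b3⟩ := exists_sing_notMem' (Q := Q) (W := sp F v (ω v) ⊔ sp F w (ω w))
    (P := perp Q (sp F v w)) (by
      have := hQ.finrank_perp (sp F v w)
      have : finrank F (sp F v w) ≤ 2 := finrank_span_pair_le _ _
      have := finrank_sp_sup (F := F) v (ω v) w (ω w)
      omega)
  rw [mem_perp_pair] at b1
  by_cases a5 : w = 0
  · simp [a5]
  exact key z w s r b2 (by rintro rfl; simp at b3) a4 (by rw [polar_comm, b1.2])
    (fun b4 => b3 (Submodule.mem_sup_right (h.mem_symm b4 a5)))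
    (key v z s r a2 a1 b2 b1.1 (fun b4 => b3 (Submodule.mem_sup_left b4)) a3.symm)

omit hT in
/-- Overgroups of unitary subgroups. -/
theorem Om_le (hM : ∀ g ∈ Om Q, (∀ x, g.1 (ω x) = ω (g.1 x)) → g ∈ M) {g : OG Q} (hg : g ∈ M)
    (hg' : ¬ ∃ s r : F, ∀ x, g.1 (ω x) = s • g.1 x + r • ω (g.1 x)) : Om Q ≤ M := by
  have hT : ∀ b (μ : F), Q b = 0 → AS M b (μ • ω b) := fun b μ hb => ⟨hb, by simp [h.tr, hb],
    hM _ (sieg_mem_Om hQ (by omega) _ _) (h.comm hb μ)⟩
  by_contra H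
  obtain ⟨s, r, a1⟩ := h.eq_of_lines hQ hn (θ := g.1.toLinearMap ∘ₗ ω ∘ₗ g.1.symm.toLinearMap)
    fun v hv => by
      obtain ⟨v, rfl⟩ := g.1.surjective v
      by_cases h0 : v = 0
      · simp [h0]
      by_contra a1
      exact H (h.Om_le_of_as hQ hn hT ((hT v 1 (by simpa using hv)).map hg) (by simpa)
        (by simpa using a1))
  exact hg' ⟨s, r, fun x => by simpa using a1 (g.1 x)⟩

end UO

open Cfsg.Geo Matrix in
theorem max_unitary {ι : Type} [Fintype ι] [DecidableEq ι] [Fintype F] {Q : (ι → F) → F}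
    (hQ : IsNondegenerateQuadraticForm Q) (hn : 9 ≤ Fintype.card ι)
    {K : Subalgebra F (Matrix ι ι F)} (hK : IsFieldSubalgebra 2 K)
    (h1 : IsAdjointClosedFor (polar Q) K) (h2 : ¬ IsSelfAdjointFor (polar Q) K)
    (h3 : ∀ k ∈ K, ∃ c : F, ∀ v, Q (k *ᵥ v) = c * Q v) :
    IsMaximalIn (omegaGL Q) (subalgebraNormalizer K ⊓ omegaGL Q) := by
  have hf := hform_of_quad hQ
  simp only [IsSelfAdjointFor, not_forall] at h2
  obtain ⟨w, a1, u, v, a2⟩ := h2
  have a3 : ∀ c : F, w ≠ c • 1 := by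
    rintro c rfl
    exact a2 (by simp [Matrix.smul_mulVec, hf.smul_left, hf.smul_right])
  obtain ⟨w', -, a4⟩ := h1 w a1
  obtain ⟨d, a5⟩ := h3 w a1
  obtain ⟨c, a6⟩ := h3 (1 + w) (add_mem (one_mem K) a1)
  have a7 : ∀ x y, polar Q (w *ᵥ x) (w *ᵥ y) = d * polar Q x y := fun x y => by
    simp only [polar, ← mulVec_add, a5]; ring
  have a8 : ∀ x y, polar Q (w *ᵥ x) y = (c - 1 - d) * polar Q x y - polar Q x (w *ᵥ y) :=
    fun x y => by
      have : polar Q ((1 + w) *ᵥ x) ((1 + w) *ᵥ y) = c * polar Q x y := by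
        simp only [polar, ← mulVec_add, a6]; ring
      simp only [add_mulVec, one_mulVec, hf.add_left, hf.add_right, a7] at this
      linear_combination this
  have a9 : ∀ x, w *ᵥ (w *ᵥ x) = (c - 1 - d) • w *ᵥ x - d • x := fun x =>
    sub_eq_zero.mp (hf.nondeg' _ fun y => by
      have := a7 y x
      rw [a8] at this
      rw [polar_comm]
      simp only [hf.sub_right, hf.smul_right, RingHom.id_apply]
      linear_combination -this)
  have hU : UO (mkQ hQ) (toLin' w) (c - 1 - d) d := ⟨a9, a8, a5, fun x => by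
    have := a6 x
    rw [add_mulVec, one_mulVec] at this
    change polar Q x (w *ᵥ x) = _ * Q x
    rw [polar, this, a5]; ring, fun s r h => by
    by_contra h0
    obtain ⟨y, -, b1⟩ := hK.inv (s • 1 + r • w) (add_mem (K.smul_mem (one_mem K) s)
      (K.smul_mem a1 r)) fun e => a3 (-s / r) (smul_right_injective _ h0 (by
        simp only [smul_smul, mul_div_cancel₀ _ h0]; linear_combination (norm := module) e))
    refine a3 ((s + r * (c - 1 - d)) / r) (smul_right_injective _ h0 (H13.matrix_ext_mulVec fun x => ?_))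
    obtain ⟨z, rfl⟩ : ∃ z, (s • 1 + r • w) *ᵥ z = x := ⟨y *ᵥ x, by rw [mulVec_mulVec, b1, one_mulVec]⟩
    simp only [smul_smul, mul_div_cancel₀ _ h0, Matrix.smul_mulVec, add_mulVec, one_mulVec,
      mulVec_add, mulVec_smul, a9]
    linear_combination (norm := module) -h • z⟩
  have b1 : ∀ k : K, ∃ s r : F, ∀ v, k • v = s • v + r • w *ᵥ v := fun k => by
    have : Submodule.span F {1, w} = Subalgebra.toSubmodule K :=
      Submodule.eq_of_le_of_finrank_eq (sp_le.mpr ⟨one_mem K, a1⟩) (by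
        have : Nonempty ι := Fintype.card_pos_iff.mp (by omega)
        rw [finrank_span_pair_eq (linearIndependent_pair_of_notMem one_ne_zero fun e => by
          obtain ⟨c, hc⟩ := Submodule.mem_span_singleton.mp e
          exact a3 c hc.symm)]
        exact hK.finrank_eq.symm)
    obtain ⟨s, r, b1⟩ := Submodule.mem_span_pair.mp (this.ge k.2)
    exact ⟨s, r, fun v => by simp [H12.fld_smul, ← b1, add_mulVec, Matrix.smul_mulVec]⟩
  have b2 : ∀ g : OG (mkQ hQ), (∃ s r : F, ∀ x, g.1 (w *ᵥ x) = s • g.1 x + r • w *ᵥ g.1 x) →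
      ofOG hQ g ∈ subalgebraNormalizer K := fun g ⟨s, r, b2⟩ => H12.mem_normalizer_iff.mpr fun k => by
    obtain ⟨s', r', b3⟩ := b1 k
    refine ⟨⟨s' • 1 + r' • (s • 1 + r • w), add_mem (K.smul_mem (one_mem K) _) (K.smul_mem
      (add_mem (K.smul_mem (one_mem K) _) (K.smul_mem a1 _)) _)⟩, fun v => ?_⟩
    simp [H12.glEq_apply, ofOG_mulVec, b3, b2, H12.fld_smul, add_mulVec, Matrix.smul_mulVec,
      -mulVec_mulVec]
  exact max_omega hQ ((subalgebraNormalizer K).comap (jO hQ)) (fun _ => Iff.rfl)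
    (omega_not_le_field hQ (by omega) le_rfl hK) fun M c1 _ g c2 c3 => hU.Om_le (nd_mkQ hQ)
      (by simpa using hn) (fun g c4 c5 => c1 g c4 (b2 g ⟨0, 1, by simpa using c5⟩)) c2 (mt (b2 g) c3)

end Cfsg.Agent.H18
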