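import Mathlib
import Cfsg.Agent.H18.OMxG
import Cfsg.Agent.H12.SubO

/-!
Subfield subgroups of orthogonal groups.
-/

set_option autoImplicit false

namespace Cfsg.Agent.H18

open Module QuadraticMap H13
open H12 (RT pr bc_induction eq_sum_pr j_smul bc_finite bc_finrank bc_ne_zero bc_notMem_span)
open scoped MatrixGroups

theorem neg_one_mem_SL2 {F : Type*} [Field F] [Finite F] (h2 : (2 : F) ≠ 0) {H : Subgroup SL(2, F)}
    {a b : F} (ha : a ≠ 0) (hb : b ≠ 0) (h1 : H12.upper a ∈ H) (h3 : H12.lower b ∈ H) : -1 ∈ H := by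
  obtain ⟨p, hp⟩ := CharP.exists F
  have : Fact p.Prime := ⟨CharP.char_is_prime F p⟩
  have hp2 := H12.char_ne_two_of_two_ne_zero p h2
  obtain ⟨f, hf, hH⟩ := H12.exists_sl2_prime_le p hp2 (H := H)
    (H12.inf_ne_aff 0) (Subgroup.ne_bot_iff_exists_ne_one.2
      ⟨⟨_, h1, H12.mem_rootSL_inf.2 ⟨_, rfl⟩⟩, fun e =>
        ha (H12.upper_injective ((congrArg Subtype.val e).trans H12.upper_zero.symm))⟩)
    (Subgroup.ne_bot_iff_exists_ne_one.2
      ⟨⟨_, h3, H12.mem_rootSL_aff_zero.2 ⟨_, rfl⟩⟩, fun e =>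
        hb (H12.lower_injective ((congrArg Subtype.val e).trans H12.lower_zero.symm))⟩)
  have h4 : f (-1) = -1 := (H12.sl2_eq_of_mul_self h2 (by rw [← map_mul]; simp)).resolve_left
    fun e => H12.sl2_neg_one_ne_one (H12.two_ne_zero_of_char_ne p hp2)
      (hf (e.trans (map_one f).symm))
  exact h4 ▸ hH ⟨_, rfl⟩

variable {F V : Type*} [Field F] [AddCommGroup V] [Module F V] {Q : QuadraticForm F V}
  {M : Subgroup (OG Q)} {u v : V}

theorem exists_neg_of_hyp [FiniteDimensional F V] [Finite F] (h2 : (2 : F) ≠ 0) {e a : V} {c : F}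
    (H : HypFam Q ![e, u] ![v, a]) (h1 : sieg Q e a ∈ M) (hc : c ≠ 0) (h3 : sieg Q u (c • v) ∈ M) :
    ∃ d ∈ M, d.1 e = -e ∧ d.1 u = -u ∧ d.1 v = -v ∧ finrank F V ≤ finrank F (fixS d) + 4 := by
  have a4 := neg_one_mem_SL2 h2 (H := M.comap (H.levi.comp Matrix.SpecialLinearGroup.toGL))
    one_ne_zero hc (by
      have := H.levi_transvection zero_ne_one 1
      rw [show Matrix.SpecialLinearGroup.transvection zero_ne_one 1 = H12.upper (1 : F) by
        ext i j; fin_cases i <;> fin_cases j <;> simp [Matrix.SpecialLinearGroup.transvection_coe]]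
        at this
      simpa [this] using h1) (by
      have := H.levi_transvection one_ne_zero c
      rw [show Matrix.SpecialLinearGroup.transvection one_ne_zero c = H12.lower c by
        ext i j; fin_cases i <;> fin_cases j <;> simp [Matrix.SpecialLinearGroup.transvection_coe]]
        at this
      simpa [this] using h3)
  have a5 := H.levi_e (Matrix.SpecialLinearGroup.toGL (-1))
  have a6 := H.levi_f (Matrix.SpecialLinearGroup.toGL (-1))
  rw [← map_inv, show (-1 : SL(2, F))⁻¹ = -1 from inv_eq_of_mul_eq_one_right (by simp)] at a6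
  refine ⟨_, a4, by simpa using a5 0, by simpa using a5 1, by simpa using a6 0, ?_⟩
  have := Submodule.finrank_mono (show _ ≤ fixS (H.levi (Matrix.SpecialLinearGroup.toGL (-1))) from
    fun w hw => mem_fixS.mpr (H.levi_perp _ hw))
  have := H.finrank_eq
  simp at *; omega

/-- Two opposite root elements generate `-1` on the hyperbolic space they span. -/
theorem exists_neg_of_opp [FiniteDimensional F V] [Finite F] (h2 : (2 : F) ≠ 0) {e a : V}
    (h1 : AS M e a) (ha : Q a = 0) (h3 : AS M u v) (hv : Q v = 0)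
    (h : polar Q e u * polar Q a v - polar Q e v * polar Q a u ≠ 0) :
    ∃ d ∈ M, d.1 e = -e ∧ d.1 u = -u ∧ d.1 v = -v ∧ finrank F V ≤ finrank F (fixS d) + 4 := by
  generalize hΔ : polar Q e u * polar Q a v - polar Q e v * polar Q a u = Δ at h
  have a1 := h3.Qu
  have a2 := h3.ua
  have a3 : polar Q v u = 0 := by rwa [polar_comm]
  obtain ⟨d, b1, b2, b3, b4, b5⟩ := exists_neg_of_hyp h2 (M := M)
    (u := Δ⁻¹ • (polar Q e u • v - polar Q e v • u)) (v := Δ⁻¹ • (polar Q a v • u - polar Q a u • v))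
    (by
      refine ⟨?_, ?_, ?_, ?_, ?_⟩ <;> simp [Fin.forall_fin_two, Q_smul, Q_sub, h1.Qu, h1.ua, ha, hv, a1,
        a2, a3, polar_comm Q _ e, polar_comm Q _ a, mul_comm]
      field_simp; linear_combination hΔ) h1.mem (neg_ne_zero.mpr h) (by
      convert h3.mem using 1
      refine OG_ext fun x => ?_
      rw [sieg_apply (by simp [Q_smul, Q_sub, hv, a1, a3]) (by simp [hv, a1, a2, a3]), sieg_apply a1 a2]
      simp [Q_smul, Q_sub, hv, a1, a2, a3]
      match_scalars <;> field_simp <;> rw [← hΔ] <;> ring)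
  have key : ∀ x, x = polar Q e x • Δ⁻¹ • (polar Q a v • u - polar Q a u • v) +
      polar Q a x • Δ⁻¹ • (polar Q e u • v - polar Q e v • u) → d.1 x = -x := fun x hx => by
    rw [hx, map_add, map_smul, map_smul _ (polar Q a x), b3, b4]; module
  refine ⟨d, b1, b2, key u ?_, key v ?_, b5⟩ <;>
    match_scalars <;> field_simp <;> rw [← hΔ] <;> ring

theorem exists_sing_of_ti [FiniteDimensional F V] [Finite F] (h2 : (2 : F) = 0) {W : Submodule F V}
    (h : 2 ≤ finrank F W) (h' : W ≤ perp Q W) : ∃ y ∈ W, y ≠ 0 ∧ Q y = 0 := by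
  obtain ⟨x, a1, a2⟩ := H13.exists_notMem_of_finrank_lt (H := ⊥) (W := W) (by simp; omega)
  obtain ⟨y, a3, a4⟩ := H13.exists_notMem_of_finrank_lt (H := F ∙ x) (W := W) (by
    rw [finrank_span_singleton a2]; omega)
  by_cases h1 : Q x = 0
  · exact ⟨x, a1, a2, h1⟩
  obtain ⟨c, hc⟩ := exists_sq_eq_of_two_eq_zero h2 (Q y / Q x)
  refine ⟨y + c • x, add_mem a3 (W.smul_mem _ a1), fun e => a4 (Submodule.mem_span_singleton.mpr
    ⟨-c, by linear_combination (norm := module) -e⟩), ?_⟩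
  rw [Q_add, Q_smul, hc, polar_smul_right, mem_perp.mp (h' a1) y a3, div_mul_cancel₀ _ h1]
  linear_combination Q y * h2

theorem fix_of_commute (hQ : ND Q) (h2 : (2 : F) = 0) {t z : OG Q} {e : V} {c : F} (hc : c ≠ 0)
    (h : ∀ v, polar Q v (t.1 v) = c * polar Q e v ^ 2) (hz : Commute z t) : z.1 e = e := by
  have h1 : (z⁻¹).1 e = e := sub_eq_zero.mp (hQ _ fun v => by
    have := h (z.1 v)
    rw [← OG_mul_apply, ← hz.eq, OG_mul_apply, OG_polar, h, OG_polar_right] at this
    rw [polar_sub_left]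
    exact pow_eq_zero_iff two_ne_zero |>.mp (mul_left_cancel₀ hc (by
      linear_combination -this + (c * polar Q e v ^ 2 - c * polar Q e v * polar Q ((z⁻¹).1 e) v) * h2)))
  conv_lhs => rw [← h1, OG_apply_inv]

variable {K U : Type*} [Field K] [AddCommGroup U] [Module K U] [Algebra K F] [Module K V]
  [IsScalarTower K F V] {j : U →ₗ[K] V} {Q₀ : QuadraticForm K U} {e b x : U} {g s : OG Q}

/-- isometries defined over the subfield -/
def RA (j : U →ₗ[K] V) (g : OG Q) : Prop := ∀ x, ∃ y, g.1 (j x) = j y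

/-- rational fixed vectors -/
def fx (j : U →ₗ[K] V) (g : OG Q) : Submodule K U :=
  LinearMap.ker ((subOne g).restrictScalars K ∘ₗ j)

theorem mem_fx : x ∈ fx j g ↔ g.1 (j x) = j x := sub_eq_zero

/-- A quadratic form obtained by extension of scalars. -/
structure BQ (Q : QuadraticForm F V) (Q₀ : QuadraticForm K U) (j : U →ₗ[K] V) : Prop where
  bc : IsBaseChange F j
  map : ∀ x, Q (j x) = algebraMap K F (Q₀ x)
  nd : ND Q

namespace BQ
variable (h : BQ Q Q₀ j)
include h

theorem pol (x y : U) : polar Q (j x) (j y) = algebraMap K F (polar Q₀ x y) := by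
  simp only [polar, ← map_add, h.map, map_sub]

theorem nd₀ : ND Q₀ := fun x hx => by
  by_contra h0
  exact bc_ne_zero h.bc h0 (h.nd _ (bc_induction h.bc (fun a y => by simp [h.pol, hx])
    fun y z hy hz => by simp [hy, hz]))

theorem sieg_j (he : Q₀ e = 0) (hb : polar Q₀ e b = 0) (x : U) :
    (sieg Q (j e) (j b)).1 (j x) = j ((sieg Q₀ e b).1 x) := by
  rw [sieg_apply (by simp [h.map, he]) (by simp [h.pol, hb]), sieg_apply he hb]
  simp [h.pol, h.map]

theorem map_pr (τ : F →ₗ[K] K) (u : U) (v : V) : polar Q₀ u (pr h.bc τ v) = τ (polar Q (j u) v) :=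
  H12.map_pr h.bc (φ := polarBilin Q (j u)) (χ := polarBilin Q₀ u) (h.pol u) τ v

theorem li {κ : Type*} {v : κ → U} (hv : LinearIndependent K v) :
    LinearIndependent F fun i => j (v i) := by
  simpa [Function.comp_def] using (Module.Flat.linearIndependent_one_tmul (S := F) hv).map'
    h.bc.equiv.toLinearMap h.bc.equiv.ker

theorem ra_of (h1 : RT j g.1) {x' : U} (h0 : x' ≠ 0) (H : g.1 (j x) = j x') : RA j g := fun y => by
  obtain ⟨ζ, a1, a2⟩ := h1
  obtain ⟨e, he⟩ := a2 x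
  obtain ⟨c, rfl⟩ := H12.mem_range_of_smul h.bc (H ▸ he) h0
  obtain ⟨z, hz⟩ := a2 y
  exact ⟨c⁻¹ • z, by rw [map_smul, ← hz, algebraMap_smul, inv_smul_smul₀ (by simpa using a1)]⟩

theorem pr_mem (hg : RA j g) (hv : v ∈ fixS g) (τ : F →ₗ[K] K) : pr h.bc τ v ∈ fx j g :=
  mem_fx.mpr (by rw [← H12.j_pr_map h.bc hg, mem_fixS.mp hv])

variable [FiniteDimensional K U] [FiniteDimensional K F]

theorem finrank_fx (hg : RA j g) : finrank K (fx j g) = finrank F (fixS g) := by
  let b := finBasis K (fx j g)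
  have := bc_finite h.bc
  have h1 := finrank_span_eq_card (h.li (b.linearIndependent.map' _ (fx j g).ker_subtype))
  rw [Fintype.card_fin] at h1
  rw [← h1]
  refine congrArg (fun W : Submodule F V => finrank F W) (le_antisymm (Submodule.span_le.mpr ?_)
    fun v hv => ?_)
  · rintro _ ⟨i, rfl⟩
    exact mem_fixS.mpr (mem_fx.mp (b i).2)
  · rw [← eq_sum_pr h.bc (finBasis K F) v]
    refine sum_mem fun l _ => Submodule.smul_mem _ _ ?_
    rw [show pr h.bc _ v = ((⟨_, h.pr_mem hg hv _⟩ : fx j g) : U) from rfl, ← b.sum_repr ⟨_, _⟩]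
    simp only [Submodule.coe_sum, Submodule.coe_smul, map_sum, j_smul F]
    exact sum_mem fun i _ => Submodule.smul_mem _ _ (Submodule.subset_span ⟨i, rfl⟩)

omit [FiniteDimensional K U] in
theorem perp_fix (hg : RA j g) (hx : x ∈ perp Q₀ (fx j g)) : j x ∈ perp Q (fixS g) := fun v hv => by
  rw [← eq_sum_pr h.bc (finBasis K F) v]
  change polar Q _ _ = 0
  simp [polar_sum_left, h.pol, mem_perp.mp hx _ (h.pr_mem hg hv _)]

theorem exists_ne {w : V} (hw : w ∉ F ∙ j e) : ∃ u, polar Q₀ e u = 0 ∧ polar Q (j u) w ≠ 0 := by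
  have := bc_finite h.bc
  obtain ⟨b, h1, h2⟩ := h.nd.exists_perp_one _ hw
  obtain ⟨τ, h3⟩ := H12.exists_pr_ne h.bc (φ := polarBilin Q w) (v := b) (by
    simp [polar_comm Q w, h2])
  exact ⟨pr h.bc τ b, by rw [h.map_pr, polar_comm, h1 _ (Submodule.mem_span_singleton_self _), map_zero],
    by rwa [polar_comm]⟩

theorem exists_eq_add {w : V}
    (H : ∀ u, polar Q₀ e u = 0 → polar Q (j u) w ∈ (algebraMap K F).range) :
    ∃ (y : U) (a : F), w = j y + a • j e := by
  obtain ⟨τ, hτ⟩ := Module.Projective.exists_dual_eq_one K (one_ne_zero (α := F))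
  have h1 : w - j (pr h.bc τ w) ∈ F ∙ j e := by
    by_contra h1
    obtain ⟨u, h2, h3⟩ := h.exists_ne h1
    obtain ⟨c, hc⟩ := H u h2
    rw [polar_sub_right, h.pol, h.map_pr, ← hc, Algebra.algebraMap_eq_smul_one c, map_smul, hτ,
      smul_eq_mul, mul_one, Algebra.algebraMap_eq_smul_one, sub_self] at h3
    exact h3 rfl
  obtain ⟨a, ha⟩ := Submodule.mem_span_singleton.mp h1
  exact ⟨_, a, by rw [ha, add_sub_cancel]⟩

variable [Finite F] (hn : 7 ≤ finrank K U) (hM : ∀ g ∈ Om Q, RT j g.1 → g ∈ M)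
include hn hM

theorem as (he : Q₀ e = 0) (hb : polar Q₀ e b = 0) : AS M (j e) (j b) :=
  have := bc_finite h.bc
  ⟨by simp [h.map, he], by simp [h.pol, hb], hM _ (sieg_mem_Om h.nd (by
    rw [bc_finrank h.bc]; omega) _ _) ⟨1, one_ne_zero, fun x => ⟨_, by rw [h.sieg_j he hb, one_smul]⟩⟩⟩

theorem as_smul {a : F} (H : AS M (j e) (a • j b)) (h1 : b ∉ K ∙ e) (h2 : polar Q₀ e b = 0) (x : U)
    (hx : polar Q₀ e x = 0) : AS M (j e) (a • j x) :=
  have : Finite K := Finite.of_injective _ (algebraMap K F).injective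
  H12.perp_of_sieg h.nd₀ (by omega) (p := fun x => AS M (j e) (a • j x))
    (by simpa using AS.zero H.Qu) (fun x y hx hy => by simpa only [map_sub, smul_sub] using hx.sub hy)
    (fun e' b x a1 a2 a3 a4 hx => by
      simpa only [map_smul, h.sieg_j a1 a2, sieg_apply_of_perp_perp a3 a4] using
        hx.map (h.as hn hM a1 a2).mem) H h1 h2 x hx

variable (hK : (finrank K F).Prime) (H : ¬ Om Q ≤ M)
include hK H

theorem mem_range {a : F} (he : Q₀ e = 0) (e0 : e ≠ 0) (h0 : AS M (j e) (a • j b)) (h1 : b ∉ K ∙ e)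
    (h2 : polar Q₀ e b = 0) : a ∈ (algebraMap K F).range := by
  have : Finite K := Finite.of_injective _ (algebraMap K F).injective
  have := bc_finite h.bc
  have he' := h0.Qu
  let S : Subring F :=
    { carrier := {a | ∀ x, polar Q₀ e x = 0 → AS M (j e) (a • j x)}
      one_mem' := fun x hx => by simpa using h.as hn hM he hx
      zero_mem' := fun x hx => by simpa using AS.zero he'
      neg_mem' := fun ha x hx => by simpa using (ha x hx).neg
      add_mem' := fun ha hb x hx => by simpa only [add_smul] using (ha x hx).add (hb x hx)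
      mul_mem' := fun {a b} ha hb => by
        by_cases b0 : b = 0
        · exact fun x hx => by simpa [b0] using AS.zero he'
        obtain ⟨x, a1, a2, a3⟩ := h.nd₀.exists_singular_perp_notMem (by omega) e
        obtain ⟨y, w, a4⟩ := h.nd₀.exists_perp_pair_polar (by omega) e x
        have a5 := (polar_comm _ _ _).trans a2
        refine h.as_smul hn hM ?_ a3 a2
        simpa [h.pol, h.map, a4, pp_right, mul_comm] using (ha w (pp_left w)).act (h.as_smul hn hM
          (((hb x a2).swap (by simp [Q_smul, h.map, a1])).of_smul_left b0) (fun a6 => by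
            obtain ⟨c, rfl⟩ := Submodule.mem_span_singleton.mp a6
            exact a3 (Submodule.mem_span_singleton.mpr ⟨c⁻¹, inv_smul_smul₀ (left_ne_zero_of_smul e0) x⟩))
          a5 y (pp_right y)) (by simp [h.pol, a5]) (by simp [h.pol, pp_left']) }
  by_contra a1
  have a2 := H12.eq_top_of_finrank_prime hK (S := S) (fun c x hx => by
    simpa only [j_smul F] using h.as hn hM he (b := c • x) (by simp [hx])) (h.as_smul hn hM h0 h1 h2) a1
  have a3 : EO M (j e) := ⟨he', fun y hy => by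
    rw [← eq_sum_pr h.bc (finBasis K F) y]
    exact AS.sum _ he' fun l _ => a2.ge (Subring.mem_top _) _ (by rw [h.map_pr, hy, map_zero])⟩
  obtain ⟨f, hf⟩ := h.nd₀.exists_hp he e0
  obtain ⟨r, c1, c2⟩ := h.nd₀.exists_nonsingular_perp (K ∙ f) (by
    rw [finrank_span_singleton hf.ne_right]; omega)
  rw [mem_perp_singleton] at c1
  exact H (Om_le_of_EO h.nd (by rw [bc_finrank h.bc]; omega) a3 (a3.map (h.as hn hM hf.Qv c1).mem) (by
    rw [h.sieg_j hf.Qv c1, h.pol]
    simp [sieg_apply hf.Qv c1, hf.uv, hf.vu, he, polar_comm Q₀ e r, c2]))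

theorem exists_rat (he : Q₀ e = 0) (e0 : e ≠ 0) (h0 : AS M (j e) v) :
    ∃ (y : U) (a : F), v = j y + a • j e ∧ polar Q₀ e y = 0 := by
  have : Finite K := Finite.of_injective _ (algebraMap K F).injective
  obtain ⟨y, a, rfl⟩ := h.exists_eq_add (e := e) (w := v) (h.nd₀.singular_induction_perp (by omega) e
    (fun u a1 a2 => by
      by_cases a3 : u ∈ K ∙ e
      · obtain ⟨c, rfl⟩ := Submodule.mem_span_singleton.mp a3
        exact ⟨0, by simp [j_smul F, h0.ua]⟩
      obtain ⟨b, d, a4⟩ := h.nd₀.exists_perp_pair_polar (by omega) e u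
      have a5 : polar Q (j u) (j e) = 0 := by rw [h.pol, polar_comm, a1, map_zero]
      have a6 := (h0.act (h.as hn hM a2 (pp_right d)) a5 (by simp [h.pol, pp_left'])).act
        (h.as hn hM a2 (pp_right b)) a5 (by simp [h.pol, pp_left'])
      refine h.mem_range hn hM hK H he e0 ?_ a3 a1
      simpa [h.pol, h.map, a2, a4, pp_right, pp_right'] using a6.neg)
    fun x y _ _ hx hy => by simpa only [map_add, polar_add_left] using add_mem hx hy)
  exact ⟨y, a, rfl, by simpa [h.pol, h.map, he] using h0.ua⟩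

variable (hle : M ≤ Om Q) (hg : g ∈ M) (he : Q₀ e = 0) (e0 : e ≠ 0)
include hle hg he e0

theorem rt_of_pt {e' : U} {l : F} (h1 : g.1 (j e) = l • j e') : RT j g.1 := by
  have := bc_finite h.bc
  have a0 : l • j e' ≠ 0 := by rw [← h1]; simpa using bc_ne_zero h.bc e0
  have l0 := left_ne_zero_of_smul a0
  have e1 : e' ≠ 0 := by rintro rfl; simp at a0
  have e2 : Q₀ e' = 0 := by simpa [h.map, he, Q_smul, l0] using (congrArg Q h1).symm
  have e3 : Q (j e') = 0 := by simp [h.map, e2]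
  obtain ⟨f, hf⟩ := h.nd₀.exists_hp he e0
  obtain ⟨f', hf'⟩ := h.nd₀.exists_hp e2 e1
  have a1 : polar Q (j e') (l • g.1 (j f)) = 1 := by
    rw [polar_smul_right, ← polar_smul_left, ← h1, OG_polar, h.pol, hf.uv, map_one]
  obtain ⟨c, a2, a3⟩ := exists_sieg_map (x := l • g.1 (j f)) (y := j f') e3
    (by simp [Q_smul, h.map, hf.Qv, hf'.Qv]) (by rw [a1, h.pol, hf'.uv, map_one]) (by simp [a1])
  have a4 : ∀ w : pp Q₀ e f, ∃ y, l • (sieg Q (j e') c * g).1 (j w) = j y := fun w => by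
    have b1 := (h.as hn hM he (pp_left w)).map hg
    rw [h1] at b1
    obtain ⟨y, a, b2, b3⟩ := h.exists_rat hn hM hK H e2 e1 (b1.of_smul_left l0)
    have b4 : polar Q (j f') ((sieg Q (j e') c).1 (l • g.1 (j w))) = 0 := by
      simp [← a3, h.pol, pp_right]
    rw [OG_mul_apply, ← map_smul]
    rw [b2, sieg_apply_of_perp e3 a2 (by simp [h.pol, b3, e3, e2]), add_assoc, ← add_smul] at b4 ⊢
    generalize a + polar Q c (j y + a • j e') = m at b4 ⊢
    simp only [polar_add_right, polar_smul_right, h.pol, hf'.vu, map_one, smul_eq_mul, mul_one] at b4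
    exact ⟨y + (-polar Q₀ f' y) • e', by
      rw [eq_neg_of_add_eq_zero_right b4, map_add, j_smul F, map_neg]⟩
  obtain ⟨w, a5, a6⟩ := h.nd₀.exists_nonsingular_perp (sp K e f) (by
    have : finrank K (sp K e f) ≤ 2 := finrank_span_pair_le _ _
    omega)
  obtain ⟨y, a7⟩ := a4 ⟨w, a5⟩
  have a8 : l * l = algebraMap K F (Q₀ y / Q₀ w) := by
    rw [map_div₀, eq_div_iff (by simpa), ← h.map y, ← a7, Q_smul, OG_map, h.map, pow_two]
  have a9 : ∀ x, ∃ y, l • (sieg Q (j e') c * g).1 (j x) = j y := fun x => by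
    obtain ⟨s, t, w', rfl⟩ := hf.exists_eq x
    obtain ⟨y', b1⟩ := a4 w'
    refine ⟨s • (Q₀ y / Q₀ w) • e' + t • f' + y', ?_⟩
    simp only [map_add, j_smul F, map_smul, smul_add, b1, ← a8, ← a3, OG_mul_apply, h1,
      sieg_apply_self] at b1 ⊢
    module
  obtain ⟨c, a, rfl, b1⟩ := h.exists_rat hn hM hK H e2 e1 ⟨e3, a2, (M.mul_mem_cancel_right hg).mp
    (hM _ (mul_mem (sieg_mem_Om h.nd (by rw [bc_finrank h.bc]; omega) _ _) (hle hg)) ⟨l, l0, a9⟩)⟩
  refine ⟨l, l0, fun x => ?_⟩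
  obtain ⟨z, b2⟩ := a9 x
  have b3 : polar Q (j e') (j c) = 0 := by simp [h.pol, b1]
  rw [sieg_add_smul_self e3 b3, OG_mul_apply, ← map_smul] at b2
  refine ⟨(sieg Q₀ e' (-c)).1 z, ?_⟩
  rw [← h.sieg_j e2 (by simp [b1]), map_neg, sieg_neg e3 b3, ← b2, OG_inv_apply_apply]

theorem ra_of_pt {c : K} (h0 : c ≠ 0) (h1 : g.1 (j e) = j (c • e)) : RA j g :=
  h.ra_of (h.rt_of_pt hn hM hK H hle hg he e0 (h1.trans (j_smul F c e))) (smul_ne_zero h0 e0) h1

theorem rt_of_two {W : Submodule K U} (h1 : 3 ≤ finrank K W) (h2 : ∀ b ∈ W, polar Q₀ e b = 0)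
    (h3 : ∀ p : U → Prop, (∀ b ∈ W, Q₀ b = 0 ∨ (2 : F) = 0 → p b) → (∀ x y, p x → p y → p (x + y)) →
      ∀ b ∈ W, p b)
    (h4 : ∀ b ∈ W, Q₀ b = 0 ∨ (2 : F) = 0 → b ∉ K ∙ e → ∃ x, x ≠ 0 ∧ Q₀ x = 0 ∧
      polar Q (g.1 (j e)) (j x) = 0 ∧ polar Q (g.1 (j b)) (j x) = 0) : RT j g.1 := by
  have := bc_finite h.bc
  obtain ⟨φ, hφ⟩ := Module.Projective.exists_dual_ne_zero F (show g.1 (j e) ≠ 0 by
    simpa using bc_ne_zero h.bc e0)
  obtain ⟨τ, hτ⟩ := H12.exists_pr_ne h.bc hφ
  have key : ∀ b ∈ W, Q₀ b = 0 ∨ (2 : F) = 0 → b ∉ K ∙ e → ∃ s t : F,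
      s • g.1 (j e) + t • g.1 (j b) = j (pr h.bc τ (g.1 (j e))) := fun b c1 c2 c3 => by
    obtain ⟨x, c4, c5, c6, c7⟩ := h4 b c1 c2 c3
    have c8 := (h.as hn hM he (h2 b c1)).map hg
    have c9 := h.ra_of_pt hn hM hK H hle c8.mem c5 c4 one_ne_zero (by
      rw [sieg_apply_of_perp_perp c6 c7, one_smul])
    have d1 := h.nd.rg_sieg c8.Qu c8.ua (by simpa using bc_ne_zero h.bc e0) fun d1 => by
      obtain ⟨s, d1⟩ := Submodule.mem_span_singleton.mp d1
      exact bc_notMem_span h.bc c3 (Submodule.mem_span_singleton.mpr ⟨s, g.1.injective (by simpa)⟩)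
    obtain ⟨z, d2⟩ := d1.ge (left_mem_sp _ _)
    refine Submodule.mem_span_pair.mp (d1.le ⟨j (pr h.bc τ z), ?_⟩)
    conv_rhs => rw [← d2]
    rw [subOne_apply, subOne_apply, map_sub, map_sub, H12.j_pr_map h.bc c9]
  have k2 : ∀ T : Submodule K U, finrank K T ≤ 2 → ∃ b ∈ W, (Q₀ b = 0 ∨ (2 : F) = 0) ∧ b ∉ T :=
    fun T hT => by
      by_contra! c1
      exact absurd (Submodule.finrank_mono (show W ≤ T from h3 _ c1 fun _ _ => add_mem)) (by omega)
  obtain ⟨b', c1, c2, c3⟩ := k2 (K ∙ e) (by rw [finrank_span_singleton e0]; omega)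
  obtain ⟨b, c4, c5, c6⟩ := k2 _ (finrank_span_pair_le e b')
  obtain ⟨s, t, d1⟩ := key b c4 c5 fun hx => c6 (Submodule.span_mono (by simp) hx)
  obtain ⟨s', t', d2⟩ := key b' c1 c2 c3
  obtain ⟨χ, d3, d4⟩ := H12.exists_dual_one c6
  have d5 := congrArg (fun v => h.bc.toDual χ ((g⁻¹).1 v)) (d1.trans d2.symm)
  simp only [map_add, map_smul, OG_inv_apply_apply, h.bc.toDual_comp_apply, d3,
    d4 _ (left_mem_sp e b'), d4 _ (right_mem_sp e b'), map_zero, map_one, smul_zero, add_zero,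
    zero_add, smul_eq_mul, mul_one, mul_zero] at d5
  rw [d5, zero_smul, add_zero] at d1
  have d6 : s ≠ 0 := by rintro rfl; simp [← d1] at hτ
  exact h.rt_of_pt hn hM hK H hle hg he e0 (l := s⁻¹) (by rw [← d1, inv_smul_smul₀ d6])

omit hg in
theorem exists_perp (h2 : (2 : F) ≠ 0) (h0 : AS M u v) (hv : Q v = 0) (u0 : u ≠ 0) (h1 : v ∉ F ∙ u) :
    ∃ x, x ≠ 0 ∧ Q₀ x = 0 ∧ polar Q u (j x) = 0 ∧ polar Q v (j x) = 0 := by
  have : Finite K := Finite.of_injective _ (algebraMap K F).injective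
  have := bc_finite h.bc
  have a1 := h0.ua
  have a2 : polar Q v u = 0 := by rwa [polar_comm]
  by_cases a3 : polar Q (j e) u • v - polar Q (j e) v • u ∈ F ∙ j e
  · obtain ⟨c, a3⟩ := Submodule.mem_span_singleton.mp a3
    have a4 : polar Q (j e) u = 0 := by
      by_contra a4
      have a5 : c = 0 := by simpa [a4, a2, h0.Qu] using congrArg (polar Q · u) a3
      exact h1 (Submodule.mem_span_singleton.mpr ⟨(polar Q (j e) u)⁻¹ * polar Q (j e) v, by
        rw [a5, zero_smul, eq_comm, sub_eq_zero] at a3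
        rw [mul_smul, ← a3, inv_smul_smul₀ a4]⟩)
    refine ⟨e, e0, he, by rwa [polar_comm], ?_⟩
    by_contra a5
    rw [polar_comm] at a5
    have a6 : c = 0 := by simpa [a5, a1, hv] using congrArg (polar Q · v) a3
    simp [a6, a4, a5, u0] at a3
  obtain ⟨a, b1, b2, b3⟩ : ∃ a, polar Q₀ e a = 0 ∧ Q₀ a = 0 ∧
      polar Q (j a) (polar Q (j e) u • v - polar Q (j e) v • u) ≠ 0 := by
    by_contra! b1
    obtain ⟨a, b2, b3⟩ := h.exists_ne a3
    exact b3 (h.nd₀.singular_induction_perp (by omega) e b1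
      (fun x y _ _ hx hy => by rw [map_add, polar_add_left, hx, hy, add_zero]) a b2)
  obtain ⟨d, c1, c2, c3, c4, c5⟩ := exists_neg_of_opp h2 (h.as hn hM he b1) (by simp [h.map, b2]) h0 hv
    (by simpa using b3)
  have c6 := h.finrank_fx (h.ra_of_pt hn hM hK H hle c1 he e0 (c := -1) (by simp) (by simp [c2]))
  rw [bc_finrank h.bc] at c5
  obtain ⟨x, d1, d2, d3⟩ := exists_singular_mem Q₀ (H := fx j d) (by omega)
  have key : ∀ w, d.1 w = -w → polar Q w (j x) = 0 := fun w hw => by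
    have := OG_polar d w (j x)
    rw [hw, mem_fx.mp d1, polar_neg_left] at this
    exact mul_left_cancel₀ h2 (by linear_combination -this)
  exact ⟨x, d2, d3, key u c3, key v c4⟩

theorem exists_inv (h2 : (2 : F) = 0) (h0 : g ≠ 1) (h1 : g * g = 1) (h3 : g.1 (j e) = j e) :
    RA j g ∧ 3 ≤ finrank K (fx j g) ∧ ∃ y ∈ perp Q₀ (fx j g), y ∈ fx j g ∧ y ≠ 0 ∧ Q₀ y = 0 := by
  have : Finite K := Finite.of_injective _ (algebraMap K F).injective
  have := bc_finite h.bc
  have a1 := h.ra_of_pt hn hM hK H hle hg he e0 one_ne_zero (by rw [h3, one_smul])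
  have a2 : perp Q (fixS g) ≤ fixS g := by
    rw [h.nd.perp_fixS]
    rintro _ ⟨x, rfl⟩
    rw [mem_fixS, subOne_apply, map_sub, ← OG_mul_apply, h1, OG_one_apply]
    linear_combination (norm := module) h2 • (x - g.1 x)
  have a3 : perp Q₀ (fx j g) ≤ fx j g := fun x hx => mem_fx.mpr (mem_fixS.mp (a2 (h.perp_fix a1 hx)))
  have a4 := Submodule.finrank_mono a3
  have a5 := h.nd₀.finrank_perp (fx j g)
  have a6 := h.finrank_fx a1
  have a7 := rk_add_finrank_fixS g
  have a8 := bc_finrank h.bc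
  obtain ⟨k, a9⟩ := (h.nd.mem_commutator_iff_two (good_of_five (by omega)) h2 g).mp (hle hg)
  have b1 := mt rk_eq_zero_iff.mp h0
  obtain ⟨y, b2, b3⟩ := exists_sing_of_ti (Q := Q₀) (W := perp Q₀ (fx j g))
    ((algebraMap K F).injective (by rw [map_ofNat, h2, map_zero])) (by omega)
    fun x hx y hy => by
      change polar Q₀ _ _ = 0
      rw [polar_comm]; exact hy _ (a3 hx)
  exact ⟨a1, by omega, y, b2, a3 b2, b3⟩

omit he e0 in
theorem RT_of_mem' : RT j g.1 := by
  have : Finite K := Finite.of_injective _ (algebraMap K F).injective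
  have := bc_finite h.bc
  obtain ⟨e, e0, he⟩ := exists_singular Q₀ (by omega)
  by_cases h2 : (2 : F) = 0
  swap
  · refine h.rt_of_two hn hM hK H hle hg he e0 (W := perp Q₀ (K ∙ e))
      (by have := h.nd₀.finrank_perp_singleton e0; omega) (fun b => mem_perp_singleton.mp)
      (fun p h1 h3 b hb => h.nd₀.singular_induction_perp (by omega) e (fun x hx h4 =>
        h1 x (mem_perp_singleton.mpr hx) (Or.inl h4)) (fun x y _ _ => h3 x y) b
        (mem_perp_singleton.mp hb)) fun b h1 h3 h4 => h.exists_perp hn hM hK H hle he e0 h2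
        ((h.as hn hM he (mem_perp_singleton.mp h1)).map hg) (by simp [h.map, h3.resolve_right h2])
        (by simpa using bc_ne_zero h.bc e0) fun d1 => ?_
    obtain ⟨s, d1⟩ := Submodule.mem_span_singleton.mp d1
    exact bc_notMem_span h.bc h4 (Submodule.mem_span_singleton.mpr ⟨s, g.1.injective (by simpa)⟩)
  obtain ⟨x, a1, a2, a3⟩ := h.nd₀.exists_singular_perp_notMem (by omega) e
  have a4 : finrank K (sp K e x) ≤ 2 := finrank_span_pair_le _ _
  have a5 := h.nd₀.finrank_perp (sp K e x)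
  obtain ⟨y, a6, a7, a8⟩ := exists_sing_notMem' (Q := Q₀) (W := sp K e x) (P := pp Q₀ e x) (by
    change _ ≤ finrank K (perp Q₀ (sp K e x)); omega)
  obtain ⟨a9, b1⟩ := mem_perp_pair.mp a6
  have b2 := h.nd₀.finrank_perp (sp K e x ⊔ sp K e y)
  obtain ⟨a, b3, b4⟩ : ∃ a ∈ perp Q₀ (sp K e x ⊔ sp K e y), Q₀ a ≠ 0 := h.nd₀.exists_nonsingular_perp _ (by
    have := Submodule.finrank_sup_add_finrank_inf_eq (sp K e x) (sp K e y)
    have : finrank K (sp K e y) ≤ 2 := finrank_span_pair_le _ _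
    have := Submodule.finrank_mono (show K ∙ e ≤ sp K e x ⊓ sp K e y from
      le_inf (Submodule.span_mono (by simp)) (Submodule.span_mono (by simp)))
    rw [finrank_span_singleton e0] at this
    omega)
  have b5 : polar Q₀ e a = 0 := b3 _ (Submodule.mem_sup_left (left_mem_sp _ _))
  have b6 : polar Q₀ x a = 0 := b3 _ (Submodule.mem_sup_left (right_mem_sp _ _))
  have b7 : polar Q₀ y a = 0 := b3 _ (Submodule.mem_sup_right (right_mem_sp _ _))
  have c1 := h.as hn hM he b5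
  have c2 := h.as hn hM a1 b1
  have c3 : ∀ {u a : V}, AS M u a → sieg Q u a * sieg Q u a = 1 := fun h => by
    rw [← sieg_add h.Qu h.ua h.ua, ← two_smul F, h2, zero_smul, sieg_zero]
  have c4 : ∀ {u a : V}, AS M u a → ∀ v, polar Q v ((sieg Q u a).1 v) = Q a * polar Q u v ^ 2 :=
    fun {u a} h v => by
      simp [sieg_apply h.Qu h.ua, polar_comm Q v]
      linear_combination (Q v - Q a * polar Q u v ^ 2) * h2
  have c5 : ∀ v, (sieg Q (j e) (j a) * sieg Q (j x) (j y)).1 v =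
      (sieg Q (j e) (j a)).1 v + polar Q (j y) v • j x - polar Q (j x) v • j y := fun v => by
    rw [OG_mul_apply, sieg_apply c2.Qu c2.ua, map_sub, map_add, map_smul, map_smul, h.map, a7,
      map_zero, zero_smul, add_zero, sieg_apply_of_perp_perp (x := j x), sieg_apply_of_perp_perp (x := j y)] <;>
      simp [h.pol, a2, a9, b6, b7, polar_comm Q₀ a]
  have c6 : ∀ v, polar Q v ((sieg Q (j e) (j a) * sieg Q (j x) (j y)).1 v) =
      Q (j a) * polar Q (j e) v ^ 2 := fun v => by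
    rw [c5, polar_sub_right, polar_add_right, c4 c1]
    simp [polar_comm Q v, mul_comm]
  have c7 : Q (j a) ≠ 0 := by simpa [h.map] using b4
  have c8 : Commute (sieg Q (j e) (j a)) (sieg Q (j x) (j y)) := by
    rw [Commute, SemiconjBy, ← mul_inv_eq_iff_eq_mul, conj_sieg, sieg_apply_of_perp_perp (x := j x),
      sieg_apply_of_perp_perp (x := j y)] <;> simp [h.pol, a2, a9, b6, b7, polar_comm Q₀ a]
  have : Finite V := Module.finite_of_finite F
  rcases H12.exists_conj_or_central (mul_mem c1.mem c2.mem) (c1.map hg).mem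
    (by rw [c8.symm.mul_mul_mul_comm, c3 c1, c3 c2, mul_one]) (c3 (c1.map hg)) with
    ⟨k, d1, d2⟩ | ⟨z, d1, d2, d3, d4, d5⟩
  · have d3 := (c1.map hg).map d1
    rw [conj_sieg] at d2
    have d4 : k.1 (g.1 (j e)) ∈ F ∙ j e := by
      by_contra d4
      obtain ⟨b, d5, d6⟩ := h.nd.exists_perp_one _ d4
      have := c6 b
      rw [← d2, c4 d3, polar_comm, d6, polar_comm, d5 _ (Submodule.mem_span_singleton_self _)] at this
      simp [c7] at this
    obtain ⟨s, d4⟩ := Submodule.mem_span_singleton.mp d4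
    obtain ⟨v, d5, d6⟩ := h.nd₀.exists_perp_one _ a3
    obtain ⟨w, d7, d8⟩ := h.nd₀.exists_perp_one _ a8
    have d9 : polar Q (j e) (j v) = 0 := by
      rw [h.pol, polar_comm, d5 _ (Submodule.mem_span_singleton_self _), map_zero]
    have := congrArg (polar Q (j w)) (c5 (j v))
    rw [← d2, sieg_apply_of_perp d3.Qu d3.ua (by simp [← d4, d9]), sieg_apply_of_perp c1.Qu c1.ua d9,
      ← d4] at this
    simp [h.pol, d7 _ (left_mem_sp _ _), d7 _ (right_mem_sp _ _), d8, polar_comm Q₀ x, d6, eq_sub_iff_add_eq] at this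
  have e1 : g⁻¹ * z * g ∈ M := mul_mem (mul_mem (inv_mem hg) d1) hg
  obtain ⟨f1, -, x', f2, -, f3, f4⟩ := h.exists_inv hn hM hK H hle d1 he e0 h2 d2 d3
    (fix_of_commute h.nd h2 c7 c6 d4)
  obtain ⟨-, f5, y', f6, f7, f8, f9⟩ := h.exists_inv hn hM hK H hle e1 he e0 h2
    (fun e => d2 (by simpa [mul_assoc, inv_mul_eq_one] using e)) (by
      simp [mul_assoc, ← mul_assoc z z, d3])
    (fix_of_commute h.nd h2 c7 (c4 c1) (by
      rw [← conj_sieg] at d5
      simpa [mul_assoc] using d5.conj g⁻¹))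
  have key : ∀ b ∈ fx j (g⁻¹ * z * g), polar Q (g.1 (j b)) (j x') = 0 := fun b hb =>
    h.perp_fix f1 f2 _ (mem_fixS.mpr (by
      conv_rhs => rw [← mem_fx.mp hb, OG_mul_apply, OG_mul_apply, OG_apply_inv]))
  exact h.rt_of_two hn hM hK H hle hg f9 f8 f5 (fun b hb => by rw [polar_comm]; exact f6 b hb)
    (fun p h1 _ b hb => h1 b hb (Or.inr h2)) fun b hb _ _ => ⟨x', f3, f4, key _ f7, key _ hb⟩

end BQ

theorem exists_BQ (h : IsBaseChange F j) (hQ : ND Q)
    (H : ∀ x, Q (j x) ∈ (algebraMap K F).range) : ∃ Q₀, BQ Q Q₀ j := by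
  choose f hf using H
  have k := (algebraMap K F).injective
  have k1 : ∀ x y, algebraMap K F (polar f x y) = polar Q (j x) (j y) := fun x y => by
    simp only [polar, map_sub, hf, map_add]
  exact ⟨QuadraticMap.ofPolar f (fun a x => k (by rw [hf, j_smul F, Q_smul]; simp [hf, pow_two]))
    (fun x y z => k (by simp [k1])) fun a x y => k (by rw [k1, j_smul F, polar_smul_left]; simp [k1]), h,
    fun x => (hf x).symm, hQ⟩

open Cfsg.Geo

variable {ι : Type} [Fintype ι] [DecidableEq ι] {Q : (ι → F) → F}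

theorem omegaGL_smul {ζ : F} (h : ζ ≠ 0) : omegaGL (fun v => ζ * Q v) = omegaGL Q := by
  have : isometryGroup F (fun v => ζ * Q v) = isometryGroup F Q := Subgroup.ext fun g =>
    forall₂_congr fun _ _ => mul_right_inj' h
  simp only [omegaGL, Omega, Subgroup.map_subtype_commutator, this]

omit [Fintype ι] [DecidableEq ι] in
theorem quad_smul (hQ : IsNondegenerateQuadraticForm Q) {ζ : F} (h : ζ ≠ 0) :
    IsNondegenerateQuadraticForm fun v => ζ * Q v :=
  quad_of_nd (Q := ζ • mkQ hQ) fun x hx => nd_mkQ hQ x fun y => mul_left_cancel₀ h (by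
    rw [mul_zero, ← hx y]; simp only [polar, QuadraticMap.smul_apply, smul_eq_mul]; ring)

theorem max_subfield [Fintype F] (hQ : IsNondegenerateQuadraticForm Q) (hn : 7 ≤ Fintype.card ι)
    {K : Subfield F} {r : ℕ} (hr : r.Prime) (h : Fintype.card F = Nat.card K ^ r) {P : GL ι F}
    (hP : IsQuadFormRationalStructure Q K P) :
    IsMaximalIn (omegaGL Q) (subfieldSubgroup K P ⊓ omegaGL Q) := by
  obtain ⟨Q₀, h1⟩ := exists_BQ (H12.bc_jP K P) (nd_mkQ hQ) fun x => ⟨⟨_, hP _ fun i => (x i).2⟩, rfl⟩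
  have h2 : ∀ g, ofOG hQ g ∈ subfieldSubgroup K P ↔ RT (H12.jP K P) g.1 := fun g => by
    rw [H12.mem_subfield_iff, show H12.glEq ι F (ofOG hQ g) = g.1 from
      LinearEquiv.ext (ofOG_mulVec hQ g)]
  refine max_omega hQ ((subfieldSubgroup K P).comap (jO hQ)) (fun _ => Iff.rfl)
    (omega_not_le_subfield hQ (by omega) (ne_top_of_card_eq_pow hr h) P) fun M hM hle g hg hg' => ?_
  by_contra H
  exact hg' ((h2 g).mpr (h1.RT_of_mem' (by simpa) (fun g a b => hM g a ((h2 g).mpr b))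
    (by rwa [H12.finrank_of_card_eq_pow h]) H hle hg))

theorem max_subfield' [Fintype F] (hQ : IsNondegenerateQuadraticForm Q) (hn : 7 ≤ Fintype.card ι)
    {K : Subfield F} {r : ℕ} (hr : r.Prime) (h : Fintype.card F = Nat.card K ^ r) {P : GL ι F}
    {ζ : F} (hζ : ζ ≠ 0) (hP : IsQuadFormRationalStructure (fun v => ζ * Q v) K P) :
    IsMaximalIn (omegaGL Q) (subfieldSubgroup K P ⊓ omegaGL Q) :=
  omegaGL_smul (Q := Q) hζ ▸ max_subfield (quad_smul hQ hζ) hn hr h hP

end Cfsg.Agent.H18
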