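import Mathlib
import Cfsg.Agent.H18.FrC
import Cfsg.Agent.H18.OMxH

/-!
Maximality of the stabiliser of an orthonormal frame in `Ω`.
-/

set_option autoImplicit false

namespace Cfsg.Agent.H18

open Cfsg.Geo QuadraticMap Module H13

theorem ODQ.Om_le_one {F V : Type*} [Field F] [Fintype F] [AddCommGroup V] [Module F V] [Finite V]
    [FiniteDimensional F V] {Q : QuadraticForm F V} {M : Subgroup (OG Q)} {κ : Type*} [Fintype κ]
    {E : κ → Submodule F V} (h : ODQ Q E) (hQ : ND Q) (hp : (Fintype.card F).Prime) (h2 : (2 : F) ≠ 0)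
    (hn : 9 ≤ Fintype.card κ) (hk : ∀ i, finrank F (E i) = 1) {e : κ → V} (he : ∀ i, e i ∈ E i)
    (he' : ∀ i, Q (e i) = 2⁻¹) (hM : ∀ g ∈ Om Q, g ∈ dsO Q E → g ∈ M) {g : OG Q} (hg : g ∈ M)
    (hg' : g ∉ dsO Q E) : Om Q ≤ M := by
  classical
  have a1 : ∀ i, E i = F ∙ e i := fun i => (Submodule.eq_of_le_of_finrank_eq
    ((Submodule.span_singleton_le_iff_mem _ _).mpr (he i)) (by
      rw [hk, finrank_span_singleton fun h => inv_ne_zero h2 (by rw [← he' i, h, map_zero])])).symm
  have a2 : ∀ i j, polar Q (e i) (e j) = if i = j then 1 else 0 := fun i j => by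
    split_ifs with hij
    · rw [hij, polar_self', he', mul_inv_cancel₀ h2]
    · exact h.orth i j hij (he j) _ (he i)
  have o : ON Q e := ⟨h2, a2, fun x => sub_eq_zero.mp (h.eq_zero hQ fun i => by
    rw [a1, mem_perp_singleton]; simp [polar_sum_right, a2])⟩
  have a3 : ∀ g, g ∈ dsO Q E ↔ g ∈ Mon Q e := fun g => ⟨fun ⟨π, hπ⟩ => mem_Mon.mpr fun i => by
    have : g.1 (e i) ∈ E (π i) := hπ i ▸ ⟨_, he i, rfl⟩
    rw [a1, Submodule.mem_span_singleton] at this
    exact ⟨_, this.imp fun _ => Eq.symm⟩, fun H => by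
      choose π c hc using mem_Mon.mp H
      refine h.mem_dsO hk one_pos π fun i x hx => ?_
      rw [a1, Submodule.mem_span_singleton] at hx
      obtain ⟨d, rfl⟩ := hx
      rw [map_smul, hc]
      exact Submodule.smul_mem _ _ (Submodule.smul_mem _ _ (he _))⟩
  exact o.Om_le (fun g h1 h2 => hM g h1 ((a3 g).mpr h2)) hp hn hg (mt (a3 g).mpr hg')

variable {ι : Type} [Fintype ι] [DecidableEq ι] {F : Type*} [Field F] {Q : (ι → F) → F} {t m : ℕ}
  {D : Fin t → Submodule F (ι → F)}

omit [Fintype ι] [DecidableEq ι] in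
theorem odec_smul (hD : IsOrthogonalMDecomposition Q m D) {ζ : F} (h : ζ ≠ 0) :
    IsOrthogonalMDecomposition (fun v => ζ * Q v) m D := by
  have : ∀ x y, polar (fun v => ζ * Q v) x y = ζ * polar Q x y := fun x y => by
    simp only [polar]; ring
  refine ⟨⟨hD.decomp.decomp, fun i => ?_, fun i j hij x hx y hy => ?_⟩, fun i j =>
    (hD.isometric i j).imp fun _ h w => congrArg _ (h w)⟩
  · simpa only [IsNondegenerateOn, this, ne_eq, mul_eq_zero, h, false_or] using hD.decomp.nondegenerate i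
  · rw [this, hD.decomp.orthogonal i j hij x hx y hy, mul_zero]

theorem max_frame [Fintype F] (hQ : IsNondegenerateQuadraticForm Q) (hn : 9 ≤ Fintype.card ι)
    (hp : (Fintype.card F).Prime) (hodd : Odd (Fintype.card F))
    (hD : IsOrthogonalMDecomposition Q 1 D) :
    IsMaximalIn (omegaGL Q) (decompositionStabilizer D ⊓ omegaGL Q) := by
  have h2 := two_ne_zero_iff_odd.mpr hodd
  have h1 := card_eq_of_isMDecomposition hD.decomp.decomp
  have b2 := hD.decomp.decomp.finrank_eq
  have i : Fin t := ⟨0, by omega⟩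
  obtain ⟨v, hv, a1⟩ := finrank_eq_one_iff'.mp (b2 i)
  have a2 : 2 * Q v ≠ 0 := fun H => hv ((odq_of hQ hD.decomp).nd i v fun y => by
    obtain ⟨c, rfl⟩ := a1 y
    rw [polar_smul_right, polar_self']
    exact smul_eq_zero_of_right _ H)
  choose φ hφ using hD.isometric i
  have hQ' := quad_smul hQ (inv_ne_zero a2)
  have hD' := odec_smul hD (inv_ne_zero a2)
  rw [← omegaGL_smul (inv_ne_zero a2)]
  exact max_omega hQ' _ (ofOG_mem_dec hQ') (omega_not_le_ndDecomp hQ' (by omega) hD'.decomp)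
    fun M a1 _ g a3 a4 => (odq_of hQ' hD'.decomp).Om_le_one (nd_mkQ hQ') hp h2 (by simp; omega) b2
      (fun j => (φ j v).2) (fun j => by
        have := right_ne_zero_of_mul a2
        change _ * Q _ = _
        rw [hφ]; field_simp) a1 a3 a4

end Cfsg.Agent.H18
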