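import Mathlib
import Cfsg.Agent.H18.FrC

/-!
Orthonormal frames in dimension seven.
-/

set_option autoImplicit false

namespace Cfsg.Agent.H18

open Module QuadraticMap H13

variable {F V : Type*} [Field F] [AddCommGroup V] [Module F V] {Q : QuadraticForm F V}
  {M : Subgroup (OG Q)} {s u v w x y : V} {g t : OG Q}
  {ι : Type*} [Fintype ι] [DecidableEq ι] {e : ι → V} {a b i j k l m : ι} {c : F} [Finite V]

/-- standing hypotheses -/
structure FrS (M : Subgroup (OG Q)) (e : ι → V) : Prop where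
  on : ON Q e
  seven : Fintype.card ι = 7
  le : ∀ g ∈ Om Q, g ∈ Mon Q e → g ∈ M
  nf : ∀ g ∈ M, ∀ a b, ∀ c : F, g.1 (e a) = c • e b → g ∈ Mon Q e
  neg : ∀ g ∈ M, ¬ ∀ i, g.1 (e i) = -e i

/-- diagonal elements -/
def DgO (e : ι → V) (d : OG Q) : Prop := ∀ i, ∃ c : F, d.1 (e i) = c • e i

omit [Fintype ι] [DecidableEq ι] in
theorem DgO.mon {d : OG Q} (h : DgO e d) : d ∈ Mon Q e := mem_Mon.mpr fun i => ⟨i, h i⟩

omit [Finite V] in
theorem DgO.sq {d : OG Q} (h : DgO e d) (o : ON Q e) : d * d = 1 := o.OG_ext fun i => by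
  obtain ⟨c, hc⟩ := h i
  rw [OG_mul_apply, hc, map_smul, hc, smul_smul, o.sq_eq hc, one_smul, OG_one_apply]

omit [Fintype ι] [DecidableEq ι] [Finite V] in
theorem DgO.mul {d d' : OG Q} (h : DgO e d) (h' : DgO e d') : DgO e (d * d') := fun i => by
  obtain ⟨c, hc⟩ := h i
  obtain ⟨c', hc'⟩ := h' i
  exact ⟨c' * c, by rw [OG_mul_apply, hc', map_smul, hc, smul_smul]⟩

omit [Fintype ι] [DecidableEq ι] in
theorem DgO.conj {d : OG Q} (h : DgO e d) (hg : g ∈ Mon Q e) : DgO e (g * d * g⁻¹) := fun i => by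
  obtain ⟨j, c, hc⟩ := mem_Mon.mp (inv_mem hg) i
  obtain ⟨c', hc'⟩ := h j
  refine ⟨c', ?_⟩
  rw [OG_mul_apply, OG_mul_apply, hc, map_smul, hc', smul_comm, ← hc, map_smul, OG_apply_inv]

omit [Finite V] in
theorem ON.dg_refl (h : ON Q e) (i : ι) : DgO e (refl Q (e i)) := fun j => by
  by_cases hij : i = j
  · subst hij
    exact ⟨-1, by rw [h.refl_e, h.pol_self]; module⟩
  · exact ⟨1, by rw [refl_apply_of_perp (h.pol_ne hij), one_smul]⟩

namespace FrS

variable (h : FrS M e)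
include h

theorem exists_neg (a : ι) : ∃ t ∈ M, ∀ x, t.1 x = -(refl Q (e a)).1 x := by
  have o := h.on
  obtain ⟨f, hf⟩ : ∃ f : Fin 7 ≃ ι, f 0 = a :=
    ⟨(Fintype.equivFinOfCardEq h.seven).symm.trans
      (Equiv.swap ((Fintype.equivFinOfCardEq h.seven).symm 0) a), by simp⟩
  refine ⟨_, mul_mem (mul_mem (o.d_mem h.le (f 1) (f 2)) (o.d_mem h.le (f 3) (f 4)))
    (o.d_mem h.le (f 5) (f 6)), fun x => ?_⟩
  rw [← o.sum x, map_sum, map_sum, ← Finset.sum_neg_distrib]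
  refine Finset.sum_congr rfl fun i _ => ?_
  rw [map_smul, map_smul, ← smul_neg, ← hf]
  obtain ⟨i, rfl⟩ := f.surjective i
  congr 1
  fin_cases i <;> simp [OG_mul_apply, o.refl_e, o.pol, -polar_self] <;> module

theorem refl_mem (hg : g ∈ M) (H : polar Q (e a) (g.1 (e b)) = 0) :
    refl Q (g.1 (e b)) ∈ Mon Q e := by
  obtain ⟨t, ht, h1⟩ := h.exists_neg b
  have h2 : ∀ x, (g * t * g⁻¹).1 x = -(refl Q (g.1 (e b))).1 x := fun x => by
    rw [← conj_refl, OG_mul_apply, OG_mul_apply, h1, map_neg]; rfl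
  have := h.nf _ (mul_mem (mul_mem hg ht) (inv_mem hg)) a a (-1) (by
    rw [h2, refl_apply_of_perp ((polar_comm Q _ _).trans H)]; simp)
  refine mem_Mon.mpr fun i => ?_
  obtain ⟨j, c, hc⟩ := mem_Mon.mp this i
  exact ⟨j, -c, by rw [neg_smul, ← hc, h2, neg_neg]⟩

theorem z1 (hg : g ∈ M) (hi : polar Q (e i) (g.1 (e a)) = 0) : g ∈ Mon Q e := by
  have o := h.on
  have := o.fin
  have : Nonempty ι := ⟨i⟩
  have h1 := o.card_spt_of_mon (by rw [OG_map]; exact o.Q_ne i) (h.refl_mem (a := a) (b := i) (inv_mem hg)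
    (by rw [← OG_polar_left, polar_comm, hi]))
  obtain ⟨Z, hZ⟩ : ∃ Z, Z = (spt Q e ((g⁻¹).1 (e i)))ᶜ := ⟨_, rfl⟩
  have h2 : 5 ≤ Z.card := by have := h.seven; rw [hZ, Finset.card_compl]; omega
  have h3 : ∀ k ∈ Z, polar Q (e k) ((g⁻¹).1 (e i)) = 0 := fun k hk => by
    simpa [hZ, mem_spt] using hk
  have h5 : ∀ k, Q (g.1 (e k)) ≠ 0 := fun k => by simp [o.Q_ne]
  have h6 : ∀ S : Finset ι, S.card ≤ 4 → ∃ k ∈ Z, ¬ spt Q e (g.1 (e k)) ⊆ S := fun S hS => by
    by_contra! H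
    have := o.card_le H
    omega
  obtain ⟨k, a1⟩ := Finset.card_pos.mp (show 0 < Z.card by omega)
  have a9 : ∀ k ∈ Z, refl Q (g.1 (e k)) ∈ Mon Q e := fun k hk =>
    h.refl_mem (a := i) hg (by rw [polar_comm, OG_polar_left, h3 k hk])
  have b1 := fun k hk => o.card_spt_of_mon (h5 k) (a9 k hk)
  by_contra H
  have b2 : ∀ k ∈ Z, (spt Q e (g.1 (e k))).card = 2 := fun k hk => (b1 k hk).antisymm (by
    by_contra! b2
    obtain ⟨m, hm⟩ := Finset.card_le_one_iff_subset_singleton.mp (Nat.le_of_lt_succ b2)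
    have := o.mem_span hm
    rw [Finset.coe_singleton, Set.image_singleton, Submodule.mem_span_singleton] at this
    obtain ⟨c, hc⟩ := this
    exact H (h.nf g hg k m c hc.symm))
  obtain ⟨p, c1, c2⟩ := h6 _ ((b1 k a1).trans (by omega))
  obtain ⟨q, c3, c4⟩ := h6 (spt Q e (g.1 (e k)) ∪ spt Q e (g.1 (e p)))
    ((Finset.card_union_le _ _).trans (by have := b1 k a1; have := b1 p c1; omega))
  have c5 := fun h => c4 (Finset.Subset.trans h Finset.subset_union_left)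
  have c6 := fun h => c4 (Finset.Subset.trans h Finset.subset_union_right)
  have n1 : k ≠ p := fun h => c2 (h ▸ le_rfl)
  have n2 : k ≠ q := fun h => c5 (h ▸ le_rfl)
  have n3 : p ≠ q := fun h => c6 (h ▸ le_rfl)
  have d1 := fun i => o.disj (i := i) (b2 k a1) (b1 p c1) (by simp [o.pol_ne n1]) c2
  have d2 := fun i => o.disj (i := i) (b2 k a1) (b1 q c3) (by simp [o.pol_ne n2]) c5
  have d3 := fun i => o.disj (i := i) (b2 p c1) (b1 q c3) (by simp [o.pol_ne n3]) c6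
  have e1 := (o.cl_root h.le n1 (one_mul 1) n1 (one_mul 1)).mul
    (o.cl_root h.le n1 (one_mul 1) n3 (one_mul 1))
  have e0 : ∀ k ∈ Z, ∀ l ∈ Z, (refl Q (e k - (1 : F) • e l)).1 ((g⁻¹).1 (e i)) = (g⁻¹).1 (e i) :=
    fun k hk l hl => refl_apply_of_perp (by
      rw [polar_sub_left, polar_smul_left, h3 k hk, h3 l hl, smul_zero, sub_zero])
  have e2 := o.card_mvd (h.nf _ (mul_mem (mul_mem hg e1) (inv_mem hg)) i i 1 (by
    rw [OG_mul_apply, OG_mul_apply, OG_mul_apply, e0 p c1 q c3, e0 k a1 p c1, OG_apply_inv, one_smul]))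
      ((rk_refl_refl o.nd _ _).conj g)
  have e3 : ∀ {t : OG Q} {k p}, t.1 (e k) = e p →
      (∀ i ∈ spt Q e (g.1 (e k)), i ∉ spt Q e (g.1 (e p))) →
      spt Q e (g.1 (e k)) ⊆ mvd e (g * t * g⁻¹) :=
    fun {t k p} h1 h2 i hi => mem_mvd.mpr fun h3 => h2 i hi (by
      have := OG_polar_fix h3 (g.1 (e k))
      rw [OG_mul_apply, OG_mul_apply, OG_inv_apply_apply, h1] at this
      rwa [mem_spt, this, ← mem_spt])
  have e4 := Finset.card_le_card (Finset.union_subset (Finset.union_subset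
    (e3 (t := refl Q (e k - (1 : F) • e p) * refl Q (e p - (1 : F) • e q)) (by
      rw [OG_mul_apply, o.refl_root_ne n1.symm n2.symm, o.refl_root n1 (one_mul 1), one_smul])
      d1)
    (e3 (by rw [OG_mul_apply, o.refl_root n3 (one_mul 1), one_smul F (e q), o.refl_root_ne n2 n3]) d3))
    (e3 (by rw [OG_mul_apply, o.refl_root' n3 (one_mul 1), map_smul,
      o.refl_root' n1 (one_mul 1), one_smul, one_smul]) fun i h1 h2 => d2 i h2 h1))
  rw [Finset.card_union_of_disjoint (Finset.disjoint_union_left.mpr ⟨Finset.disjoint_left.mpr d2,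
    Finset.disjoint_left.mpr d3⟩), Finset.card_union_of_disjoint (Finset.disjoint_left.mpr d1),
    b2 k a1, b2 p c1, b2 q c3] at e4
  omega

theorem conj_dg {d : OG Q} (hg : g ∈ M) (hd : d ∈ M) (h1 : DgO e d) (h2 : d ≠ 1)
    (H : g * d * g⁻¹ ∈ Mon Q e) : g ∈ Mon Q e := by
  have o := h.on
  choose π c hc using mem_Mon.mp H
  have a1 : Function.Involutive π := fun i => by
    by_contra a1
    have a2 : (g * d * g⁻¹ * (g * d * g⁻¹)).1 (e i) = e i := by
      rw [conj_mul, h1.sq o]; simp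
    rw [OG_mul_apply, hc, map_smul, hc] at a2
    simpa [o.pol_ne (Ne.symm a1), o.pol_self, -polar_self] using congrArg (polar Q (e i)) a2
  have : Fact (Nat.Prime 2) := ⟨Nat.prime_two⟩
  obtain ⟨a, ha⟩ := Equiv.Perm.exists_fixed_point_of_prime (p := 2) (n := 1)
    (by rw [h.seven]; decide) (σ := a1.toPerm π) (Equiv.ext fun i => a1 i)
  have a2 := hc a
  rw [show π a = a from ha] at a2
  have a3 := o.sq_eq a2
  have a4 : d.1 ((g⁻¹).1 (e a)) = c a • (g⁻¹).1 (e a) := by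
    rw [← map_smul, ← a2, OG_mul_apply, OG_mul_apply, OG_inv_apply_apply]
  obtain ⟨i, hi⟩ : ∃ i, d.1 (e i) ≠ c a • e i := by
    by_contra! hi
    rcases mul_self_eq_one_iff.mp a3 with a5 | a5 <;> rw [a5] at hi
    · exact h2 (o.OG_ext fun i => by rw [hi, one_smul, OG_one_apply])
    · exact h.neg d hd fun i => by rw [hi, neg_one_smul]
  obtain ⟨c', hc'⟩ := h1 i
  have a5 := OG_polar d (e i) ((g⁻¹).1 (e a))
  rw [a4, hc', polar_smul_left, polar_smul_right, smul_smul, smul_eq_mul] at a5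
  refine inv_mem_iff.mp (h.z1 (i := i) (a := a) (inv_mem hg) (by_contra fun a6 => hi ?_))
  have := (mul_eq_right₀ a6).mp a5
  rw [hc', show c' = c a by linear_combination c a * this - c' * a3]

theorem le_Mon (hg : g ∈ M) : g ∈ Mon Q e := by
  by_contra hg'
  have o := h.on
  have := o.fin
  obtain ⟨i, j, hij⟩ := Fintype.exists_pair_of_one_lt_card (α := ι) (by rw [h.seven]; omega)
  obtain ⟨t, ht, h1⟩ := h.exists_neg i
  have t1 : DgO e t := fun k => by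
    obtain ⟨c, hc⟩ := o.dg_refl i k
    exact ⟨-c, by rw [h1, hc, neg_smul]⟩
  have t2 : ∀ k, k ≠ i → t.1 (e k) ≠ e k := fun k hk H => by
    rw [h1, refl_apply_of_perp (o.pol_ne hk.symm)] at H
    have := congrArg (polar Q (e k)) H
    simp only [polar_neg_right, o.pol_self] at this
    exact o.two (by linear_combination -this)
  have t3 : t ≠ 1 := fun H => t2 j hij.symm (by rw [H, OG_one_apply])
  have a1 := o.d_mem h.le i j
  have a2 := (o.dg_refl i).mul (o.dg_refl j)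
  have a3 : refl Q (e i) * refl Q (e j) ≠ 1 := fun H =>
    one_ne_zero (o.pol_self i ▸ (o.zero_of_d hij (x := e i) (by rw [H, OG_one_apply])).1)
  have a4 := rk_refl_refl o.nd (e i) (e j)
  generalize refl Q (e i) * refl Q (e j) = a at a1 a2 a3 a4
  have s1 := mul_mem (mul_mem hg ht) (inv_mem hg)
  have s2 : g * t * g⁻¹ * (g * t * g⁻¹) = 1 := by rw [conj_mul, t1.sq o]; simp
  have h5 : ∀ a ∈ M, a * a = 1 → ∀ y : OG Q, (∃ x ∈ M, ∃ d ∈ M, DgO e d ∧ d ≠ 1 ∧ y = x * d * x⁻¹) →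
      ∃ x ∈ M, ∃ d ∈ M, DgO e d ∧ d ≠ 1 ∧ a * y * a = x * d * x⁻¹ := by
    rintro a h1 h2 _ ⟨x, b1, d, b2, b3, b4, rfl⟩
    refine ⟨a * x, mul_mem h1 b1, d, b2, b3, b4, ?_⟩
    nth_rw 2 [← inv_eq_of_mul_eq_one_right h2]
    group
  rcases dih (a2.sq o) s2 (P := fun y => ∃ x ∈ M, ∃ d ∈ M, DgO e d ∧ d ≠ 1 ∧ y = x * d * x⁻¹)
    ⟨1, one_mem _, a, a1, a2, a3, by simp⟩ ⟨g, hg, t, ht, t1, t3, rfl⟩ (h5 _ a1 (a2.sq o))
    (h5 _ s1 s2) with ⟨y, ⟨x, -, d, -, b3, -, b5⟩, b6⟩ | ⟨z, b1, -, b3, b4, ⟨x, b5, d, b6, b7, b8, b9⟩, -⟩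
  · have c1 : y * y = 1 := by rw [b5, conj_mul, b3.sq o]; simp
    have c2 : t = g⁻¹ * y * a * (g⁻¹ * y)⁻¹ := by
      rw [mul_inv_rev, inv_eq_of_mul_eq_one_right c1, mul_assoc g⁻¹, mul_assoc g⁻¹, ← mul_assoc _ y, b6]
      group
    have c3 := o.card_mvd t1.mon (c2 ▸ a4.conj (g⁻¹ * y))
    have := Finset.card_le_card (s := {i}ᶜ) (t := mvd e t) fun k hk => mem_mvd.mpr (t2 k (by simpa using hk))
    rw [Finset.card_compl, h.seven, Finset.card_singleton] at this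
    omega
  have c1 : z ∈ M := (mul_mem_cancel_right a1).mp (b9 ▸ mul_mem (mul_mem b5 b6) (inv_mem b5))
  have c2 := h.conj_dg c1 a1 a2 a3 (by rw [b3]; simpa using a2.mon)
  have c3 := b7.conj (h.conj_dg b5 b6 b7 b8 (b9 ▸ mul_mem c2 a2.mon))
  have c4 := c3.mul a2
  rw [← b9, mul_assoc, a2.sq o, mul_one] at c4
  refine hg' (inv_mem_iff.mp (h.conj_dg (inv_mem hg) c1 c4 b1 (h.conj_dg
    (mul_mem (mul_mem (inv_mem hg) c1) (inv_mem (inv_mem hg))) ht t1 t3 ?_)))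
  convert t1.mon using 1
  rw [mul_inv_eq_iff_eq_mul, ← mul_right_inj g, ← mul_left_inj g⁻¹]
  simpa [mul_assoc] using b4

end FrS

end Cfsg.Agent.H18
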