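import Mathlib
import Cfsg.Agent.H18.FrA
import Cfsg.Agent.H18.FinField

/-!
Orthogonal decompositions into planes: basic facts and generation by Siegel elements.
-/

set_option autoImplicit false

namespace Cfsg.Agent.H18

open Module QuadraticMap H13

theorem card_quad_le {F : Type*} [Field F] {a b c : F} (ha : a ≠ 0) (s : Finset F)
    (h : ∀ t ∈ s, a * t ^ 2 + b * t + c = 0) : s.card ≤ 2 := by
  open Polynomial in
  classical
  refine (card_le_degree_of_subset_roots (p := C a * X ^ 2 + C b * X + C c) fun t ht => ?_).trans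
    natDegree_quadratic_le
  rw [mem_roots (fun H => by simpa [H] using natDegree_quadratic (b := b) (c := c) ha)]
  simpa using h t ht

variable {F V : Type*} [Field F] [AddCommGroup V] [Module F V] {Q : QuadraticForm F V}
  {M : Subgroup (OG Q)} {a b f s u v w x y z : V} {g : OG Q} {W : Submodule F V} {c : F}

theorem zero_of_indep (hw : w ∉ F ∙ v) {c d : F} (h : c • v + d • w = 0) : d = 0 :=
  by_contra fun hd => hw (Submodule.mem_span_singleton.mpr ⟨-c / d, by
    rw [← inv_smul_smul₀ hd w, eq_neg_of_add_eq_zero_right h]; module⟩)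

variable [FiniteDimensional F V]

theorem span_two (h2 : finrank F W = 2) (hv : v ∈ W) (hw : w ∈ W) (h0 : v ≠ 0) (h : w ∉ F ∙ v)
    (hx : x ∈ W) : ∃ c d : F, x = c • v + d • w := by
  have : Submodule.span F {v, w} = W := Submodule.eq_of_le_of_finrank_le
    (Submodule.span_le.mpr (by simp [Set.insert_subset_iff, hv, hw])) (by
      rw [h2, Submodule.span_insert, Submodule.finrank_sup_span_singleton h, finrank_span_singleton h0])
  obtain ⟨c, d, rfl⟩ := Submodule.mem_span_pair.mp (this.ge hx)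
  exact ⟨c, d, rfl⟩

theorem perp_two (h2 : finrank F W = 2) (hv : v ∈ W) (hw : w ∈ W) (h0 : v ≠ 0) (h : w ∉ F ∙ v)
    (h1 : polar Q v x = 0) (h3 : polar Q w x = 0) : x ∈ perp Q W := mem_perp.mpr fun y hy => by
  obtain ⟨c, d, rfl⟩ := span_two h2 hv hw h0 h hy
  simp [h1, h3]

omit [FiniteDimensional F V] in
theorem exists_indep (h2 : finrank F W = 2) (v : V) : ∃ w ∈ W, w ∉ F ∙ v :=
  SetLike.not_le_iff_exists.mp fun h => by
    have := (Submodule.finrank_mono h).trans (finrank_span_le_card ({v} : Set V))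
    simp [h2] at this

theorem disc_ne (hW : ND (Q.restrict W)) (h2 : finrank F W = 2) (hv : v ∈ W) (hw : w ∈ W)
    (h0 : v ≠ 0) (h : w ∉ F ∙ v) : polar Q v w ^ 2 - 4 * Q v * Q w ≠ 0 := fun H => by
  have h1 : -polar Q v w • v + (2 * Q v) • w = 0 :=
    nd_sep hW (add_mem (W.smul_mem _ hv) (W.smul_mem _ hw)) (mem_perp.mp (perp_two h2 hv hw h0 h
      (by simp [polar_self', -polar_self]; ring)
      (by simp [polar_self', polar_comm Q w v, -polar_self]; linear_combination -H)))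
  have h3 := zero_of_indep h h1
  exact h0 (nd_sep hW hv (mem_perp.mp (perp_two h2 hv hw h0 h (by rw [polar_self', h3])
    (by rw [polar_comm]; simpa [h3, h0] using h1))))

theorem smul_mem_of_inv [Fintype F] (hW : ND (Q.restrict W)) (h2 : finrank F W = 2)
    (h : (∀ x ∈ W, Q x = 0 → x = 0) ∨ 5 ≤ Fintype.card F) (S : AddSubgroup V) (hS : ∀ x ∈ S, x ∈ W)
    (hi : ∀ a ∈ W, ∀ x ∈ S, (refl Q a).1 x ∈ S) (c : F) (hx : x ∈ S) : c • x ∈ S := by
  classical
  let R : Subring F :=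
    { carrier := {c | ∀ x ∈ S, c • x ∈ S}
      mul_mem' := fun ha hb x hx => by rw [mul_smul]; exact ha _ (hb x hx)
      one_mem' := fun x hx => by rwa [one_smul]
      add_mem' := fun ha hb x hx => by rw [add_smul]; exact add_mem (ha x hx) (hb x hx)
      zero_mem' := fun x _ => by simp
      neg_mem' := fun ha x hx => by rw [neg_smul]; exact neg_mem (ha x hx) }
  let K : Subfield F := { R with
    inv_mem' := fun c hc => by
      by_cases h0 : c = 0
      · simpa [h0] using hc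
      have := Fintype.one_lt_card (α := F)
      rw [inv_eq_of_mul_eq_one_left (a := c ^ (Fintype.card F - 2)) (by
        rw [← pow_succ, ← FiniteField.pow_card_sub_one_eq_one c h0]; congr 1; omega)]
      exact R.pow_mem hc _ }
  suffices K = ⊤ from (this.ge (Subfield.mem_top c) :) x hx
  by_contra hK
  obtain ⟨K', r, a1, a2, a3⟩ := exists_prime_index_subfield K hK
  have a4 : Nat.card K ^ 2 ≤ Fintype.card F := a3 ▸ (Nat.pow_le_pow_left (Subgroup.card_le_of_le
    (H := K.toAddSubgroup.toSubgroup) (K := K'.toAddSubgroup.toSubgroup) a1) 2).trans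
    (Nat.pow_le_pow_right Nat.card_pos a2.two_le)
  obtain ⟨⟨v, hv⟩, b1⟩ := hW.exists_eq h2.ge 1
  replace b1 : Q v = 1 := b1
  have v0 : v ≠ 0 := by rintro rfl; simp at b1
  obtain ⟨w, hw, b2⟩ := exists_indep h2 v
  have b3 := disc_ne hW h2 hv hw v0 b2
  have b4 : ∀ t : F, Q (t • v + w) = 1 * t ^ 2 + polar Q v w * t + Q w := fun t => by
    simp [Q_add, Q_smul, b1]; ring
  have b5 : ∀ t : F, t • v + w ∉ F ∙ v := fun t H => b2 ((Submodule.add_mem_iff_right _
    (Submodule.smul_mem _ t (Submodule.mem_span_singleton_self v))).mp H)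
  have b6 := Finset.card_le_mul_card_image_of_maps_to
    (s := Finset.univ.filter fun t : F => Q (t • v + w) ≠ 0)
    (t := (Finset.univ.filter (· ∈ K)).erase 4)
    (f := fun t => (2 * t + polar Q v w) ^ 2 / Q (t • v + w)) (fun t ht => by
      have c1 := (Finset.mem_filter.mp ht).2
      refine Finset.mem_erase.mpr ⟨fun H => b3 ?_, Finset.mem_filter.mpr ⟨Finset.mem_univ _, ?_⟩⟩
      · rw [div_eq_iff c1, b4] at H
        rw [b1]; linear_combination H
      rw [← sub_add_cancel (_ / _) 2]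
      refine add_mem (fun x hx => ?_) (ofNat_mem K 2)
      have c2 := add_mem (W.smul_mem t hv) hw
      convert add_mem (hi v hv _ (hi _ c2 x hx)) (hi _ c2 _ (hi v hv x hx)) using 1
      obtain ⟨c, d, rfl⟩ := span_two h2 hv c2 v0 (b5 t) (hS x hx)
      have c3 : polar Q v (t • v + w) = 2 * t + polar Q v w := by simp [b1, mul_comm]
      rw [← c3]
      generalize t • v + w = y at c1
      simp only [refl_apply, polar_add_right, polar_sub_right, polar_smul_right, polar_self', b1,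
        polar_comm Q y v, smul_eq_mul]
      match_scalars <;> field_simp <;> ring) 2 fun k hk => card_quad_le (a := 4 - k)
        (b := (4 - k) * polar Q v w) (c := polar Q v w ^ 2 - k * Q w)
        (sub_ne_zero.mpr (Finset.mem_erase.mp hk).1.symm) _ fun t ht => by
      simp only [Finset.mem_filter, Finset.mem_univ, true_and] at ht
      have := ht.2
      rw [div_eq_iff ht.1, b4] at this
      linear_combination this
  rw [Finset.card_erase_of_mem (by simpa using ofNat_mem K 4), ← Fintype.card_subtype (· ∈ K),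
    ← Nat.card_eq_fintype_card (α := {x // x ∈ K})] at b6
  have b7 := Finset.card_filter_add_card_filter_not (s := Finset.univ) fun t : F => Q (t • v + w) = 0
  have b8 : 0 < Nat.card K := Nat.card_pos
  rw [Finset.card_univ] at b7
  obtain ⟨k, hk⟩ : ∃ k, Nat.card K = k + 1 := ⟨_, (Nat.succ_pred_eq_of_pos b8).symm⟩
  rw [hk] at a4 b6
  rcases h with h | h
  · rw [Finset.filter_eq_empty_iff.mpr fun t _ H => b5 t (h _ (add_mem (W.smul_mem t hv) hw) H ▸
      zero_mem _)] at b7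
    simp only [ne_eq, Finset.card_empty, Nat.add_sub_cancel] at b6 b7
    nlinarith
  · have := card_quad_le one_ne_zero (Finset.univ.filter fun t : F => Q (t • v + w) = 0)
      fun t ht => (b4 t).symm.trans (Finset.mem_filter.mp ht).2
    simp only [ne_eq, Nat.add_sub_cancel] at b6
    have : k ≤ 1 := by nlinarith
    omega

/-- an orthogonal decomposition into at least five isometric planes, all of whose stabilising
elements of `Ω` lie in `M` -/
structure PL [Fintype F] {κ : Type*} [Fintype κ] (M : Subgroup (OG Q)) (E : κ → Submodule F V) :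
    Prop where
  nd : ND Q
  od : ODQ Q E
  two : ∀ i, finrank F (E i) = 2
  iso : ∀ i j, ∃ φ : E i ≃ₗ[F] E j, ∀ w, Q (φ w) = Q w
  five : 5 ≤ Fintype.card κ
  dim : 5 ≤ finrank F V
  le : ∀ g ∈ Om Q, g ∈ dsO Q E → g ∈ M
  typ : ((∀ i, ∀ x ∈ E i, Q x = 0 → x = 0) ∧ Fintype.card F ≠ 3) ∨ 7 ≤ Fintype.card F

variable [Fintype F] {κ : Type*} [Fintype κ] [DecidableEq κ] {E : κ → Submodule F V} {i j k l m : κ}

namespace PL

variable (h : PL M E)
include h

omit [DecidableEq κ]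

theorem orth (hij : i ≠ j) (hx : x ∈ E i) : x ∈ perp Q (E j) := h.od.orth j i hij.symm hx

theorem pol (hij : i ≠ j) (hx : x ∈ E i) (hy : y ∈ E j) : polar Q x y = 0 :=
  h.od.orth i j hij hy x hx

theorem sep (hx : x ∈ E i) (hy : x ∈ perp Q (E i)) : x = 0 := nd_sep (h.od.nd i) hx hy

theorem blk_eq (hx : x ∈ E i) (hy : x ∈ E j) (h0 : x ≠ 0) : i = j :=
  by_contra fun H => h0 (h.sep hy (h.orth H hx))

theorem dec (i : κ) (x : V) : ∃ a ∈ E i, ∃ r ∈ perp Q (E i), x = a + r :=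
  exists_add_perp h.nd (h.od.nd i) x

theorem dec2 (hij : i ≠ j) (x : V) : ∃ a ∈ E i, ∃ b ∈ E j, ∃ r ∈ perp Q (E i), r ∈ perp Q (E j) ∧
    x = a + b + r := by
  obtain ⟨a, h1, r, h2, rfl⟩ := h.dec i x
  obtain ⟨b, h3, s, h4, rfl⟩ := h.dec j r
  exact ⟨a, h1, b, h3, s, (Submodule.add_mem_iff_right _ (h.orth hij.symm h3)).mp h2, h4,
    (add_assoc ..).symm⟩

theorem val (i : κ) (c : F) : ∃ a ∈ E i, Q a = c :=
  have ⟨a, ha⟩ := (h.od.nd i).exists_eq (h.two i).ge c
  ⟨a, a.2, ha⟩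

theorem loc (hg : ∀ z ∈ perp Q (E j), g.1 z = z) : g ∈ dsO Q E :=
  ODQ.mem_dsO_of_stO (h.od.loc h.nd hg)

theorem refl_mem (ha : a ∈ E i) : refl Q a ∈ dsO Q E :=
  h.loc fun _ hz => refl_apply_of_perp (mem_perp.mp hz a ha)

theorem act (hg : g ∈ dsO Q E) (j : κ) :
    ∃ t ∈ M, t ∈ dsO Q E ∧ ∀ z ∈ perp Q (E j), t.1 z = g.1 z := by
  obtain ⟨a, a1, a2⟩ := h.val j 1
  have r : ∀ a ∈ E j, ∀ z ∈ perp Q (E j), (refl Q a).1 z = z := fun a ha z hz =>
    refl_apply_of_perp (mem_perp.mp hz a ha)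
  obtain ⟨x, h1, h2⟩ := h.nd.exists_mul_mem_Om (good_of_five h.dim)
    (p := fun x => ∀ z ∈ perp Q (E j), x.1 z = z) (fun _ _ => rfl)
    (fun x y h1 h2 z hz => by rw [OG_mul_apply, h2 z hz, h1 z hz]) ⟨a, by simp [a2], r a a1⟩
    (fun h2 => by
      obtain ⟨c, c1, c2⟩ := exists_sgn_eq_neg_one h2
      obtain ⟨b, b1, rfl⟩ := h.val j c
      exact ⟨refl Q a * refl Q b, fun z hz => by rw [OG_mul_apply, r b b1 z hz, r a a1 z hz],
        by simp [dickson_refl, a2, c1], by simp [spinor_refl, a2, c1, c2, sgn_one]⟩) g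
  have h3 := mul_mem hg (h.loc h1)
  exact ⟨_, h.le _ h2 h3, h3, fun z hz => by rw [OG_mul_apply, h1 z hz]⟩

theorem rot (hv : v ∈ E i) (h0 : Q v ≠ 0) :
    ∃ w ∈ E i, Q w = Q v ∧ polar Q v w ≠ 0 ∧ w ∉ F ∙ v := by
  have v0 : v ≠ 0 := by rintro rfl; simp at h0
  obtain ⟨w, hw, b2⟩ := exists_indep (h.two i) v
  have b3 := disc_ne (h.od.nd i) (h.two i) hv hw v0 b2
  obtain ⟨t, h1, h2, h3⟩ : ∃ t : F, Q w + t * polar Q v w + t ^ 2 * Q v ≠ 0 ∧
      polar Q v w + t * (2 * Q v) ≠ 0 ∧ 2 * Q v * Q w - polar Q v w ^ 2 +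
        t * (-2 * Q v * polar Q v w) + t ^ 2 * (-2 * Q v ^ 2) ≠ 0 := by
    have b4 : ∀ t : F, (∀ x ∈ E i, Q x = 0 → x = 0) → Q w + t * polar Q v w + t ^ 2 * Q v ≠ 0 :=
      fun t H h1 => b2 (Submodule.mem_span_singleton.mpr ⟨-t, by
        rw [neg_smul, neg_eq_iff_add_eq_zero]
        exact H _ (add_mem (Submodule.smul_mem _ _ hv) hw) (by simp [Q_add, Q_smul, ← h1]; ring)⟩)
    by_cases h2 : (2 : F) = 0
    · have b5 : polar Q v w ≠ 0 := fun H => b3 (by
        rw [H, show (4 : F) = 2 * 2 by norm_num, h2]; ring)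
      suffices ∃ t : F, Q w + t * polar Q v w + t ^ 2 * Q v ≠ 0 from
        this.imp fun t ht => ⟨ht, by simpa [h2], by simpa [h2]⟩
      rcases h.typ with H | H
      · exact ⟨0, b4 0 (H.1 i)⟩
      · exact (exists_avoid (by simp; omega) (a := 1) (b := 0) (by simp) (by simp [h0])).imp
          fun _ h => h.2
    rcases h.typ with H | H
    · obtain ⟨n, hn⟩ := two_ne_zero_iff_odd.mp h2
      have := Fintype.one_lt_card (α := F)
      exact (exists_avoid (by simp; omega) (by simp [h2, h0]) (by simp [h2, h0])).imp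
        fun t h => ⟨b4 t (H.1 i), h⟩
    classical
    by_contra! H'
    have := Finset.card_le_card (s := Finset.univ) (t := (Finset.univ.filter fun t : F => Q v * t ^ 2 +
      polar Q v w * t + Q w = 0) ∪ {-polar Q v w / (2 * Q v)} ∪ Finset.univ.filter fun t : F =>
      -2 * Q v ^ 2 * t ^ 2 + -2 * Q v * polar Q v w * t + (2 * Q v * Q w - polar Q v w ^ 2) = 0)
      fun t _ => by
        by_contra H
        simp only [Finset.mem_union, Finset.mem_filter, Finset.mem_univ, true_and,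
          Finset.mem_singleton, not_or] at H
        exact H.2 (by
          linear_combination H' t (fun h => H.1.1 (by linear_combination h)) fun h => H.1.2 (by
            field_simp; linear_combination h))
    have a1 := (this.trans (Finset.card_union_le _ _)).trans (add_le_add ((Finset.card_union_le _ _).trans
      (add_le_add (card_quad_le h0 _ fun t ht => (Finset.mem_filter.mp ht).2) (Finset.card_singleton _).le))
      (card_quad_le (by simp [h2, h0]) _ fun t ht => (Finset.mem_filter.mp ht).2))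
    rw [Finset.card_univ] at a1
    omega
  have a1 : Q (t • v + w) = Q w + t * polar Q v w + t ^ 2 * Q v := by simp [Q_add, Q_smul]; ring
  have a2 : polar Q (t • v + w) v = polar Q v w + t * (2 * Q v) := by
    simp [polar_comm Q w, polar_self', -polar_self, add_comm]
  have a3 := add_mem (Submodule.smul_mem _ t hv) hw
  refine ⟨(refl Q (t • v + w)).1 v, by rw [refl_apply]; exact sub_mem hv (Submodule.smul_mem _ _ a3),
    OG_map _ _, fun H => h3 ?_, fun H => ?_⟩
  · rw [refl_apply, polar_sub_right, polar_smul_right, polar_comm Q v (_ + _), a1, a2, polar_self',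
      smul_eq_mul, sub_eq_zero, mul_right_comm, ← div_eq_mul_inv, eq_div_iff h1] at H
    linear_combination H
  · obtain ⟨c, hc⟩ := Submodule.mem_span_singleton.mp H
    rw [refl_apply, a1, a2] at hc
    generalize hd : (polar Q v w + t * (2 * Q v)) * _ = d at hc
    exact mul_ne_zero h2 (inv_ne_zero h1) (hd ▸ zero_of_indep b2 (c := c - 1 + d * t) (by
      linear_combination (norm := module) hc))

theorem theta (j : κ) : ∃ t ∈ M, (∀ z ∈ perp Q (E j), t.1 z = z) ∧ (∀ x ∈ E j, t.1 x = x → x = 0) ∧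
    t * t ≠ 1 := by
  obtain ⟨v, a1, a2⟩ := h.val j 1
  obtain ⟨w, b1, b2, b3, b4⟩ := h.rot a1 (by simp [a2])
  have v0 : v ≠ 0 := by rintro rfl; simp at a2
  rw [a2] at b2
  refine ⟨refl Q v * refl Q w, h.le _ (h.nd.refl_mul_refl_mem_commutator (by simp [a2]) (a2.trans b2.symm))
    (mul_mem (h.refl_mem a1) (h.refl_mem b1)), fun z hz => by
      rw [OG_mul_apply, refl_apply_of_perp (mem_perp.mp hz w b1), refl_apply_of_perp (mem_perp.mp hz v a1)],
    fun x hx H => ?_, fun H => ?_⟩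
  · have := congrArg (refl Q v).1 H
    rw [← OG_mul_apply, ← mul_assoc, refl_mul_self, one_mul, refl_apply, refl_apply, a2, b2] at this
    have c1 : polar Q w x = 0 := by
      simpa using zero_of_indep b4 (c := -polar Q v x) (d := polar Q w x)
        (by linear_combination (norm := module) -this)
    exact h.sep hx (perp_two (h.two j) a1 b1 v0 b4 (by simpa [c1, v0] using this.symm) c1)
  · have := congrArg (fun g : OG Q => g.1 v) (eq_inv_of_mul_eq_one_left H)
    simp only [mul_inv_rev, refl_inv, OG_mul_apply, refl_apply, a2, b2, polar_sub_right,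
      polar_smul_right, polar_self', polar_comm Q w v, smul_eq_mul] at this
    have c1 : polar Q v w ^ 2 • v + (-2 * polar Q v w) • w = 0 := by
      linear_combination (norm := module) this
    simp [zero_of_indep b4 c1, b3, v0] at c1

theorem fill (H : AS M u a) (hjk : j ≠ k) (h1 : u ∈ perp Q (E j)) (h2 : u ∈ perp Q (E k))
    (h3 : a ∉ perp Q (E j)) (hx : x ∈ E j) : AS M u x := by
  let S : AddSubgroup V :=
    { carrier := {x | x ∈ E j ∧ AS M u x}
      add_mem' := fun ha hb => ⟨add_mem ha.1 hb.1, ha.2.add hb.2⟩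
      zero_mem' := ⟨zero_mem _, AS.zero H.Qu⟩
      neg_mem' := fun ha => ⟨neg_mem ha.1, ha.2.neg⟩ }
  have a1 : ∀ g : OG Q, (∀ z ∈ perp Q (E j), g.1 z = z) → ∀ x ∈ S, g.1 x ∈ S := fun g hg x hx => by
    obtain ⟨t, b1, -, b2⟩ := h.act (h.loc hg) k
    have := hx.2.map b1
    rw [b2 u h2, b2 x (h.orth hjk hx.1), hg u h1] at this
    exact ⟨(mem_stO_of_fix_perp h.nd hg x).mp hx.1, this⟩
  let B : Submodule F V := { S with
    smul_mem' := fun c x hx => smul_mem_of_inv (h.od.nd j) (h.two j)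
      (h.typ.imp (fun H => H.1 j) (by omega)) S (fun _ h => h.1) (fun a ha =>
        a1 _ fun z hz => refl_apply_of_perp (mem_perp.mp hz a ha)) c hx }
  obtain ⟨t, b1, b2, b3, -⟩ := h.theta j
  refine (le_of_invariant h.nd (h.od.nd j) (h.typ.elim (fun H => Or.inr (Or.inr (H.1 j)))
    fun H => Or.inl (exists_sq_ne_one (by simp; omega))) (B := B) (fun _ h => h.1)
    ((Submodule.ne_bot_iff _).mpr ⟨t.1 a - a, ⟨map_mem_of_fix_perp h.nd b2 a, H.fix b1 (b2 u h1)⟩,
      fun H => h3 ?_⟩) a1 hx).2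
  obtain ⟨y, c1, r, c2, rfl⟩ := h.dec j a
  rwa [b3 y c1 (by simpa [b2 r c2, sub_eq_zero] using H), zero_add]

theorem swap (hij : i ≠ j) : ∃ g ∈ dsO Q E, (∀ x ∈ E i, g.1 x ∈ E j) ∧ (∀ x ∈ E j, g.1 x ∈ E i) ∧
    ∀ z ∈ perp Q (E i), z ∈ perp Q (E j) → g.1 z = z := by
  classical
  obtain ⟨φ, hφ⟩ := h.iso i j
  exact h.od.exists_swap h.nd h.two two_pos hij φ hφ

theorem fill' (H : AS M u a) (hjk : j ≠ k) (h1 : u ∈ perp Q (E j)) (h2 : u ∈ perp Q (E k))
    (h3 : a ∉ perp Q (E j)) (h4 : u ∈ perp Q (E l)) (hx : x ∈ E l) : AS M u x := by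
  by_cases hl : j = l
  · exact h.fill H hjk h1 h2 h3 (hl ▸ hx)
  obtain ⟨g, a1, a2, -, a3⟩ := h.swap hl
  obtain ⟨t, b1, -, b2⟩ := h.act a1 l
  obtain ⟨v, c1, c2⟩ := h.val j 1
  have := (h.fill H hjk h1 h2 h3 c1).map b1
  rw [b2 u h4, b2 v (h.orth hl c1), a3 u h1 h4] at this
  exact h.fill this (Ne.symm hl) h4 h1 (fun H => by simpa [h.sep (a2 v c1) H, c2] using OG_map g v) hx

theorem exists_ne (hx : x ≠ 0) : ∃ l, x ∉ perp Q (E l) :=
  not_forall.mp (mt (h.od.eq_zero h.nd) hx)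

theorem sing (hjk : j ≠ k) : ∃ a ∈ E j, ∃ b ∈ E k, a + b ≠ 0 ∧ Q (a + b) = 0 := by
  obtain ⟨a, a1, a2⟩ := h.val j 1
  obtain ⟨b, b1, b2⟩ := h.val k (-1)
  exact ⟨a, a1, b, b1, fun H => by
    simpa [h.sep a1 (eq_neg_of_add_eq_zero_left H ▸ neg_mem (h.orth hjk.symm b1))] using a2,
    by simp [Q_add, a2, b2, h.pol hjk a1 b1]⟩

theorem other (i j k l : κ) : ∃ m, m ≠ i ∧ m ≠ j ∧ m ≠ k ∧ m ≠ l := by
  classical
  simpa [not_or] using exists_not_mem ({i, j, k, l} : Finset κ)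
    (Finset.card_le_four.trans_lt (by have := h.five; omega))

theorem pair (H : AS M u a) (hjk : j ≠ k) (h0 : u ≠ 0) (h1 : u ∈ perp Q (E j)) (h2 : u ∈ perp Q (E k))
    (h3 : a ∉ perp Q (E j)) : ∃ a ∈ E j, ∃ b ∈ E k, a + b ≠ 0 ∧ Q (a + b) = 0 ∧
      ∀ l, l ≠ j → l ≠ k → ∀ x ∈ E l, AS M (a + b) x := by
  obtain ⟨a, a1, b, b1, c1, c2⟩ := h.sing hjk
  obtain ⟨l, hl⟩ := h.exists_ne h0
  obtain ⟨m, m1, m2, m3, -⟩ := h.other j k l l
  have p : ∀ l, l ≠ j → l ≠ k → a + b ∈ perp Q (E l) := fun l c1 c2 =>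
    add_mem (h.orth c1.symm a1) (h.orth c2.symm b1)
  exact ⟨a, a1, b, b1, c1, c2, fun n n1 n2 x hx => h.fill'
    (((h.fill' H hjk h1 h2 h3 h1 a1).add (h.fill' H hjk h1 h2 h3 h2 b1)).swap c2) m3.symm
    (p l (fun h => hl (h ▸ h1)) fun h => hl (h ▸ h2)) (p m m1 m2) hl (p n n1 n2) hx⟩

theorem exists_nonsing (hx : x ∉ perp Q (E j)) : ∃ a ∈ E j, Q a ≠ 0 ∧ polar Q a x ≠ 0 := by
  obtain ⟨v, a1, a2⟩ := h.val j 1
  obtain ⟨w, b1, b2, -, b4⟩ := h.rot a1 (by simp [a2])
  by_contra! H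
  exact hx (perp_two (h.two j) a1 b1 (by rintro rfl; simp at a2) b4 (H v a1 (by simp [a2]))
    (H w b1 (by simp [a2, b2])))

theorem fin (H : AS M u a) (hjk : j ≠ k) (h0 : u ≠ 0) (h1 : u ∈ perp Q (E j)) (h2 : u ∈ perp Q (E k))
    (h3 : a ∉ perp Q (E j)) : Om Q ≤ M := by
  obtain ⟨a, a1, b, b1, c1, c2, c3⟩ := h.pair H hjk h0 h1 h2 h3
  obtain ⟨l, l1, l2, -⟩ := h.other j k k k
  obtain ⟨m, m1, m2, m3, -⟩ := h.other j k l l
  have p : ∀ l, l ≠ j → l ≠ k → a + b ∈ perp Q (E l) := fun l c1 c2 =>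
    add_mem (h.orth c1.symm a1) (h.orth c2.symm b1)
  obtain ⟨v, v1, v2⟩ := h.val l 1
  obtain ⟨a', d1, b', d2, d3, d4, d5⟩ := h.pair (c3 l l1 l2 v v1) m3.symm c1 (p l l1 l2) (p m m1 m2)
    fun H => by simp [h.sep v1 H] at v2
  have e1 : ∀ x ∈ E l ⊔ E m, AS M (a + b) x := fun x hx => by
    obtain ⟨y, hy, z, hz, rfl⟩ := Submodule.mem_sup.mp hx
    exact (c3 l l1 l2 y hy).add (c3 m m1 m2 z hz)
  obtain ⟨x, x1, x2⟩ : ∃ x ∈ E l ⊔ E m, polar Q (a' + b') x = 1 := by
    obtain ⟨n, hn⟩ := h.exists_ne d3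
    obtain ⟨x, x1, -, x2⟩ := h.exists_nonsing hn
    refine ⟨(polar Q x (a' + b'))⁻¹ • x, Submodule.smul_mem _ _ ?_, by
      rw [polar_smul_right, polar_comm Q (a' + b'), smul_eq_mul, inv_mul_cancel₀ x2]⟩
    by_cases n1 : n = l
    · exact Submodule.mem_sup_left (n1 ▸ x1)
    by_cases n2 : n = m
    · exact Submodule.mem_sup_right (n2 ▸ x1)
    exact (hn (add_mem (h.orth (Ne.symm n1) d1) (h.orth (Ne.symm n2) d2))).elim
  have e2 : EO M (a + b) := ⟨c2, fun y hy => by
    obtain ⟨y₁, f1, y₂, f2, r, f3, f4, rfl⟩ := h.dec2 hjk y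
    have f5 : AS M (a + b) r := by
      let B : Submodule F V :=
        { carrier := {x | ∃ y ∈ E k, AS M (a + b) (x - y) ∧ x - y ∈ perp Q (E k) ∧
            ∀ c : F, AS M (a + b) (c • (x - y))}
          add_mem' := by
            rintro x x' ⟨y, h1, h2, h3, h4⟩ ⟨y', h5, h6, h7, h8⟩
            refine ⟨y + y', add_mem h1 h5, ?_⟩
            rw [add_sub_add_comm]
            exact ⟨h2.add h6, add_mem h3 h7, fun c => by rw [smul_add]; exact (h4 c).add (h8 c)⟩
          zero_mem' := ⟨0, zero_mem _, by simpa using AS.zero c2⟩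
          smul_mem' := by
            rintro c x ⟨y, h1, -, h3, h4⟩
            refine ⟨c • y, Submodule.smul_mem _ _ h1, ?_⟩
            rw [← smul_sub]
            exact ⟨h4 c, Submodule.smul_mem _ _ h3, fun d => by rw [smul_smul]; exact h4 _⟩ }
      obtain ⟨y, g1, g2, g3, -⟩ := h.od.perp_le h.nd (B := B) (i := j) (fun n hn x hx => by
        by_cases hk : n = k
        · exact ⟨x, hk ▸ hx, by simpa using AS.zero c2⟩
        · exact ⟨0, zero_mem _, by simpa using ⟨c3 n hn hk x hx, h.orth hk hx, fun c =>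
            c3 n hn hk _ (Submodule.smul_mem _ c hx)⟩⟩) f3
      rwa [h.sep g1 (by simpa using sub_mem f4 g3), sub_zero] at g2
    have f6 : ∀ x ∈ E l ⊔ E m, polar Q (y₁ + y₂) x = 0 := fun x hx => by
      obtain ⟨y, hy, z, hz, rfl⟩ := Submodule.mem_sup.mp hx
      simp [h.pol l1.symm f1 hy, h.pol l2.symm f2 hy, h.pol m1.symm f1 hz, h.pol m2.symm f2 hz]
    have f7 := Submodule.add_mem_sup d1 d2
    have := (e1 x x1).act ((d5 j l1.symm m1.symm y₁ f1).add (d5 k l2.symm m2.symm y₂ f2))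
      ((polar_comm ..).trans (e1 _ f7).ua) (by
        rw [polar_add_right Q _ _ r, f5.ua, add_zero, polar_comm] at hy; exact hy)
    rw [f6 x x1, x2] at this
    convert (this.neg.sub (e1 _ (Submodule.smul_mem _ (Q (y₁ + y₂)) f7))).add f5 using 1
    module⟩
  obtain ⟨n, hn⟩ := h.exists_ne c1
  obtain ⟨z, z1, z2, z3⟩ := h.exists_nonsing hn
  obtain ⟨t, t1, -, t2⟩ := h.act (h.refl_mem z1) l
  refine Om_le_of_EO h.nd h.dim e2 (e2.map t1) ?_
  rw [t2 _ (p l l1 l2), refl_apply, polar_sub_right, polar_self', c2, polar_smul_right, polar_comm _ _ z]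
  simpa [z2, -polar_add_right] using z3

end PL

end Cfsg.Agent.H18
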