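import Mathlib
import Cfsg.Agent.H18.PlA

/-!
Orthogonal decompositions into planes: overgroups in which fixing a block vector forces
stabilising the decomposition, and the class of a block reflection.
-/

set_option autoImplicit false

namespace Cfsg.Agent.H18

open Module QuadraticMap H13

variable {F V : Type*} [Field F] [AddCommGroup V] [Module F V] {Q : QuadraticForm F V}
  {M : Subgroup (OG Q)} {a b f p p' s u v w x z : V} {g y : OG Q} {W : Submodule F V} {c : F}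
  [FiniteDimensional F V] [Fintype F] {κ : Type*} [Fintype κ] {E : κ → Submodule F V} {i j k l m : κ}

omit [FiniteDimensional F V] in
theorem exists_avoid_perp (S : Finset V) (h1 : S.card < Fintype.card F) (h2 : ∀ s ∈ S, s ∉ perp Q W) :
    ∃ z ∈ W, ∀ s ∈ S, polar Q z s ≠ 0 := by
  obtain ⟨z, -, hz⟩ := Set.exists_of_ssubset (Submodule.iUnion_ssubset_of_forall_ne_top_of_card_lt
    Finset.univ (fun s : S => (perp Q (F ∙ s.1)).comap W.subtype) (fun s H => h2 s s.2 fun w hw =>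
      (polar_comm ..).trans (mem_perp_singleton.mp (H.ge (Submodule.mem_top (x := ⟨w, hw⟩)))))
    (by simpa using h1))
  exact ⟨z, z.2, fun s hs H => hz (Set.mem_biUnion (Finset.mem_univ (⟨s, hs⟩ : S))
    (mem_perp_singleton.mpr ((polar_comm ..).trans H)))⟩

namespace PL

variable (h : PL M E)
include h

theorem trans (hx : x ∈ E i) (hz : z ∈ E j) (h1 : x ≠ 0) (h2 : z ≠ 0) (h3 : Q z = Q x) :
    ∃ t ∈ M, t ∈ dsO Q E ∧ t.1 x = z := by
  obtain ⟨g, a1, a2⟩ : ∃ g ∈ dsO Q E, g.1 x ∈ E j := by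
    by_cases hij : i = j
    · exact ⟨1, one_mem _, hij ▸ hx⟩
    · obtain ⟨g, a1, a2, -⟩ := h.swap hij
      exact ⟨g, a1, a2 x hx⟩
  obtain ⟨g', b1, b2⟩ := exists_ext_map h.nd (h.od.nd j) a2 hz (by simpa) h2 (by simpa)
  obtain ⟨l, hl, -⟩ := h.other i i i i
  obtain ⟨t, c1, c2, c3⟩ := h.act (mul_mem (h.loc b2) a1) l
  exact ⟨t, c1, c2, by rw [c3 x (h.orth hl.symm hx), OG_mul_apply, b1]⟩

theorem mv (hy : y ∈ dsO Q E) (h1 : finrank F W ≤ 2) (h2 : ∀ x, y.1 x - x ∈ W) :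
    (∀ i, ∀ x ∈ E i, y.1 x ∈ E i) ∨ ∃ i j, i ≠ j ∧ (∀ x ∈ E i, y.1 x ∈ E j) ∧
      ∀ p ∈ W, ∃ x ∈ E i, y.1 x - x = p := by
  obtain ⟨π, hπ⟩ := hy
  have a1 : ∀ i, ∀ x ∈ E i, y.1 x ∈ E (π i) := fun i x hx => hπ i ▸ ⟨x, hx, rfl⟩
  by_cases H : ∀ i, π i = i
  · exact Or.inl fun i x hx => H i ▸ a1 i x hx
  obtain ⟨i, hi⟩ := not_forall.mp H
  refine Or.inr ⟨i, π i, Ne.symm hi, a1 i, fun p hp => ?_⟩
  have a2 : LinearMap.range ((y.1.toLinearMap - LinearMap.id) ∘ₗ (E i).subtype) = W :=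
    Submodule.eq_of_le_of_finrank_le (by rintro _ ⟨x, rfl⟩; exact h2 x) (by
      rw [LinearMap.finrank_range_of_inj, h.two]
      exacts [h1, (injective_iff_map_eq_zero _).mpr fun x hx => Subtype.ext (h.sep x.2 (h.orth hi
        ((sub_eq_zero.mp hx : y.1 x = x) ▸ a1 i x x.2)))])
  obtain ⟨x, hx⟩ := a2.ge hp
  exact ⟨x, x.2, hx⟩

theorem zero_blk (h1 : Q p ≠ 0) (h2 : polar Q p p' = 0) (h3 : p ∉ F ∙ p') (h4 : p' ≠ 0)
    (hy : refl Q p * refl Q p' ∈ dsO Q E) : ∃ j, p ∈ perp Q (E j) := by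
  have a0 : ∀ x, (refl Q p * refl Q p').1 x - x =
      -(polar Q p' x * (Q p')⁻¹) • p' + -(polar Q p x * (Q p)⁻¹) • p := fun x => by
    rw [OG_mul_apply, refl_apply p', map_sub, map_smul, refl_apply_of_perp h2, refl_apply]; module
  have a1 : ∀ x, (refl Q p * refl Q p').1 x - x ∈ Submodule.span F {p', p} := fun x =>
    Submodule.mem_span_pair.mpr ⟨_, _, (a0 x).symm⟩
  rcases h.mv hy (finrank_span_pair_le _ _) a1 with H | ⟨i, j, -, b1, b2⟩
  · by_contra! H'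
    have b1 : ∀ l, ∃ z ∈ E l, z ≠ 0 ∧ z ∈ Submodule.span F {p', p} := fun l => by
      obtain ⟨x, c1, -, c2⟩ := h.exists_nonsing (H' l)
      refine ⟨_, sub_mem (H l x c1) c1, fun H => c2 ?_, a1 x⟩
      simpa [h1, polar_comm Q p] using zero_of_indep h3 ((a0 x).symm.trans H)
    choose z z1 z2 z3 using b1
    have : Nonempty κ := Fintype.card_pos_iff.mp (by have := h.five; omega)
    obtain ⟨i⟩ := this
    obtain ⟨j, hj, -⟩ := h.other i i i i
    obtain ⟨k, hk, hk', -⟩ := h.other i j j j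
    obtain ⟨c, d, hc⟩ := span_two (by
      rw [Submodule.span_insert, Submodule.finrank_sup_span_singleton h3, finrank_span_singleton h4])
      (z3 i) (z3 j) (z2 i) (fun H => hj (h.blk_eq (z1 j)
        ((Submodule.span_singleton_le_iff_mem _ _).mpr (z1 i) H) (z2 j))) (z3 k)
    exact z2 k (h.sep (z1 k) (hc ▸ add_mem (Submodule.smul_mem _ _ (h.orth hk.symm (z1 i)))
      (Submodule.smul_mem _ _ (h.orth hk'.symm (z1 j)))))
  · obtain ⟨x, c1, c2⟩ := b2 p (Submodule.subset_span (by simp))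
    obtain ⟨l, l1, l2, -⟩ := h.other i j j j
    exact ⟨l, c2 ▸ sub_mem (h.orth l2.symm (b1 x c1)) (h.orth l1.symm c1)⟩

theorem hp (hv : v ∈ E i) (h1 : Q v = 0) (h0 : v ≠ 0) : ∃ w ∈ E i, HP Q v w ∧ pp Q v w = perp Q (E i) := by
  obtain ⟨w, a1, a2⟩ := exists_hp_mem (h.od.nd i) hv h1 h0
  refine ⟨w, a1, a2, Submodule.ext fun x => mem_perp_pair.trans ⟨fun H => perp_two (h.two i) hv a1 h0
    (fun H => ?_) H.1 H.2, fun H => ⟨H v hv, H w a1⟩⟩⟩
  obtain ⟨c, rfl⟩ := Submodule.mem_span_singleton.mp H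
  simpa [h1] using a2.uv

theorem seven (hv : v ∈ E i) (h1 : Q v = 0) (h0 : v ≠ 0) : 7 ≤ Fintype.card F :=
  h.typ.resolve_left fun H => h0 (H.1 i v hv h1)

section NF

variable (hO : ¬ Om Q ≤ M) (hN : ∀ y ∈ M, ∀ i, ∀ v ∈ E i, Q v ≠ 0 → y.1 v = v → y ∈ dsO Q E)
include hO hN

theorem fix (hy : y ∈ M) (hv : v ∈ E i) (h0 : v ≠ 0) (H : y.1 v = v) : y ∈ dsO Q E := by
  by_cases h1 : Q v = 0
  swap
  · exact hN y hy i v hv h1 H
  obtain ⟨w, a1, a2, a3⟩ := h.hp hv h1 h0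
  obtain ⟨c, c0, c1⟩ := exists_sq_ne_one (F := F) (by have := h.seven hv h1 h0; simp; omega)
  obtain ⟨α, β, a, ha⟩ := a2.exists_eq (y.1 w)
  obtain rfl : β = 1 := by
    simpa [ha, a2.uv, a2.uu, pp_left, -polar_self] using (OG_polar_fix H w)
  obtain rfl : α = -Q a := by
    have := a2.Q_comb α 1 a
    rw [← ha, OG_map, a2.Qv] at this
    linear_combination -this
  by_cases a0 : (a : V) = 0
  · exact hN y hy i (v + w) (add_mem hv a1) (by simp [Q_add, h1, a2.Qv, a2.uv]) (by simp [H, ha, a0])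
  have b1 : a2.torus (Units.mk0 c c0 ^ 2) ∈ M := h.le _ (torus_sq_mem_Om h.nd h.dim a2 _)
    (h.loc fun z hz => a2.torus_pp _ ⟨z, a3 ▸ hz⟩)
  generalize hτ : a2.torus (Units.mk0 c c0 ^ 2) = τ at b1
  have t1 : τ.1 v = c ^ 2 • v := by rw [← hτ, a2.torus_left]; rfl
  have t2 : τ.1 w = (c ^ 2)⁻¹ • w := by rw [← hτ, a2.torus_right]; rfl
  have t3 : ∀ x ∈ pp Q v w, τ.1 x = x := fun x hx => by rw [← hτ]; exact a2.torus_pp _ ⟨x, hx⟩
  have b2 := pp_left a
  have b3 : (sieg Q v a * y).1 v = v := by rw [OG_mul_apply, H, sieg_apply_self]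
  have b4 : (sieg Q v a * y).1 w = w := by
    rw [OG_mul_apply, ha, sieg_apply h1 b2]
    simp [a2.uu, a2.uv, b2, pp_left', pp_right', polar_self', -polar_self]
    module
  have b5 : τ * (sieg Q v a * y) = sieg Q v a * y * τ := a2.OG_ext
    (by rw [OG_mul_apply τ, OG_mul_apply _ τ, t1, map_smul, b3, t1])
    (by rw [OG_mul_apply τ, OG_mul_apply _ τ, t2, map_smul, b4, t2]) fun x => by
      rw [OG_mul_apply τ, OG_mul_apply _ τ, t3 x x.2, t3 _ (mem_perp_pair.mpr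
        ⟨by rw [OG_polar_fix b3, pp_left], by rw [OG_polar_fix b4, pp_right]⟩)]
  have b6 : AS M v ((1 - c ^ 2) • a) := ⟨h1, by simp [b2], by
    convert mul_mem (mul_mem b1 hy) (inv_mem (mul_mem hy b1)) using 1
    have e1 := conj_sieg τ v a
    rw [t1, t3 a a.2, sieg_smul_left h1 b2] at e1
    rw [sub_smul, one_smul, sub_eq_neg_add, sieg_add h1 (by simp [b2]) b2, sieg_neg h1 (by simp [b2]),
      ← e1, eq_mul_inv_iff_mul_eq, mul_assoc, ← mul_assoc (sieg Q v a), ← b5]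
    group⟩
  obtain ⟨j, hj⟩ := h.exists_ne (smul_ne_zero (sub_ne_zero.mpr c1.symm) a0)
  have hij : i ≠ j := fun H => hj (H ▸ a3 ▸ Submodule.smul_mem _ _ a.2)
  obtain ⟨k, k1, k2, -⟩ := h.other i j j j
  exact (hO (h.fin b6 k2.symm h0 (h.orth hij hv) (h.orth k1.symm hv) hj)).elim

theorem of_map (hg : g ∈ M) (hv : v ∈ E i) (h0 : v ≠ 0) (H : g.1 v ∈ E j) : g ∈ dsO Q E := by
  obtain ⟨t, a1, a2, a3⟩ := h.trans H hv (by simpa) h0 (by simp)
  exact (mul_mem_cancel_left a2).mp (h.fix hO hN (mul_mem a1 hg) hv h0 a3)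

theorem z1 (hg : g ∈ M) (hv : v ∈ E i) (h0 : v ≠ 0) (H : g.1 v ∈ perp Q (E j)) : g ∈ dsO Q E := by
  obtain ⟨t, a1, a2, a3, a4⟩ := h.theta j
  have b1 : ∀ x, g.1 ((g⁻¹ * t * g).1 x) = t.1 (g.1 x) := fun x => by
    rw [OG_mul_apply, OG_mul_apply, OG_apply_inv]
  have b2 : ∀ x, g.1 ((g⁻¹ * t * g).1 x - x) ∈ E j := fun x => by
    rw [map_sub, b1]; exact map_mem_of_fix_perp h.nd a2 _
  rcases h.mv (W := (E j).map (g⁻¹).1.toLinearMap) (h.fix hO hN (mul_mem (mul_mem (inv_mem hg) a1) hg)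
    hv h0 (g.1.injective (by rw [b1, a2 _ H]))) (by rw [finrank_map_OG, h.two])
    (fun x => ⟨_, b2 x, OG_inv_apply_apply ..⟩) with H | ⟨a, b, hab, c1, c2⟩
  · by_contra hg'
    have c1 : ∀ l, ∀ x ∈ E l, (g⁻¹ * t * g).1 x = x := fun l x hx => by_contra fun c1 =>
      hg' (h.of_map hO hN hg (sub_mem (H l x hx) hx) (sub_ne_zero.mpr c1) (b2 x))
    obtain ⟨w, w1, w2⟩ := h.val j 1
    have c2 := h.od.eq_zero h.nd (x := (g⁻¹ * t * g).1 ((g⁻¹).1 w) - (g⁻¹).1 w) fun l x hx => by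
      change polar Q _ _ = 0
      rw [polar_sub_right, OG_polar_fix (c1 l x hx), sub_self]
    have c3 := congrArg g.1 (sub_eq_zero.mp c2)
    rw [b1, OG_apply_inv] at c3
    simp [a3 w w1 c3] at w2
  have d1 : ∀ x ∈ E a, (g⁻¹ * t * g).1 ((g⁻¹ * t * g).1 x) = x := fun x hx => by
    obtain ⟨x', e1, e2⟩ := c2 _ ⟨_, b2 ((g⁻¹ * t * g).1 x), OG_inv_apply_apply ..⟩
    generalize g⁻¹ * t * g = y at c1 e2
    obtain rfl : x' = -x := eq_neg_of_add_eq_zero_left (h.sep (add_mem e1 hx) fun z hz => by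
      have := congrArg (polar Q (y.1 z)) e2
      simp only [polar_sub_right, OG_polar, h.pol hab.symm (c1 z hz) e1, h.pol hab hz (c1 x hx)] at this
      change polar Q _ _ = 0
      rw [polar_add_right]; linear_combination this)
    rw [map_neg] at e2
    linear_combination (norm := module) -e2
  refine (a4 (OG_ext_of_isCompl (fun w hw => ?_) (fun z hz => by rw [OG_mul_apply, a2 z hz, a2 z hz]; rfl)
    (h.nd.isCompl (h.od.nd j)))).elim
  obtain ⟨x, e1, e2⟩ := c2 _ ⟨w, hw, rfl⟩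
  have e3 := congrArg g.1 e2
  rw [LinearEquiv.coe_coe, OG_apply_inv] at e3
  rw [← e3, OG_mul_apply, ← b1, ← b1, map_sub (g⁻¹ * t * g).1, map_sub (g⁻¹ * t * g).1, d1 x e1]
  rfl

theorem le_dsO (hg : g ∈ M) : g ∈ dsO Q E := by
  classical
  by_contra hg'
  have a1 : ∀ i, ∀ v ∈ E i, v ≠ 0 → ∀ j, g.1 v ∉ perp Q (E j) := fun i v h1 h2 j H =>
    hg' (h.z1 hO hN hg h1 h2 H)
  have : Nonempty κ := Fintype.card_pos_iff.mp (by have := h.five; omega)
  obtain ⟨i⟩ := this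
  obtain ⟨j, hj, -⟩ := h.other i i i i
  obtain ⟨k, hk, hk', -⟩ := h.other i j j j
  have a2 : ∀ i, ∃ e ∈ E i, ∃ e' ∈ E i, e ≠ 0 ∧ e' ≠ 0 ∧ ∀ s ∈ E i, Q s = 0 →
      s ∈ F ∙ e ∨ s ∈ F ∙ e' := fun i => by
    by_cases H : ∀ s ∈ E i, Q s = 0 → s = 0
    · obtain ⟨v, v1, v2⟩ := h.val i 1
      have : v ≠ 0 := by rintro rfl; simp at v2
      exact ⟨v, v1, v, v1, this, this, fun s h1 h2 => by simp [H s h1 h2]⟩
    push Not at H
    obtain ⟨v, v1, v2, v3⟩ := H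
    obtain ⟨w, w1, w2, w3⟩ := h.hp v1 v2 v3
    refine ⟨v, v1, w, w1, v3, w2.ne_right, fun s h1 h2 => ?_⟩
    obtain ⟨α, β, a, rfl⟩ := w2.exists_eq s
    have b1 : (a : V) = 0 := h.sep ((Submodule.add_mem_iff_right _ (add_mem (Submodule.smul_mem _ _ v1)
      (Submodule.smul_mem _ _ w1))).mp h1) (w3 ▸ a.2)
    rw [w2.Q_comb, b1, map_zero, add_zero, mul_eq_zero] at h2
    rcases h2 with rfl | rfl <;> simp [b1, Submodule.smul_mem, Submodule.mem_span_singleton_self]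
  choose e e1 e' e2 e3 e4 e5 using a2
  obtain ⟨z, z1, z0, z2⟩ : ∃ z ∈ E i, z ≠ 0 ∧ ∀ l ∈ ({i, j, k} : Finset κ), ∀ s ∈ E l, s ≠ 0 →
      polar Q z (g.1 s) = 0 → Q s ≠ 0 := by
    rcases h.typ with H | H
    · exact ⟨e i, e1 i, e3 i, fun l _ s h1 h2 _ h3 => h2 (H.1 l s h1 h3)⟩
    obtain ⟨z, z1, z2⟩ := exists_avoid_perp (Q := Q) (W := E i) (({i, j, k} : Finset κ).image
      (fun l => g.1 (e l)) ∪ ({i, j, k} : Finset κ).image fun l => g.1 (e' l))
      (((Finset.card_union_le _ _).trans (add_le_add (Finset.card_image_le.trans Finset.card_le_three)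
        (Finset.card_image_le.trans Finset.card_le_three))).trans_lt (by omega)) (by
      simp only [Finset.mem_union, Finset.mem_image]
      rintro _ (⟨l, -, rfl⟩ | ⟨l, -, rfl⟩)
      exacts [a1 l _ (e1 l) (e3 l) i, a1 l _ (e2 l) (e4 l) i])
    refine ⟨z, z1, fun H => z2 (g.1 (e i)) (by simp) (by simp [H]), fun l hl s h1 h2 h3 h4 => ?_⟩
    rcases e5 l s h1 h4 with h5 | h5 <;> obtain ⟨c, rfl⟩ := Submodule.mem_span_singleton.mp h5
    · exact z2 _ (Finset.mem_union_left _ (Finset.mem_image_of_mem _ hl))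
        (by simpa [left_ne_zero_of_smul h2] using h3)
    · exact z2 _ (Finset.mem_union_right _ (Finset.mem_image_of_mem _ hl))
        (by simpa [left_ne_zero_of_smul h2] using h3)
  have a3 : ∀ l, ∃ v ∈ E l, v ≠ 0 ∧ polar Q z (g.1 v) = 0 := fun l => by
    have := le_finrank_inf_perp h.nd (E l) ((g⁻¹).1 z)
    obtain ⟨v, v1, v2⟩ := (Submodule.ne_bot_iff (E l ⊓ perp Q (F ∙ (g⁻¹).1 z))).mp fun H => by
      rw [H, h.two, finrank_bot] at this; omega
    exact ⟨v, v1.1, v2, by rw [OG_polar_right]; exact mem_perp_singleton.mp v1.2⟩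
  choose v v1 v2 v3 using a3
  have a4 : ∀ l ∈ ({i, j, k} : Finset κ), ∀ m ∈ ({i, j, k} : Finset κ), l ≠ m →
      sgn (Q (v l)) ≠ sgn (Q (v m)) := fun l hl m hm hlm H => by
    have b1 := z2 l hl _ (v1 l) (v2 l) (v3 l)
    have b2 := mul_mem (mul_mem hg (h.le _ (h.nd.refl_mul_refl_mem_commutator' b1
      (z2 m hm _ (v1 m) (v2 m) (v3 m)) H) (mul_mem (h.refl_mem (v1 l)) (h.refl_mem (v1 m))))) (inv_mem hg)
    rw [show g * (refl Q (v l) * refl Q (v m)) * g⁻¹ = refl Q (g.1 (v l)) * refl Q (g.1 (v m)) by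
      rw [← conj_refl, ← conj_refl]; group] at b2
    obtain ⟨n, hn⟩ := h.zero_blk (by simpa) (by simp [h.pol hlm (v1 l) (v1 m)]) (fun H => by
        obtain ⟨c, hc⟩ := Submodule.mem_span_singleton.mp H
        rw [← map_smul, g.1.injective.eq_iff] at hc
        exact hlm (h.blk_eq (v1 l) (hc ▸ Submodule.smul_mem _ _ (v1 m)) (v2 l))) (by simpa using v2 m)
      (h.fix hO hN b2 z1 z0 (by
        rw [OG_mul_apply, refl_apply_of_perp ((polar_comm ..).trans (v3 m)),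
          refl_apply_of_perp ((polar_comm ..).trans (v3 l))]))
    exact a1 l _ (v1 l) (v2 l) n hn
  have b1 := a4 i (by simp) j (by simp) hj.symm
  have b2 := a4 i (by simp) k (by simp) hk.symm
  have b3 := a4 j (by simp) k (by simp) hk'.symm
  rcases Int.units_eq_one_or (sgn (Q (v i))) with c1 | c1 <;>
    rcases Int.units_eq_one_or (sgn (Q (v j))) with c2 | c2 <;>
    rcases Int.units_eq_one_or (sgn (Q (v k))) with c3 | c3 <;> simp_all

end NF

end PL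

end Cfsg.Agent.H18
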