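import Mathlib
import Cfsg.Agent.H18.PlB

/-!
Orthogonal decompositions into planes: overgroups containing a non-block reflection class.
-/

set_option autoImplicit false

namespace Cfsg.Agent.H18

open Module QuadraticMap H13

variable {F V : Type*} [Field F] [AddCommGroup V] [Module F V] {Q : QuadraticForm F V}
  {M : Subgroup (OG Q)} {a a' b d d' e e' f f' n r s s' s'' u v w w' x z : V} {g t y : OG Q} {c : F}
  [FiniteDimensional F V] [Fintype F] {κ : Type*} [Fintype κ] {E : κ → Submodule F V} {i i₀ j k l m : κ}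

omit [Fintype F] in
theorem Cl.kill [Finite V] (hQ : ND Q) (h2 : (2 : F) ≠ 0) (hb : Q b ≠ 0) (hv : Cl M b v)
    (hs : Cl M b s) (hs' : Cl M b s') (hs'' : Cl M b s'') (h3 : polar Q s' s'' = 0)
    (h4 : polar Q s s'' = 0) (h5 : polar Q s s' = 0) (h6 : v ∉ F ∙ s) (h7 : v ∉ F ∙ s')
    (h8 : polar Q v s'' ≠ 0) : ∃ y, Cl M b y ∧ (polar Q s y = 0 ∨ polar Q s' y = 0) ∧
      ∃ c α β γ : F, c ≠ 0 ∧ y = c • v + α • s + β • s' + γ • s'' := by
  rcases hv.step hQ h2 hb hs h6 with ⟨c, d, a1, a2, a3⟩ | ⟨w, a1, ε, a2, a3⟩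
  · exact ⟨_, a2, Or.inl (by simp [a3, -polar_sub_right]), c, -(c * d), 0, 0, a1, by module⟩
  rcases hv.step hQ h2 hb hs' h7 with ⟨c, d, b1, b2, b3⟩ | ⟨w', b1, ε', b2, b3⟩
  · exact ⟨_, b2, Or.inr (by simp [b3, -polar_sub_right]), c, 0, -(c * d), 0, b1, by module⟩
  have k : ∀ {s w ε}, Cl M b s → Cl M b w → ε * ε = 1 → (refl Q w).1 s = ε • v → v ∉ F ∙ s →
      2 * Q b - ε * polar Q s v ≠ 0 ∧ (refl Q w).1 v = ε • s ∧ ∀ y, (refl Q w).1 y =
        y - (polar Q (s - ε • v) y / (2 * Q b - ε * polar Q s v)) • (s - ε • v) :=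
    fun {s w ε} c1 c2 c3 c4 c5 => by
      have c6 : Q (s - ε • v) = 2 * Q b - ε * polar Q s v := by
        rw [Q_sub, Q_smul, hv.1, c1.1, polar_smul_right, pow_two, c3, smul_eq_mul]; ring
      have c7 : s - ε • v = (polar Q w s * (Q w)⁻¹) • w := by rw [← c4, refl_apply]; abel
      have c8 : polar Q w s * (Q w)⁻¹ ≠ 0 := fun h0 => c5 (Submodule.mem_span_singleton.mpr ⟨ε, by
        rw [h0, zero_smul, sub_eq_zero] at c7; rw [c7, smul_smul, c3, one_smul]⟩)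
      refine ⟨by rw [← c6, c7, Q_smul]; exact mul_ne_zero (pow_ne_zero _ c8) (c2.1 ▸ hb), ?_,
        fun y => by rw [← refl_smul c8, ← c7, refl_apply, c6, div_eq_mul_inv]⟩
      have := congrArg (fun x => ε • (refl Q w).1 x) c4
      simpa [← OG_mul_apply, refl_mul_self, OG_one_apply, smul_smul, c3] using this.symm
  obtain ⟨c1, c2, c3⟩ := k hs a1 a2 a3 h6
  obtain ⟨d1, d2, d3⟩ := k hs' b1 b2 b3 h7
  refine ⟨_, a1.refl' (b1.refl' hs''), Or.inl ?_, ?_⟩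
  · rw [OG_polar_right, refl_inv, a3, polar_smul_left, OG_polar_right, refl_inv, d2, polar_smul_left, h3]
    simp
  rw [d3, map_sub, map_smul, map_sub, map_smul, c2, c3 s'', c3 s']
  simp only [polar_sub_left, polar_smul_left, h3, h4, h5, smul_eq_mul, polar_comm Q v s']
  generalize 2 * Q b - ε * polar Q s v = D at c1
  have e1 : ε' * polar Q s' v = 2 * Q b - (2 * Q b - ε' * polar Q s' v) := by ring
  generalize 2 * Q b - ε' * polar Q s' v = D' at d1 e1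
  refine ⟨-(2 * Q b * polar Q v s'' / (D * D')), ε * polar Q v s'' / D + ε' * polar Q v s'' / D' *
    (ε * polar Q s' v / D - ε' * ε), ε' * polar Q v s'' / D', 1, by simp [h2, hb, h8, c1, d1], ?_⟩
  match_scalars <;> field_simp <;> first | ring1 |
    linear_combination -ε ^ 2 * polar Q v s'' * e1 - 2 * Q b * polar Q v s'' * a2

namespace PL

variable (h : PL M E)
include h

theorem map_blk (ht : t ∈ dsO Q E) (ha : a ∈ E i) (h0 : a ≠ 0) (h1 : t.1 a ∈ E j) (hx : x ∈ E i) :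
    t.1 x ∈ E j := by
  obtain ⟨π, hπ⟩ := ht
  rw [← h.blk_eq (hπ i ▸ ⟨a, ha, rfl⟩ : t.1 a ∈ E (π i)) h1 (by simpa), ← hπ]
  exact ⟨x, hx, rfl⟩

theorem exists_w_minus (H : ∀ x ∈ E i, Q x = 0 → x = 0) (hij : i ≠ j) (ha : a ∈ E i) (ha' : a' ∈ E j)
    (h0 : a ≠ 0) (h1 : a' ≠ 0) : ∃ w ∈ E i, ∃ w' ∈ E j, Q w + Q w' = 0 ∧ Q w ≠ 0 ∧
      polar Q a w + polar Q a' w' = 0 ∧ polar Q a w ≠ 0 := by
  have a1 : Q (a + a') = Q a + Q a' := by simp [Q_add, h.pol hij ha ha']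
  by_cases h2 : Q (a + a') = 0
  · by_cases h3 : (2 : F) = 0
    · obtain ⟨t, -, b1, rfl⟩ := h.trans ha ha' h0 h1 (by linear_combination a1 - h2 + Q a' * h3)
      obtain ⟨w, c1, c2, c3⟩ := h.exists_nonsing (mt (h.sep ha) h0)
      exact ⟨w, c1, t.1 w, h.map_blk b1 ha h0 ha' c1, by simp [← two_mul, h3], c2,
        by simp [← two_mul, h3], by rwa [polar_comm]⟩
    · have := mt (H a ha) h0
      exact ⟨a, ha, a', ha', a1 ▸ h2, this, by rw [polar_self', polar_self', ← mul_add, ← a1, h2, mul_zero],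
        by simp [h3, this]⟩
  have b1 : ND (Q.restrict (E i ⊔ E j)) := nd_restrict_iff.mpr (Submodule.disjoint_def.mpr
    fun x hx h3 => by
      obtain ⟨y, hy, z, hz, rfl⟩ := Submodule.mem_sup.mp hx
      rw [perp_sup] at h3
      rw [h.sep hy ((Submodule.add_mem_iff_left _ (h.orth hij.symm hz)).mp h3.1),
        h.sep hz ((Submodule.add_mem_iff_right _ (h.orth hij hy)).mp h3.2), add_zero])
  have b2 := Submodule.finrank_sup_add_finrank_inf_eq (E i) (E j)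
  rw [(Submodule.eq_bot_iff _).mpr fun x (hx : x ∈ E i ⊓ E j) => h.sep hx.2 (h.orth hij hx.1), h.two, h.two,
    finrank_bot] at b2
  have b3 := le_finrank_inf_perp h.nd (E i ⊔ E j) (a + a')
  have b4 := Submodule.add_mem_sup ha ha'
  obtain ⟨u, u1, u2, u3⟩ := exists_singular_mem Q (H := (E i ⊔ E j) ⊓ perp Q (F ∙ (a + a'))) (by omega)
  obtain ⟨v, v1, v2⟩ : ∃ v ∈ (E i ⊔ E j) ⊓ perp Q (F ∙ (a + a')), polar Q u v ≠ 0 := by
    by_contra! H'
    obtain ⟨c, rfl⟩ := mem_span_of_perp_mem b1 u1.1 b4 fun x c1 c2 =>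
      H' x ⟨c1, mem_perp_singleton.mpr c2⟩
    exact u2 (by rw [show c = 0 by simpa [Q_smul, h2, -smul_add] using u3, zero_smul])
  by_contra! H'
  obtain ⟨c, hc⟩ := mem_span_of_perp_mem b1 (Submodule.mem_sup_left ha) b4 fun x c1 c2 =>
    singular_induction u3 u1 v1 v2 (p := fun x => polar Q a x = 0) (fun x c1 c2 => by
      obtain ⟨w, d1, w', d2, rfl⟩ := Submodule.mem_sup.mp c1.1
      have d3 := mem_perp_singleton.mp c1.2
      simp only [polar_add_left, polar_add_right, h.pol hij ha d2, h.pol hij.symm ha' d1, Q_add,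
        h.pol hij d1 d2, add_zero, zero_add] at d3 c2 ⊢
      by_cases d4 : w = 0
      · simp [d4]
      · exact H' w d1 w' d2 c2 (mt (H w d1) d4) d3)
      (fun x _ y _ h1 h2 => by rw [polar_add_right, h1, h2, add_zero]) x ⟨c1, mem_perp_singleton.mpr c2⟩
  have c1 : (1 - c) • a = c • a' := by linear_combination (norm := module) hc
  have c2 := h.sep (Submodule.smul_mem _ c ha') (c1 ▸ Submodule.smul_mem _ _ (h.orth hij ha))
  obtain rfl : c = 0 := by simpa [h1] using c2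
  exact h0 (by simpa using hc)

theorem adapt (hv : v ∈ E i) (h1 : Q v = 0) (h0 : v ≠ 0) (ha : a ∈ E i) (h2 : Q a ≠ 0) :
    ∃ e ∈ E i, ∃ e' ∈ E i, HP Q e e' ∧ pp Q e e' = perp Q (E i) ∧ a = e + Q a • e' := by
  obtain ⟨w, w1, w2, w3⟩ := h.hp hv h1 h0
  obtain ⟨α, β, x, rfl⟩ := w2.exists_eq a
  have b1 : (x : V) = 0 := h.sep ((Submodule.add_mem_iff_right _ (add_mem (Submodule.smul_mem _ _ hv)
    (Submodule.smul_mem _ _ w1))).mp ha) (w3 ▸ x.2)
  rw [w2.Q_comb, b1, map_zero, add_zero] at h2 ⊢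
  have := left_ne_zero_of_mul h2
  exact ⟨α • v, Submodule.smul_mem _ _ hv, α⁻¹ • w, Submodule.smul_mem _ _ w1,
    ⟨by simp [Q_smul, h1], by simp [Q_smul, w2.Qv], by simp [w2.uv, this]⟩,
    w3 ▸ Submodule.ext fun x => by rw [mem_perp_pair, mem_perp_pair]; simp [this],
    by simp [smul_smul, mul_right_comm α β, this]⟩

theorem plus (hv : v ∈ E i) (h1 : Q v = 0) (h0 : v ≠ 0) (j : κ) : ∃ v ∈ E j, Q v = 0 ∧ v ≠ 0 :=
  have ⟨φ, hφ⟩ := h.iso i j
  ⟨φ ⟨v, hv⟩, (φ _).2, (hφ _).trans h1, by simpa using h0⟩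

theorem exists_w (hij : i ≠ j) (ha : a ∈ E i) (ha' : a' ∈ E j) (h0 : Q a ≠ 0) (h1 : Q a' ≠ 0) :
    ∃ w ∈ E i, ∃ w' ∈ E j, Q w + Q w' = 0 ∧ Q w ≠ 0 ∧ polar Q a w + polar Q a' w' = 0 ∧
      polar Q a w ≠ 0 := by
  classical
  by_cases H : ∀ x ∈ E i, Q x = 0 → x = 0
  · exact h.exists_w_minus H hij ha ha' (by rintro rfl; simp at h0) (by rintro rfl; simp at h1)
  push Not at H
  obtain ⟨v, v1, v2, v3⟩ := H
  obtain ⟨e, e1, e', e2, e3, -, e4⟩ := h.adapt v1 v2 v3 ha h0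
  obtain ⟨v', v4, v5, v6⟩ := h.plus v1 v2 v3 j
  obtain ⟨d, d1, d', d2, d3, -, d4⟩ := h.adapt v4 v5 v6 ha' h1
  obtain ⟨μ, hμ⟩ := exists_not_mem ({0, 1, -Q a / Q a'} ∪ Finset.univ.filter fun μ : F =>
    Q a' * μ ^ 2 + 0 * μ + Q a = 0) (((Finset.card_union_le _ _).trans (add_le_add Finset.card_le_three
      (card_quad_le h1 _ fun t ht => (Finset.mem_filter.mp ht).2))).trans_lt
      (by have := h.seven v1 v2 v3; omega))
  simp only [Finset.mem_union, Finset.mem_insert, Finset.mem_singleton, Finset.mem_filter,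
    Finset.mem_univ, true_and, not_or, zero_mul, add_zero] at hμ
  obtain ⟨⟨m1, m2, m3⟩, m4⟩ := hμ
  have m5 : Q a + μ * Q a' ≠ 0 := fun H => m3 (by field_simp; linear_combination H)
  generalize Q a = A, Q a' = A' at *
  subst e4 d4
  refine ⟨(A' * μ * (A + μ * A')) • e + (-(A' * A ^ 2 * (μ - 1))) • e',
    add_mem (Submodule.smul_mem _ _ e1) (Submodule.smul_mem _ _ e2),
    (-(A * (A + μ * A'))) • d + (-(A * A' ^ 2 * μ * (μ - 1))) • d',
    add_mem (Submodule.smul_mem _ _ d1) (Submodule.smul_mem _ _ d2), ?_⟩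
  simp only [Q_add, Q_smul, polar_add_left, polar_add_right, polar_smul_left, polar_smul_right, e3.Qu,
    e3.Qv, e3.uv, e3.vu, e3.uu, e3.vv, d3.Qu, d3.Qv, d3.uv, d3.vu, d3.uu, d3.vv, smul_eq_mul]
  refine ⟨by ring, by simp [*, sub_eq_zero], by ring, fun H => mul_ne_zero (mul_ne_zero h0 h1) m4 ?_⟩
  linear_combination H

theorem nn (hij : i ≠ j) (he : e ∈ E i) (he' : e' ∈ E i) (hd : d ∈ E j) (hd' : d' ∈ E j)
    (h1 : HP Q e e') (h2 : HP Q d d') : ∃ n ∈ Om Q, n ∈ dsO Q E ∧ n.1 e = -d ∧ n.1 d = e ∧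
      n.1 e' = -d' ∧ n.1 d' = e' ∧ ∀ z ∈ perp Q (E i), z ∈ perp Q (E j) → n.1 z = z := by
  classical
  have p := fun x hx y hy => h.pol (x := x) (y := y) hij hx hy
  have q := fun x hx y hy => h.pol (x := x) (y := y) hij.symm hx hy
  have a1 := sieg_apply h1.Qu (p e he d' hd')
  have a2 := sieg_apply h2.Qu (a := -e') (by simp [q d hd e' he'])
  obtain ⟨n, a3, a4, a5, a6, a7, a8⟩ : ∃ n ∈ Om Q, n.1 e = -d ∧ n.1 d = e ∧
      n.1 e' = -d' ∧ n.1 d' = e' ∧ ∀ z ∈ perp Q (E i), z ∈ perp Q (E j) → n.1 z = z := by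
    refine ⟨sieg Q e d' * sieg Q d (-e') * sieg Q e d', mul_mem (mul_mem (sieg_mem_Om h.nd h.dim _ _)
      (sieg_mem_Om h.nd h.dim _ _)) (sieg_mem_Om h.nd h.dim _ _), ?_, ?_, ?_, ?_, fun z z1 z2 => ?_⟩ <;>
    simp [OG_mul_apply, a1, a2, h1.uu, h1.vv, h1.uv, h1.vu, h2.uu, h2.vv, h2.uv, h2.vu, h1.Qv, h2.Qv,
      p, q, he, he', hd, hd', -polar_self]
    simp [mem_perp.mp z1 e he, mem_perp.mp z1 e' he', mem_perp.mp z2 d hd, mem_perp.mp z2 d' hd']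
  have s : ∀ {i e e'}, e ∈ E i → e' ∈ E i → HP Q e e' → ∀ x ∈ E i, ∃ c d : F, x = c • e + d • e' :=
    fun h1 h2 h3 x hx => span_two (h.two _) h1 h2 h3.ne_left (fun H => by
      obtain ⟨c, rfl⟩ := Submodule.mem_span_singleton.mp H
      simpa [h3.Qu] using h3.uv) hx
  refine ⟨n, a3, h.od.mem_dsO h.two two_pos (Equiv.swap i j) fun l x hx => ?_, a4, a5, a6, a7, a8⟩
  by_cases c1 : l = i
  · obtain ⟨c, d, rfl⟩ := s he he' h1 x (c1 ▸ hx)
    simp [c1, a4, a6, add_mem, Submodule.smul_mem, hd, hd']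
  by_cases c2 : l = j
  · obtain ⟨c, d, rfl⟩ := s hd hd' h2 x (c2 ▸ hx)
    simp [c2, a5, a7, add_mem, Submodule.smul_mem, he, he']
  rwa [Equiv.swap_apply_of_ne_of_ne c1 c2, a8 x (h.orth c1 hx) (h.orth c2 hx)]

theorem dec3 (hij : i ≠ j) (hik : i ≠ k) (hjk : j ≠ k) (x : V) : ∃ a ∈ E i, ∃ a' ∈ E j, ∃ a'' ∈ E k,
    ∃ r ∈ perp Q (E i), r ∈ perp Q (E j) ∧ r ∈ perp Q (E k) ∧ x = a + a' + a'' + r := by
  obtain ⟨a, h1, b, h2, r, h3, h4, rfl⟩ := h.dec2 hij x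
  obtain ⟨c, h5, s, h6, rfl⟩ := h.dec k r
  exact ⟨a, h1, b, h2, c, h5, s, (Submodule.add_mem_iff_right _ (h.orth hik.symm h5)).mp h3,
    (Submodule.add_mem_iff_right _ (h.orth hjk.symm h5)).mp h4, h6, (add_assoc ..).symm⟩

theorem not_perp (ha : a ∈ E i) (h0 : a ≠ 0) (hr : r ∈ perp Q (E i)) : a + r ∉ perp Q (E i) :=
  fun H => h0 (h.sep ha ((Submodule.add_mem_iff_left _ hr).mp H))

variable (hb : b ∈ E i₀) (hb0 : Q b ≠ 0)
include hb hb0

theorem cl_blk (hw : w ∈ E j) (h1 : Q w = Q b) : Cl M b w :=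
  ⟨h1, h.le _ (h.nd.refl_mul_refl_mem_commutator (h1 ▸ hb0) h1) (mul_mem (h.refl_mem hw) (h.refl_mem hb))⟩

theorem exists_cl (hy : y ∈ M) (h1 : y.1 b = b) (h2 : y ∉ dsO Q E) : ∃ f, Cl M b f ∧ ∀ l, f ∉ E l := by
  by_contra! H
  have a1 : ∀ l, ∃ m, ∀ x ∈ E l, y.1 x ∈ E m := fun l => by
    obtain ⟨v, v1, v2⟩ := h.val l (Q b)
    obtain ⟨w, w1, w2, w3, w4⟩ := h.rot v1 (v2 ▸ hb0)
    have b1 := h.cl_blk hb hb0 hb rfl
    obtain ⟨m, hm⟩ := H _ (Cl.map hy b1 (h1.symm ▸ b1) (h.cl_blk hb hb0 v1 v2))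
    obtain ⟨m', hm'⟩ := H _ (Cl.map hy b1 (h1.symm ▸ b1) (h.cl_blk hb hb0 w1 (w2.trans v2)))
    obtain rfl : m = m' := by_contra fun H => w3 (by simpa using h.pol H hm hm')
    refine ⟨m, fun x hx => ?_⟩
    obtain ⟨c, d, rfl⟩ := span_two (h.two l) v1 w1 (by rintro rfl; simp at w3) w4 hx
    simp [add_mem, Submodule.smul_mem, hm, hm']
  choose π hπ using a1
  exact h2 (h.od.mem_dsO h.two two_pos π hπ)

theorem cl_map (ht : t ∈ M) (ht' : t ∈ dsO Q E) (hf : Cl M b f) : Cl M b (t.1 f) := by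
  obtain ⟨π, hπ⟩ := ht'
  exact Cl.map ht (h.cl_blk hb hb0 hb rfl) (h.cl_blk hb hb0 ((hπ i₀).le ⟨b, hb, rfl⟩) (OG_map ..)) hf

theorem cl_zero (hg : g ∈ dsO Q E) (hf : Cl M b f) (h1 : f ∈ perp Q (E j)) : Cl M b (g.1 f) := by
  obtain ⟨t, a1, a2, a3⟩ := h.act hg j
  exact a3 f h1 ▸ h.cl_map hb hb0 a1 a2 hf

omit hb in
theorem of_pair (hf : Cl M b f) (hf' : Cl M b f') (h1 : Q (f - f') = 0) (h2 : f - f' ≠ 0) (hjk : j ≠ k)
    (h3 : f - f' ∈ perp Q (E j)) (h4 : f - f' ∈ perp Q (E k)) (h5 : f ∉ perp Q (E j)) : Om Q ≤ M := by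
  have a1 : Q f ≠ 0 := hf.1 ▸ hb0
  have a2 : Q ((Q f)⁻¹ • (f - f')) = 0 := by rw [Q_smul, h1, mul_zero]
  have a3 : polar Q ((Q f)⁻¹ • (f - f')) f = 0 := by
    rw [Q_sub, hf'.1, ← hf.1] at h1
    rw [polar_smul_left, polar_sub_left, polar_self', polar_comm Q f', two_mul, h1, smul_zero]
  refine h.fin (a := f) ⟨a2, a3, ?_⟩ hjk (smul_ne_zero (inv_ne_zero a1) h2) (Submodule.smul_mem _ _ h3)
    (Submodule.smul_mem _ _ h4) h5
  rw [sieg_eq_refl_mul_refl a2 a3 a1, smul_inv_smul₀ a1, sub_sub_cancel]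
  exact hf.mul hf'

theorem of_sing (hij : i ≠ j) (ha : a ∈ E i) (hr : r ∈ perp Q (E i)) (hf : Cl M b (a + r))
    (h1 : Q a = 0) (h2 : a ≠ 0) (h3 : a + r ∉ perp Q (E j)) : Om Q ≤ M := by
  obtain ⟨w, a1, a2, a3⟩ := h.hp ha h1 h2
  obtain ⟨c, c0, c1⟩ := exists_sq_ne_one (F := F) (by have := h.seven ha h1 h2; simp; omega)
  have b1 : ∀ z ∈ perp Q (E i), (a2.torus (Units.mk0 c c0 ^ 2)).1 z = z := fun z hz =>
    a2.torus_pp _ ⟨z, a3 ▸ hz⟩
  have b2 := h.cl_map hb hb0 (h.le _ (torus_sq_mem_Om h.nd h.dim a2 _) (h.loc b1)) (h.loc b1) hf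
  rw [map_add, b1 r hr, a2.torus_left] at b2
  obtain ⟨k, k1, k2, -⟩ := h.other i j j j
  have b3 : a + r - (((Units.mk0 c c0 ^ 2 : Fˣ) : F) • a + r) = (1 - c ^ 2) • a := by simp [sub_smul]
  exact h.of_pair hb0 hf b2 (by rw [b3, Q_smul, h1, mul_zero]) (b3 ▸ smul_ne_zero (sub_ne_zero.mpr c1.symm) h2)
    k2.symm (b3 ▸ Submodule.smul_mem _ _ (h.orth hij ha))
    (b3 ▸ Submodule.smul_mem _ _ (h.orth k1.symm ha)) h3

theorem core (hf : Cl M b f) (H : ∀ i j, ∀ w ∈ E i, ∀ w' ∈ E j, Q w ≠ 0 → Q w + Q w' = 0 →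
    Cl M b ((refl Q w * refl Q w').1 f)) (hij : i ≠ j) (hik : i ≠ k) (hjk : j ≠ k)
    (h1 : f ∉ perp Q (E i)) (h2 : f ∉ perp Q (E j)) (h3 : f ∉ perp Q (E k)) : Om Q ≤ M := by
  obtain ⟨a, a1, a', a2, r, a3, a4, rfl⟩ := h.dec2 hij f
  by_cases b1 : Q a = 0
  · rw [add_assoc] at hf h1 h2
    exact h.of_sing hb hb0 hij a1 (add_mem (h.orth hij.symm a2) a3) hf b1
      (fun H => h1 (by simpa [H] using add_mem (h.orth hij.symm a2) a3)) h2
  by_cases b2 : Q a' = 0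
  · rw [add_comm a, add_assoc] at hf h1 h2
    exact h.of_sing hb hb0 hij.symm a2 (add_mem (h.orth hij a1) a4) hf b2
      (fun H => h2 (by simpa [H] using add_mem (h.orth hij a1) a4)) h1
  obtain ⟨w, w1, w', w2, w3, w4, w5, w6⟩ := h.exists_w hij a1 a2 b1 b2
  have c1 : a + a' + r - (refl Q w * refl Q w').1 (a + a' + r) = (polar Q a w / Q w) • (w + w') := by
    rw [OG_mul_apply, refl_apply w', map_sub, map_smul, refl_apply_of_perp (h.pol hij w1 w2), refl_apply]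
    simp only [polar_add_right, h.pol hij w1 a2, h.pol hij.symm w2 a1, mem_perp.mp a3 w w1,
      mem_perp.mp a4 w' w2, polar_comm Q w a, polar_comm Q w' a', eq_neg_of_add_eq_zero_right w3,
      eq_neg_of_add_eq_zero_right w5]
    match_scalars <;> field_simp <;> ring
  obtain ⟨l, l1, l2, l3, -⟩ := h.other i j k k
  refine h.of_pair hb0 hf (H i j w w1 w' w2 w4 w3) (by
      rw [c1, Q_smul, Q_add, w3, h.pol hij w1 w2]; simp) (c1 ▸ smul_ne_zero (div_ne_zero w6 w4) fun H =>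
      h.not_perp w1 (by rintro rfl; simp at w4) (h.orth hij.symm w2) (H ▸ zero_mem _)) l3.symm
    (c1 ▸ Submodule.smul_mem _ _ (add_mem (h.orth hik w1) (h.orth hjk w2)))
    (c1 ▸ Submodule.smul_mem _ _ (add_mem (h.orth l1.symm w1) (h.orth l2.symm w2))) h3

theorem of_zero (hf : Cl M b f) (hij : i ≠ j) (h1 : f ∉ perp Q (E i)) (h2 : f ∉ perp Q (E j))
    (h3 : f ∈ perp Q (E m)) : Om Q ≤ M := by
  have key : ∀ f m, Cl M b f → f ∈ perp Q (E m) → ∀ i j, ∀ w ∈ E i, ∀ w' ∈ E j, Q w ≠ 0 →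
      Q w + Q w' = 0 → Cl M b ((refl Q w * refl Q w').1 f) := fun f m h1 h2 i j w h3 w' h4 _ _ =>
    h.cl_zero hb hb0 (mul_mem (h.refl_mem h3) (h.refl_mem h4)) h1 h2
  by_cases H : ∃ k, i ≠ k ∧ j ≠ k ∧ f ∉ perp Q (E k)
  · obtain ⟨k, k1, k2, k3⟩ := H
    exact h.core hb hb0 hf (key f m hf h3) hij k1 k2 h1 h2 k3
  push Not at H
  obtain ⟨a, a1, a', a2, r, a3, a4, rfl⟩ := h.dec2 hij f
  obtain rfl : r = 0 := h.od.eq_zero h.nd fun k => by
    by_cases k1 : i = k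
    · rwa [← k1]
    by_cases k2 : j = k
    · rwa [← k2]
    exact (Submodule.add_mem_iff_right _ (add_mem (h.orth k1 a1) (h.orth k2 a2))).mp (H k k1 k2)
  rw [add_zero] at *
  have a5 : a ≠ 0 := fun H => h1 (by simpa [H] using h.orth hij.symm a2)
  have a6 : a' ≠ 0 := fun H => h2 (by simpa [H] using h.orth hij a1)
  by_cases b1 : Q a = 0
  · exact h.of_sing hb hb0 hij a1 (h.orth hij.symm a2) hf b1 a5 h2
  obtain ⟨w, w1, w2, w3, w4⟩ := h.rot a1 b1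
  obtain ⟨k, k1, k2, -⟩ := h.other i j j j
  obtain ⟨l, l1, l2, l3, -⟩ := h.other i j k k
  obtain ⟨g, g1, g2⟩ := exists_ext_map h.nd (h.od.nd i) a1 w1 a5 (by rintro rfl; simp at w3) w2
  obtain ⟨t, t1, t2, -, t3⟩ := h.swap k2.symm
  have t4 := t2 a' a2
  have c1 := h.cl_zero hb hb0 (mul_mem (h.loc g2) t1) hf (H k k1.symm k2.symm)
  rw [OG_mul_apply, map_add, t3 a (h.orth hij a1) (h.orth k1.symm a1), map_add, g1,
    g2 _ (h.orth k1 t4)] at c1
  have c2 := c1.refl' hf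
  have c3 : polar Q (w + t.1 a') (a + a') * (Q (w + t.1 a'))⁻¹ ≠ 0 := by
    simpa [c1.1, hb0, h.pol hij w1 a2, h.pol k1 t4 a1, h.pol k2 t4 a2, polar_comm Q w] using w3
  rw [refl_apply] at c2
  generalize polar Q (w + t.1 a') (a + a') * (Q (w + t.1 a'))⁻¹ = c at c2 c3
  have c4 := sub_mem a1 (Submodule.smul_mem _ c w1)
  have c5 := Submodule.smul_mem _ (-c) t4
  refine h.core hb hb0 c2 (key _ l c2 ?_) hij k1.symm k2.symm ?_ ?_ ?_
  · convert add_mem (add_mem (h.orth l1.symm c4) (h.orth l2.symm a2)) (h.orth l3.symm c5) using 1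
    module
  · convert h.not_perp c4 (fun H => c3 (neg_eq_zero.mp (zero_of_indep w4 (c := 1) (by
      linear_combination (norm := module) H)))) (add_mem (h.orth hij.symm a2) (h.orth k1 c5)) using 2
    module
  · convert h.not_perp a2 a6 (add_mem (h.orth hij c4) (h.orth k2 c5)) using 2
    module
  · convert h.not_perp c5 (by simp [c3, a6]) (add_mem (h.orth k1.symm c4) (h.orth k2.symm a2)) using 2
    module

theorem of_comp (hf : Cl M b f) (H : ∀ l, f ∉ perp Q (E l)) (ht : t ∈ dsO Q E) (h1 : t.1 f = f)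
    (h2 : dickson h.nd (good_of_five h.dim) t = 1 ∧ spinor h.nd (good_of_five h.dim) t = sgn (-1 : F) ∨
      dickson h.nd (good_of_five h.dim) t = -1 ∧
        spinor h.nd (good_of_five h.dim) t * sgn (Q b) = sgn (-1 : F)) : Om Q ≤ M := by
  obtain ⟨j, hj, -⟩ := h.other i₀ i₀ i₀ i₀
  obtain ⟨k, k1, k2, -⟩ := h.other i₀ j j j
  refine h.core hb hb0 hf (fun i j w w1 w' w2 w3 w4 => ?_) hj.symm k1.symm k2.symm (H _) (H _) (H _)
  have a1 : Q w' = -1 * Q w := by linear_combination w4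
  have a2 : Q w' ≠ 0 := by simpa [a1]
  have a3 := mul_mem (mul_mem (h.refl_mem w1) (h.refl_mem w2)) ht
  have a4 : sgn (Q w') = sgn (-1 : F) * sgn (Q w) := by rw [a1, sgn_mul (by simp) w3]
  rw [← h1, ← OG_mul_apply]
  rcases h2 with h2 | h2
  · exact h.cl_map hb hb0 (h.le _ ((h.nd.mem_commutator_iff (good_of_five h.dim) _).mpr
      ⟨by simp [dickson_refl, w3, a2, h2], by
        simp [spinor_refl, w3, a2, h2, a4, mul_comm, mul_left_comm]⟩) a3) a3 hf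
  · have a5 := mul_mem a3 (h.refl_mem hb)
    simpa only [← OG_mul_apply, mul_assoc, refl_mul_self, mul_one] using h.cl_map hb hb0 (h.le _
      ((h.nd.mem_commutator_iff (good_of_five h.dim) _).mpr ⟨by simp [dickson_refl, w3, a2, h2, hb0], by
        simp only [map_mul, spinor_refl _ _ w3, spinor_refl _ _ a2, spinor_refl _ _ hb0, mul_assoc, h2.2, a4]
        simp [mul_comm, mul_left_comm]⟩) a5) a5 ((h.cl_blk hb hb0 hb rfl).refl' hf)

theorem of_full [Finite V] (hf : Cl M b f) (H : ∀ l, f ∉ perp Q (E l)) : Om Q ≤ M := by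
  choose a a1 r r1 hr using fun l => h.dec l f
  obtain ⟨j, hj, -⟩ := h.other i₀ i₀ i₀ i₀
  obtain ⟨k, k1, k2, -⟩ := h.other i₀ j j j
  obtain ⟨l, l1, l2, l3, -⟩ := h.other i₀ j k k
  obtain ⟨m, m1, m2, m3, m4⟩ := h.other i₀ j k l
  have a0 : ∀ l, a l ≠ 0 := fun l H' => H l (by rw [hr l, H', zero_add]; exact r1 l)
  by_cases a2 : ∃ l, Q (a l) = 0
  · obtain ⟨l, hl⟩ := a2
    obtain ⟨j, hj, -⟩ := h.other l l l l
    exact h.of_sing hb hb0 hj.symm (a1 l) (r1 l) (hr l ▸ hf) hl (a0 l) (hr l ▸ H j)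
  push Not at a2
  have a3 : ∀ i j, i ≠ j → f - a i - a j ∈ perp Q (E j) := fun i j hij => by
    rw [sub_right_comm, sub_eq_of_eq_add' (hr j)]; exact sub_mem (r1 j) (h.orth hij (a1 i))
  by_cases hm : ∀ i, ∀ x ∈ E i, Q x = 0 → x = 0
  · rcases Int.units_eq_one_or (sgn (-1 : F)) with h1 | h1
    · exact h.of_comp hb hb0 hf H (one_mem _) rfl (Or.inl (by simp [h1]))
    have h2 : (2 : F) ≠ 0 := fun h2 => by simp [sgn_eq_one_of_two h2] at h1
    by_cases h3 : ∀ l, sgn (Q (a l)) = sgn (Q b)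
    · choose c c0 hc using fun l => exists_eq_sq_mul_of_sgn_eq (a2 l) hb0 (h3 l)
      have s1 := fun l => Submodule.smul_mem _ (c l) (a1 l)
      have s2 := fun l => h.cl_blk hb hb0 (s1 l) (by rw [Q_smul, ← hc])
      have s3 : ∀ i j, i ≠ j → f ∉ F ∙ c i • a i := fun i j hij H' =>
        H j (h.orth hij ((Submodule.span_singleton_le_iff_mem _ _).mpr (s1 i) H'))
      obtain ⟨y, y1, y2, d, α, β, γ, d0, rfl⟩ := hf.kill h.nd h2 hb0 (s2 i₀) (s2 j) (s2 k)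
        (h.pol k2.symm (s1 j) (s1 k)) (h.pol k1.symm (s1 _) (s1 k)) (h.pol hj.symm (s1 _) (s1 j))
        (s3 _ _ hj.symm) (s3 _ _ hj) (by
          rw [hr k]; simp [h2, c0, a2, perp_pair_zero (r1 k) (a1 k)])
      have b1 : ∀ l, l ≠ i₀ → l ≠ j → l ≠ k → d • f + α • c i₀ • a i₀ + β • c j • a j + γ • c k • a k ∉
          perp Q (E l) := fun l c1 c2 c3 H' => H l (by
        rwa [Submodule.add_mem_iff_left _ (Submodule.smul_mem _ _ (h.orth c3.symm (s1 k))),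
          Submodule.add_mem_iff_left _ (Submodule.smul_mem _ _ (h.orth c2.symm (s1 j))),
          Submodule.add_mem_iff_left _ (Submodule.smul_mem _ _ (h.orth c1.symm (s1 _))),
          Submodule.smul_mem_iff _ d0] at H')
      have b2 : ∀ i y (δ : F), polar Q (c i • a i) y = 0 → y - δ • a i ∈ perp Q (E i) → y ∈ perp Q (E i) :=
        fun i y δ c1 c2 => by
          have := mem_perp.mp c2 _ (s1 i)
          rw [polar_sub_right, c1] at this
          simpa [show δ = 0 by simpa [h2, c0, a2] using this] using c2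
      rcases y2 with y2 | y2
      · refine h.of_zero hb hb0 y1 m4.symm (b1 l l1 l2 l3) (b1 m m1 m2 m3) (b2 _ _ (d + α * c i₀) y2 ?_)
        convert add_mem (add_mem (Submodule.smul_mem _ d (r1 i₀)) (Submodule.smul_mem _ β
          (h.orth hj (s1 j)))) (Submodule.smul_mem _ γ (h.orth k1 (s1 k))) using 1
        rw [hr i₀]; module
      · refine h.of_zero hb hb0 y1 m4.symm (b1 l l1 l2 l3) (b1 m m1 m2 m3) (b2 _ _ (d + β * c j) y2 ?_)
        convert add_mem (add_mem (Submodule.smul_mem _ d (r1 j)) (Submodule.smul_mem _ α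
          (h.orth hj.symm (s1 _)))) (Submodule.smul_mem _ γ (h.orth k2 (s1 k))) using 1
        rw [hr j]; module
    obtain ⟨i, hi⟩ := not_forall.mp h3
    have := le_finrank_inf_perp h.nd (E i) (a i)
    obtain ⟨n, n1, n2⟩ := (Submodule.ne_bot_iff (E i ⊓ perp Q (F ∙ a i))).mp fun H => by
      rw [H, h.two, finrank_bot] at this; omega
    have n3 := mem_perp_singleton.mp n1.2
    have n4 := mt (hm i n n1.1) n2
    have n5 : sgn (Q n) = sgn (Q (a i)) := by_contra fun H' => by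
      obtain ⟨c, c0, hc⟩ := exists_eq_sq_mul_of_sgn_eq (a := -1 * Q (a i)) (by simp [a2]) n4 (by
        rw [sgn_mul (by simp) (a2 i), h1, Int.units_ne_iff_eq_neg.mp H', neg_one_mul])
      have := hm i _ (add_mem (Submodule.smul_mem _ c (a1 i)) n1.1) (by simp [Q_add, Q_smul, hc, n3])
      simpa [n3, h2, c0, a2] using congrArg (polar Q (a i)) this
    exact h.of_comp hb hb0 hf H (h.refl_mem n1.1) (refl_apply_of_perp (by
      rw [hr i, polar_add_right, polar_comm, n3, mem_perp.mp (r1 i) n n1.1, add_zero]))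
      (Or.inr ⟨dickson_refl _ _ n4, by simp [spinor_refl, n4, n5, h1, Int.units_ne_iff_eq_neg.mp hi]⟩)
  push Not at hm
  obtain ⟨i, v, v1, v2, v3⟩ := hm
  choose e e1 e' e2 e3 e4 e5 using fun l => have ⟨v, v1, v2, v3⟩ := h.plus v1 v2 v3 l
    h.adapt v1 v2 v3 (a1 l) (a2 l)
  by_cases h1 : Q (a i₀) = Q (a j)
  · obtain ⟨n, n1, n2, n3, n4, n5, n6, n7⟩ := h.nn hj.symm (e1 _) (e2 _) (e1 j) (e2 j) (e3 _) (e3 j)
    have b1 : ∀ z ∈ perp Q (E j), ((e3 j).torus (-1)).1 z = z := fun z hz =>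
      (e3 j).torus_pp _ ⟨z, e4 j ▸ hz⟩
    have b2 := (h.nd.mem_commutator_iff (good_of_five h.dim) _).mp n1
    have b3 := a3 _ _ hj.symm
    refine h.of_comp hb hb0 hf H (mul_mem (h.loc b1) n2) ?_ (Or.inl ⟨by
      simp [b2, HP.dickson_torus], by simp [b2, HP.spinor_torus]⟩)
    rw [show f = a i₀ + a j + (f - a i₀ - a j) by abel, OG_mul_apply, map_add n.1,
      n7 _ (sub_right_comm f _ _ ▸ a3 _ _ hj) b3, map_add _ _ (_ - _), b1 _ b3, e5 i₀, e5 j, h1]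
    simp [n3, n4, n5, n6, HP.torus_left, HP.torus_right, b1 _ (h.orth hj.symm (e1 _)),
      b1 _ (h.orth hj.symm (e2 _))]
    abel
  obtain ⟨n, n1, n2, n3, n4, n5, n6, n7⟩ := h.nn hj (e1 j) (e2 j) (e1 _) (e2 _) (e3 j) (e3 _)
  obtain ⟨n', p1, p2, p3, p4, p5, p6, p7⟩ := h.nn k2 (e1 k) (e2 k) (e1 j) (e2 j) (e3 k) (e3 j)
  have b1 : f - a i₀ - a j - a k ∈ perp Q (E k) := by
    rw [sub_right_comm _ (a j)]; exact sub_mem (a3 _ _ k1.symm) (h.orth k2.symm (a1 j))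
  have b2 : f - a i₀ - a j - a k ∈ perp Q (E j) := sub_mem (a3 _ _ hj.symm) (h.orth k2 (a1 k))
  have b3 : f - a i₀ - a j - a k ∈ perp Q (E i₀) := by
    rw [sub_right_comm f]; exact sub_mem (a3 _ _ hj) (h.orth k1 (a1 k))
  have b4 : f - (n * n').1 f = (Q (a i₀) - Q (a k)) • e' i₀ + (Q (a j) - Q (a i₀)) • e' j +
      (Q (a k) - Q (a j)) • e' k := by
    rw [show f = a i₀ + a j + a k + (f - a i₀ - a j - a k) by abel, OG_mul_apply, map_add n'.1, p7 _ b1 b2,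
      map_add n.1, n7 _ b2 b3]
    have c1 := e5 i₀
    have c2 := e5 j
    have c3 := e5 k
    generalize Q (a i₀) = A, Q (a j) = B, Q (a k) = C at c1 c2 c3 ⊢
    simp only [c1, c2, c3, map_add, map_smul, map_neg, n3, n4, n5, n6, p3, p4, p5, p6,
      p7 _ (h.orth k1.symm (e1 _)) (h.orth hj.symm (e1 _)), p7 _ (h.orth k1.symm (e2 _)) (h.orth hj.symm (e2 _)),
      n7 _ (h.orth k2 (e1 _)) (h.orth k1 (e1 _)), n7 _ (h.orth k2 (e2 _)) (h.orth k1 (e2 _))]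
    module
  have b5 : ∀ l, l ≠ i₀ → l ≠ j → l ≠ k → f - (n * n').1 f ∈ perp Q (E l) := fun l c1 c2 c3 =>
    b4 ▸ add_mem (add_mem (Submodule.smul_mem _ _ (h.orth c1.symm (e2 _)))
      (Submodule.smul_mem _ _ (h.orth c2.symm (e2 _)))) (Submodule.smul_mem _ _ (h.orth c3.symm (e2 _)))
  refine h.of_pair hb0 hf (h.cl_map hb hb0 (h.le _ (mul_mem n1 p1) (mul_mem n2 p2)) (mul_mem n2 p2) hf)
    ?_ (fun H => h1 ?_) m4.symm (b5 l l1 l2 l3) (b5 m m1 m2 m3) (H l)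
  · rw [b4]; simp [Q_add, Q_smul, (e3 _).Qv, h.pol hj.symm (e2 _) (e2 _), h.pol k1.symm (e2 _) (e2 _),
      h.pol k2.symm (e2 _) (e2 _)]
  · symm
    simpa [(e3 _).uv, h.pol hj (e1 _) (e2 _), h.pol k2.symm (e1 _) (e2 _), sub_eq_zero] using
      congrArg (polar Q (e j)) (b4.symm.trans H)

omit hb hb0 in
theorem Om_le [Finite V] (hg : g ∈ M) (hg' : g ∉ dsO Q E) : Om Q ≤ M := by
  by_contra hO
  by_cases hN : ∀ y ∈ M, ∀ i, ∀ v ∈ E i, Q v ≠ 0 → y.1 v = v → y ∈ dsO Q E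
  · exact hg' (h.le_dsO hO hN hg)
  push Not at hN
  obtain ⟨y, y1, i, b, hb, hb0, y2, y3⟩ := hN
  obtain ⟨f, hf, H⟩ := h.exists_cl hb hb0 y1 y2 y3
  by_cases h1 : ∀ l, f ∉ perp Q (E l)
  · exact hO (h.of_full hb hb0 hf h1)
  push Not at h1
  obtain ⟨m, hm⟩ := h1
  obtain ⟨j, hj⟩ := h.exists_ne (x := f) fun h => H i (h ▸ zero_mem _)
  obtain ⟨k, hk⟩ := not_forall.mp (mt (h.od.mem_of_perp h.nd) (H j))
  push Not at hk
  exact hO (h.of_zero hb hb0 hf hk.1 hk.2 hj hm)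

end PL

end Cfsg.Agent.H18
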