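import Mathlib
import Cfsg.Agent.H18.PlC
import Cfsg.Agent.H18.FrE

/-!
Four-dimensional elliptic blocks over the field of two elements; maximality statements in
matrix form for decompositions into planes and for small non-degenerate subspaces.
-/

set_option autoImplicit false

namespace Cfsg.Agent.H18

open Module QuadraticMap H13

section

variable {F V : Type*} [Field F] [AddCommGroup V] [Module F V] {Q : QuadraticForm F V}
  {M : Subgroup (OG Q)} {x x₁ x₂ y : V} {U B : Submodule F V} [FiniteDimensional F V] [Finite F]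
  {κ : Type*} {E : κ → Submodule F V} {i j : κ}

/-- Witt index at most one -/
def W1 (Q : QuadraticForm F V) (B : Submodule F V) : Prop :=
  ∀ x ∈ B, Q x = 0 → x ≠ 0 → ∀ y ∈ B, Q y = 0 → polar Q x y = 0 → y ∈ F ∙ x

omit [FiniteDimensional F V] [Finite F] in
theorem W1.map (h : W1 Q B) (g : OG Q) : W1 Q (B.map g.1.toLinearMap) := by
  rintro _ ⟨x, hx, rfl⟩ h1 h2 _ ⟨y, hy, rfl⟩ h3 h4
  obtain ⟨c, rfl⟩ := Submodule.mem_span_singleton.mp
    (h x hx (by simpa using h1) (by simpa using h2) y hy (by simpa using h3) (by simpa using h4))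
  exact Submodule.mem_span_singleton.mpr ⟨c, by simp⟩

omit [Finite F] in
theorem w1_of (h4 : finrank F B = 4) (h : ¬ IsPlus (Q.restrict B)) : W1 Q B :=
  fun x hx h1 h2 y hy h3 h5 => by_contra fun H => h ⟨(Submodule.span F {x, y}).comap B.subtype, by
    rw [(Submodule.comapSubtypeEquivOfLe (Submodule.span_le.mpr (by
      simp [Set.insert_subset_iff, hx, hy]))).finrank_eq, Submodule.span_insert,
      Submodule.finrank_sup_span_singleton H, finrank_span_singleton h2, h4], fun w hw => by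
    obtain ⟨a, b, h⟩ := Submodule.mem_span_pair.mp hw
    change Q (B.subtype w) = 0
    simp [← h, Q_add, Q_smul, h1, h3, h5]⟩

variable (hQ : ND Q) (h2 : ∀ c : F, c = 0 ∨ c = 1) (hB : MB M B) (h4 : finrank F B = 4) (hW : W1 Q B)
include hQ h2 hB h4 hW

theorem MB.exists_inf (hU : MB M U) (h5 : 4 ≤ finrank F U) (a1 : x₁ ∈ U) (a2 : x₂ ∈ perp Q U)
    (a4 : Q x₁ ≠ 0) (hx : x₁ + x₂ ∈ B) (h3 : Q (x₁ + x₂) = 0) :
    ∃ z ∈ B, z ∈ U ∧ Q z = 1 ∧ polar Q (x₁ + x₂) z = 0 := by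
  have x0 : x₁ ≠ 0 := by rintro rfl; simp at a4
  have t2 : (2 : F) = 0 := (h2 2).resolve_right fun h => one_ne_zero (by linear_combination h : (1 : F) = 0)
  have xn : x₁ + x₂ ∉ U := fun h => a4 (by
    simpa [nd_sep hU.nd ((U.add_mem_iff_right a1).mp h) a2] using h3)
  have xa : ∀ a ∈ U, polar Q (x₁ + x₂) a = polar Q x₁ a := fun a ha => by
    simp [perp_pair_zero a2 ha]
  have hY := finrank_inf_perp hB.nd hx (by rintro h; exact xn (h ▸ zero_mem _))
  have hP := finrank_inf_perp hU.nd a1 x0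
  obtain ⟨u, ⟨b1, b4⟩, b3, b2⟩ := exists_singular_mem Q (H := U ⊓ perp Q (F ∙ x₁)) (by omega)
  replace b4 := mem_perp_singleton.mp b4
  obtain ⟨a, c1, c2, c3⟩ := exists_perp_one_mem hU.nd a1 b1 fun h => by
    obtain ⟨c, rfl⟩ := Submodule.mem_span_singleton.mp h
    simp [Q_smul, b2] at a4
  have k4 := le_finrank_inf_perp hQ (B ⊓ perp Q (F ∙ (x₁ + x₂))) u
  obtain ⟨y, ⟨⟨d1, d2⟩, d3⟩, d4⟩ := SetLike.not_le_iff_exists.mp (show ¬ B ⊓ perp Q (F ∙ (x₁ + x₂)) ⊓
      perp Q (F ∙ u) ≤ F ∙ (x₁ + x₂) from fun h => by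
    have := (Submodule.finrank_mono h).trans (finrank_span_le_card ({x₁ + x₂} : Set V))
    simp at this; omega)
  replace d2 := mem_perp_singleton.mp d2
  replace d3 := mem_perp_singleton.mp d3
  have d5 : Q y = 1 := (h2 _).resolve_left fun h =>
    d4 (hW _ hx h3 (by rintro h; exact xn (h ▸ zero_mem _)) y d1 h d2)
  have k1 : ∀ a ∈ U, polar Q u a = 0 →
      polar Q y a • (x₁ + x₂) - polar Q x₁ a • (y + Q y • (x₁ + x₂)) ∈ U := fun a d4 d5 => by
    rw [← xa a d4]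
    exact hU.mem u b1 b3 _ ((hU.as u b1 a d4 b2 d5).act (hB.as _ hx y d1 h3 d2)
      (by rwa [xa u b1]) (by rwa [polar_comm]))
  refine ⟨y - (polar Q y a - Q y) • (x₁ + x₂), sub_mem d1 (B.smul_mem _ hx), ?_, ?_, ?_⟩
  · convert neg_mem (k1 a c1 c2) using 1
    rw [c3]; module
  · simp [Q_sub, Q_smul, h3, d5, polar_comm Q y, d2, -polar_add_left, -polar_add_right, -smul_add]
  · simp [h3, d2, -polar_add_left, -polar_add_right, -smul_add]

variable [Finite κ] (h : ODQ Q E) (hE : ∀ i, MB M (E i)) (h5 : ∀ i, 4 ≤ finrank F (E i))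
include h hE h5

theorem ODQ.split_sing (a1 : x₁ ∈ E i) (a2 : x₂ ∈ perp Q (E i)) (a4 : Q x₁ ≠ 0) (hx : x₁ + x₂ ∈ B)
    (h3 : Q (x₁ + x₂) = 0) : x₁ ∈ B ∧ Q x₂ = 1 ∧ ∃ j, j ≠ i ∧ x₂ ∈ E j := by
  have t2 : (2 : F) = 0 := (h2 2).resolve_right fun h => one_ne_zero (by linear_combination h : (1 : F) = 0)
  have a5 : Q x₂ ≠ 0 := fun H => a4 (by simpa [Q_add, H, mem_perp.mp a2 _ a1] using h3)
  obtain ⟨j, y, b1, b2, b3⟩ := h.exists_nonsing hQ a5
  have hj : j ≠ i := by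
    rintro rfl
    exact b3 (by rw [nd_sep (h.nd j) b1 (by simpa using sub_mem a2 b2), map_zero])
  have e : y + (x₁ + (x₂ - y)) = x₁ + x₂ := by abel
  obtain ⟨z, c1, c2, c3, c4⟩ := hB.exists_inf hQ h2 h4 hW (hE i) (h5 i) a1 a2 a4 hx h3
  obtain ⟨z', d1, d2, d3, d4⟩ := hB.exists_inf hQ h2 h4 hW (hE j) (h5 j) b1
    (add_mem (h.orth j i hj a1) b2) b3 (e ▸ hx) (e ▸ h3)
  rw [e] at d4
  have d5 := h.orth i j hj.symm d2
  obtain ⟨c, hc⟩ := Submodule.mem_span_singleton.mp (hW _ hx h3 (fun H => a4 (by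
    rw [nd_sep (h.nd i) a1 (eq_neg_of_add_eq_zero_left H ▸ neg_mem a2), map_zero])) _ (add_mem c1 d1)
    (by rw [Q_add, c3, d3, mem_perp.mp d5 z c2]; linear_combination t2) (by rw [polar_add_right, c4, d4, add_zero]))
  have e1 : z - c • x₁ = 0 := nd_sep (h.nd i) (sub_mem c2 (Submodule.smul_mem _ _ a1)) (by
    rw [show z - c • x₁ = c • x₂ - z' by linear_combination (norm := module) -hc]
    exact sub_mem (Submodule.smul_mem _ _ a2) d5)
  rcases h2 c with rfl | rfl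
  · simp [show z = 0 by simpa using e1] at c3
  obtain rfl : z = x₁ := by simpa [sub_eq_zero] using e1
  obtain rfl : x₂ = z' := by simpa using hc
  exact ⟨c1, d3, j, hj, d2⟩

theorem ODQ.rp_four (i : κ) : RP Q (E i) B := by
  refine (hE i).rp_of hB hQ fun x₁ a1 x₂ a2 _ a4 hx h3 => False.elim ?_
  have t2 : (2 : F) = 0 := (h2 2).resolve_right fun h => one_ne_zero (by linear_combination h : (1 : F) = 0)
  obtain ⟨a5, a6, j, hj, a7⟩ := h.split_sing hQ h2 hB h4 hW hE h5 a1 a2 a4 hx h3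
  have a8 := (B.add_mem_iff_right a5).mp hx
  have key : ∀ {i j x₁ x₂}, j ≠ i → x₁ ∈ E i → x₁ ∈ B → Q x₁ = 1 → x₂ ∈ E j → x₂ ∈ B → Q x₂ = 1 →
      ∃ p ∈ B, p ∈ E j ∧ Q p = 1 ∧ polar Q x₂ p = 1 := fun {i j x₁ x₂} hj a1 a2 a3 a4 a5 a6 => by
    have b0 := h.orth i j hj.symm a4
    obtain ⟨w, b1, b2, b3, b4⟩ : ∃ w ∈ B, Q w = 0 ∧ polar Q x₁ w = 0 ∧ polar Q x₂ w = 1 := by
      obtain ⟨b, b1, b2, b3⟩ := exists_perp_one_mem hB.nd a5 a2 fun H => by
        simp [nd_sep (h.nd i) ((Submodule.span_singleton_le_iff_mem _ _).mpr a1 H) b0] at a6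
      rcases h2 (Q b) with b4 | b4
      · exact ⟨b, b1, b4, b2, b3⟩
      · exact ⟨x₁ + b, add_mem a2 b1, by rw [Q_add, a3, b4, b2]; linear_combination t2,
          by simp [b2, t2], by simp [b3, perp_pair_zero b0 a1]⟩
    obtain ⟨w₁, c1, w₂, c2, rfl⟩ := exists_add_perp hQ (h.nd i) w
    rw [polar_add_right, perp_pair_zero b0 c1, zero_add] at b4
    have c3 : w₁ + w₂ ∉ E i := fun H => by
      simp [nd_sep (h.nd i) ((Submodule.add_mem_iff_right _ c1).mp H) c2] at b4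
    have c4 := fun e e1 e2 e3 e4 => (hE i).perp_of_sing hB (e := e) e1 e2 e3 b1 b2 c3 e4 a2
      ((polar_comm ..).trans b3)
    have c5 : Q w₁ ≠ 0 := fun H => by
      by_cases c5 : w₁ = 0
      · simp [nd_sep (h.nd i) a1 (sing_ind (h.nd i) (hE i).three (fun e d1 d2 => by
          by_cases d3 : e = 0
          · simp [d3]
          · exact (c4 e d1 d2 d3 fun a d4 _ => by simp [c5, perp_pair_zero c2 d4]).1)
          fun y z h1 h2 => by simp [h1, h2])] at a3
      obtain ⟨c, rfl⟩ := mem_span_of_perp_mem (h.nd i) a1 c1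
        (c4 _ c1 H c5 fun a d1 d2 => by simp [d2, perp_pair_zero c2 d1]).2
      simp [Q_smul, H] at a3
    obtain ⟨d1, d2, l, d3, d4⟩ := h.split_sing hQ h2 hB h4 hW hE h5 c1 c2 c5 b1 b2
    obtain rfl : j = l := by_contra fun H => by simp [mem_perp.mp (h.orth j l H d4) _ a4] at b4
    exact ⟨w₂, (B.add_mem_iff_right d1).mp b1, d4, d2, b4⟩
  have a9 := (h2 _).resolve_left a4
  obtain ⟨p, p1, p2, p3, p4⟩ := key hj.symm a7 a8 a6 a1 a5 a9
  obtain ⟨p', q1, q2, q3, q4⟩ := key hj a1 a5 a9 a7 a8 a6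
  have q5 := h.orth i j hj.symm q2
  obtain ⟨c, hc⟩ := Submodule.mem_span_singleton.mp (hW _ hx h3 (fun H => a4 (by
    rw [nd_sep (h.nd i) a1 (eq_neg_of_add_eq_zero_left H ▸ neg_mem a2), map_zero])) _ (add_mem p1 q1)
    (by rw [Q_add, p3, q3, mem_perp.mp q5 p p2]; linear_combination t2) (by
      simp only [polar_add_left, polar_add_right, p4, q4, mem_perp.mp q5 _ a1, perp_pair_zero a2 p2]
      linear_combination t2))
  simpa [p4, mem_perp.mp q5 _ a1, mem_perp.mp a2 _ a1, t2] using congrArg (polar Q x₁) hc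

omit hB hW hE h5 h h4 [Finite κ] in
theorem Om_le_of_nd4 (hn : 5 ≤ finrank F V) (hU : ND (Q.restrict U)) (h4 : finrank F U = 4)
    (h5 : 4 ≤ finrank F (perp Q U)) (hW : W1 Q U)
    (hiso : ∀ g : OG Q, ¬ U.map g.1.toLinearMap ≤ perp Q U)
    (hM : ∀ g ∈ Om Q, g ∈ stO Q U → g ∈ M) {g : OG Q} (hg : g ∈ M) (hg' : g ∉ stO Q U) :
    Om Q ≤ M := by
  by_contra H
  have k : ∀ U : Submodule F V, ND (Q.restrict U) → 4 ≤ finrank F U → 4 ≤ finrank F (perp Q U) →
      (∀ g ∈ Om Q, g ∈ stO Q U → g ∈ M) → MB M U := fun U hU h4 h5 hM =>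
    Blk.mb ⟨hU, by omega, fun _ => mem_stO_of_fix_perp hQ⟩ hQ hn hM (fun B h1 h2 h3 =>
      le_of_invariant hQ (hQ.nd_perp hU) (Or.inr (Or.inl (by omega))) h1 h2 fun g h4 => by
        rw [hQ.perp_perp] at h4
        exact h3 g (mem_stO_of_maps fun w hw => by rwa [h4 w hw]) h4) H
  have h1 := k U hU h4.ge h5 hM
  have h3 := k _ (hQ.nd_perp hU) h5 (by rw [hQ.perp_perp, h4]) (by rwa [stO_perp hQ])
  have h6 : ODQ Q fun b : Bool => cond b U (perp Q U) := ⟨by rintro (_ | _); exacts [h3.nd, hU], by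
    rintro (_ | _) (_ | _) <;> simp [le_perp_perp], by
      rw [iSup_bool_eq]; exact (hQ.isCompl hU).sup_eq_top⟩
  exact hg' (mem_stO_iff_map.mpr ((h1.map_eq_or_le (fun k hk => h6.rp_four hQ h2 (h1.map hk)
    (by rwa [finrank_map_OG]) (hW.map k) (by rintro (_ | _); exacts [h3, h1])
    (by rintro (_ | _); exacts [h5, h4.ge]) true) hg).resolve_right (hiso g)))

end

open Cfsg.Geo

variable {ι : Type} [Fintype ι] [DecidableEq ι] {F : Type*} [Field F] [Fintype F] {Q : (ι → F) → F}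
  (hQ : IsNondegenerateQuadraticForm Q) {t m : ℕ} {D : Fin t → Submodule F (ι → F)}
  {W : Submodule F (ι → F)}

theorem zero_or_one (h : Fintype.card F ≤ 2) (c : F) : c = 0 ∨ c = 1 := by
  classical
  by_contra! H
  have := Finset.card_le_univ ({c, 0, 1} : Finset F)
  rw [Finset.card_eq_three.mpr ⟨c, 0, 1, H.1, H.2, zero_ne_one, rfl⟩] at this
  omega

include hQ

theorem max_two (hn : 10 ≤ Fintype.card ι) (hD : IsOrthogonalMDecomposition Q 2 D)
    (h : ((∀ i, ¬ IsPlusTypeOn Q (D i)) ∧ Fintype.card F ≠ 3) ∨ 7 ≤ Fintype.card F) :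
    IsMaximalIn (omegaGL Q) (decompositionStabilizer D ⊓ omegaGL Q) :=
  have h1 := card_eq_of_isMDecomposition hD.decomp.decomp
  max_omega hQ _ (ofOG_mem_dec hQ) (omega_not_le_ndDecomp hQ (by omega) hD.decomp)
    fun _ a1 _ _ a2 a3 => PL.Om_le ⟨nd_mkQ hQ, odq_of hQ hD.decomp, hD.decomp.decomp.finrank_eq,
      hD.isometric, by simp; omega, by simp; omega, a1, h.imp_left fun h => ⟨fun i x hx h2 =>
        by_contra fun h3 => h.1 i ⟨F ∙ x, (Submodule.span_singleton_le_iff_mem _ _).mpr hx, fun y hy => by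
          obtain ⟨c, rfl⟩ := Submodule.mem_span_singleton.mp hy
          rw [hQ.smul, show Q x = 0 from h2, mul_zero], by
          rw [finrank_span_singleton h3, hD.decomp.decomp.finrank_eq]⟩, h.2⟩⟩ a2 a3

theorem max_four (hD : IsOrthogonalMDecomposition Q 4 D)
    (h : 2 < Fintype.card F ∨ ∀ i, ¬ IsPlusTypeOn Q (D i)) :
    IsMaximalIn (omegaGL Q) (decompositionStabilizer D ⊓ omegaGL Q) := by
  have h1 := card_eq_of_isMDecomposition hD.decomp.decomp
  have h2 := hD.decomp.decomp.two_le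
  by_cases h3 : 2 < Fintype.card F
  · exact max_odec hQ (by omega) hD (Or.inr (Or.inl ⟨le_rfl, h3⟩))
  have b1 := odq_of hQ hD.decomp
  have b2 := hD.decomp.decomp.finrank_eq
  exact max_omega hQ _ (ofOG_mem_dec hQ) (omega_not_le_ndDecomp hQ (by omega) hD.decomp)
    fun _ a1 _ _ a2 a3 => b1.Om_le_of_rp (nd_mkQ hQ) (by simp; omega) b2 (by omega) hD.isometric a1
      (fun H i g hg => b1.rp_four (nd_mkQ hQ) (zero_or_one (by omega)) ((H i).map hg)
        (by rw [finrank_map_OG, b2]) ((w1_of (b2 i) (mt (plus_iff_restrict hQ).mpr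
          (h.resolve_left h3 i))).map g) H (fun i => (b2 i).ge) i) a2 a3

theorem max_odec' (hn : 10 ≤ Fintype.card ι) (hD : IsOrthogonalMDecomposition Q m D) (hm : 2 ≤ m)
    (h1 : Odd m → Odd (Fintype.card F))
    (hex : ¬ ((m = 2 ∧ (Fintype.card F = 3 ∨ ((∀ i, IsPlusTypeOn Q (D i)) ∧ (Fintype.card F = 2 ∨
      Fintype.card F = 4 ∨ Fintype.card F = 5)))) ∨ (m = 3 ∧ Fintype.card F = 3) ∨
      (m = 4 ∧ Fintype.card F = 2 ∧ ∀ i, IsPlusTypeOn Q (D i)))) :
    IsMaximalIn (omegaGL Q) (decompositionStabilizer D ⊓ omegaGL Q) := by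
  have h2 := Fintype.one_lt_card (α := F)
  have h3 := card_ne_six (F := F)
  have h4 : (∀ i, IsPlusTypeOn Q (D i)) ∨ ∀ i, ¬ IsPlusTypeOn Q (D i) := or_iff_not_imp_left.mpr
    fun H i hi => H fun j => plus_of_isometric hQ (hD.isometric i j) hi
  by_cases h5 : 6 ≤ m
  · exact max_odec hQ (by omega) hD (Or.inr (Or.inr h5))
  obtain rfl | rfl | rfl | rfl : m = 2 ∨ m = 3 ∨ m = 4 ∨ m = 5 := by omega
  · refine max_two hQ hn hD (h4.symm.imp (fun H => ⟨H, fun h => hex (Or.inl ⟨rfl, Or.inl h⟩)⟩) fun H => ?_)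
    simp only [H, implies_true, true_and] at hex
    omega
  · exact max_odec hQ (by omega) hD (Or.inl ⟨rfl, h1 (by decide), fun h => hex (by simp [h])⟩)
  · refine max_four hQ hD (h4.imp_left fun H => ?_)
    exact by_contra fun h => hex (Or.inr (Or.inr ⟨rfl, by omega, H⟩))
  · obtain ⟨k, hk⟩ := h1 (by decide)
    exact max_odec hQ (by omega) hD (Or.inr (Or.inl ⟨by omega, by omega⟩))

theorem max_nd' (hn : 8 ≤ Fintype.card ι) (h0 : W ≠ ⊥) (h1 : W ≠ ⊤)
    (hW : IsNondegenerateOn (polar Q) W) (hd : 2 * finrank F W = Fintype.card ι →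
      ¬ AreIsometricFor Q W ((hform_of_quad hQ).perp W))
    (hq : 2 < Fintype.card F ∨ 6 ≤ finrank F W ∨ finrank F W + 6 ≤ Fintype.card ι ∨
      (finrank F W = 4 ∧ Fintype.card ι = 8 ∧ ¬ IsPlusTypeOn Q ⊤))
    (hex : ¬ (Fintype.card F ≤ 3 ∧ ∃ U : Submodule F (ι → F), finrank F U = 2 ∧
      IsNondegenerateOn (polar Q) U ∧ IsPlusTypeOn Q U ∧ (U = W ∨ (AreOrthogonalFor (polar Q) U W ∧
        finrank F U + finrank F W = Fintype.card ι)))) :
    IsMaximalIn (omegaGL Q) (subspaceStabilizer W ⊓ omegaGL Q) := by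
  refine max_omega hQ _ (ofOG_mem_stab hQ) (omega_not_le_stab hQ (by omega) h0 h1)
    fun M a1 _ g a2 a3 => ?_
  have b0 := nd_mkQ hQ
  have b1 := nd_restrict hQ hW
  have b2 := b0.nd_perp b1
  have b3 := b0.finrank_perp W
  rw [finrank_fintype_fun_eq_card] at b3
  have b5 : finrank F (perp (mkQ hQ) W) ≤ finrank F W → ∀ k : OG (mkQ hQ),
      ¬ W.map k.1.toLinearMap ≤ perp (mkQ hQ) W := fun h k hk => by
    have b4 := Submodule.finrank_mono hk
    rw [finrank_map_OG] at b4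
    refine hd (by omega) (areIsometric_of_map (g := ofOG hQ k) ((toOG _).symm k).2 ?_)
    rw [toLin'_ofOG, perp_mkQ]
    exact Submodule.eq_of_le_of_finrank_le hk (by rwa [finrank_map_OG])
  have b6 : 2 < Fintype.card F → ∃ s : F, s ≠ 0 ∧ s ≠ 1 := fun h => exists_ne_zero_one (by simpa)
  by_cases h4 : ¬ 2 < Fintype.card F ∧ finrank F W = 4 ∧ Fintype.card ι = 8 ∧ ¬ IsPlusTypeOn Q ⊤
  · by_cases h5 : IsPlusTypeOn Q W
    · rw [← stO_perp b0] at a1 a3
      refine Om_le_of_nd4 b0 (zero_or_one (by omega)) (by simp; omega) b2 (by omega)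
        (by rw [b0.perp_perp]; omega) (w1_of (by omega) fun H => h4.2.2.2 (plus_top_of hQ hW h5
          ((plus_iff_restrict hQ).mpr (perp_mkQ hQ ▸ H)))) (fun k hk => b5 (by omega) k⁻¹ ?_) a1 a2 a3
      rw [b0.perp_perp] at hk
      rw [← Submodule.eq_of_le_of_finrank_le hk (by rw [finrank_map_OG]; omega), ← map_OG_mul,
        inv_mul_cancel, map_OG_one, Submodule.eq_of_le_of_finrank_le hk (by rw [finrank_map_OG]; omega)]
    · exact Om_le_of_nd4 b0 (zero_or_one (by omega)) (by simp; omega) b1 h4.2.1 (by omega)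
        (w1_of h4.2.1 (mt (plus_iff_restrict hQ).mpr h5)) (b5 (by omega)) a1 a2 a3
  by_cases h : finrank F (perp (mkQ hQ) W) ≤ finrank F W
  · exact Om_le_of_nd b0 (by simp; omega) b1 (by omega) (or_iff_not_imp_left.mpr fun H => by
      have := mt b6 H
      rcases hq with h | h | h | h <;> first | omega | exact (h4 ⟨this, h⟩).elim) (irC_of b2 fun H =>
      hex ⟨by simpa using H.1, _, H.2.1, nondegOn_of_nd hQ b2, (plus_iff_restrict hQ).mpr H.2.2,
        Or.inr ⟨fun u hu v hv => perp_pair_zero hu hv, by omega⟩⟩) (b5 h) a1 a2 a3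
  · rw [← stO_perp b0] at a1 a3
    refine Om_le_of_nd b0 (by simp; omega) b2 (by omega) (hq.imp b6 (by omega)) (by
      rw [b0.perp_perp]
      exact irC_of b1 fun H => hex ⟨by simpa using H.1, _, H.2.1, hW,
        (plus_iff_restrict hQ).mpr H.2.2, Or.inl rfl⟩) (fun k hk => ?_) a1 a2 a3
    have b4 := Submodule.finrank_mono hk
    rw [finrank_map_OG, b0.perp_perp] at b4
    exact h b4

end Cfsg.Agent.H18
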