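import Mathlib
import Cfsg.Agent.H18.FrF
import Cfsg.Agent.H18.FrE
import Cfsg.Agent.H18.PlD

/-!
Maximality of the stabiliser of an orthonormal frame in dimension seven.
-/

set_option autoImplicit false

namespace Cfsg.Agent.H18

open Module QuadraticMap H13

section

variable {F V : Type*} [Field F] [AddCommGroup V] [Module F V] {Q : QuadraticForm F V}
  {M : Subgroup (OG Q)} {s u v w x y f : V} {g t : OG Q}
  {ι : Type*} [Fintype ι] [DecidableEq ι] {e : ι → V} {a b i j k l m : ι} {c d : F}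

namespace ON

variable (h : ON Q e) [Finite V] (hM : ∀ g ∈ Om Q, g ∈ Mon Q e → g ∈ M)
include h hM

variable [Fintype F] (hp : (Fintype.card F).Prime) (hn : 7 ≤ Fintype.card ι)
include hp hn

theorem fin_le7 {T : Finset ι} (hT : T.card ≤ 3) (hu : spt Q e u ⊆ T) (hi : i ∈ spt Q e u)
    (H : ∀ x, spt Q e x ⊆ T → polar Q u x = 0 → AS M u x) (hk : k ∉ T) (h1 : AS M u (e k)) :
    Om Q ≤ M := by
  have := h.fin
  have z : ∀ a ∉ T, polar Q (e a) u = 0 := fun a ha => not_not.mp (mt mem_spt.mpr fun h => ha (hu h))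
  have h2 : ∀ l ∉ T, AS M u (e l) := fun l hl => by
    by_cases hkl : k = l
    · rwa [← hkl]
    obtain ⟨m, hm⟩ := exists_not_mem (insert k (insert l T)) ((Finset.card_insert_le _ _).trans_lt
      (by have := Finset.card_insert_le l T; omega))
    simp only [Finset.mem_insert, not_or] at hm
    have := h1.map ((h.cl_root hM hkl (one_mul 1) hkl (one_mul 1)).mul
      (h.cl_root hM hkl (one_mul 1) (Ne.symm hm.2.1) (one_mul 1)))
    rwa [OG_mul_apply, OG_mul_apply, h.refl_root_ne (Ne.symm hkl) hm.1, h.refl_root hkl (one_mul 1),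
      one_smul F (e l), refl_apply_of_perp (x := u), refl_apply_of_perp] at this <;>
      simp [z, hk, hl, hm]
  have h3 : EO M u := ⟨h1.Qu, fun x hx => by
    have a1 : AS M u (∑ a ∈ Tᶜ, polar Q (e a) x • e a) := AS.sum _ h1.Qu fun a ha =>
      (h2 a (Finset.mem_compl.mp ha)).smul_prime hp _
    simpa using (H (x - ∑ a ∈ Tᶜ, polar Q (e a) x • e a) (fun a ha => by_contra fun H => by
      simp [mem_spt, polar_sum_right, h.pol, H] at ha) (by simp [hx, a1.ua])).add a1⟩
  refine Om_le_of_EO h.nd (by rw [h.finrank_eq]; omega) h3 (h3.map (h.d_mem hM i k)) ?_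
  have hik : i ≠ k := fun h => hk (by rw [← h]; exact hu hi)
  rw [h.d_apply hik, z k hk]
  simp [h1.Qu, polar_comm Q u, mem_spt.mp hi, h.two]

theorem as_of_sq7 {T : Finset ι} (H : ∀ v w, spt Q e v ⊆ T → spt Q e w ⊆ T → Q v ≠ 0 → Q w = Q v →
    refl Q v * refl Q w * (refl Q v * refl Q w) ∈ M) (hu : spt Q e u ⊆ T) (hx : spt Q e x ⊆ T)
    (h1 : Q u = 0) (h2 : polar Q u x = 0) (h3 : Q x ≠ 0) : AS M u x := by
  have := H x (x - Q x • u) hx (fun a ha => by_contra fun H => by
    simp [mem_spt, not_not.mp (mt mem_spt.mpr fun h => H (hx h)),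
      not_not.mp (mt mem_spt.mpr fun h => H (hu h))] at ha) h3 (by
        simp [Q_sub, Q_smul, h1, polar_comm Q x, h2])
  rw [← sieg_eq_refl_mul_refl h1 h2 h3, ← sieg_add h1 h2 h2] at this
  simpa [← two_smul F, smul_smul, h.two] using AS.smul_prime hp ⟨h1, by simp [h2], this⟩ 2⁻¹

theorem le_of_three7 (hij : i ≠ j) (hik : i ≠ k) (hjk : j ≠ k) (hf : Cl M (e b) f)
    (h1 : spt Q e f ⊆ {i, j, k}) (h2 : refl Q f ∉ Mon Q e) (h3 : (3 : F) ≠ 0) : Om Q ≤ M := by
  have t2 := h.two
  have K := fun v w => h.sq_mem hp hM (by omega) hij hik hjk hf h1 h2 (v := v) (w := w)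
  have s : ∀ {i j k} (x y z : F), spt Q e (x • e i + y • e j + z • e k) ⊆ {i, j, k} :=
    fun x y z a ha => by_contra fun H => by
      simp only [Finset.mem_insert, Finset.mem_singleton, not_or] at H
      simp [mem_spt, h.pol, H] at ha
  have p : ∀ {i j k : ι}, i ≠ j → i ≠ k → j ≠ k → ∀ x y z : F,
      Q (x • e i + y • e j + z • e k) = (x ^ 2 + y ^ 2 + z ^ 2) / 2 := fun h1 h2 h3 x y z => by
    simp [Q_add, Q_smul, h.Q_e, h.pol, h1, h2, h3]; ring
  by_cases hs : ∃ t : F, t ^ 2 = -1
  · obtain ⟨t, ht⟩ := hs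
    have a1 : Q ((1 : F) • e i + t • e j + (0 : F) • e k) = 0 := by rw [p hij hik hjk]; simp [ht]
    refine h.fin_le7 hM hp hn (T := {i, j}) (Finset.card_le_two.trans (by omega))
      (u := (1 : F) • e i + t • e j + (0 : F) • e k) (by simpa using h.spt_pair i j 1 t) (i := i)
      (by simp [mem_spt, h.pol, hij]) (fun x b1 b2 => ?_) (k := k) (by simp [hik.symm, hjk.symm])
      (h.as_of_sq7 hM hp hn K (s ..) (by simpa using s (i := i) (j := j) (k := k) 0 0 1) a1
        (by simp [h.pol, hik, hjk]) (h.Q_ne k))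
    convert AS.self a1 (polar Q (e i) x) using 1
    refine h.ext fun a => ?_
    by_cases c1 : a = i
    · simp [c1, h.pol, hij]
    by_cases c2 : a = j
    · simp [h.pol] at b2
      simp [c2, h.pol, hij.symm]
      linear_combination -t * b2 + polar Q (e j) x * ht
    · have : a ∉ ({i, j} : Finset ι) := by simp [c1, c2]
      simp [h.pol, c1, c2, not_not.mp (mt mem_spt.mpr fun h => this (b1 h))]
  have := Fact.mk hp
  have : CharP F (Fintype.card F) := charP_of_card_eq_prime rfl
  obtain ⟨x, y, hxy⟩ := CharP.sq_add_sq F (Fintype.card F) (-1)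
  generalize (x : F) = x, (y : F) = y at hxy
  push_cast at hxy
  have x0 : x ≠ 0 := fun h => hs ⟨y, by simpa [h] using hxy⟩
  obtain ⟨l, hl⟩ := exists_not_mem ({i, j, k} : Finset ι) (Finset.card_le_three.trans_lt (by omega))
  obtain ⟨m, n, hmn, hm, hn'⟩ := exists_two_not_mem (insert l {i, j, k} : Finset ι)
    (by have := Finset.card_le_four (a := l) (b := i) (c := j) (d := k); omega)
  have hl' := hl
  simp only [Finset.mem_insert, Finset.mem_singleton, not_or] at hl hm hn'
  have a1 : Q (x • e i + y • e j + (1 : F) • e k) = 0 := by simp [p hij hik hjk, hxy, -one_smul]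
  have a2 : AS M (x • e i + y • e j + (1 : F) • e k) (y • e i + -x • e j + (0 : F) • e k) :=
    h.as_of_sq7 hM hp hn K (s ..) (s ..) a1
      (by simp [h.pol, hij, hik, hjk, hij.symm, hik.symm, hjk.symm]; ring)
      (by rw [p hij hik hjk]; simp [add_comm, hxy, t2])
  refine h.fin_le7 hM hp hn Finset.card_le_three (s x y 1) (i := i) (by simp [mem_spt, h.pol, hij, hik, x0])
    (fun z b1 b2 => ?_) hl' ?_
  · convert (AS.self a1 (polar Q (e k) z)).add (a2.smul_prime hp
      ((polar Q (e k) z * y - polar Q (e j) z) / x)) using 1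
    refine h.ext fun a => ?_
    simp [h.pol] at b2
    by_cases c1 : a = i
    · simp [c1, h.pol, hij, hik]; field_simp
      linear_combination b2 - polar Q (e k) z * hxy
    by_cases c2 : a = j
    · simp [c2, h.pol, hij.symm, hjk]; field_simp; ring
    by_cases c3 : a = k
    · simp [c3, h.pol, hik.symm, hjk.symm]
    · simp [h.pol, c1, c2, c3, h.zero_of b1 c1 c2 c3]
  have g1 := (h.cl_root hM (Ne.symm hl.2.2) (one_mul 1) (Ne.symm hl.2.2) (one_mul 1)).mul
    (h.cl_root hM (Ne.symm hl.2.2) (one_mul 1) hmn (one_mul 1))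
  have g2 := mul_mem (h.refl_root_mem (Ne.symm hl.2.2) (one_mul 1)) (h.refl_root_mem hmn (one_mul 1))
  have z := fun a => h.zero_of (a := a) h1
  have t4 : (4 : F) ≠ 0 := by rw [show (4 : F) = 2 * 2 by norm_num]; exact mul_ne_zero t2 t2
  have a3 : Q ((3 / 4 * y) • e i + (-(3 / 4) * x) • e j + (5 / 4 : F) • e l) = Q (e l) := by
    rw [p hij (Ne.symm hl.1) (Ne.symm hl.2.1), h.Q_e]; field_simp; linear_combination 9 * hxy
  have K' := h.sq_mem hp hM (by omega) hij (Ne.symm hl.1) (Ne.symm hl.2.1) (h.cl_map hM g1 g2 hf)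
    (fun a ha => by_contra fun H => by
      simp only [Finset.mem_insert, Finset.mem_singleton, not_or] at H
      by_cases c : a = k <;>
        simp [mem_spt, OG_mul_apply, refl_apply, h.Q_root, hmn, Ne.symm hl.2.2, z, hm, hn', hl, h.pol,
          H, c, -one_smul] at ha)
    (fun H => h2 (by simpa [← conj_refl, mul_assoc] using mul_mem (mul_mem (inv_mem g2) H) g2))
    (by simpa using s (i := i) (j := j) (k := l) 0 0 1) (s (3 / 4 * y) (-(3 / 4) * x) (5 / 4))
    (h.Q_ne l) a3
  have a4 := a2.fix K' (by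
    simp only [OG_mul_apply]
    rw [refl_apply_of_perp (x := _ + _), refl_apply_of_perp (x := _ + _),
      refl_apply_of_perp (x := _ + _), refl_apply_of_perp] <;>
      simp [h.pol, hl, hij, hik, hjk, hij.symm, mul_comm, mul_left_comm])
  have a5 : ∀ n : F, n = 5 ∨ n = 17 → n ≠ 0 := by
    rintro _ (rfl | rfl) H
    exacts [hs ⟨2, by linear_combination H⟩, hs ⟨4, by linear_combination H⟩]
  have t5 := a5 _ (Or.inl rfl)
  have t17 := a5 _ (Or.inr rfl)
  have a6 : polar Q (e l) (y • e i + -x • e j + (0 : F) • e k) = 0 := by simp [h.pol, hl]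
  have a7 : polar Q (y • e i + -x • e j + (0 : F) • e k) (y • e i + -x • e j + (0 : F) • e k) = -1 := by
    simp [h.pol, hij, hij.symm, -polar_self]; linear_combination hxy
  rw [show (3 / 4 * y) • e i + (-(3 / 4) * x) • e j + (5 / 4 : F) • e l =
    (3 / 4 : F) • (y • e i + -x • e j + (0 : F) • e k) + (5 / 4 : F) • e l by module] at a3 a4
  generalize y • e i + -x • e j + (0 : F) • e k = a at a2 a3 a4 a6 a7
  convert ((a2.smul_prime hp ((17 ^ 2 + 15 ^ 2) / 4 ^ 3 - 1)).sub a4).smul_prime hp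
    (4 ^ 3 / (2 * 17 * 3 * 5)) using 1
  simp only [OG_mul_apply, refl_apply, a3, h.Q_e, inv_inv, polar_add_left, polar_add_right,
    polar_sub_right, polar_smul_left, polar_smul_right, h.pol_self, a6, a7,
    (polar_comm Q a _).trans a6, smul_eq_mul]
  match_scalars <;> field_simp <;> ring

theorem le_of_four7 (hij : i ≠ j) (hik : i ≠ k) (hil : i ≠ l) (hjk : j ≠ k) (hjl : j ≠ l) (hkl : k ≠ l)
    (hf : Cl M (e b) ((2⁻¹ : F) • (e i + e j + e k + e l)))
    (H : ∀ y, Cl M (e b) y → (spt Q e y).card < 4 → refl Q y ∈ Mon Q e) : Om Q ≤ M := by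
  have t2 := h.two
  obtain ⟨m, hm⟩ := exists_not_mem ({i, j, k, l} : Finset ι) (Finset.card_le_four.trans_lt (by omega))
  obtain ⟨n, o, hno, hn', ho⟩ := exists_two_not_mem ({m, i, j, k, l} : Finset ι)
    (by have := Finset.card_le_five (a := m) (b := i) (c := j) (d := k) (e := l); omega)
  simp only [Finset.mem_insert, Finset.mem_singleton, not_or] at hm hn' ho
  have g0 : ∀ a, a ≠ m → ∀ v, Cl M (e b) v → polar Q (e n - (1 : F) • e o) v = 0 →
      Cl M (e b) ((refl Q (e a - (1 : F) • e m)).1 v) := fun a ha v h1 h2 => by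
    have := h.cl_map hM ((h.cl_root hM ha (one_mul 1) ha (one_mul 1)).mul
      (h.cl_root hM ha (one_mul 1) hno (one_mul 1)))
      (mul_mem (h.refl_root_mem ha (one_mul 1)) (h.refl_root_mem hno (one_mul 1))) h1
    rwa [OG_mul_apply, refl_apply_of_perp h2] at this
  by_cases h3 : (3 : F) = 0
  · have a1 : Q (e i + e j + e k) = 0 := by
      simp [Q_add, h.Q_e, h.pol, hij, hik, hjk]; field_simp; linear_combination h3
    have a2 : AS M (e i + e j + e k) (e i - (1 : F) • e j) := by
      have b1 : polar Q (e i + e j + e k) (e i - (1 : F) • e j) = 0 := by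
        simp [h.pol, hij, hij.symm, hik.symm, hjk.symm]
      refine ⟨a1, b1, ?_⟩
      rw [sieg_eq_refl_mul_refl a1 b1 (by simp [h.Q_root hij, -one_smul]), h.Q_root hij (one_mul 1),
        show e i - (1 : F) • e j - (1 : F) • (e i + e j + e k) = e j - (1 : F) • e k by
          linear_combination (norm := module) h3 • -e j]
      exact (h.cl_root hM hij (one_mul 1) hij (one_mul 1)).mul (h.cl_root hM hij (one_mul 1) hjk (one_mul 1))
    refine h.fin_le7 hM hp hn (T := {i, j, k}) (u := e i + e j + e k) Finset.card_le_three (fun a ha => by_contra fun H => by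
        simp only [Finset.mem_insert, Finset.mem_singleton, not_or] at H
        simp [mem_spt, h.pol, H] at ha) (i := i) (by simp [mem_spt, h.pol, hij, hik])
      (fun x b1 b2 => ?_) (k := l) (by simp [hil.symm, hjl.symm, hkl.symm]) ?_
    · convert (AS.self a1 (polar Q (e k) x)).add (a2.smul_prime hp
        (polar Q (e i) x - polar Q (e k) x)) using 1
      refine h.ext fun a => ?_
      simp only [polar_add_left] at b2
      by_cases c1 : a = i
      · simp [c1, h.pol, hij, hik]
      by_cases c2 : a = j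
      · simp [c2, h.pol, hij.symm, hjk]; linear_combination b2 - polar Q (e k) x * h3
      by_cases c3 : a = k
      · simp [c3, h.pol, hik.symm, hjk.symm]
      · simp [h.pol, c1, c2, c3, h.zero_of b1 c1 c2 c3]
    have a3 := g0 k (Ne.symm hm.2.2.1) _ ((h.cl_e hM b j).refl' hf)
      (by simp [h.refl_e, h.pol, hn', ho])
    have a4 : (refl Q (e k - (1 : F) • e m)).1 ((refl Q (e j)).1 ((2⁻¹ : F) • (e i + e j + e k + e l))) =
        (2⁻¹ : F) • (e i - (1 : F) • e j + (e l + e m)) := by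
      simp only [h.refl_e, map_smul, map_add, map_sub, h.pol, hij.symm, hjk, hjl, if_true, if_false,
        polar_smul_right, polar_add_right, smul_eq_mul,
        h.refl_root (Ne.symm hm.2.2.1) (one_mul 1), h.refl_root_ne hik.symm hm.1,
        h.refl_root_ne hjk.symm hm.2.1, h.refl_root_ne hkl hm.2.2.2]
      match_scalars <;> field_simp <;> ring
    rw [a4] at a3
    have a5 := a2.fix (a3.mul (h.cl_e hM b n)) (by
      rw [OG_mul_apply, refl_apply_of_perp (x := _ + _), refl_apply_of_perp] <;>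
        simp [h.pol, hn', hm, hij, hik, hjk, hij.symm, hil.symm, hjl.symm, hkl.symm])
    have a6 : AS M (e i + e j + e k) (e l + e m) := by
      convert a5.neg.sub a2 using 1
      rw [OG_mul_apply, refl_apply_of_perp (x := _ - _) (by simp [h.pol, hn']), refl_apply, a3.1, h.Q_e]
      simp only [polar_add_left, polar_sub_left, polar_sub_right, polar_smul_left, polar_smul_right,
        h.pol, hij, hij.symm, hil.symm, hjl.symm, hm, if_true, if_false, smul_eq_mul]
      match_scalars <;> field_simp <;> ring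
    convert (a6.fix (h.d_mem hM l n) (by
      rw [h.d_apply (Ne.symm hn'.2.2.2.2)]; simp [h.pol, hn', hil.symm, hjl.symm, hkl.symm])).smul_prime hp
        (-2⁻¹) using 1
    rw [h.d_apply (Ne.symm hn'.2.2.2.2)]
    simp only [polar_add_right, h.pol, hn', Ne.symm hm.2.2.2, if_true, if_false]
    match_scalars <;> field_simp <;> ring
  have a3 := g0 l (Ne.symm hm.2.2.2) _ hf (by simp [h.pol, hn', ho])
  simp only [map_smul, map_add, h.refl_root (Ne.symm hm.2.2.2) (one_mul 1),
    h.refl_root_ne hil.symm hm.1, h.refl_root_ne hjl.symm hm.2.1, h.refl_root_ne hkl.symm hm.2.2.1] at a3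
  have a4 := hf.refl' a3
  have t4 : (4 : F) ≠ 0 := by rw [show (4 : F) = 2 * 2 by norm_num]; exact mul_ne_zero t2 t2
  rw [show (refl Q ((2⁻¹ : F) • (e i + e j + e k + e l))).1 ((2⁻¹ : F) • (e i + e j + e k + (1 : F) • e m)) =
      (4⁻¹ : F) • ((2 : F) • e m - e i - e j - e k - (3 : F) • e l) by
    rw [refl_apply, hf.1, h.Q_e]
    simp only [polar_add_left, polar_add_right, polar_smul_left, polar_smul_right, h.pol, hij, hik, hjk,
      hij.symm, hik.symm, hjk.symm, hil.symm, hjl.symm, hkl.symm, Ne.symm hm.1, Ne.symm hm.2.1,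
      Ne.symm hm.2.2.1, Ne.symm hm.2.2.2, if_true, if_false, smul_eq_mul]
    match_scalars <;> field_simp <;> ring] at a4
  have := h.eq_sq5 hM (fun y b1 b2 l hl m hm => by
    by_cases b3 : refl Q y ∈ Mon Q e
    · exact h.sq_of_mon (b1.1 ▸ h.Q_ne b) b3 hl hm
    have b4 := (h.four hM b1 (by_contra fun h => b3 (H y b1 (by omega)))
      fun z c1 c2 => H z c1 (by omega)).2
    exact mul_left_cancel₀ t4 ((b4 l hl).trans (b4 m hm).symm)) a4 (i := i) (j := j) (k := l) (l := k)
    (m := m) (fun a ha => by_contra fun H => by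
      simp only [Finset.mem_insert, Finset.mem_singleton, not_or] at H
      simp [mem_spt, h.pol, H] at ha)
    (by simp [mem_spt, h.pol, hij, hik, hil, Ne.symm hm.1, t4])
    (by simp [mem_spt, h.pol, hik.symm, hjk.symm, hkl, Ne.symm hm.2.2.1, t4])
    (by simp [mem_spt, h.pol, hm, t2, t4]) hij hil hjl hik.symm hjk.symm hkl hm.1 hm.2.1 hm.2.2.2
  simp [h.pol, hik.symm, hjk.symm, hkl, Ne.symm hm.2.2.1, hm] at this
  field_simp at this
  exact (h3 (by linear_combination -this)).elim

theorem Om_le7 (h7 : Fintype.card ι = 7) (hM' : M ≤ Om Q) (hg : g ∈ M) (hg' : g ∉ Mon Q e) :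
    Om Q ≤ M := by
  by_cases h0 : ∀ g ∈ M, ∀ a b, ∀ c : F, g.1 (e a) = c • e b → g ∈ Mon Q e
  · refine (hg' (FrS.le_Mon ⟨h, h7, hM, h0, fun g h1 h2 => ?_⟩ hg)).elim
    have := h.fin
    have a1 : LinearEquiv.det g.1 = 1 := Abelianization.commutator_subset_ker
      (LinearEquiv.det.comp (OG Q).subtype) (hM' h1)
    have a2 : g.1.toLinearMap = (-1 : F) • LinearMap.id := LinearMap.ext fun x => by
      rw [← h.sum x, map_sum, map_sum]; simp [h2]
    have a3 := congrArg Units.val a1
    rw [LinearEquiv.coe_det, a2, LinearMap.det_smul, h.finrank_eq, h7] at a3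
    norm_num at a3
    exact h.two (by linear_combination -a3)
  push Not at h0
  obtain ⟨g, hg, a, b, c, h1, h2⟩ := h0
  obtain ⟨f, ⟨h3, h4⟩, h5⟩ := (measure fun f => (spt Q e f).card).wf.has_min _ (h.exists_cl hM hg h1 h2 b)
  replace h5 : ∀ y, Cl M (e b) y → (spt Q e y).card < (spt Q e f).card → refl Q y ∈ Mon Q e :=
    fun y b1 b2 => by_contra fun b3 => h5 y ⟨b1, b3⟩ b2
  rcases lt_or_ge (spt Q e f).card 4 with h6 | h6
  · by_cases h7 : (3 : F) = 0
    · have b1 : ∀ x : F, x ≠ 0 → x * x = 1 := fun x hx => by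
        have := Fact.mk hp
        have : CharP F (Fintype.card F) := charP_of_card_eq_prime rfl
        have b2 := (Nat.prime_dvd_prime_iff_eq hp Nat.prime_three).mp
          ((CharP.cast_eq_zero_iff F _ 3).mp (by exact_mod_cast h7))
        simpa [b2, pow_two] using FiniteField.pow_card_sub_one_eq_one x hx
      have b2 : ((spt Q e f).card : F) = 1 := by
        rw [← mul_inv_cancel₀ h.two, ← h.Q_e b, ← h3.1, ← polar_self', h.pol_eq, Finset.card_eq_sum_ones,
          Nat.cast_sum, ← Finset.sum_subset (Finset.subset_univ (spt Q e f)) fun a _ ha => by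
            rw [not_not.mp (mt mem_spt.mpr ha), zero_mul]]
        exact Finset.sum_congr rfl fun a ha => by rw [b1 _ (mem_spt.mp ha), Nat.cast_one]
      obtain ⟨i, hi⟩ := Finset.card_eq_one.mp (show (spt Q e f).card = 1 by
        generalize (spt Q e f).card = n at b2 h6
        interval_cases n
        · simp at b2
        · rfl
        · exact (one_ne_zero (by linear_combination b2 : (1 : F) = 0)).elim
        · exact (one_ne_zero (by linear_combination h7 - b2 : (1 : F) = 0)).elim)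
      have := h.mem_span hi.le
      rw [Finset.coe_singleton, Set.image_singleton, Submodule.mem_span_singleton] at this
      obtain ⟨c, rfl⟩ := this
      exact (h4 (by
        rw [refl_smul fun H => h.Q_ne b (by simpa [H] using h3.1.symm)]; exact h.refl_e_mem i)).elim
    obtain ⟨T, b1, b2⟩ := Finset.exists_superset_card_eq (n := 3) (s := spt Q e f) (by omega) (by omega)
    obtain ⟨i, j, k, c1, c2, c3, rfl⟩ := Finset.card_eq_three.mp b2
    exact h.le_of_three7 hM hp hn c1 c2 c3 h3 b1 h4 h7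
  obtain ⟨h7, h8⟩ := h.four hM h3 h6 h5
  obtain ⟨s, s1, s2⟩ : ∃ s : ι → F, (∀ i, s i * s i = 1) ∧ ∀ i ∈ spt Q e f, s i = 2 * polar Q (e i) f :=
    ⟨fun i => if i ∈ spt Q e f then 2 * polar Q (e i) f else 1, fun i => by
      dsimp only
      split_ifs with hi
      exacts [by linear_combination h8 i hi, one_mul 1], fun i hi => if_pos hi⟩
  have o : ON Q fun i => s i • e i := ⟨h.two, fun i j => by
    by_cases hij : i = j <;> simp [h.pol, hij, s1, -polar_self], fun x => by
      simpa [smul_smul, mul_right_comm _ _ (s _), s1] using h.sum x⟩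
  have s0 := fun i => left_ne_zero_of_mul_eq_one (s1 i)
  have b1 : Mon Q (fun i => s i • e i) = Mon Q e := congrArg (mapS Q) (Set.ext fun x =>
    ⟨fun ⟨j, c, h⟩ => ⟨j, c * s j, by rw [h, smul_smul]⟩,
      fun ⟨j, c, h⟩ => ⟨j, c * s j, by rw [h, smul_smul, mul_assoc, s1, mul_one]⟩⟩)
  have b2 : ∀ y, Cl M (s b • e b) y ↔ Cl M (e b) y := fun y => by
    simp [Cl, Q_smul, pow_two, s1, refl_smul (s0 b)]
  obtain ⟨i, j, k, l, c1, c2, c3, c4, c5, c6, c7⟩ := Finset.card_eq_four.mp h7
  refine o.le_of_four7 (b1 ▸ hM) hp hn c1 c2 c3 c4 c5 c6 (b := b) ((b2 _).mpr ?_) fun y d1 d2 =>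
    b1 ▸ h5 y ((b2 y).mp d1) (by convert d2 using 2; ext; simp [mem_spt, s0])
  convert h3
  rw [← h.sum f, ← Finset.sum_subset (Finset.subset_univ (spt Q e f)) fun a _ ha => by
    rw [not_not.mp (mt mem_spt.mpr ha), zero_smul]]
  simp [c7] at s2
  simp [c7, c1, c2, c3, c4, c5, c6, s2, smul_smul, h.two, add_assoc]

end ON

end

open Cfsg.Geo

theorem ODQ.Om_le_one7 {F V : Type*} [Field F] [Fintype F] [AddCommGroup V] [Module F V] [Finite V]
    [FiniteDimensional F V] {Q : QuadraticForm F V} {M : Subgroup (OG Q)} {κ : Type*} [Fintype κ]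
    {E : κ → Submodule F V} (h : ODQ Q E) (hQ : ND Q) (hp : (Fintype.card F).Prime) (h2 : (2 : F) ≠ 0)
    (hn : Fintype.card κ = 7) (hM' : M ≤ Om Q) (hk : ∀ i, finrank F (E i) = 1) {e : κ → V} (he : ∀ i, e i ∈ E i)
    (he' : ∀ i, Q (e i) = 2⁻¹) (hM : ∀ g ∈ Om Q, g ∈ dsO Q E → g ∈ M) {g : OG Q} (hg : g ∈ M)
    (hg' : g ∉ dsO Q E) : Om Q ≤ M := by
  classical
  have a1 : ∀ i, E i = F ∙ e i := fun i => (Submodule.eq_of_le_of_finrank_eq
    ((Submodule.span_singleton_le_iff_mem _ _).mpr (he i)) (by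
      rw [hk, finrank_span_singleton fun h => inv_ne_zero h2 (by rw [← he' i, h, map_zero])])).symm
  have a2 : ∀ i j, polar Q (e i) (e j) = if i = j then 1 else 0 := fun i j => by
    split_ifs with hij
    · rw [hij, polar_self', he', mul_inv_cancel₀ h2]
    · exact h.orth i j hij (he j) _ (he i)
  have o : ON Q e := ⟨h2, a2, fun x => sub_eq_zero.mp (h.eq_zero hQ fun i => by
    rw [a1, mem_perp_singleton]; simp [polar_sum_right, a2])⟩
  have a3 : ∀ g, g ∈ dsO Q E ↔ g ∈ Mon Q e := fun g => ⟨fun ⟨π, hπ⟩ => mem_Mon.mpr fun i => by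
    have : g.1 (e i) ∈ E (π i) := hπ i ▸ ⟨_, he i, rfl⟩
    rw [a1, Submodule.mem_span_singleton] at this
    exact ⟨_, this.imp fun _ => Eq.symm⟩, fun H => by
      choose π c hc using mem_Mon.mp H
      refine h.mem_dsO hk one_pos π fun i x hx => ?_
      rw [a1, Submodule.mem_span_singleton] at hx
      obtain ⟨d, rfl⟩ := hx
      rw [map_smul, hc]
      exact Submodule.smul_mem _ _ (Submodule.smul_mem _ _ (he _))⟩
  exact o.Om_le7 (fun g h1 h2 => hM g h1 ((a3 g).mpr h2)) hp hn.ge hn hM' hg (mt (a3 g).mpr hg')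

variable {ι : Type} [Fintype ι] [DecidableEq ι] {F : Type*} [Field F] {Q : (ι → F) → F} {t m : ℕ}
  {D : Fin t → Submodule F (ι → F)}

theorem max_frame7 [Fintype F] (hQ : IsNondegenerateQuadraticForm Q) (hn : Fintype.card ι = 7)
    (hp : (Fintype.card F).Prime) (hodd : Odd (Fintype.card F))
    (hD : IsOrthogonalMDecomposition Q 1 D) :
    IsMaximalIn (omegaGL Q) (decompositionStabilizer D ⊓ omegaGL Q) := by
  have h2 := two_ne_zero_iff_odd.mpr hodd
  have h1 := card_eq_of_isMDecomposition hD.decomp.decomp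
  have b2 := hD.decomp.decomp.finrank_eq
  have i : Fin t := ⟨0, by omega⟩
  obtain ⟨v, hv, a1⟩ := finrank_eq_one_iff'.mp (b2 i)
  have a2 : 2 * Q v ≠ 0 := fun H => hv ((odq_of hQ hD.decomp).nd i v fun y => by
    obtain ⟨c, rfl⟩ := a1 y
    rw [polar_smul_right, polar_self']
    exact smul_eq_zero_of_right _ H)
  choose φ hφ using hD.isometric i
  have hQ' := quad_smul hQ (inv_ne_zero a2)
  have hD' := odec_smul hD (inv_ne_zero a2)
  rw [← omegaGL_smul (inv_ne_zero a2)]
  exact max_omega hQ' _ (ofOG_mem_dec hQ') (omega_not_le_ndDecomp hQ' (by omega) hD'.decomp)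
    fun M a1 a0 g a3 a4 => (odq_of hQ' hD'.decomp).Om_le_one7 (nd_mkQ hQ') hp h2 (by simp; omega) a0 b2
      (fun j => (φ j v).2) (fun j => by
        have := right_ne_zero_of_mul a2
        change _ * Q _ = _
        rw [hφ]; field_simp) a1 a3 a4

theorem max_nd7 [Fintype F] {W : Submodule F (ι → F)} (hQ : IsNondegenerateQuadraticForm Q)
    (hn : 7 ≤ Fintype.card ι) (h0 : W ≠ ⊥) (h1 : W ≠ ⊤)
    (hW : IsNondegenerateOn (polar Q) W) (hd : 2 * finrank F W = Fintype.card ι →
      ¬ AreIsometricFor Q W ((hform_of_quad hQ).perp W)) (hq : 2 < Fintype.card F)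
    (hex : ¬ (Fintype.card F ≤ 3 ∧ ∃ U : Submodule F (ι → F), finrank F U = 2 ∧
      IsNondegenerateOn (polar Q) U ∧ IsPlusTypeOn Q U ∧ (U = W ∨ (AreOrthogonalFor (polar Q) U W ∧
        finrank F U + finrank F W = Fintype.card ι)))) :
    IsMaximalIn (omegaGL Q) (subspaceStabilizer W ⊓ omegaGL Q) := by
  refine max_omega hQ _ (ofOG_mem_stab hQ) (omega_not_le_stab hQ (by omega) h0 h1)
    fun M a1 _ g a2 a3 => ?_
  have b0 := nd_mkQ hQ
  have b1 := nd_restrict hQ hW
  have b2 := b0.nd_perp b1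
  have b3 := b0.finrank_perp W
  rw [finrank_fintype_fun_eq_card] at b3
  have b5 : finrank F (perp (mkQ hQ) W) ≤ finrank F W → ∀ k : OG (mkQ hQ),
      ¬ W.map k.1.toLinearMap ≤ perp (mkQ hQ) W := fun h k hk => by
    have b4 := Submodule.finrank_mono hk
    rw [finrank_map_OG] at b4
    refine hd (by omega) (areIsometric_of_map (g := ofOG hQ k) ((toOG _).symm k).2 ?_)
    rw [toLin'_ofOG, perp_mkQ]
    exact Submodule.eq_of_le_of_finrank_le hk (by rwa [finrank_map_OG])
  have b6 : ∃ s : F, s ≠ 0 ∧ s ≠ 1 := exists_ne_zero_one (by simpa)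
  by_cases h : finrank F (perp (mkQ hQ) W) ≤ finrank F W
  · exact Om_le_of_nd b0 (by simp; omega) b1 (by omega) (Or.inl b6) (irC_of b2 fun H =>
      hex ⟨by simpa using H.1, _, H.2.1, nondegOn_of_nd hQ b2, (plus_iff_restrict hQ).mpr H.2.2,
        Or.inr ⟨fun u hu v hv => perp_pair_zero hu hv, by omega⟩⟩) (b5 h) a1 a2 a3
  · rw [← stO_perp b0] at a1 a3
    refine Om_le_of_nd b0 (by simp; omega) b2 (by omega) (Or.inl b6) (by
      rw [b0.perp_perp]
      exact irC_of b1 fun H => hex ⟨by simpa using H.1, _, H.2.1, hW,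
        (plus_iff_restrict hQ).mpr H.2.2, Or.inl rfl⟩) (fun k hk => ?_) a1 a2 a3
    have b4 := Submodule.finrank_mono hk
    rw [finrank_map_OG, b0.perp_perp] at b4
    exact h b4

end Cfsg.Agent.H18
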