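import Mathlib
import Cfsg.Agent.H18.OMxD
import Cfsg.Agent.H12.FldB

/-!
Quadratic forms that are traces of forms over an extension field: Siegel elements.
-/

set_option autoImplicit false

namespace Cfsg.Agent.H18

open Module QuadraticMap H13

section irr
variable {K V : Type*} [Field K] [AddCommGroup V] [Module K V] {q : QuadraticForm K V}
  [FiniteDimensional K V] {W : Submodule K V} {A : AddSubgroup V} {a z u e : V}

theorem add_irr_aux (hW : ND (q.restrict W)) (h3 : 3 ≤ finrank K W) (hz : z ∈ W) (h1 : q z = 0)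
    (H : ∀ u ∈ W, polar q z u = 0 → ∀ a ∈ A, (sieg q z u).1 a - a ∈ A) (ha : a ∈ A)
    (h2 : polar q z a ≠ 0) (hu : u ∈ W) (h4 : polar q z u = 0) : u ∈ A := by
  obtain ⟨f, hf, hp⟩ := exists_hp_mem hW hz h1 (by rintro rfl; simp at h2)
  obtain ⟨b, b1, c, c1, b2, -, c2, -, h5⟩ := exists_pair_perp hW h3 hz hf hp
  have a1 : ∀ u ∈ W, polar q z u = 0 → polar q u a • z - polar q z a • (u + q u • z) ∈ A :=
    fun u hu h => by
      convert H u hu h a ha using 1
      rw [sieg_apply h1 h]; abel
  have a2 : ∀ k : K, k • z ∈ A := fun k => by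
    have := sub_mem (add_mem (a1 _ (W.smul_mem (k / (polar q z a * polar q b c)) b1) (by simp [b2]))
      (a1 c c1 c2)) (a1 _ (add_mem (W.smul_mem (k / (polar q z a * polar q b c)) b1) c1)
      (by simp [b2, c2]))
    convert this using 1
    simp only [Q_add, polar_add_left, polar_smul_left, smul_eq_mul]
    match_scalars
    · field_simp; ring
    · ring
    · ring
  have := a1 _ (W.smul_mem (polar q z a)⁻¹ hu) (by simp [h4])
  convert sub_mem (a2 (polar q ((polar q z a)⁻¹ • u) a - polar q z a * q ((polar q z a)⁻¹ • u)))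
    this using 1
  match_scalars
  · field_simp
  · ring

variable [Finite K]

theorem add_irr (hW : ND (q.restrict W)) (h3 : 3 ≤ finrank K W)
    (H : ∀ z ∈ W, ∀ u ∈ W, q z = 0 → polar q z u = 0 → ∀ a ∈ A, (sieg q z u).1 a - a ∈ A)
    (ha : a ∈ A) (h2 : a ∉ perp q W) (hu : u ∈ W) : u ∈ A := by
  obtain ⟨z, hz, h1, h4⟩ := exists_sing_ne hW h3 h2
  obtain ⟨f, hf, hp⟩ := exists_hp_mem hW hz h1 (by rintro rfl; simp at h4)
  have a1 := fun u => add_irr_aux (u := u) hW h3 hz h1 (fun u hu => H z hz u hu h1) ha h4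
  have a2 := add_irr_aux hW h3 hf hp.Qv (fun u hu => H f hf u hu hp.Qv) (a1 z hz hp.uu)
    (by simp [hp.vu]) (W.smul_mem (polar q z u) hf) (by simp [hp.Qv])
  simpa using add_mem (a1 _ (sub_mem hu (W.smul_mem (polar q z u) hf)) (by simp [hp.uv])) a2

theorem exists_val_mem (hW : ND (q.restrict W)) (h2 : 2 ≤ finrank K W) (c : K) :
    ∃ u ∈ W, q u = c := by
  obtain ⟨u, hu⟩ := hW.exists_eq h2 c
  exact ⟨u, u.2, hu⟩

theorem exists_Om_polar (hq : ND q) (h2 : (2 : K) ≠ 0) (h4 : 4 ≤ finrank K V) (he : e ≠ 0) (s : K) :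
    ∃ h ∈ Om q, polar q e (h.1 e) = s := by
  obtain ⟨z, h1, h3⟩ : ∃ z, q z = 0 ∧ polar q z e ≠ 0 := by
    by_contra! H
    obtain ⟨v, b1, b2⟩ := exists_singular q (by omega)
    obtain ⟨w, b3⟩ := hq.exists_ne b1
    exact he (hq e fun y => (polar_comm _ _ _).trans (singular_induction (H := ⊤)
      (p := fun y => polar q y e = 0) b2 trivial trivial b3 (fun x _ => H x)
      (fun x _ y _ c1 c2 => by simp [c1, c2]) y trivial))
  obtain ⟨f, hp⟩ := hq.exists_hp h1 (by rintro rfl; simp at h3)
  obtain ⟨u, hu, h5⟩ := exists_val_mem (hp.nd_pp hq) (by have := hp.finrank_pp; omega)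
    ((2 * q e - s) / polar q z e ^ 2)
  refine ⟨_, hq.sieg_mem_commutator (good_of_two_ne_zero h2) z u, ?_⟩
  rw [sieg_apply h1 (mem_perp_pair.mp hu).1]
  simp only [polar_add_right, polar_sub_right, polar_smul_right, polar_self', h5, smul_eq_mul]
  rw [polar_comm q e z, polar_comm q e u]
  field_simp; ring

end irr

variable {F V : Type*} [Field F] [AddCommGroup V] [Module F V] {Q : QuadraticForm F V}
  {K : Type*} [Field K] [Algebra F K] [Module K V] [IsScalarTower F K V] {q : QuadraticForm K V}
  {l : Dual F K} {M : Subgroup (OG Q)} {e f x y u : V} {k : K}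

/-- `Q` is obtained from the form `q` over the extension field by the functional `l`. -/
structure QF (Q : QuadraticForm F V) (q : QuadraticForm K V) (l : Dual F K) : Prop where
  nd : ND q
  map : ∀ x, Q x = l (q x)
  ne : l ≠ 0
  two : (2 : F) ≠ 0

theorem mem_span_of_range (h : k ∈ (algebraMap F K).range) (y : V) : k • y ∈ F ∙ y := by
  obtain ⟨c, rfl⟩ := h
  rw [algebraMap_smul]; exact Submodule.smul_mem _ c (Submodule.mem_span_singleton_self y)

namespace QF
variable (h : QF Q q l)
include h

omit [IsScalarTower F K V] in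
theorem pol (x y : V) : polar Q x y = l (polar q x y) := by simp only [polar, h.map, map_sub]

omit [IsScalarTower F K V] in
theorem zero (H : polar q x y = 0) : polar Q x y = 0 := by rw [h.pol, H, map_zero]

omit [IsScalarTower F K V] in
theorem smul_right (x y : V) (k : K) : polar Q x (k • y) = l (k * polar q x y) := by
  rw [h.pol, polar_smul_right, smul_eq_mul]

omit [IsScalarTower F K V] in
theorem smul_left (x y : V) (k : K) : polar Q (k • x) y = l (k * polar q x y) := by
  rw [h.pol, polar_smul_left, smul_eq_mul]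

omit [IsScalarTower F K V] in
theorem exists_eq (hk : k ≠ 0) (c : F) : ∃ a, l (a * k) = c := by
  obtain ⟨a, ha⟩ := l.surjective_iff_ne_zero.mpr h.ne c
  exact ⟨a / k, by rwa [div_mul_cancel₀ _ hk]⟩

omit [IsScalarTower F K V] in
theorem eq_zero (H : ∀ a, l (a * k) = 0) : k = 0 := by
  by_contra hk
  obtain ⟨a, ha⟩ := h.exists_eq hk 1
  simp [H] at ha

omit [IsScalarTower F K V] in
theorem pol_zero (H : ∀ k : K, polar Q (k • x) y = 0) : polar q x y = 0 :=
  h.eq_zero fun a => by rw [← h.smul_left, H]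

omit [IsScalarTower F K V] in
theorem ndF : ND Q := fun x H => h.nd x fun y => h.eq_zero fun a => by rw [← h.smul_right, H]

omit [IsScalarTower F K V] in
theorem twoK : (2 : K) ≠ 0 := by
  rw [← map_ofNat (algebraMap F K)]; exact (_root_.map_ne_zero _).mpr h.two

omit [IsScalarTower F K V] in
theorem sing (hy : q y = 0) (k : K) : Q (k • y) = 0 := by simp [h.map, Q_smul, hy]

/-- An isometry over the extension field as an isometry over the small field. -/
def res : OG q →* OG Q := MonoidHom.mk' (fun g => ⟨g.1.restrictScalars F, fun x => by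
  rw [h.map, h.map]; exact congrArg l (OG_map g x)⟩) fun _ _ => rfl

@[simp] theorem res_apply (g : OG q) (x : V) : (h.res g).1 x = g.1 x := rfl

theorem res_mem {g : OG q} (hg : g ∈ Om q) : h.res g ∈ Om Q := by
  have := Subgroup.mem_map_of_mem h.res hg
  rw [Om, commutator_def, Subgroup.map_commutator] at this
  exact Subgroup.commutator_mono le_top le_top this

omit [IsScalarTower F K V] in
theorem exists_indep (hk : k ∉ (algebraMap F K).range) : ∃ s, l s = 0 ∧ l (k * s) = 1 := by
  obtain ⟨s, h1, h2⟩ : ∃ s, l s = 0 ∧ l (k * s) ≠ 0 := by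
    by_contra! H
    obtain ⟨a, ha⟩ := h.exists_eq one_ne_zero 1
    rw [mul_one] at ha
    refine hk ⟨l (k * a), (sub_eq_zero.mp (h.eq_zero fun s => ?_)).symm⟩
    have := H (s - l s • a) (by simp [ha])
    rw [mul_sub, map_sub, mul_smul_comm, map_smul] at this
    rw [mul_sub, map_sub, mul_comm s, mul_comm s, ← Algebra.smul_def, map_smul]
    simp only [smul_eq_mul] at this ⊢
    linear_combination this
  exact ⟨(l (k * s))⁻¹ • s, by simp [h1], by simp [h2]⟩

variable [FiniteDimensional K V] [Finite K] (hM : ∀ g ∈ Om q, h.res g ∈ M)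
  (hr : 2 ≤ finrank F K) (h4 : 4 ≤ finrank K V)
include hM

omit [Finite K] in
theorem sg (y u : V) : h.res (sieg q y u) ∈ M :=
  hM _ (h.nd.sieg_mem_commutator (good_of_two_ne_zero h.twoK) y u)

include hr h4

theorem of_nonsing (H : AS M e f) (he : q e ≠ 0) (hf : f ∉ K ∙ e) : Om Q ≤ M := by
  haveI : Finite F := Finite.of_injective _ (algebraMap F K).injective
  haveI := Module.Finite.of_finite (R := F) (M := K)
  haveI := Module.Finite.trans (R := F) K V
  have e0 : e ≠ 0 := by rintro rfl; simp at he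
  have e1 : polar q e e ≠ 0 := by rw [polar_self']; exact mul_ne_zero h.twoK he
  have e2 := h.nd.finrank_perp (K ∙ e)
  rw [finrank_span_singleton e0] at e2
  let A : AddSubgroup V :=
    { carrier := {a | AS M e a}
      zero_mem' := AS.zero H.Qu
      add_mem' := AS.add
      neg_mem' := AS.neg }
  have a1 : ∀ u, polar q e u = 0 → AS M e u := fun u hu =>
    add_irr (A := A) (h.nd.nd_perp_singleton e1) (by omega) (fun z hz u hu _ _ a ha =>
      ha.fix (h.sg hM z u) (sieg_apply_of_perp_perp (by rw [polar_comm, mem_perp_singleton.mp hz])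
        (by rw [polar_comm, mem_perp_singleton.mp hu]))) H (by rwa [h.nd.perp_perp])
      (mem_perp_singleton.mpr hu)
  have a2 : ∀ k : K, polar Q e (k • e) = 0 → AS M e (k • e) := fun k hk => by
    obtain ⟨g, hg, b1⟩ := exists_Om_polar h.nd h.twoK h4 e0 (k * polar q e e)
    obtain ⟨u, b2, b3⟩ : ∃ u ∈ perp q (sp K e (g.1 e)), u ∉ sp K e (g.1 e) := by
      by_contra! b2
      have b3 := h.nd.finrank_perp (sp K e (g.1 e))
      have b4 : finrank K (sp K e (g.1 e)) ≤ 2 := finrank_span_pair_le _ _
      exact e1 (mem_perp_pair.mp ((Submodule.eq_of_le_of_finrank_le b2 (by omega)).ge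
        (left_mem_sp _ _))).1
    rw [mem_perp_pair] at b2
    obtain ⟨a, c1, c2⟩ := h.ndF.exists_perp_one ((sp K e (g.1 e)).restrictScalars F) b3
    have c3 : polar q e a = 0 := h.pol_zero fun k => (polar_comm _ _ _).trans
      (c1 _ (Submodule.smul_mem _ k (left_mem_sp _ _)))
    have c4 := (a1 ((g⁻¹).1 u) (by rw [← OG_polar_left, b2.2])).map (hM g hg)
    simp only [res_apply, OG_apply_inv] at c4
    have c5 := (a1 a c3).act c4 (by rw [polar_comm, h.pol, b1, ← h.smul_right, hk])
      (h.zero (by rw [polar_comm, b2.1]))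
    rw [polar_comm Q u, c2, polar_comm Q _ a, c1 _ (right_mem_sp _ _)] at c5
    simpa using c5.sub (a1 (g.1 e - k • e) (by simp [b1]))
  have a3 : EO M e := ⟨H.Qu, fun a ha => by
    have := a1 (a - (polar q e a / polar q e e) • e) (by
      rw [polar_sub_right, polar_smul_right, smul_eq_mul, div_mul_cancel₀ _ e1, sub_self])
    simpa using this.add (a2 (polar q e a / polar q e e) (by
      rw [h.smul_right, div_mul_cancel₀ _ e1, ← h.pol, ha]))⟩
  obtain ⟨s, hs⟩ := h.exists_eq one_ne_zero 1
  obtain ⟨g, hg, b1⟩ := exists_Om_polar h.nd h.twoK h4 e0 (s * 1)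
  refine Om_le_of_EO h.ndF ?_ a3 (a3.map (hM g hg)) (by rw [res_apply, h.pol, b1, hs]; simp)
  rw [← finrank_mul_finrank F K V]; nlinarith

theorem of_sing (H : AS M y f) (hy : q y = 0) (h0 : y ≠ 0) (hf : f ∉ F ∙ y) : Om Q ≤ M := by
  obtain ⟨o, ho⟩ := H12.exists_notMem_span hr (1 : K)
  have ho' : o ∉ (algebraMap F K).range := fun e => ho (by simpa using mem_span_of_range e (1 : K))
  have y0 : polar q y y = 0 := by simp [hy]
  obtain ⟨k, hk, a1⟩ : ∃ k ∉ (algebraMap F K).range, AS M y (k • y) := by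
    by_cases b1 : polar q y f = 0
    · by_cases b2 : f ∈ K ∙ y
      · obtain ⟨k, rfl⟩ := Submodule.mem_span_singleton.mp b2
        exact ⟨k, fun e => hf (mem_span_of_range e y), H⟩
      · obtain ⟨u, c1, c2⟩ := h.nd.exists_perp_one _ b2
        have c3 := c1 y (Submodule.mem_span_singleton_self y)
        have := H.fix (h.sg hM y (o • u)) (sieg_apply_self _ _)
        rw [res_apply, sieg_apply_of_perp hy (by simp [polar_comm q y, c3]) b1] at this
        exact ⟨o, ho', by simpa [c2] using this⟩
    · let A : AddSubgroup V :=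
        { carrier := {a | AS M y a}
          zero_mem' := AS.zero H.Qu
          add_mem' := AS.add
          neg_mem' := AS.neg }
      exact ⟨o, ho', add_irr_aux (A := A) (W := ⊤) (nd_restrict_iff.mpr (by
        rw [top_disjoint, eq_bot_iff]
        exact fun x hx => h.nd x fun z => (polar_comm _ _ _).trans (mem_perp.mp hx z trivial)))
        (by rw [finrank_top]; omega) trivial hy
        (fun u _ _ a ha => ha.fix (h.sg hM y u) (sieg_apply_self _ _)) H b1 trivial (by simp [hy])⟩
  obtain ⟨s, b1, b2⟩ := h.exists_indep hk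
  have s0 : s ≠ 0 := by rintro rfl; simp at b2
  obtain ⟨g, hg, b3⟩ := exists_Om_polar h.nd h.twoK h4 h0 s
  have a2 := a1.map (hM g hg)
  simp only [res_apply, map_smul] at a2
  have b4 : q (g.1 y) = 0 := by rw [OG_map, hy]
  generalize g.1 y = z at a2 b3 b4
  have a3 := a1.map a2.mem
  have b5 : polar q z y = s := by rw [polar_comm, b3]
  simp only [sieg_apply a2.Qu a2.ua, h.pol, polar_smul_left, polar_smul_right, b5, smul_eq_mul,
    b1, b2, h.sing b4, zero_smul, one_smul, sub_zero, add_zero] at a3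
  refine h.of_nonsing hM hr h4 a3 (by simpa [Q_add, hy, b4, b3]) fun e => ?_
  obtain ⟨c, hc⟩ := Submodule.mem_span_singleton.mp e
  have c1 := congrArg (polar q z) hc
  have c2 := congrArg (polar q y) hc
  rw [← algebraMap_smul K (l _)] at c1 c2
  simp only [polar_add_right, polar_sub_right, polar_smul_right, polar_self', hy, b4, b3, b5,
    smul_eq_mul] at c1 c2
  refine hk ⟨l (k * (k * s)) / 2, ?_⟩
  rw [map_div₀, map_ofNat, div_eq_iff h.twoK]
  exact mul_right_cancel₀ s0 (by linear_combination c1 - c2)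

end QF

end Cfsg.Agent.H18
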