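import Mathlib
import Cfsg.Agent.H18.FxA

/-!
Invariant subspaces over a subfield; purification of elements of unipotent radicals.
-/

set_option autoImplicit false

namespace Cfsg.Agent.H18

open Module QuadraticMap H13

variable {F V : Type*} [Field F] [AddCommGroup V] [Module F V] {Q : QuadraticForm F V}
  {M : Subgroup (OG Q)} {L : Submodule F V} {e w x : V} {φ ψ : V → V}

/-- `φ` is the action on `L^⊥` of an element of `M` in the unipotent radical of `L`. -/
structure PH (M : Subgroup (OG Q)) (L : Submodule F V) (φ : V → V) : Prop where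
  mem : ∀ x ∈ perp Q L, φ x ∈ L
  ex : ∃ g ∈ M, (∀ x ∈ L, g.1 x = x) ∧ ∀ x ∈ perp Q L, g.1 x = x + φ x

namespace PH

theorem add (h : PH M L φ) (h' : PH M L ψ) : PH M L fun x => φ x + ψ x := by
  obtain ⟨g, hg, a1, a2⟩ := h.ex
  obtain ⟨g', hg', b1, b2⟩ := h'.ex
  refine ⟨fun x hx => add_mem (h.mem x hx) (h'.mem x hx), g * g', mul_mem hg hg',
    fun x hx => by rw [OG_mul_apply, b1 x hx, a1 x hx], fun x hx => ?_⟩
  rw [OG_mul_apply, b2 x hx, map_add, a2 x hx, a1 _ (h'.mem x hx), add_assoc]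

theorem neg (h : PH M L φ) : PH M L fun x => -φ x := by
  obtain ⟨g, hg, a1, a2⟩ := h.ex
  refine ⟨fun x hx => neg_mem (h.mem x hx), g⁻¹, inv_mem hg, fun x hx => g.1.injective (by
    rw [OG_apply_inv, a1 x hx]), fun x hx => g.1.injective ?_⟩
  rw [OG_apply_inv, map_add, map_neg, a2 x hx, a1 _ (h.mem x hx), add_neg_cancel_right]

theorem congr (h : PH M L φ) (H : ∀ x ∈ perp Q L, ψ x = φ x) : PH M L ψ := by
  obtain ⟨g, hg, a1, a2⟩ := h.ex
  exact ⟨fun x hx => H x hx ▸ h.mem x hx, g, hg, a1, fun x hx => H x hx ▸ a2 x hx⟩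

theorem conj (h : PH M L φ) {t : OG Q} (ht : t ∈ M) (h1 : ∀ x ∈ L, t.1 x ∈ L)
    (h2 : ∀ x ∈ L, (t⁻¹).1 x ∈ L) : PH M L fun x => t.1 (φ ((t⁻¹).1 x)) := by
  obtain ⟨g, hg, a1, a2⟩ := h.ex
  have a3 : ∀ x ∈ perp Q L, (t⁻¹).1 x ∈ perp Q L := fun x hx => mem_perp.mpr fun w hw => by
    rw [← OG_polar_left, mem_perp.mp hx _ (h1 w hw)]
  refine ⟨fun x hx => h1 _ (h.mem _ (a3 x hx)), t * g * t⁻¹, mul_mem (mul_mem ht hg) (inv_mem ht),
    fun x hx => ?_, fun x hx => ?_⟩
  · rw [OG_mul_apply, OG_mul_apply, a1 _ (h2 x hx), OG_apply_inv]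
  · rw [OG_mul_apply, OG_mul_apply, a2 _ (a3 x hx), map_add, OG_apply_inv]

theorem zero (h : PH M L φ) (hL : ∀ x ∈ L, Q x = 0) (hx : x ∈ L) : φ x = 0 := by
  obtain ⟨g, -, a1, a2⟩ := h.ex
  simpa [a1 x hx] using a2 x (le_perp_of_singular hL hx)

theorem as [FiniteDimensional F V] (hQ : ND Q) (hL : ∀ x ∈ L, Q x = 0) (he : e ∈ L)
    (hw : w ∈ perp Q L) (h : PH M L fun x => polar Q w x • e) (h' : PH M L φ) : AS M e (φ w) := by
  obtain ⟨g, hg, -, a2⟩ := h.ex
  obtain ⟨k, hk, b1, b2⟩ := h'.ex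
  have e1 := mem_perp.mp hw e he
  have e2 := mem_perp.mp (le_perp_of_singular hL (h'.mem w hw)) e he
  have c1 : ∀ x ∈ perp Q L, ((sieg Q e w)⁻¹ * g).1 x = x := fun x hx => by
    rw [OG_mul_apply, a2 x hx, ← sieg_apply_of_perp (hL e he) e1 (mem_perp.mp hx e he),
      OG_inv_apply_apply]
  have c2 : k * ((sieg Q e w)⁻¹ * g) = (sieg Q e w)⁻¹ * g * k := OG_ext fun x => by
    generalize (sieg Q e w)⁻¹ * g = z at c1
    have d1 := b1 _ (map_mem_of_fix_perp hQ c1 x)
    have d2 := c1 (k.1 x - x) (mem_perp.mpr fun y hy => by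
      rw [polar_sub_right, ← b1 y hy, OG_polar, b1 y hy, sub_self])
    rw [map_sub] at d1 d2
    rw [OG_mul_apply, OG_mul_apply]
    linear_combination (norm := abel) d1 - d2
  refine ⟨hL e he, e2, ?_⟩
  convert mul_mem (mul_mem (mul_mem hk hg) (inv_mem hk)) (inv_mem hg) using 1
  have c3 := conj_sieg k e w
  rw [b1 e he, b2 w hw, add_comm, sieg_add (hL e he) e2 e1] at c3
  rw [eq_mul_inv_of_mul_eq c3.symm]
  calc _ = k * sieg Q e w * k⁻¹ * (((sieg Q e w)⁻¹ * g * k) * k⁻¹) * g⁻¹ := by group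
    _ = _ := by rw [← c2]; group

end PH

variable {K : Type*} [Field K] [Algebra F K] [Module K V] [IsScalarTower F K V]
  {q : QuadraticForm K V} {l : Dual F K} {W : Submodule K V} {a b : V}

theorem mem_range_of_quad (hr : (finrank F K).Prime) (h3 : 3 ≤ finrank F K) {o : K} {s t : F}
    (h : o * o = s • o + t • 1) : o ∈ (algebraMap F K).range := by
  by_contra ho
  let S : Subring K :=
    { carrier := sp F 1 o
      mul_mem' := fun ha hb => by
        obtain ⟨a, b, rfl⟩ := Submodule.mem_span_pair.mp ha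
        obtain ⟨c, d, rfl⟩ := Submodule.mem_span_pair.mp hb
        exact Submodule.mem_span_pair.mpr ⟨a * c + b * d * t, a * d + b * c + b * d * s, by
          simp only [Algebra.smul_def, map_add, map_mul] at h ⊢
          linear_combination -(algebraMap F K b * algebraMap F K d) * h⟩
      one_mem' := left_mem_sp _ _
      add_mem' := add_mem
      zero_mem' := zero_mem _
      neg_mem' := neg_mem }
  have h1 := H12.eq_top_of_finrank_prime hr (S := S) (fun c => Submodule.mem_span_pair.mpr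
    ⟨c, 0, by simp [Algebra.smul_def]⟩) (right_mem_sp _ _) ho
  have h2 := finrank_span_pair_le (F := F) (1 : K) o
  rw [show Submodule.span F {1, o} = ⊤ from eq_top_iff.mpr fun x _ => h1.ge (Subring.mem_top x),
    finrank_top] at h2
  omega

omit [Module F V] [IsScalarTower F K V] in
theorem exists_rot [FiniteDimensional K V] [Finite K] (h2 : (2 : F) ≠ 0) (hr : (finrank F K).Prime)
    (hW : ND (q.restrict W)) (hd : 3 ≤ finrank K W ∨ (2 ≤ finrank K W ∧ 3 ≤ finrank F K))
    (ha : a ∈ W) (h0 : q a ≠ 0) : ∃ b ∈ W, q b ≠ 0 ∧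
      (polar q a b ^ 2 / (q a * q b) - 2) ^ 2 ∉ (algebraMap F K).range := by
  have k2 : (2 : K) ≠ 0 := by
    rw [← map_ofNat (algebraMap F K)]; exact (_root_.map_ne_zero _).mpr h2
  have e1 : polar q a a ≠ 0 := by rw [polar_self']; exact mul_ne_zero k2 h0
  obtain ⟨o, ho⟩ := H12.exists_notMem_span hr.two_le (1 : K)
  have ho' : o ∉ (algebraMap F K).range := fun e => ho (by simpa using mem_span_of_range e (1 : K))
  have r2 : (2 : K) ∈ (algebraMap F K).range := ⟨2, map_ofNat _ 2⟩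
  rcases hd with hd | ⟨hd, h3⟩
  · obtain ⟨θ, hθ⟩ : ∃ θ : K, θ ^ 2 ∉ (algebraMap F K).range := by
      by_contra! H
      have := (algebraMap F K).fieldRange.div_mem (sub_mem (sub_mem (H (o + 1)) (H o)) (one_mem _)) r2
      rw [show ((o + 1) ^ 2 - o ^ 2 - 1) / 2 = o by field_simp; ring] at this
      exact ho' this
    have a1 : 2 + θ ≠ 0 := fun e => hθ (by
      rw [eq_neg_of_add_eq_zero_right e]; exact pow_mem (neg_mem r2) 2)
    obtain ⟨c, c1, c2, c3⟩ := exists_norm_perp hW hd ha e1 (q a * (2 - θ) / (2 + θ))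
    have a2 : q (a + c) = 4 * q a / (2 + θ) := by rw [Q_add, c2, c3]; field_simp; ring
    have k4 : (4 : K) ≠ 0 := by rw [show (4 : K) = 2 * 2 by norm_num]; exact mul_ne_zero k2 k2
    refine ⟨a + c, add_mem ha c1, by rw [a2]; simp [a1, h0, k4], ?_⟩
    convert hθ using 3
    rw [a2, polar_add_right, c2, polar_self']; field_simp; ring
  · obtain ⟨c, c1, c2⟩ : ∃ c ∈ W ⊓ perp q (K ∙ a), q c ≠ 0 := by
      have b1 := finrank_inf_perp hW ha (by rintro rfl; simp at h0)
      haveI : Nontrivial ↥(W ⊓ perp q (K ∙ a)) := (Module.finrank_pos_iff (R := K)).mp (by omega)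
      obtain ⟨c, hc⟩ := (nd_inf_perp hW ha e1).exists_ne_zero
      exact ⟨c, c.2, hc⟩
    obtain ⟨k, hk⟩ : ∃ k : K, k ^ 2 * q a / q c ∉ (algebraMap F K).range := by
      by_contra! H
      obtain ⟨s, hs⟩ := (algebraMap F K).fieldRange.div_mem (H o) (H 1)
      refine ho' (mem_range_of_quad hr h3 (s := 0) (t := s) ?_)
      rw [zero_smul, zero_add, Algebra.smul_def, hs]; field_simp
    have c3 := mem_perp_singleton.mp c1.2
    have a1 : q (k • a + c) = k ^ 2 * q a + q c := by simp [Q_add, Q_smul, c3]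
    have a2 : k ^ 2 * q a + q c ≠ 0 := fun e => hk (by
      rw [eq_neg_of_add_eq_zero_left e, neg_div, div_self c2]; exact neg_mem (one_mem _))
    refine ⟨k • a + c, add_mem (W.smul_mem k ha) c1.1, a1 ▸ a2, fun ⟨s, hs⟩ => hk ?_⟩
    rw [a1, polar_add_right, c3, polar_smul_right, polar_self', smul_eq_mul] at hs
    generalize hω : k ^ 2 * q a / q c = ω
    have a3 : (4 - algebraMap F K s) * (ω * ω) - (8 + 2 * algebraMap F K s) * ω +
        (4 - algebraMap F K s) = 0 := by
      rw [hs, ← hω]; field_simp; ring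
    by_cases a4 : 4 - s = 0
    · rw [← sub_eq_zero.mp a4, map_ofNat] at a3
      rw [show ω = 0 from (mul_eq_zero.mp (show 2 ^ 4 * ω = 0 by linear_combination -a3)).resolve_left
        (pow_ne_zero _ k2)]
      exact zero_mem _
    · refine mem_range_of_quad hr h3 (s := (8 + 2 * s) / (4 - s)) (t := -1) ?_
      have a5 := (_root_.map_ne_zero (algebraMap F K)).mpr a4
      simp only [Algebra.smul_def, map_div₀, map_add, map_mul, map_sub, map_ofNat, map_neg,
        map_one] at a5 ⊢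
      field_simp
      linear_combination a3

theorem inv_perp [FiniteDimensional K V] [Finite K] (h2 : (2 : F) ≠ 0) (hr : (finrank F K).Prime)
    (hW : ND (q.restrict W)) (hd : 3 ≤ finrank K W ∨ (2 ≤ finrank K W ∧ 3 ≤ finrank F K))
    (hL : ∀ h ∈ Om q, (∀ z ∈ perp q W, h.1 z = z) → ∀ x ∈ L, h.1 x ∈ L)
    (hn : ∀ n ∈ W, (∀ k : K, k • n ∈ L) → n = 0) (hx : x ∈ L) : x ∈ perp q W := by
  have key : ∀ a ∈ W, q a ≠ 0 → polar q a x = 0 := fun a ha h0 => by
    obtain ⟨b, hb, h1, h3⟩ := exists_rot h2 hr hW hd ha h0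
    obtain ⟨θ, hθ⟩ : ∃ θ, θ = polar q a b ^ 2 / (q a * q b) - 2 := ⟨_, rfl⟩
    obtain ⟨ρ, hρ⟩ : ∃ ρ, ρ = refl q a * refl q b := ⟨_, rfl⟩
    rw [← hθ] at h3
    have a1 : ρ⁻¹ = refl q b * refl q a := by rw [hρ, mul_inv_rev, refl_inv, refl_inv]
    have a2 : ∀ z ∈ sp K a b, ρ.1 z + (ρ⁻¹).1 z = θ • z := fun z hz => by
      obtain ⟨s, t, rfl⟩ := Submodule.mem_span_pair.mp hz
      rw [a1]
      simp only [hρ, hθ, OG_mul_apply, refl_apply, polar_add_right, polar_sub_right,
        polar_smul_right, polar_self', smul_eq_mul, polar_comm q b a]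
      match_scalars <;> field_simp <;> ring
    have a0 : ∀ (a b : V) (z), (refl q a * refl q b).1 z - z ∈ sp K a b := fun a b z =>
      Submodule.mem_span_pair.mpr ⟨-(polar q a ((refl q b).1 z) * (q a)⁻¹), -(polar q b z * (q b)⁻¹), by
        rw [OG_mul_apply, refl_apply a, refl_apply b z]; module⟩
    have a3 : ∀ z, ρ.1 z - z ∈ sp K a b := hρ ▸ a0 a b
    have a4 : ∀ z ∈ sp K a b, ρ.1 z ∈ sp K a b := fun z hz => by simpa using add_mem (a3 z) hz
    have a5 : ∀ z ∈ sp K a b, (ρ⁻¹).1 z ∈ sp K a b := fun z hz => by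
      simpa using add_mem (show (ρ⁻¹).1 z - z ∈ sp K a b by rw [a1, sp_comm]; exact a0 b a z) hz
    have a6 : ρ * ρ ∈ Om q := by
      have := Subgroup.commutator_mem_commutator (Subgroup.mem_top (refl q a))
        (Subgroup.mem_top (refl q b))
      rwa [commutatorElement_def, refl_inv, refl_inv, mul_assoc _ (refl q a), ← hρ] at this
    have a7 : ∀ z ∈ perp q W, ρ.1 z = z := fun z hz => by
      rw [hρ, OG_mul_apply, refl_apply_of_perp (mem_perp.mp hz b hb),
        refl_apply_of_perp (mem_perp.mp hz a ha)]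
    have a8 := hL _ a6 fun z hz => by rw [OG_mul_apply, a7 z hz, a7 z hz]
    have a9 := hL _ (inv_mem a6) fun z hz => (ρ * ρ).1.injective (by
      rw [OG_apply_inv, OG_mul_apply, a7 z hz, a7 z hz])
    let S : Subring K :=
      { carrier := {c | ∀ n ∈ L, n ∈ sp K a b → c • n ∈ L}
        mul_mem' := fun ha hb n h h' => by
          rw [mul_smul]; exact ha _ (hb n h h') (Submodule.smul_mem _ _ h')
        one_mem' := fun d h _ => by rwa [one_smul]
        add_mem' := fun ha hb d h h' => by rw [add_smul]; exact add_mem (ha d h h') (hb d h h')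
        zero_mem' := fun d h _ => by simp
        neg_mem' := fun ha d h h' => by rw [neg_smul]; exact neg_mem (ha d h h') }
    have b1 := H12.eq_top_of_finrank_prime hr (S := S) (fun c n h _ => by
      rw [algebraMap_smul]; exact L.smul_mem c h) (fun n hn hn' => by
        convert add_mem (add_mem (a8 n hn) (a9 n hn)) (L.smul_mem (2 : F) hn) using 1
        have c1 := a2 _ (a4 n hn')
        have c2 := a2 _ (a5 n hn')
        rw [OG_inv_apply_apply] at c1
        rw [OG_apply_inv] at c2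
        rw [mul_inv_rev, OG_mul_apply, OG_mul_apply (ρ⁻¹), pow_two, mul_smul, ← a2 n hn', smul_add, ← c1,
          ← c2, two_smul]
        abel) h3
    have b2 : ρ.1 (ρ.1 x) - x = 0 := by
      have c1 : ρ.1 (ρ.1 x) - x ∈ sp K a b := by simpa using add_mem (a3 (ρ.1 x)) (a3 x)
      exact hn _ (sp_le.mpr ⟨ha, hb⟩ c1) fun k => b1.ge (Subring.mem_top k) _
        (sub_mem (a8 x hx) hx) c1
    have r2 : (2 : K) ∈ (algebraMap F K).range := ⟨2, map_ofNat _ 2⟩
    have b3 : ρ.1 x - x = 0 := by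
      have c1 : ρ.1 (ρ.1 x - x) = -(ρ.1 x - x) := by
        rw [map_sub]; linear_combination (norm := abel) b2
      have c2 := a2 _ (a3 x)
      rw [c1, show (ρ⁻¹).1 (ρ.1 x - x) = -(ρ.1 x - x) from ρ.1.injective (by
        rw [OG_apply_inv, map_neg, c1, neg_neg])] at c2
      refine (smul_eq_zero.mp (show (θ + 2) • (ρ.1 x - x) = 0 by
        linear_combination (norm := module) -c2)).resolve_left fun e => h3 ?_
      rw [eq_neg_of_add_eq_zero_left e]; exact pow_mem (neg_mem r2) 2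
    have b4 : (refl q b).1 x = (refl q a).1 x := by
      rw [← refl_inv a]
      exact (refl q a).1.injective (by rw [OG_apply_inv, ← OG_mul_apply, ← hρ, sub_eq_zero.mp b3])
    rw [refl_apply, refl_apply, sub_right_inj] at b4
    have c1 := congrArg (polar q a) b4
    have c2 := congrArg (polar q b) b4
    simp only [polar_smul_right, polar_self', smul_eq_mul, polar_comm q b a] at c1 c2
    by_contra c3
    refine h3 ?_
    rw [show θ = 2 from mul_right_cancel₀ c3 (by
      rw [hθ]; field_simp at c1 c2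
      linear_combination (q a * q b)⁻¹ * (2 * q a * c1 - polar q a b * c2) +
        4 * polar q a x * mul_inv_cancel₀ (mul_ne_zero h0 h1))]
    exact pow_mem r2 2
  refine mem_perp.mpr fun z hz => ?_
  by_cases h0 : q z = 0
  swap
  · exact key z hz h0
  by_cases h1 : z = 0
  · simp [h1]
  obtain ⟨f, hf, hp⟩ := exists_hp_mem hW hz h0 h1
  have k2 : (2 : K) ≠ 0 := by
    rw [← map_ofNat (algebraMap F K)]; exact (_root_.map_ne_zero _).mpr h2
  have a1 := key _ (add_mem hz hf) (by simp [Q_add, h0, hp.Qv, hp.uv])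
  have a2 := key _ (sub_mem hz hf) (by simp [Q_sub, h0, hp.Qv, hp.uv])
  rw [polar_add_left] at a1
  rw [polar_sub_left] at a2
  exact mul_left_cancel₀ k2 (by linear_combination a1 + a2)

end Cfsg.Agent.H18
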