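import Mathlib
import Cfsg.Agent.H18.FxB

/-!
Overgroups of orthogonal groups over extension fields in orthogonal groups.
-/

set_option autoImplicit false

namespace Cfsg.Agent.H18

open Module QuadraticMap H13

variable {F V : Type*} [Field F] [AddCommGroup V] [Module F V] {Q : QuadraticForm F V}
  {K : Type*} [Field K] [Algebra F K] [Module K V] [IsScalarTower F K V] {q : QuadraticForm K V}
  {l : Dual F K} {M : Subgroup (OG Q)} {e f w x y z u : V} {k : K} {g t : OG Q}

/-- the image under `g` of a line over the extension field -/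
def KL (K : Type*) [Field K] [Algebra F K] [Module K V] [IsScalarTower F K V] (g : OG Q) (y : V) :
    Submodule F V := ((K ∙ y).restrictScalars F).map g.1.toLinearMap

theorem mem_KL : x ∈ KL K g y ↔ (g⁻¹).1 x ∈ K ∙ y :=
  ⟨by rintro ⟨x, hx, rfl⟩; simpa [OG_inv_apply] using hx, fun h => ⟨_, h, OG_apply_inv g x⟩⟩

theorem mem_KL_one {Q : QuadraticForm F V} : x ∈ KL K (1 : OG Q) y ↔ x ∈ K ∙ y := by
  rw [mem_KL, inv_one, OG_one_apply]

theorem mem_KL_mul : t.1 x ∈ KL K (t * g) y ↔ x ∈ KL K g y := by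
  rw [mem_KL, mem_KL, mul_inv_rev, OG_mul_apply, OG_inv_apply_apply]

theorem map_KL (t g : OG Q) (y : V) : (KL K g y).map t.1.toLinearMap = KL K (t * g) y :=
  (Submodule.map_comp _ _ _).symm

theorem smul_mem_KL (g : OG Q) (k : K) (y : V) : g.1 (k • y) ∈ KL K g y :=
  ⟨_, Submodule.mem_span_singleton.mpr ⟨k, rfl⟩, rfl⟩

theorem exists_of_mem_KL (h : x ∈ KL K g y) : ∃ k : K, x = g.1 (k • y) := by
  obtain ⟨k, hk⟩ := Submodule.mem_span_singleton.mp (mem_KL.mp h)
  exact ⟨k, by rw [hk, OG_apply_inv]⟩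

theorem finrank_KL' (g : OG Q) (hy : y ≠ 0) : finrank F (KL K g y) = finrank F K := by
  rw [KL, LinearEquiv.finrank_map_eq, H12.finrank_KL hy]

theorem KL_congr (hx : x ∈ K ∙ y) (h0 : x ≠ 0) : KL K g x = KL K g y := by
  obtain ⟨k, rfl⟩ := Submodule.mem_span_singleton.mp hx
  rw [KL, KL, Submodule.span_singleton_smul_eq (Ne.isUnit (by rintro rfl; simp at h0))]

/-- a pair of distinct images of singular lines meeting in as large a subspace as possible -/
structure MX (M : Subgroup (OG Q)) (q : QuadraticForm K V) (g : OG Q) (z y : V) : Prop where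
  mem : g ∈ M
  qz : q z = 0
  z0 : z ≠ 0
  qy : q y = 0
  y0 : y ≠ 0
  yL : y ∈ KL K g z
  ne : KL K g z ≠ KL K (1 : OG Q) y
  max : ∀ g₁ ∈ M, ∀ g₂ ∈ M, ∀ z₁ z₂, q z₁ = 0 → q z₂ = 0 → z₁ ≠ 0 → z₂ ≠ 0 →
    KL K g₁ z₁ ≠ KL K g₂ z₂ →
      finrank F ↥(KL K g₁ z₁ ⊓ KL K g₂ z₂) ≤ finrank F ↥(KL K g z ⊓ KL K (1 : OG Q) y)

theorem QF.sing_KL (h : QF Q q l) (hy : q y = 0) (x : V) (hx : x ∈ KL K g y) : Q x = 0 := by
  obtain ⟨k, rfl⟩ := exists_of_mem_KL hx
  rw [OG_map, h.sing hy]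

theorem QF.perp_KL (h : QF Q q l) : x ∈ perp Q (KL K g y) ↔ polar q y ((g⁻¹).1 x) = 0 :=
  ⟨fun H => h.pol_zero fun k => by rw [← OG_polar_left, mem_perp.mp H _ (smul_mem_KL g k y)],
    fun H => mem_perp.mpr fun w hw => by
      obtain ⟨k, rfl⟩ := exists_of_mem_KL hw
      rw [OG_polar_left, h.smul_left, H, mul_zero, map_zero]⟩

variable [FiniteDimensional K V] [Finite K]

theorem fin_of (F K V : Type*) [Field F] [Field K] [Algebra F K] [AddCommGroup V] [Module F V]
    [Module K V] [IsScalarTower F K V] [FiniteDimensional K V] [Finite K] : FiniteDimensional F V :=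
  haveI := Module.Finite.of_finite (R := F) (M := K)
  Module.Finite.trans (R := F) K V

theorem exists_notMem_KL (hy : y ≠ 0) (hz : z ≠ 0) (h : KL K g z ≠ KL K t y) :
    ∃ x ∈ KL K g z, x ∉ KL K t y := by
  haveI := fin_of F K V
  by_contra! H
  exact h (Submodule.eq_of_le_of_finrank_eq H (by rw [finrank_KL' _ hy, finrank_KL' _ hz]))

theorem MX.stab (H : MX M q g z y) (ht : t ∈ M) (h1 : ∀ k : K, t.1 (k • y) = k • y)
    (hx : x ∈ KL K g z) (h2 : x ∉ K ∙ y) (h3 : t.1 x ∈ KL K g z) (w : V) (hw : w ∈ KL K g z) :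
    t.1 w ∈ KL K g z := by
  haveI := fin_of F K V
  have : KL K (t * g) z = KL K g z := by
    by_contra h4
    refine (H.max _ (mul_mem ht H.mem) _ H.mem z z H.qz H.qz H.z0 H.z0 h4).not_gt
      (Submodule.finrank_lt_finrank_of_lt (SetLike.lt_iff_le_and_exists.mpr ⟨fun a ha => ⟨?_, ha.1⟩,
        t.1 x, ⟨mem_KL_mul.mpr hx, h3⟩, fun e => h2 ?_⟩))
    · obtain ⟨k, rfl⟩ := Submodule.mem_span_singleton.mp (mem_KL_one.mp ha.2)
      exact h1 k ▸ mem_KL_mul.mpr ha.1
    · obtain ⟨k, hk⟩ := Submodule.mem_span_singleton.mp (mem_KL_one.mp e.2)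
      exact Submodule.mem_span_singleton.mpr ⟨k, t.1.injective (by rw [h1, hk])⟩
  exact this ▸ mem_KL_mul.mpr hw

namespace QF
variable (h : QF Q q l) (hM : ∀ g ∈ Om q, h.res g ∈ M)
include hM

omit [Finite K] in
theorem exists_PH (hg : g ∈ M) (hz : q z = 0) (hx : (g⁻¹).1 x ∉ sp K z ((g⁻¹).1 w))
    (he : e ∈ KL K g z) : ∃ φ : V →ₗ[F] V, PH M (KL K g z) φ ∧ φ w = 0 ∧ φ x = e := by
  obtain ⟨u, a1, a2⟩ := h.nd.exists_perp_one _ hx
  obtain ⟨k, rfl⟩ := exists_of_mem_KL he
  have a3 : polar q z (k • u) = 0 := by simp [polar_comm q z, a1 z (left_mem_sp _ _)]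
  refine ⟨g.1.toLinearMap ∘ₗ ((polarBilin q (k • u)).smulRight z).restrictScalars F ∘ₗ
    (g⁻¹).1.toLinearMap, ⟨fun x _ => smul_mem_KL _ _ _, _,
      mul_mem (mul_mem hg (h.sg hM z (k • u))) (inv_mem hg), fun x hx => ?_, fun x hx => ?_⟩,
    show g.1 (polar q (k • u) ((g⁻¹).1 w) • z) = 0 by
      rw [polar_smul_left, a1 _ (right_mem_sp _ _), smul_zero, zero_smul, map_zero],
    show g.1 (polar q (k • u) ((g⁻¹).1 x) • z) = _ by rw [polar_smul_left, a2, smul_eq_mul, mul_one]⟩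
  · obtain ⟨j, rfl⟩ := exists_of_mem_KL hx
    rw [OG_mul_apply, OG_mul_apply, OG_inv_apply_apply, res_apply, map_smul, sieg_apply_self]
  · rw [OG_mul_apply, OG_mul_apply, res_apply, sieg_apply_of_perp hz a3 (h.perp_KL.mp hx), map_add,
      OG_apply_inv]
    rfl

variable (hr : (finrank F K).Prime) (h4 : 4 ≤ finrank K V)
include hr h4

theorem caseA (H : MX M q g z y) (hA : ∀ x ∈ KL K g z, polar q y x = 0) : Om Q ≤ M := by
  haveI := fin_of F K V
  obtain ⟨x₀, a1, a2⟩ := exists_notMem_KL H.y0 H.z0 H.ne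
  obtain ⟨w₀, a3, a4⟩ := exists_notMem_KL H.z0 H.y0 H.ne.symm
  rw [mem_KL_one] at a2 a3
  obtain ⟨k₀, rfl⟩ := Submodule.mem_span_singleton.mp a3
  have hL := h.sing_KL (g := g) H.qz
  have y0 : polar q y y = 0 := by simp [H.qy]
  have b1 : ∀ u, polar q u y = 0 → polar q u x₀ = 1 → ∀ x ∈ KL K g z,
      polar q u x ∈ (algebraMap F K).range := fun u c1 c2 x hx => by
    let S : Subring K :=
      { carrier := {c | ∀ d : K, d • y ∈ KL K g z → (c * d) • y ∈ KL K g z}
        mul_mem' := fun ha hb d h => by rw [mul_assoc]; exact ha _ (hb d h)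
        one_mem' := fun d h => by rwa [one_mul]
        add_mem' := fun ha hb d h => by rw [add_mul, add_smul]; exact add_mem (ha d h) (hb d h)
        zero_mem' := fun d h => by simp
        neg_mem' := fun ha d h => by rw [neg_mul, neg_smul]; exact neg_mem (ha d h) }
    by_contra c3
    refine a4 (mul_one k₀ ▸ (H12.eq_top_of_finrank_prime hr (S := S) (fun c d h => by
      rw [mul_smul, algebraMap_smul]; exact Submodule.smul_mem _ c h) (fun d hd => ?_) c3).ge
        (Subring.mem_top k₀) 1 (by simpa using H.yL))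
    have c4 : ∀ x ∈ KL K g z, (h.res (sieg q y (d • u))).1 x = x + (polar q u x * d) • y :=
      fun x hx => by
        rw [res_apply, sieg_apply_of_perp H.qy (by simp [polar_comm q y, c1]) (hA x hx),
          polar_smul_left, smul_eq_mul, mul_comm]
    have := H.stab (h.sg hM y (d • u)) (fun k => by rw [res_apply, map_smul, sieg_apply_self]) a1 a2
      (by rw [c4 _ a1, c2, one_mul]; exact add_mem a1 hd) x hx
    rwa [c4 x hx, Submodule.add_mem_iff_right _ hx] at this
  obtain ⟨u₀, b2, b3⟩ := h.nd.exists_perp_one _ a2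
  replace b2 := b2 y (Submodule.mem_span_singleton_self y)
  obtain ⟨o, ho⟩ := H12.exists_notMem_span hr.two_le (1 : K)
  have b4 : ∀ x ∈ KL K g z, ∃ (c : F) (k : K), x = c • x₀ + k • y := fun x hx => by
    obtain ⟨a, b, rfl⟩ := Submodule.mem_span_pair.mp (show x ∈ sp K y x₀ by
      by_contra c1
      obtain ⟨u, c2, c3⟩ := h.nd.exists_perp_one _ c1
      have := b1 (u₀ + (o - polar q u₀ x) • u) (by simp [b2, c2 _ (left_mem_sp _ _)])
        (by simp [b3, c2 _ (right_mem_sp _ _)]) x hx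
      exact ho (by simpa [c3] using mem_span_of_range this (1 : K)))
    obtain ⟨c, hc⟩ := b1 u₀ b2 b3 _ hx
    exact ⟨c, a, by rw [← algebraMap_smul K c, hc]; simp [b2, b3, add_comm]⟩
  have b5 : ∀ k : K, ∃ c : F, k • y - c • k₀ • y ∈ KL K g z := fun k => by
    have c1 : KL K g z ≤ (KL K g z ⊓ KL K (1 : OG Q) y) ⊔ F ∙ x₀ := fun x hx => by
      obtain ⟨c, k, rfl⟩ := b4 x hx
      have := Submodule.smul_mem _ c a1
      exact add_mem (Submodule.mem_sup_right (Submodule.mem_span_singleton.mpr ⟨c, rfl⟩))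
        (Submodule.mem_sup_left ⟨(Submodule.add_mem_iff_right _ this).mp hx, smul_mem_KL 1 k y⟩)
    have c2 := (Submodule.finrank_mono c1).trans (Submodule.finrank_add_le_finrank_add_finrank _ _)
    have c3 := Submodule.finrank_lt_finrank_of_lt (show KL K g z ⊓ KL K (1 : OG Q) y <
      (KL K g z ⊓ KL K (1 : OG Q) y) ⊔ F ∙ k₀ • y from SetLike.lt_iff_le_and_exists.mpr ⟨le_sup_left,
        _, Submodule.mem_sup_right (Submodule.mem_span_singleton_self _), fun e => a4 e.1⟩)
    rw [finrank_KL' _ H.z0, finrank_span_singleton (by rintro rfl; simp at a2),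
      ← finrank_KL' (1 : OG Q) H.y0] at c2
    obtain ⟨a, c4, _, c5, c6⟩ := Submodule.mem_sup.mp ((Submodule.eq_of_le_of_finrank_le (sup_le inf_le_right
      ((Submodule.span_singleton_le_iff_mem _ _).mpr (smul_mem_KL 1 k₀ y))) (c2.trans c3)).ge
      (smul_mem_KL 1 k y))
    obtain ⟨c, rfl⟩ := Submodule.mem_span_singleton.mp c5
    exact ⟨c, by rw [← OG_one_apply (Q := Q) (k • y), ← c6]; simpa using c4.1⟩
  obtain ⟨x₁, d1, d2⟩ := h.ndF.exists_perp_one _ a4
  set κ := polar q y x₁ with hκ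
  have d3 : ∀ x ∈ perp Q (KL K g z), polar q y x = polar Q (k₀ • y) x • κ := fun x hx => by
    rw [← sub_eq_zero, hκ, ← algebraMap_smul K, ← polar_smul_right, ← polar_sub_right, algebraMap_smul]
    refine h.pol_zero fun k => ?_
    obtain ⟨c, hc⟩ := b5 k
    have e1 := mem_perp.mp hx _ hc
    have e2 := d1 _ hc
    rw [polar_comm] at e2 d2
    simp only [polar_sub_left, polar_sub_right, polar_smul_left, polar_smul_right, smul_eq_mul] at e1 e2 ⊢
    rw [d2] at e2
    linear_combination e1 - polar Q (k₀ • y) x * e2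
  have κ0 : κ ≠ 0 := fun e => by
    rw [polar_comm, h.smul_left, ← hκ, e] at d2; simp at d2
  obtain ⟨u, e1, e2, e3⟩ : ∃ u, polar q u y = 0 ∧ polar q u x₀ = 1 ∧
      (g⁻¹).1 (κ • u) ∉ sp K z ((g⁻¹).1 (k₀ • y)) := by
    by_contra! e1
    let X := ((sp K z ((g⁻¹).1 (k₀ • y))).restrictScalars F).map g.1.toLinearMap
    have e2 : ∀ u, polar q u y = 0 → polar q u x₀ = 1 → κ • u ∈ X := fun u c1 c2 =>
      ⟨_, e1 u c1 c2, OG_apply_inv _ _⟩
    have e3 : (perp q (sp K y x₀)).restrictScalars F < X := SetLike.lt_iff_le_and_exists.mpr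
      ⟨fun x hx => by
        have c1 := mem_perp_pair.mp hx
        rw [polar_comm, polar_comm q x₀] at c1
        simpa [κ0] using sub_mem (e2 (u₀ + κ⁻¹ • x) (by simp [b2, c1]) (by simp [b3, c1])) (e2 u₀ b2 b3),
      _, e2 u₀ b2 b3, fun e => κ0 (by simpa [polar_comm q x₀, b3] using (mem_perp_pair.mp e).2)⟩
    have e4 := Submodule.finrank_lt_finrank_of_lt e3
    have e5 := h.nd.finrank_perp (sp K y x₀)
    have e6 : ∀ U : Submodule K V, finrank F (U.restrictScalars F) = finrank F K * finrank K U :=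
      fun U => (finrank_mul_finrank F K U).symm
    rw [LinearEquiv.finrank_map_eq, e6, e6] at e4
    have e7 : finrank K (sp K y x₀) ≤ 2 := finrank_span_pair_le _ _
    have e8 : finrank K (sp K z ((g⁻¹).1 (k₀ • y))) ≤ 2 := finrank_span_pair_le _ _
    have := Nat.lt_of_mul_lt_mul_left e4
    omega
  obtain ⟨φ, f1, f2, f3⟩ := h.exists_PH hM H.mem H.qz e3 a1
  have f4 : ∀ k : K, φ (k • y) = 0 := fun k => by
    obtain ⟨c, hc⟩ := b5 k
    simpa [f2] using f1.zero hL hc
  have f5 : ∀ s : F, s * s = 1 → ∀ x ∈ KL K g z, ∃ c : F, polar q u x = algebraMap F K c ∧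
      (h.res (sieg q y (s • u))).1 x = x + (s * c) • y := fun s _ x hx => by
    obtain ⟨c, hc⟩ := b1 u e1 e2 x hx
    refine ⟨c, hc.symm, ?_⟩
    rw [← algebraMap_smul K s, res_apply, sieg_apply_of_perp H.qy (by simp [polar_comm q y, e1]) (hA x hx),
      polar_smul_left, ← hc, smul_eq_mul, ← map_mul, algebraMap_smul]
  have f6 : ∀ s : F, s * s = 1 → ∀ x ∈ KL K g z, (h.res (sieg q y (s • u))).1 x ∈ KL K g z :=
    fun s hs x hx => by
      obtain ⟨c, -, hc⟩ := f5 s hs x hx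
      exact hc ▸ add_mem hx (Submodule.smul_mem _ _ H.yL)
  have f7 : ∀ s : F, (h.res (sieg q y (s • u)))⁻¹ = h.res (sieg q y ((-s) • u)) := fun s => by
    rw [← map_inv, ← sieg_neg H.qy (by rw [← algebraMap_smul K]; simp [polar_comm q y, e1]), neg_smul]
  have f8 : ∀ s : F, s * s = 1 → ∃ μ : V → F, (∀ x ∈ perp Q (KL K g z), polar q u (φ x) =
      algebraMap F K (μ x)) ∧ PH M (KL K g z) fun x => φ x + (s * polar Q (k₀ • y) x) • x₀ +
        (s * μ x + polar Q (k₀ • y) x) • y := fun s hs => by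
    classical
    refine ⟨fun x => if hx : x ∈ perp Q (KL K g z) then (b1 u e1 e2 _ (f1.mem x hx)).choose else 0,
      fun x hx => by simp only [hx, dite_true]; exact (b1 u e1 e2 _ (f1.mem x hx)).choose_spec.symm,
      (f1.conj (h.sg hM y (s • u)) (f6 s hs) (f7 s ▸ f6 (-s) (by simpa))).congr fun x hx => ?_⟩
    have c1 : φ (((h.res (sieg q y (s • u)))⁻¹).1 x) = φ x + (s * polar Q (k₀ • y) x) • x₀ := by
      rw [f7, ← algebraMap_smul K (-s), res_apply, sieg_apply H.qy (by simp [polar_comm q y, e1]),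
        d3 x hx, map_sub, map_add, f4, smul_add, smul_smul, smul_smul, map_add, f4,
        show polar Q (k₀ • y) x • κ * algebraMap F K (-s) = (-(s * polar Q (k₀ • y) x)) • κ by
          simp only [Algebra.smul_def, map_neg, map_mul]; ring, smul_assoc, map_smul, f3]
      module
    obtain ⟨c, c2, c3⟩ := f5 s hs _ (add_mem (f1.mem x hx)
      (Submodule.smul_mem _ (s * polar Q (k₀ • y) x) a1))
    simp only [hx, dite_true]
    rw [c1, c3]
    congr 2
    have c4 := (b1 u e1 e2 _ (f1.mem x hx)).choose_spec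
    generalize (b1 u e1 e2 _ (f1.mem x hx)).choose = μ at c4
    rw [polar_add_right, ← algebraMap_smul K, polar_smul_right, e2, ← c4, smul_eq_mul, mul_one,
      ← map_add, (algebraMap F K).injective.eq_iff] at c2
    linear_combination s * c2 - polar Q (k₀ • y) x * hs
  obtain ⟨μ, g1, g2⟩ := f8 1 (by simp)
  obtain ⟨ν, g3, g4⟩ := f8 (-1) (by simp)
  have g5 : k₀ • y ∈ perp Q (KL K g z) := mem_perp.mpr fun x hx => by
    rw [h.smul_right, polar_comm, hA x hx, mul_zero, map_zero]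
  obtain ⟨ψ, g6, -, g7⟩ := h.exists_PH hM (w := 0) (x := (2 : F) • k₀ • y) H.mem H.qz (fun e => a4 (by
    rw [← Submodule.smul_mem_iff _ h.two, mem_KL]
    exact (sp_le.mpr ⟨Submodule.mem_span_singleton_self z, by simp⟩ : _ ≤ K ∙ z) e)) a1
  have g8 := PH.as h.ndF hL H.yL (Submodule.smul_mem _ (2 : F) g5)
    (((g2.add g4).add (f1.add f1).neg).congr fun x hx => by
      rw [(algebraMap F K).injective ((g3 x hx).symm.trans (g1 x hx)), polar_smul_left, smul_eq_mul]
      module) g6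
  refine h.of_sing hM hr.two_le h4 (g7 ▸ g8) H.qy H.y0 fun e => a2 ?_
  obtain ⟨c, rfl⟩ := Submodule.mem_span_singleton.mp e
  exact Submodule.smul_of_tower_mem _ c (Submodule.mem_span_singleton_self y)

end QF

end Cfsg.Agent.H18
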