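import Mathlib
import Cfsg.Agent.H18.FxC
import Cfsg.Agent.H18.PlD
import Cfsg.Agent.H12.FldC

/-!
Normalisers of self-adjoint field subalgebras in orthogonal groups are maximal.
-/

set_option autoImplicit false

namespace Cfsg.Agent.H18

open Module QuadraticMap H13

variable {F V : Type*} [Field F] [AddCommGroup V] [Module F V] {Q : QuadraticForm F V}
  {K : Type*} [Field K] [Algebra F K] [Module K V] [IsScalarTower F K V] {q : QuadraticForm K V}
  {l : Dual F K} {M : Subgroup (OG Q)} {e f w x y z u : V} {k : K} {g t : OG Q}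

theorem exists_QF [Finite K] (hQ : ND Q) (h2 : (2 : F) ≠ 0)
    (h3 : ∀ (k : K) x y, polar Q (k • x) y = polar Q x (k • y)) :
    ∃ q : QuadraticForm K V, QF Q q (Algebra.trace F K) := by
  haveI : Finite F := Finite.of_injective _ (algebraMap F K).injective
  have hb := traceForm_nondegenerate F K
  have a1 : ∀ u v : V, ∃ x : K, ∀ k : K, Algebra.trace F K (x * k) = polar Q u (k • v) := fun u v =>
    ⟨((Algebra.traceForm F K).toDual hb).symm
      (polarBilin Q u ∘ₗ (LinearMap.toSpanSingleton K V v).restrictScalars F),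
      fun k => LinearMap.BilinForm.apply_toDual_symm_apply (hB := hb) _ k⟩
  choose β hβ using a1
  have a2 : ∀ x y : K, (∀ k, Algebra.trace F K (x * k) = Algebra.trace F K (y * k)) → x = y :=
    fun x y h => sub_eq_zero.mp (hb.1 _ fun k => by
      rw [Algebra.traceForm_apply, sub_mul, map_sub, h, sub_self])
  have a4 : ∀ x y, β y x = β x y := fun x y => a2 _ _ fun k => by rw [hβ, hβ, polar_comm, h3]
  have k2 : (2 : K) ≠ 0 := by
    rw [← map_ofNat (algebraMap F K)]; exact (_root_.map_ne_zero _).mpr h2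
  let B : LinearMap.BilinMap K V K := LinearMap.mk₂ K β
    (fun _ _ _ => a2 _ _ fun k => by simp [add_mul, hβ])
    (fun c x y => a2 _ _ fun k => by rw [smul_eq_mul, mul_comm c, mul_assoc, hβ, hβ, h3, smul_smul])
    (fun _ _ _ => a2 _ _ fun k => by simp [add_mul, hβ])
    (fun c x y => a2 _ _ fun k => by rw [smul_eq_mul, mul_comm c, mul_assoc, hβ, hβ, smul_smul, mul_comm])
  refine ⟨(2⁻¹ : K) • B.toQuadraticMap, fun x hx => hQ x fun y => ?_, fun x => ?_,
    Algebra.trace_ne_zero F K, h2⟩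
  · have := hx y
    rw [QuadraticMap.coeFn_smul, polar_smul, LinearMap.BilinMap.polar_toQuadraticMap] at this
    change 2⁻¹ * (β x y + β y x) = 0 at this
    rw [a4, ← two_mul, inv_mul_cancel_left₀ k2] at this
    rw [← one_smul K y, ← hβ, a4, this, zero_mul, map_zero]
  · change _ = Algebra.trace F K (2⁻¹ * β x x)
    rw [mul_comm, hβ, show (2⁻¹ : K) = algebraMap F K 2⁻¹ by rw [map_inv₀, map_ofNat], algebraMap_smul,
      polar_smul_right, polar_self', smul_eq_mul, inv_mul_cancel_left₀ h2]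

theorem self_mem_KL (g : OG Q) (y : V) : g.1 y ∈ KL K g y := by simpa using smul_mem_KL g (1 : K) y

variable [FiniteDimensional K V] [Finite K]

omit [FiniteDimensional K V] [Finite K] in
theorem exists_hp_span (hy : q y = 0) (hx : polar q y x ≠ 0) :
    ∃ f, HP q y f ∧ sp K y f = sp K y x := by
  refine ⟨(polar q y x)⁻¹ • (x - (q x / polar q y x) • y), ⟨hy, ?_, by simp [hy, hx]⟩,
    le_antisymm (sp_le.mpr ⟨left_mem_sp _ _, Submodule.smul_mem _ _ (sub_mem (right_mem_sp _ _)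
      (Submodule.smul_mem _ _ (left_mem_sp _ _)))⟩) (sp_le.mpr ⟨left_mem_sp _ _,
        Submodule.mem_span_pair.mpr ⟨q x / polar q y x, polar q y x, by simp [smul_smul, hx]⟩⟩)⟩
  rw [Q_smul, Q_sub, Q_smul, hy, polar_smul_right, polar_comm q x, smul_eq_mul, div_mul_cancel₀ _ hx]
  ring

theorem KL_eq_of_smul (hz : z ≠ 0) (h0 : x ≠ 0) (h : ∀ k : K, k • x ∈ KL K g z) :
    KL K g z = KL K (1 : OG Q) x :=
  haveI := fin_of F K V
  (Submodule.eq_of_le_of_finrank_eq (fun w hw => by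
    obtain ⟨k, rfl⟩ := exists_of_mem_KL hw; exact h k) (by rw [finrank_KL' _ hz, finrank_KL' _ h0])).symm

theorem exists_MX {g₁ g₂ : OG Q} (h1 : g₁ ∈ M) (h2 : g₂ ∈ M) {z₁ z₂ : V} (a1 : q z₁ = 0)
    (a2 : q z₂ = 0) (a3 : z₁ ≠ 0) (a4 : z₂ ≠ 0) (h3 : KL K g₁ z₁ ≠ KL K g₂ z₂) (b1 : x ∈ KL K g₁ z₁)
    (b2 : x ∈ KL K g₂ z₂) (h0 : x ≠ 0) : ∃ g z y, MX M q g z y := by
  haveI := fin_of F K V
  let S : Set ℕ := {n | ∃ g₁ ∈ M, ∃ g₂ ∈ M, ∃ z₁ z₂, q z₁ = 0 ∧ q z₂ = 0 ∧ z₁ ≠ 0 ∧ z₂ ≠ 0 ∧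
    KL K g₁ z₁ ≠ KL K g₂ z₂ ∧ finrank F ↥(KL K g₁ z₁ ⊓ KL K g₂ z₂) = n}
  have hS : BddAbove S := ⟨finrank F V, by
    rintro _ ⟨_, -, _, -, _, _, -, -, -, -, -, rfl⟩; exact Submodule.finrank_le _⟩
  have c0 : _ ∈ S := ⟨g₁, h1, g₂, h2, z₁, z₂, a1, a2, a3, a4, h3, rfl⟩
  have c1 := le_csSup hS c0
  obtain ⟨g₁, h1, g₂, h2, z₁, z₂, a1, a2, a3, a4, h3, c2⟩ := Nat.sSup_mem ⟨_, c0⟩ hS
  obtain ⟨v, c3, c4⟩ := Submodule.exists_mem_ne_zero_of_ne_bot (p := KL K g₁ z₁ ⊓ KL K g₂ z₂) fun e => by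
    rw [← c2, e, finrank_bot, Nat.le_zero, Submodule.finrank_eq_zero] at c1
    exact h0 (c1.le ⟨b1, b2⟩)
  have c5 : (g₂⁻¹).1 v ≠ 0 := by simpa
  obtain ⟨k, c6⟩ := Submodule.mem_span_singleton.mp (mem_KL.mp c3.2)
  have c7 : KL K (1 : OG Q) ((g₂⁻¹).1 v) = (KL K g₂ z₂).map (g₂⁻¹).1.toLinearMap := by
    rw [map_KL, inv_mul_cancel, KL_congr (mem_KL.mp c3.2) c5]
  refine ⟨g₂⁻¹ * g₁, z₁, (g₂⁻¹).1 v, mul_mem (inv_mem h2) h1, a1, a3, by rw [← c6, Q_smul, a2, mul_zero], c5,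
    mem_KL_mul.mpr c3.1, fun e => h3 ?_, fun g hg g' hg' z z' d1 d2 d3 d4 d5 => ?_⟩
  · rw [c7, ← map_KL] at e
    exact Submodule.map_injective_of_injective (g₂⁻¹).1.injective e
  · rw [c7, ← map_KL, ← Submodule.map_inf _ (g₂⁻¹).1.injective, LinearEquiv.finrank_map_eq, c2]
    exact le_csSup hS ⟨g, hg, g', hg', z, z', d1, d2, d3, d4, d5, rfl⟩

namespace QF
variable (h : QF Q q l) (hM : ∀ g ∈ Om q, h.res g ∈ M) (hr : (finrank F K).Prime)
  (h4 : 4 ≤ finrank K V)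
include hM hr h4

theorem lemB (H : MX M q g z y) (hx : x ∈ KL K g z) (h1 : polar q y x ≠ 0) (w : V)
    (hw : w ∈ KL K g z) : w ∈ sp K y x := by
  haveI := fin_of F K V
  have a1 : x ∉ K ∙ y := fun e => by
    obtain ⟨k, rfl⟩ := Submodule.mem_span_singleton.mp e
    simp [H.qy] at h1
  by_cases h3 : 3 ≤ finrank F K
  · obtain ⟨f, hp, a2⟩ := exists_hp_span H.qy h1
    have a3 : perp q (pp q y f) = sp K y x := (h.nd.perp_perp _).trans a2
    refine a3 ▸ inv_perp h.two hr (hp.nd_pp h.nd) (Or.inr ⟨by have := hp.finrank_pp; omega, h3⟩)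
      (fun t ht b1 => ?_) (fun n hn b1 => ?_) hw
    · rw [a3] at b1
      exact H.stab (hM t ht) (fun k => b1 _ (Submodule.smul_mem _ k (left_mem_sp _ _))) hx a1
        (by rwa [res_apply, b1 _ (right_mem_sp _ _)])
    · by_contra b2
      obtain ⟨k, b3⟩ := Submodule.mem_span_singleton.mp (mem_KL_one.mp
        (KL_eq_of_smul H.z0 b2 b1 ▸ H.yL))
      simpa [← b3, (mem_perp_pair.mp hn).2] using hp.vu
  · have a2 : sp F y x = KL K g z := Submodule.eq_of_le_of_finrank_le (sp_le.mpr ⟨H.yL, hx⟩) (by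
      rw [finrank_KL' _ H.z0, finrank_span_pair_eq (linearIndependent_pair_of_notMem H.y0 fun e =>
        a1 (Submodule.span_le_restrictScalars F K _ e))]
      omega)
    exact Submodule.span_le_restrictScalars F K _ (a2.ge hw)

theorem of_MX (H : MX M q g z y) : Om Q ≤ M := by
  haveI := fin_of F K V
  by_cases hA : ∀ x ∈ KL K g z, polar q y x = 0
  · exact h.caseA hM hr h4 H hA
  push Not at hA
  obtain ⟨x, a1, a2⟩ := hA
  obtain ⟨f, hp, a3⟩ := exists_hp_span H.qy a2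
  obtain ⟨u, a4, a5⟩ := exists_val_mem (hp.nd_pp h.nd) (by have := hp.finrank_pp; omega) (polar q y x)⁻¹
  have a6 : ∀ w ∈ KL K g z, polar q w u = 0 := fun w hw =>
    mem_perp.mp a4 w (a3.ge (h.lemB hM hr h4 H a1 a2 w hw))
  have a7 : (h.res (sieg q y u)).1 x = x - polar q y x • u - y := by
    rw [res_apply, sieg_apply H.qy (a6 y H.yL), polar_comm q u, a6 x a1, a5, smul_add, smul_smul,
      mul_inv_cancel₀ a2]
    module
  have a8 := h.sg hM y u
  have a9 : ∀ k : K, (h.res (sieg q y u)).1 (k • y) = k • y := fun k => by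
    rw [res_apply, map_smul, sieg_apply_self]
  generalize h.res (sieg q y u) = t at a7 a8 a9
  have hL := le_perp_of_singular (h.sing_KL (g := g) H.qz)
  have b1 : t.1 x ∈ perp Q (KL K g z) := a7 ▸ sub_mem (sub_mem (hL a1) (mem_perp.mpr fun w hw => by
    rw [h.smul_right, a6 w hw, mul_zero, map_zero])) (hL H.yL)
  have b2 : t.1 x ∉ KL K g z := fun e => by
    rw [a7, sub_sub, Submodule.sub_mem_iff_right _ a1, Submodule.add_mem_iff_left _ H.yL] at e
    have := a6 _ e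
    rw [polar_smul_left, polar_self', a5] at this
    simp [a2, h.twoK] at this
  have b3 : (g⁻¹).1 y ≠ 0 := by simpa using H.y0
  have b4 := KL_congr (g := (1 : OG Q)) (mem_KL.mp H.yL) b3
  have b5 : ∀ w, w ∈ KL K g z → (g⁻¹).1 (t.1 w) ∈ KL K (g⁻¹ * (t * g)) z := fun w hw =>
    mem_KL_mul.mpr (mem_KL_mul.mpr hw)
  have b6 : (g⁻¹).1 (t.1 x) ∉ KL K (1 : OG Q) ((g⁻¹).1 y) := by rwa [b4, mem_KL_one, ← mem_KL]
  obtain ⟨k, b7⟩ := Submodule.mem_span_singleton.mp (mem_KL.mp H.yL)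
  have H' : MX M q (g⁻¹ * (t * g)) z ((g⁻¹).1 y) := ⟨mul_mem (inv_mem H.mem) (mul_mem a8 H.mem), H.qz,
    H.z0, by rw [← b7, Q_smul, H.qz, mul_zero], b3,
    (by simpa using a9 1 : t.1 y = y) ▸ b5 y H.yL,
    fun e => b6 (e ▸ b5 x a1), fun g₁ c1 g₂ c2 z₁ z₂ c3 c4 c5 c6 c7 =>
      (H.max g₁ c1 g₂ c2 z₁ z₂ c3 c4 c5 c6 c7).trans (by
        rw [← LinearEquiv.finrank_map_eq (g⁻¹).1]
        refine Submodule.finrank_mono ?_
        rintro _ ⟨w, hw, rfl⟩
        obtain ⟨j, rfl⟩ := Submodule.mem_span_singleton.mp (mem_KL_one.mp hw.2)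
        exact ⟨a9 j ▸ b5 _ hw.1, b4 ▸ mem_KL_one.mpr (mem_KL.mp hw.1)⟩)⟩
  by_cases hA : ∀ x ∈ KL K (g⁻¹ * (t * g)) z, polar q ((g⁻¹).1 y) x = 0
  · exact h.caseA hM hr h4 H' hA
  push Not at hA
  obtain ⟨x', c1, c2⟩ := hA
  obtain ⟨a, b, c3⟩ := Submodule.mem_span_pair.mp (h.lemB hM hr h4 H' c1 c2 _ (b5 x a1))
  have c4 : polar q ((g⁻¹).1 y) ((g⁻¹).1 (t.1 x)) = 0 := by
    rw [← b7, polar_smul_left, h.perp_KL.mp b1, smul_zero]
  rw [← c3, polar_add_right, polar_smul_right, polar_smul_right, polar_self', H'.qy] at c4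
  obtain rfl : b = 0 := (mul_eq_zero.mp (by linear_combination c4)).resolve_right c2
  exact (b6 (mem_KL_one.mpr (Submodule.mem_span_singleton.mpr ⟨a, by simpa using c3⟩))).elim

theorem map_sing (H : ¬ Om Q ≤ M) (hg : g ∈ M) (hz : q z = 0) :
    q (g.1 z) = 0 ∧ ∀ k : K, g.1 (k • z) ∈ K ∙ g.1 z := by
  by_cases z0 : z = 0
  · simp [z0]
  have key : ∀ t ∈ M, ∀ y, q y = 0 → y ≠ 0 → g.1 z ∈ KL K t y → KL K g z = KL K t y :=
    fun t ht y a1 a2 a3 => by
      by_contra a4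
      obtain ⟨g, z, y, a5⟩ := exists_MX hg ht hz a1 z0 a2 a4 (self_mem_KL g z) a3
        (by simpa)
      exact H (h.of_MX hM hr h4 a5)
  have a0 : g.1 z ≠ 0 := by simpa
  have a1 : q (g.1 z) = 0 := by
    by_contra a1
    have a2 : polar q (g.1 z) (g.1 z) ≠ 0 := by rw [polar_self']; exact mul_ne_zero h.twoK a1
    have a3 := h.nd.finrank_perp (K ∙ g.1 z)
    rw [finrank_span_singleton a0] at a3
    have a4 : ∀ x ∈ KL K g z, x ∈ K ∙ g.1 z := fun x hx => h.nd.perp_perp (K ∙ g.1 z) ▸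
      inv_perp h.two hr (h.nd.nd_perp_singleton a2) (Or.inl (by omega)) (fun t ht b1 x hx => by
        have b2 := b1 _ (le_perp_perp _ (Submodule.mem_span_singleton_self _))
        exact key _ (mul_mem (hM t ht) hg) z hz z0 (b2 ▸ mem_KL_mul (t := h.res t).mpr
          (self_mem_KL g z)) ▸ mem_KL_mul (t := h.res t).mpr hx) (fun n hn b1 => by
        by_contra b2
        obtain ⟨k, b3⟩ := Submodule.mem_span_singleton.mp (mem_KL_one.mp
          (KL_eq_of_smul z0 b2 b1 ▸ self_mem_KL g z))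
        exact a2 (mem_perp_singleton.mp (by simpa only [b3] using Submodule.smul_mem _ k hn))) hx
    haveI := fin_of F K V
    have a5 : KL K g z = KL K (1 : OG Q) (g.1 z) := Submodule.eq_of_le_of_finrank_eq
      (fun x hx => mem_KL_one.mpr (a4 x hx)) (by rw [finrank_KL' _ z0, finrank_KL' _ a0])
    exact a2 (h.pol_zero fun k => mem_perp.mp (le_perp_of_singular (h.sing_KL hz)
      (self_mem_KL g z)) _ (a5.ge (smul_mem_KL 1 k _)))
  exact ⟨a1, fun k => mem_KL_one.mp (key 1 (one_mem M) _ a1 a0 (self_mem_KL 1 _) ▸ smul_mem_KL g k z)⟩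

theorem Om_le (hg : g ∈ M) (hg' : ¬ H12.NK K g.1) : Om Q ≤ M := by
  by_contra H
  have a1 := fun g hg z => h.map_sing hM hr h4 (g := g) (z := z) H hg
  have a2 : ∀ g ∈ M, ∀ y w, q y = 0 → polar q y w = 0 → polar q (g.1 y) (g.1 w) = 0 :=
    fun g hg y w b1 b2 => h.pol_zero fun k => by
      obtain ⟨j, hj⟩ := Submodule.mem_span_singleton.mp
        ((a1 _ (inv_mem hg) _ (a1 g hg y b1).1).2 k)
      rw [OG_inv_apply_apply] at hj
      rw [OG_polar_right, ← hj, h.smul_left, b2, mul_zero, map_zero]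
  refine hg' (H12.NK.of_lines (by omega) fun k v => ?_)
  by_cases hv : q v = 0
  · exact (a1 g hg v hv).2 k
  obtain ⟨z, b1, b2⟩ : ∃ z, q z = 0 ∧ polar q z v ≠ 0 := by
    obtain ⟨z, c1, c2⟩ := exists_singular q (by omega)
    by_contra! c5
    obtain ⟨w, b3⟩ := h.nd.exists_ne c1
    exact hv ((mul_eq_zero.mp ((polar_self' q v).symm.trans (singular_induction (H := ⊤)
      (p := fun y => polar q y v = 0) c2 trivial trivial b3 (fun x _ => c5 x)
      (fun x _ y _ c1 c2 => by simp [c1, c2]) v trivial))).resolve_left h.twoK)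
  obtain ⟨f, hp, b3⟩ := exists_hp_span b1 b2
  obtain ⟨a, b, rfl⟩ := Submodule.mem_span_pair.mp (b3.ge (right_mem_sp z v))
  obtain ⟨u, b4, b5⟩ := exists_val_mem (hp.nd_pp h.nd) (by have := hp.finrank_pp; omega) (-(a * b))
  rw [mem_perp_pair] at b4
  have c1 : q (a • z) = 0 := by simp [Q_smul, b1]
  have c2 : q (b • f) = 0 := by simp [Q_smul, hp.Qv]
  have c3 : polar q (a • z) (b • f) ≠ 0 := by simpa [Q_add, c1, c2] using hv
  have c4 : q (a • z + b • f + u) = 0 := by simp [Q_add, c1, c2, b4, b5, hp.uv, mul_comm]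
  have c5 : polar q (a • z) u = 0 := by simp [b4]
  have c6 : polar q (b • f) u = 0 := by simp [b4]
  generalize a • z = y₁, b • f = y₂ at c1 c2 c3 c4 c5 c6
  obtain ⟨s₁, d1⟩ := Submodule.mem_span_singleton.mp ((a1 g hg _ c1).2 k)
  obtain ⟨s₂, d2⟩ := Submodule.mem_span_singleton.mp ((a1 g hg _ c2).2 k)
  obtain ⟨s, d3⟩ := Submodule.mem_span_singleton.mp ((a1 g hg _ c4).2 k)
  have d4 : polar q (g.1 y₁) (g.1 y₂) ≠ 0 := fun e => c3 (by
    simpa only [OG_inv_apply_apply] using a2 _ (inv_mem hg) _ _ (a1 g hg _ c1).1 e)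
  simp only [smul_add, map_add, ← d1, ← d2] at d3
  have d5 := congrArg (polar q (g.1 y₁)) d3
  have d6 := congrArg (polar q (g.1 y₂)) d3
  simp only [polar_add_right, polar_smul_right, polar_self', (a1 g hg _ c1).1, (a1 g hg _ c2).1,
    a2 g hg _ _ c1 c5, a2 g hg _ _ c2 c6, a2 g hg _ (k • u) c1 (by simp [c5]),
    a2 g hg _ (k • u) c2 (by simp [c6]), polar_comm q (g.1 y₂) (g.1 y₁), smul_eq_mul] at d5 d6
  refine Submodule.mem_span_singleton.mpr ⟨s, ?_⟩
  rw [smul_add, map_add, map_add, ← d1, ← d2, smul_add,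
    show s₁ = s from mul_right_cancel₀ d4 (by linear_combination -d6),
    show s₂ = s from mul_right_cancel₀ d4 (by linear_combination -d5)]

end QF

open Cfsg.Geo Matrix in
theorem max_field {ι : Type} [Fintype ι] [DecidableEq ι] [Fintype F] {Q : (ι → F) → F}
    (hQ : IsNondegenerateQuadraticForm Q) (h2 : Odd (Fintype.card F)) {r : ℕ} (hr : r.Prime)
    (hn : 3 * r < Fintype.card ι) {K : Subalgebra F (Matrix ι ι F)} (hK : IsFieldSubalgebra r K)
    (h1 : IsSelfAdjointFor (polar Q) K) :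
    IsMaximalIn (omegaGL Q) (subalgebraNormalizer K ⊓ omegaGL Q) := by
  have : Nonempty ι := Fintype.card_pos_iff.mp (by omega)
  have a0 := hr.two_le
  let := (isField_of_inv K hK.comm hK.inv).toField
  have a1 := finrank_mul_finrank F K (ι → F)
  rw [hK.finrank_eq, finrank_fintype_fun_eq_card] at a1
  obtain ⟨q, h⟩ := exists_QF (K := K) (nd_mkQ hQ) (two_ne_zero_iff_odd.mpr h2) fun k x y => h1 k k.2 x y
  refine max_omega hQ ((subalgebraNormalizer K).comap (jO hQ)) (fun _ => Iff.rfl)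
    (omega_not_le_field hQ (by omega) a0 hK) fun M c1 _ g c2 c3 => h.Om_le (fun t ht =>
      c1 _ (h.res_mem ht) (H12.mem_normalizer_iff.mpr fun k => ⟨k, fun v => ?_⟩)) (hK.finrank_eq ▸ hr)
      (by by_contra b; nlinarith) c2 fun b => c3 (H12.mem_normalizer_iff.mpr fun k => ?_)
  · simp only [H12.glEq_apply, jO_apply, ofOG_mulVec]
    exact t.1.map_smul k v
  · simpa only [H12.glEq_apply, jO_apply, ofOG_mulVec] using b k

end Cfsg.Agent.H18
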