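import Mathlib
import Cfsg.Agent.H18.FxD
import Cfsg.Agent.H12.UcA
import Cfsg.Agent.H12.SBridge
import Cfsg.Agent.H9.Dickson

/-!
Algebraic lemmas on pairs of quadratic elements and on extensions of finite fields of odd degree.
-/

set_option autoImplicit false

namespace Cfsg.Agent.H18.F3

open Module
open scoped TensorProduct

theorem quad_inv {A G : Type*} [Ring A] [Group G] (ρ : G →* A) {u u' : G} {n n' π : A}
    (h1 : ρ u = 1 + n) (h2 : ρ u' = 1 + n') (hn : n * n = 0) (hn' : n' * n' = 0)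
    (hπ : Commute π (n * n' + n' * n)) {g : G} (hg : g ∈ Subgroup.closure {u, u'}) :
    Commute π (ρ g + ρ g⁻¹) := by
  let Z := Subring.centralizer ({n, n', π} : Set A)
  have a0 : ∀ {x : G} {m : A}, ρ x = 1 + m → m * m = 0 → ρ x⁻¹ = 1 - m := fun {x m} a b => by
    calc _ = ρ x⁻¹ * (ρ x * (1 - m)) := by rw [a]; simp [mul_sub, add_mul, b]
      _ = _ := by rw [← mul_assoc, ← map_mul]; simp
  have b1 : ∀ x, n * (n * x) = 0 := fun x => by rw [← mul_assoc, hn, zero_mul]
  have b2 : ∀ x, n' * (n' * x) = 0 := fun x => by rw [← mul_assoc, hn', zero_mul]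
  have a1 : n * n' + n' * n ∈ Z := by
    rintro _ (rfl | rfl | rfl)
    · simp [mul_add, add_mul, mul_assoc, b1, hn]
    · simp [mul_add, add_mul, mul_assoc, b2, hn']
    · exact hπ
  let P : G → Prop := fun g => ∃ z₀ ∈ Z, ∃ z₁ ∈ Z, ∃ z₂ ∈ Z, ∃ z₃ ∈ Z,
    ρ g = z₀ + z₁ * n + z₂ * n' + z₃ * (n * n') ∧ ρ g⁻¹ = z₀ - z₁ * n - z₂ * n' + z₃ * (n' * n)
  have c1 : ∀ z ∈ Z, (∀ x, n * (z * x) = z * (n * x)) ∧ (∀ x, n' * (z * x) = z * (n' * x)) ∧ n * z = z * n ∧
      n' * z = z * n' := fun z hz => ⟨fun x => by rw [← mul_assoc, hz n (by simp), mul_assoc],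
    fun x => by rw [← mul_assoc, hz n' (by simp), mul_assoc], hz n (by simp), hz n' (by simp)⟩
  have a2 : ∀ (ε : ℤ) x g, ρ x = 1 + ε • n → ρ x⁻¹ = 1 - ε • n → P g → P (x * g) := by
    rintro ε x g e1 e2 ⟨z₀, d0, z₁, d1, z₂, d2, z₃, d3, e3, e4⟩
    refine ⟨z₀, d0, z₁ + ε • z₀, add_mem d1 (zsmul_mem d0 ε), z₂, d2, z₃ + ε • z₂, add_mem d3 (zsmul_mem d2 ε), ?_, ?_⟩
    · rw [map_mul, e1, e3]
      simp only [mul_add, add_mul, one_mul, smul_mul_assoc, c1 _ d0, c1 _ d1, c1 _ d2, c1 _ d3, b1, hn, mul_zero, smul_add,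
        smul_zero, add_zero]
      abel
    · rw [mul_inv_rev, map_mul, e2, e4]
      simp only [mul_sub, sub_mul, add_mul, mul_one, smul_mul_assoc, mul_smul_comm, mul_assoc, hn, mul_zero, smul_add,
        smul_sub]
      abel
  have a3 : ∀ (ε : ℤ) x g, ρ x = 1 + ε • n' → ρ x⁻¹ = 1 - ε • n' → P g → P (x * g) := by
    rintro ε x g e1 e2 ⟨z₀, d0, z₁, d1, z₂, d2, z₃, d3, e3, e4⟩
    refine ⟨_, add_mem d0 (zsmul_mem (mul_mem d1 a1) ε), z₁, d1, _, add_mem d2 (zsmul_mem (add_mem d0 (mul_mem d3 a1)) ε),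
      _, sub_mem d3 (zsmul_mem d1 ε), ?_, ?_⟩
    · rw [map_mul, e1, e3]
      simp only [mul_add, add_mul, sub_mul, one_mul, smul_mul_assoc, c1 _ d0, c1 _ d1, c1 _ d2, c1 _ d3, b2, hn', mul_zero,
        smul_add, mul_assoc]
      abel
    · rw [mul_inv_rev, map_mul, e2, e4]
      simp only [mul_sub, mul_add, sub_mul, add_mul, mul_one, smul_mul_assoc, mul_smul_comm, mul_assoc, hn', mul_zero,
        smul_add, smul_sub]
      abel
  have a4 : P g := by
    induction hg using Subgroup.closure_induction_left with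
    | one => exact ⟨1, one_mem _, 0, zero_mem _, 0, zero_mem _, 0, zero_mem _, by simp⟩
    | mul_left x hx g _ ih =>
      rcases hx with rfl | rfl
      exacts [a2 1 _ g (by simpa) (by simpa using a0 h1 hn) ih, a3 1 _ g (by simpa) (by simpa using a0 h2 hn') ih]
    | inv_mul_cancel x hx g _ ih =>
      rcases hx with rfl | rfl
      exacts [a2 (-1) _ g (by simpa [sub_eq_add_neg] using a0 h1 hn) (by simpa) ih,
        a3 (-1) _ g (by simpa [sub_eq_add_neg] using a0 h2 hn') (by simpa) ih]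
  obtain ⟨z₀, d0, z₁, -, z₂, -, z₃, d3, e3, e4⟩ := a4
  rw [show ρ g + ρ g⁻¹ = z₀ + z₀ + z₃ * (n * n' + n' * n) by rw [e3, e4, mul_add]; abel]
  exact add_mem (add_mem d0 d0) (mul_mem d3 a1) π (by simp)

theorem exists_invol {G F W : Type*} [Group G] [Finite G] [Field F] [Finite F] [AddCommGroup W] [Module F W] [Finite W]
    (hp : (2 : F) ≠ 0) (ρ : G →* End F W) {u u' : G} {n n' : End F W} (h1 : ρ u = 1 + n) (h2 : ρ u' = 1 + n')
    (hn : n * n = 0) (hn' : n' * n' = 0) (h3 : LinearMap.trace F W (n * n') ≠ 0) :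
    ∃ τ ∈ Subgroup.closure {u, u'}, τ ≠ 1 ∧ τ * τ = 1 := by
  have : Nontrivial W := not_subsingleton_iff_nontrivial.mp fun _ => h3 (by rw [Subsingleton.elim (n * n') 0, map_zero])
  obtain ⟨p, _⟩ := CharP.exists F
  have := Fact.mk (CharP.char_is_prime F p)
  have := Module.Finite.of_finite (R := F) (M := W)
  have := charP_of_injective_algebraMap (algebraMap F (End F W)).injective p
  haveI := AddCommGroup.zmodModule (n := p) (G := W) fun w => by rw [← Nat.cast_smul_eq_nsmul F]; simp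
  let H := Subgroup.closure {u, u'}
  let ρ' : H →* End (ZMod p) W :=
    { toFun := fun g => ⟨⟨ρ g, map_add _⟩, ZMod.map_smul (ρ g)⟩
      map_one' := LinearMap.ext fun w => by simp
      map_mul' := fun a b => LinearMap.ext fun w => by simp }
  replace hp := H12.char_ne_two_of_two_ne_zero p hp
  obtain ⟨L, ψ, -, a1, -⟩ := H9.natSec_of_quad_pair (H9.dicksonHyp p hp) ρ'
    (a := ⟨u, Subgroup.subset_closure (by simp)⟩) (b := ⟨u', Subgroup.subset_closure (by simp)⟩)
    (LinearMap.ext fun w => by simpa [ρ', h1] using LinearMap.congr_fun hn w)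
    (LinearMap.ext fun w => by simpa [ρ', h2] using LinearMap.congr_fun hn' w)
    ⟨_, mul_mem (Subgroup.subset_closure (Or.inl rfl)) (Subgroup.subset_closure (Or.inr rfl)), fun k e => h3 (by
      have b1 : ρ (u * u') ^ p ^ k = 1 := (map_pow ..).symm.trans (LinearMap.ext fun w => LinearMap.congr_fun e w)
      have b2 := (LinearMap.isNilpotent_trace_of_isNilpotent (f := ρ (u * u') - 1) ⟨p ^ k, by
        rw [sub_pow_char_pow_of_commute _ _ (Commute.one_right _), b1, one_pow, sub_self]⟩).eq_zero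
      have b3 := (LinearMap.isNilpotent_trace_of_isNilpotent (f := n) ⟨2, by rw [sq, hn]⟩).eq_zero
      have b4 := (LinearMap.isNilpotent_trace_of_isNilpotent (f := n') ⟨2, by rw [sq, hn']⟩).eq_zero
      simpa [h1, h2, mul_add, add_mul, b3, b4] using b2)⟩
  obtain ⟨g, hg⟩ := a1 (-1)
  have a2 : 2 ∣ Nat.card L := even_iff_two_dvd.mp (Nat.not_odd_iff_even.mp fun e => by
    have := congrArg ψ (pow_card_eq_one' (x := g))
    rw [map_pow, hg, e.neg_one_pow, map_one] at this
    exact H12.sl2_neg_one_ne_one (H12.two_ne_zero_of_char_ne p hp) this)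
  obtain ⟨τ, hτ⟩ := exists_prime_orderOf_dvd_card' 2 a2
  refine ⟨τ.1.1, τ.1.2, fun e => ?_, ?_⟩
  · rw [show τ = 1 from Subtype.ext (Subtype.ext e)] at hτ; simp at hτ
  · have := pow_orderOf_eq_one τ
    rw [hτ, sq] at this
    exact congrArg (fun x : L => x.1.1) this

variable {F K : Type*} [Field F] [Field K] [Algebra F K] [Finite K] {l : Dual F K}

omit [Finite K] in
theorem eq_zero (hl : l ≠ 0) {k : K} (H : ∀ a, l (a * k) = 0) : k = 0 := by
  by_contra hk
  exact hl (LinearMap.ext fun a => by simpa [hk] using H (a / k))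

theorem exists_repr (hl : l ≠ 0) (φ : Dual F K) : ∃ a, ∀ x, φ x = l (a * x) := by
  haveI := Module.Finite.of_finite (R := F) (M := K)
  obtain ⟨a, ha⟩ := (LinearMap.injective_iff_surjective_of_finrank_eq_finrank Subspace.dual_finrank_eq.symm
    (f := (LinearMap.mul F K).compr₂ l)).mp ((injective_iff_map_eq_zero _).mpr fun a e => eq_zero hl fun x => by
      simpa [mul_comm] using LinearMap.congr_fun e x) φ
  exact ⟨a, fun x => by simp [← ha]⟩

theorem skew_eq_zero (hl : l ≠ 0) {η : End F K} (h1 : ∀ x y, l (η x * y) + l (x * η y) = 0)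
    (h2 : ∀ a b, LinearMap.trace F K (η * LinearMap.mul F K a * η * LinearMap.mul F K b) = 0) : η = 0 := by
  haveI := Module.Finite.of_finite (R := F) (M := K)
  let Φ : K ⊗[F] K →ₗ[F] End F K := TensorProduct.lift (LinearMap.smulRightₗ ∘ₗ (LinearMap.mul F K).compr₂ l)
  let Λ : K ⊗[F] K →ₗ[F] F := TensorProduct.lift ((LinearMap.mul F F).compl₁₂ l l)
  have a0 : ∀ a b x, Φ (a ⊗ₜ b) x = l (a * x) • b := fun _ _ _ => rfl
  obtain ⟨e, rfl⟩ : η ∈ LinearMap.range Φ := by
    rw [show η = ∑ i, ((finBasis F K).coord i).smulRight (η (finBasis F K i)) from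
      (finBasis F K).ext fun i => by simp [Finsupp.single_apply]]
    refine sum_mem fun i _ => ?_
    obtain ⟨a, ha⟩ := exists_repr hl ((finBasis F K).coord i)
    exact ⟨a ⊗ₜ _, LinearMap.ext fun x => by rw [a0, ← ha]; rfl⟩
  let s := Algebra.TensorProduct.comm F K K
  have a1 : ∀ e x y, l (Φ e x * y) = Λ (e * x ⊗ₜ y) ∧ l (x * Φ e y) = Λ (s e * x ⊗ₜ y) := fun e x y => by
    induction e with
    | zero => simp
    | tmul a b => simp [a0, Λ, s, mul_comm]
    | add a b ha hb => simp [add_mul, mul_add, ha, hb]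
  have a2 : ∀ e e' a b, LinearMap.trace F K (Φ e * LinearMap.mul F K a * Φ e' * LinearMap.mul F K b) =
      Λ (e * s e' * a ⊗ₜ b) := fun e e' a b => by
    induction e with
    | zero => simp
    | add _ _ ha hb => simp only [map_add, add_mul, ha, hb]
    | tmul c d =>
      induction e' with
      | zero => simp
      | add _ _ ha hb => simp only [map_add, add_mul, mul_add, ha, hb]
      | tmul c' d' =>
        rw [show Φ (c ⊗ₜ d) * LinearMap.mul F K a * Φ (c' ⊗ₜ d') * LinearMap.mul F K b =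
          l (c * d' * a) • (l ∘ₗ LinearMap.mul F K (c' * b)).smulRight d from LinearMap.ext fun x => by
            simp [a0, smul_smul, mul_comm, mul_left_comm]]
        simp [Λ, s, mul_comm, mul_left_comm]
  have a3 : ∀ t, (∀ x y, Λ (t * x ⊗ₜ y) = 0) → ∀ t', Λ (t * t') = 0 := fun t h t' => by
    induction t' with
    | zero => simp
    | tmul a b => exact h a b
    | add _ _ ha hb => simp [mul_add, ha, hb]
  have a4 := a3 (e + s e) fun x y => by rw [add_mul, map_add, ← (a1 e x y).1, ← (a1 e x y).2, h1]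
  have a5 := a3 (e * s e) fun x y => (a2 e e x y).symm.trans (h2 x y)
  have := Fintype.ofFinite K
  obtain ⟨p, _, n, hp, hn⟩ := FiniteField.card' K
  have := Fact.mk hp
  have a6 : ∀ e : K ⊗[F] K, e ^ p ^ (n : ℕ) = e := fun e => by
    rcases subsingleton_or_nontrivial (K ⊗[F] K) with _ | _
    · exact Subsingleton.elim _ _
    have := charP_of_injective_algebraMap (algebraMap K (K ⊗[F] K)).injective p
    induction e with
    | zero => simp [hp.ne_zero]
    | tmul a b => rw [Algebra.TensorProduct.tmul_pow, ← hn, FiniteField.pow_card, FiniteField.pow_card]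
    | add _ _ ha hb => rw [add_pow_char_pow, ha, hb]
  obtain ⟨m, hm⟩ : ∃ m, p ^ (n : ℕ) = m + 2 := ⟨p ^ (n : ℕ) - 2, by have := Fintype.one_lt_card (α := K); omega⟩
  refine LinearMap.ext fun x => eq_zero hl fun y => ?_
  rw [mul_comm, (a1 e x y).1, ← a6 e, hm, show e ^ (m + 2) * x ⊗ₜ y = (e + s e) * (e ^ (m + 1) * x ⊗ₜ y) -
    e * s e * (e ^ m * x ⊗ₜ y) by ring, map_sub, a4, a5, sub_self]

theorem exists_ker (hl : l ≠ 0) (h2 : (2 : F) ≠ 0) (hr : Odd (finrank F K)) {η : End F K}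
    (h1 : ∀ x y, l (η x * y) + l (x * η y) = 0) : ∃ x ≠ 0, η x = 0 := by
  haveI := Module.Finite.of_finite (R := F) (M := K)
  by_contra! H
  refine Nat.not_even_iff_odd.mpr hr (H12.SD.even_finrank (B := ((LinearMap.mul F K).compr₂ l) ∘ₗ η)
    ⟨fun _ => rfl, fun x y => ?_, fun x hx => by_contra fun e => H x e (eq_zero hl fun y => by
      simpa [mul_comm] using hx y), fun x => ⟨0, ?_⟩⟩)
  · simpa [mul_comm, add_eq_zero_iff_eq_neg'] using h1 x y
  · have := h1 x x
    rw [mul_comm x, ← two_mul] at this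
    simpa [h2, eq_comm] using this

theorem exists_four (h2 : (2 : F) ≠ 0) (hr : Odd (finrank F K)) {y : K} (hy : y ≠ 0) :
    ∃ (c : F) (μ : K), μ ≠ 0 ∧ y = c • μ ^ 4 := by
  haveI : Finite F := Finite.of_injective _ (algebraMap F K).injective
  have := Fintype.ofFinite F
  have a1 : Odd (∑ i ∈ Finset.range (finrank F K), Nat.card F ^ i) := by
    rw [Finset.odd_sum_iff_odd_card_odd, Finset.filter_true_of_mem fun i _ => Odd.pow (by
      rw [Nat.card_eq_fintype_card]; exact H12.odd_card_of_two_ne_zero h2), Finset.card_range]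
    exact hr
  obtain ⟨m, hm⟩ := a1
  refine ⟨Algebra.norm F y ^ (2 * m + 1), y⁻¹ ^ (m * m + m), by simp [hy], ?_⟩
  rw [Algebra.smul_def, map_pow, FiniteField.algebraMap_norm_eq_pow_sum, hm, inv_pow]
  field_simp
  ring

theorem eq_zero_of_four (h2 : (2 : F) ≠ 0) (hr : (finrank F K).Prime) (h3 : 3 ≤ finrank F K) {D : End F K}
    (H : ∀ ν ≠ 0, ∀ c, ν ^ 4 * D (ν ^ 4 * c) = D c) : D = 0 := LinearMap.ext fun c => by_contra fun hc => by
  have a1 : ∀ y ≠ 0, ∃ s : F, y * D (y * c) = s • D c := fun y hy => by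
    obtain ⟨d, μ, b1, rfl⟩ := exists_four h2 (hr.odd_of_ne_two (by omega)) hy
    exact ⟨d * d, by rw [smul_mul_assoc, smul_mul_assoc, map_smul, mul_smul_comm, H μ b1, mul_smul]⟩
  obtain ⟨o, ho⟩ := H12.exists_notMem_span hr.two_le (1 : K)
  have ho' : o ∉ (algebraMap F K).range := fun e => ho (by simpa using mem_span_of_range e (1 : K))
  obtain ⟨s, hs⟩ := a1 o (by rintro rfl; exact ho' (zero_mem _))
  obtain ⟨t, ht⟩ := a1 (1 + o) fun e => ho' (by rw [eq_neg_of_add_eq_zero_right e]; exact neg_mem (one_mem _))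
  refine ho' (mem_range_of_quad hr h3 (s := t - 1 - s) (t := -s) (mul_right_cancel₀ hc ?_))
  simp only [add_mul, one_mul, map_add, Algebra.smul_def, map_sub, map_one, map_neg] at hs ht ⊢
  linear_combination o * ht - (1 + o) * hs

theorem exists_aut {V : Type*} [AddCommGroup V] [Module F V] [Module K V] [IsScalarTower F K V] [Nontrivial V]
    {g : V ≃ₗ[F] V} (h : H12.NK K g) : ∃ ψ : K ≃ₐ[F] K, ∀ (k : K) v, g (k • v) = ψ k • g v := by
  choose ψ hψ using h
  obtain ⟨v, hv⟩ := exists_ne (0 : V)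
  have a0 : ∀ a b : K, a • g v = b • g v → a = b := fun a b e => smul_left_injective K (by simpa) e
  let ψ' : K →ₐ[F] K := AlgHom.ofLinearMap
    { toFun := ψ
      map_add' := fun a b => a0 _ _ (by rw [← hψ, add_smul, add_smul, map_add, hψ, hψ])
      map_smul' := fun c a => a0 _ _ (by rw [← hψ, smul_assoc, map_smul, hψ, RingHom.id_apply, smul_assoc]) }
    (a0 _ _ (by simp [← hψ])) fun a b => a0 _ _ (by simp [← hψ, mul_smul])
  exact ⟨AlgEquiv.ofBijective ψ' (Finite.injective_iff_bijective.mp ψ'.toRingHom.injective), hψ⟩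

end Cfsg.Agent.H18.F3
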