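import Mathlib
import Cfsg.Agent.H18.F3A
import Cfsg.Agent.H12.WrA

/-!
The three-dimensional orthogonal group over an extension field: overgroups meeting the centre of the
unipotent radical.
-/

set_option autoImplicit false

namespace Cfsg.Agent.H18.F3

open Module QuadraticMap H13

/-- The discriminant form. -/
def qS (K : Type*) [Field K] : QuadraticForm K (K × K × K) :=
  LinearMap.BilinMap.toQuadraticMap (LinearMap.mk₂ K (fun v w : K × K × K => v.1 * w.2.2 - v.2.1 * w.2.1) (fun _ _ _ => by simp; ring)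
    (fun _ _ _ => by simp; ring) (fun _ _ _ => by simp; ring) fun _ _ _ => by simp; ring)

variable {F K : Type*} [Field F] [Field K] [Algebra F K] {Q : QuadraticForm F (K × K × K)} {l : Dual F K}
  {M : Subgroup (OG Q)} {g k : OG Q} {ν t : K}

theorem qS_apply (v : K × K × K) : qS K v = v.1 * v.2.2 - v.2.1 * v.2.1 := rfl

theorem qS_polar (v w : K × K × K) : polar (qS K) v w = v.1 * w.2.2 + v.2.2 * w.1 - 2 * v.2.1 * w.2.1 := by
  simp [polar, qS_apply]; ring

variable (h : QF Q (qS K) l)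

/-- Upper unipotent elements. -/
noncomputable def X (t : K) : OG Q := h.res (sieg (qS K) (1, 0, 0) (0, -t, 0))

/-- Lower unipotent elements. -/
noncomputable def Y (t : K) : OG Q := h.res (sieg (qS K) (0, 0, 1) (0, -t, 0))

theorem X_apply (t : K) (v : K × K × K) :
    (X h t).1 v = (v.1 + 2 * t * v.2.1 + t ^ 2 * v.2.2, v.2.1 + t * v.2.2, v.2.2) := by
  rw [X, h.res_apply, sieg_apply (by simp [qS_apply]) (by simp [qS_polar])]
  ext <;> simp [qS_apply, qS_polar] <;> ring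

theorem Y_apply (t : K) (v : K × K × K) :
    (Y h t).1 v = (v.1, v.2.1 + t * v.1, v.2.2 + 2 * t * v.2.1 + t ^ 2 * v.1) := by
  rw [Y, h.res_apply, sieg_apply (by simp [qS_apply]) (by simp [qS_polar])]
  ext <;> simp [qS_apply, qS_polar] <;> ring

/-- Weyl elements. -/
noncomputable def W (ν : K) : OG Q := X h ν * Y h (-ν⁻¹) * X h ν

theorem W_apply (hν : ν ≠ 0) (v : K × K × K) : (W h ν).1 v = (ν ^ 2 * v.2.2, -v.2.1, (ν ^ 2)⁻¹ * v.1) := by
  simp only [W, OG_mul_apply, X_apply, Y_apply]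
  ext <;> simp <;> field_simp <;> ring

theorem T_apply (hν : ν ≠ 0) (v : K × K × K) :
    (W h ν * W h 1).1 v = (ν ^ 2 * v.1, v.2.1, (ν ^ 2)⁻¹ * v.2.2) := by
  simp [OG_mul_apply, W_apply, hν]

include h

theorem pol (v w : K × K × K) : polar Q v w = l (v.1 * w.2.2 + v.2.2 * w.1 - 2 * v.2.1 * w.2.1) := by
  rw [h.pol, qS_polar]

theorem third (H : ∀ a, k.1 (a, 0, 0) = (a, 0, 0)) (v : K × K × K) : (k.1 v).2.2 = v.2.2 :=
  sub_eq_zero.mp (h.eq_zero fun a => by
    have := OG_polar k (a, 0, 0) v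
    rw [H, pol h, pol h] at this
    simpa [mul_sub, sub_eq_zero] using this)

theorem exists_eta (H : ∀ a b, k.1 (a, b, 0) = (a, b, 0)) : ∃ η : End F K, (∀ v, k.1 v = v + (η v.2.2, 0, 0)) ∧
    ∀ x y, l (η x * y) + l (x * η y) = 0 := by
  have a1 : ∀ v, k.1 v = v + ((k.1 (0, 0, v.2.2)).1, 0, 0) := fun v => by
    have b1 : (k.1 (0, 0, v.2.2)).2.1 = 0 := h.eq_zero fun b => by
      have := OG_polar k (0, b / 2, 0) (0, 0, v.2.2)
      rw [H, pol h, pol h] at this
      simpa [mul_div_cancel₀ _ h.twoK] using this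
    conv_lhs => rw [show v = (v.1, v.2.1, 0) + (0, 0, v.2.2) by simp, map_add, H]
    ext <;> simp [b1, third h (H · 0)]
  refine ⟨LinearMap.fst F _ _ ∘ₗ k.1.toLinearMap ∘ₗ LinearMap.inr F _ _ ∘ₗ LinearMap.inr F _ _, a1, fun x y => ?_⟩
  have := OG_polar k (0, 0, x) (0, 0, y)
  rw [a1, a1 (0, 0, y), pol h, pol h] at this
  simpa using this

/-- The level one parts of elements of the unipotent radical. -/
def JJ (M : Subgroup (OG Q)) (j : End F K) : Prop := ∃ g ∈ M, ∀ a b, g.1 (a, b, 0) = (a + j b, b, 0)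

omit h in
theorem JJ.add {j j' : End F K} (a : JJ M j) (b : JJ M j') : JJ M (j + j') := by
  obtain ⟨g, a1, a2⟩ := a
  obtain ⟨g', b1, b2⟩ := b
  exact ⟨g' * g, mul_mem b1 a1, fun a b => by simp [OG_mul_apply, a2, b2, add_assoc]⟩

omit h in
theorem JJ.neg {j : End F K} (a : JJ M j) : JJ M (-j) := by
  obtain ⟨g, a1, a2⟩ := a
  exact ⟨g⁻¹, inv_mem a1, fun a b => g.1.injective (by simp [OG_apply_inv, a2])⟩

omit h in
theorem JJ.conj {j θ : End F K} (a : JJ M j) (hk : k ∈ M) (H : ∀ a b, k.1 (a, b, 0) = (θ a, b, 0))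
    (hθ : Function.Surjective θ) : JJ M (θ * j) := by
  obtain ⟨g, a1, a2⟩ := a
  refine ⟨k * g * k⁻¹, mul_mem (mul_mem hk a1) (inv_mem hk), fun a b => ?_⟩
  obtain ⟨a, rfl⟩ := hθ a
  rw [OG_mul_apply, OG_mul_apply, ← H, OG_inv_apply_apply, a2, H]; simp

variable (hM : ∀ g ∈ Om (qS K), h.res g ∈ M)
include hM

theorem X_mem (t : K) : X h t ∈ M := h.sg hM _ _

theorem Y_mem (t : K) : Y h t ∈ M := h.sg hM _ _

theorem W_mem (t : K) : W h t ∈ M := mul_mem (mul_mem (X_mem h hM _) (Y_mem h hM _)) (X_mem h hM _)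

theorem jj_mul (t : K) : JJ M (LinearMap.mul F K t) := ⟨_, X_mem h hM (t / 2), fun a b => by
  simp [X_apply, mul_div_cancel₀ _ h.twoK]⟩

theorem JJ.mul {j : End F K} (a : JJ M j) (t : K) : JJ M (LinearMap.mul F K t * j) := by
  have a1 : ∀ t : K, JJ M (LinearMap.mul F K (t ^ 2) * j) := fun t => by
    by_cases e : t = 0
    · simpa [e] using jj_mul h hM 0
    exact a.conj (mul_mem (W_mem h hM t) (W_mem h hM 1)) (fun a b => by rw [T_apply h e]; simp)
      fun x => ⟨x / t ^ 2, by simp [mul_div_cancel₀, e]⟩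
  convert (a1 ((t + 1) / 2)).add (a1 ((t - 1) / 2)).neg using 1
  rw [← sub_eq_add_neg, ← sub_mul, ← map_sub]
  congr 2
  have := h.twoK
  field_simp; ring

variable [Finite K]

theorem exists_tau (hr : Odd (finrank F K)) (hg : g ∈ M) (g1 : g ≠ 1) (H : ∀ a b, g.1 (a, b, 0) = (a, b, 0)) :
    ∃ τ ∈ M, ∃ e : End F K, (∀ a b, τ.1 (a, b, 0) = (e a, b, 0)) ∧ (∀ a, e (e a) = a) ∧ ¬ ∀ x, e x = x * e 1 := by
  haveI : Finite F := Finite.of_injective _ (algebraMap F K).injective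
  haveI := Module.Finite.of_finite (R := F) (M := K)
  obtain ⟨η, a1, a2⟩ := exists_eta h H
  obtain ⟨ν, ν0, a3⟩ : ∃ ν ≠ 0, LinearMap.trace F K (η * LinearMap.mul F K (ν ^ 4) * η * LinearMap.mul F K (ν ^ 4)) ≠ 0 := by
    by_contra! e
    have b1 : ∀ a, LinearMap.trace F K (η * LinearMap.mul F K a * η * LinearMap.mul F K a) = 0 := fun a => by
      by_cases e' : a = 0
      · simp [e']
      obtain ⟨c, μ, b1, rfl⟩ := exists_four h.two hr e'
      simp [e μ b1]
    refine g1 (OG_ext fun v => ?_)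
    rw [a1, skew_eq_zero h.ne a2 fun a b => mul_left_cancel₀ h.two ?_]
    · simp
    have := b1 (a + b)
    simp only [map_add, mul_add, add_mul, b1, mul_assoc (η * _ * η)] at this
    rw [mul_assoc (η * LinearMap.mul F K b), LinearMap.trace_mul_comm F (η * LinearMap.mul F K b), ← mul_assoc] at this
    linear_combination this
  let n : End F (K × K × K) := LinearMap.inl F _ _ ∘ₗ η ∘ₗ LinearMap.snd F _ _ ∘ₗ LinearMap.snd F _ _
  let n' : End F (K × K × K) := LinearMap.inr F _ _ ∘ₗ LinearMap.inr F _ _ ∘ₗ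
    (LinearMap.mul F K (ν ^ 4) * η * LinearMap.mul F K (ν ^ 4)) ∘ₗ LinearMap.fst F _ _
  let ρ : OG Q →* End F (K × K × K) := LinearEquiv.automorphismGroup.toLinearMapMonoidHom.comp (OG Q).subtype
  have ν1 : (ν ^ 2)⁻¹ ≠ 0 := by simpa
  have b1 : ρ g = 1 + n := LinearMap.ext a1
  have b2 : ∀ v, (W h (ν ^ 2)⁻¹ * g * W h (ν ^ 2)⁻¹).1 v = v + n' v := fun v => by
    simp only [OG_mul_apply, W_apply h ν1, a1]
    ext <;> simp [n', ← pow_mul, mul_add, ν0]
  have b3 : n * n = 0 := by ext <;> simp [n]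
  have b4 : n' * n' = 0 := by ext <;> simp [n']
  obtain ⟨τ, c1, c2, c3⟩ := exists_invol h.two ρ b1 (u' := W h (ν ^ 2)⁻¹ * g * W h (ν ^ 2)⁻¹) (LinearMap.ext b2) b3 b4 (by
    rwa [show n * n' = LinearMap.inl F _ _ ∘ₗ (η * LinearMap.mul F K (ν ^ 4) * η * LinearMap.mul F K (ν ^ 4)) ∘ₗ
      LinearMap.fst F _ _ by ext <;> simp [n, n'], LinearMap.trace_comp_comm', LinearMap.comp_assoc,
      LinearMap.fst_comp_inl, LinearMap.comp_id])
  have c4 := quad_inv ρ b1 (u' := W h (ν ^ 2)⁻¹ * g * W h (ν ^ 2)⁻¹) (LinearMap.ext b2) b3 b4 (π := LinearMap.inl F _ _ ∘ₗ LinearMap.fst F _ _)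
    (by ext <;> simp [n, n']) c1
  have c5 : ∀ v, g.1 v = v → n' v = 0 → τ.1 v = v := fun v d1 d2 => by
    clear c2 c3 c4
    induction c1 using Subgroup.closure_induction with
    | mem x hx => rcases hx with rfl | rfl; exacts [d1, by rw [b2, d2, add_zero]]
    | one => rfl
    | mul x y _ _ e1 e2 => rw [OG_mul_apply, e2, e1]
    | inv x _ e1 => exact x.1.injective (by rw [OG_apply_inv, e1])
  have c6 : ∀ a b, τ.1 (a, b, 0) = ((τ.1 (a, 0, 0)).1, b, 0) := fun a b => by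
    have d1 := LinearMap.congr_fun c4.eq (a, 0, 0)
    rw [inv_eq_of_mul_eq_one_right c3, ← two_smul F, mul_smul_comm, smul_mul_assoc, LinearMap.smul_apply,
      LinearMap.smul_apply, smul_right_inj h.two] at d1
    rw [show (a, b, (0 : K)) = (a, 0, 0) + (0, b, 0) by simp, map_add, c5 _ (H 0 b) (by simp [n']),
      show τ.1 (a, 0, 0) = ((τ.1 (a, 0, 0)).1, 0) from d1.symm]
    simp
  have c7 : ∀ v, τ.1 (τ.1 v) = v := fun v => by rw [← OG_mul_apply, c3]; rfl
  refine ⟨τ, (Subgroup.closure_le M).mpr (by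
    rintro _ (rfl | rfl); exacts [hg, mul_mem (mul_mem (W_mem h hM _) hg) (W_mem h hM _)]) c1,
    LinearMap.fst F _ _ ∘ₗ τ.1.toLinearMap ∘ₗ LinearMap.inl F _ _, c6, fun a => ?_, fun e => c2 ?_⟩
  · have := c7 (a, 0, 0)
    rw [c6] at this
    exact congrArg Prod.fst this
  obtain ⟨x, d1, d2⟩ := exists_ker h.ne h.two hr a2
  have d3 := e (x / ν ^ 4)
  simp only [LinearMap.comp_apply, LinearMap.inl_apply, LinearEquiv.coe_coe, LinearMap.fst_apply] at d3 e
  rw [show ((x / ν ^ 4, 0) : K × K × K) = (x / ν ^ 4, 0, 0) from rfl,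
    c5 _ (H _ 0) (by simp [n', mul_div_cancel₀, ν0, d2]), left_eq_mul₀ (by simp [d1, ν0])] at d3
  obtain ⟨ζ, d4, -⟩ := exists_eta h (k := τ) fun a b => by rw [c6, show (τ.1 (a, 0, 0)).1 = _ from e a, d3, mul_one]
  refine OG_ext fun v => ?_
  have d5 := congrArg Prod.fst (c7 v)
  simp only [d4, Prod.fst_add, Prod.snd_add, add_zero] at d5
  simp [d4, show ζ v.2.2 = 0 from mul_left_cancel₀ h.twoK (by linear_combination d5)]

theorem le_of_jj (h3 : 3 ≤ finrank F K) (H : ∀ j, JJ M j) : Om Q ≤ M := by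
  haveI : Finite F := Finite.of_injective _ (algebraMap F K).injective
  haveI := Module.Finite.of_finite (R := F) (M := K)
  let L : Submodule F (K × K × K) := LinearMap.ker (LinearMap.snd F _ _)
  have a0 : ∀ v ∈ L, v = (v.1, 0, 0) := fun v hv => Prod.ext rfl hv
  have a1 : ∀ v ∈ perp Q L, v = (v.1, v.2.1, 0) := fun v hv => Prod.ext rfl (Prod.ext rfl (h.eq_zero fun a => by
    simpa [pol h] using mem_perp.mp hv (a, 0, 0) rfl))
  have a2 : ∀ j : End F K, PH M L fun v => (j v.2.1, 0, 0) := fun j => by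
    obtain ⟨g, b1, b2⟩ := H j
    exact ⟨fun _ _ => rfl, g, b1, fun v hv => by rw [a0 v hv, b2]; simp, fun v hv => by rw [a1 v hv, b2]; simp⟩
  have a3 : ∀ x y, AS M (x, 0, 0) (y, 0, 0) := fun x y => by
    simpa using PH.as h.ndF (fun v hv => by rw [a0 v hv, h.map]; simp [qS_apply]) (e := (x, 0, 0)) (w := (0, 1, 0)) rfl
      (mem_perp.mpr fun v hv => by rw [a0 v hv]; simp [pol h])
      ((a2 ((l ∘ₗ LinearMap.mul F K (-2)).smulRight x)).congr fun v _ => by simp [pol h]) (a2 (LinearMap.mul F K y))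
  have a4 : ∀ x y, AS M (0, 0, x) (0, 0, y) := fun x y => by
    simpa [W_apply] using (a3 x y).map (W_mem h hM 1)
  have a5 : ∀ x ≠ 0, EO M (0, 0, x) := fun x hx => by
    have b0 : ∀ w ∉ F ∙ x, ∃ c, l (c * x) = 0 ∧ l (c * w) = 1 := fun w hw => by
      obtain ⟨χ, b1, b2⟩ := H12.exists_dual_one_zero hw
      obtain ⟨c, hc⟩ := exists_repr h.ne χ
      exact ⟨c, hc x ▸ b2, hc w ▸ b1⟩
    have b1 : ∀ a, l (a * x) = 0 → AS M (0, 0, x) (a, 0, 0) := fun a ha => by
      obtain ⟨w, c1, c2⟩ := H12.exists_ker_notMem h3 (l ∘ₗ LinearMap.mul F K a) x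
      obtain ⟨c, c3, c4⟩ := b0 w c2
      simpa [pol h, c4, show l (a * w) = 0 from c1] using (a4 x w).act (a3 a c) (by simpa [pol h]) (by simpa [pol h])
    have b2 : ∀ y, AS M (0, 0, x) (0, y, 0) := fun y => by
      obtain ⟨w, -, c2⟩ := H12.exists_ker_notMem h3 0 x
      obtain ⟨c, c3, c4⟩ := b0 w c2
      obtain ⟨g, d1, d2⟩ := H ((l ∘ₗ LinearMap.mul F K (2 * y)).smulRight c)
      have d3 : ∀ s, g.1 (0, 0, s) = ((g.1 (0, 0, s)).1, l (c * s) • y, s) := fun s => Prod.ext rfl (Prod.ext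
        (sub_eq_zero.mp (h.eq_zero fun b => by
          have := OG_polar g (0, b / 2, 0) (0, 0, s)
          rw [d2, pol h, pol h, third h (by simpa using d2 · 0)] at this
          simp [mul_div_cancel₀ _ h.twoK, mul_left_comm (2 : K), mul_assoc] at this
          simp [mul_sub, mul_comm b y]
          linear_combination -this)) (third h (by simpa using d2 · 0) _))
      obtain ⟨a, ha⟩ := h.exists_eq hx 1
      have d4 := OG_map g (0, 0, x)
      rw [d3, h.map, h.map] at d4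
      have d5 := ((a4 x w).map d1).map (a3 a (g.1 (0, 0, x)).1).mem
      rw [d3 x, d3 w, sieg_apply (a3 a 0).Qu (a3 a _).ua, sieg_apply (a3 a 0).Qu (a3 a _).ua] at d5
      simp [qS_apply, c3] at d4
      simp [pol h, d4, ha, c3, c4, h.map, qS_apply] at d5
      generalize (g.1 (0, 0, w)).1 + _ - _ = ξ at d5
      simpa using (d5.sub (a4 x w)).sub (b1 ξ (by simpa [pol h, mul_comm x] using d5.ua))
    exact ⟨(a4 x 0).Qu, fun v hv => by
      simpa using ((b1 v.1 (by simpa [pol h, mul_comm] using hv)).add (b2 v.2.1)).add (a4 x v.2.2)⟩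
  obtain ⟨c, hc⟩ := h.exists_eq one_ne_zero 1
  exact Om_le_of_EO h.ndF (by simp; omega) (a5 1 one_ne_zero) ((a5 c (by rintro rfl; simp at hc)).map (W_mem h hM 1))
    (by rw [mul_one] at hc; simp [W_apply, pol h, hc])

theorem le_of_Z (hr : (finrank F K).Prime) (h3 : 3 ≤ finrank F K) (hg : g ∈ M) (g1 : g ≠ 1)
    (H : ∀ a b, g.1 (a, b, 0) = (a, b, 0)) : Om Q ≤ M := by
  obtain ⟨τ, a1, e, a2, a3, a4⟩ := exists_tau h hM (hr.odd_of_ne_two (by omega)) hg g1 H
  let A : Subalgebra F (End F K) :=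
    { carrier := {θ | ∀ j, JJ M j → JJ M (θ * j)}
      mul_mem' := fun a b j c => by rw [mul_assoc]; exact a _ (b j c)
      add_mem' := fun a b j c => by rw [add_mul]; exact (a j c).add (b j c)
      algebraMap_mem' := fun c j a => by
        convert a.mul h hM (algebraMap F K c) using 2
        ext; simp [Algebra.smul_def] }
  refine le_of_jj h hM h3 fun j => ?_
  have := (H12.subalg_eq_top hr (A := A) (fun k j a => a.mul h hM k)
    (fun j a => a.conj a1 a2 fun x => ⟨_, a3 x⟩) a4).ge (Algebra.mem_top (x := j)) _ (jj_mul h hM 1)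
  convert this using 1
  ext; simp

end Cfsg.Agent.H18.F3
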