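import Mathlib
import Cfsg.Agent.H18.F3B

/-!
The three-dimensional orthogonal group over an extension field: stabilisers of singular lines.
-/

set_option autoImplicit false

namespace Cfsg.Agent.H18.F3

open Module QuadraticMap H13

variable {F K : Type*} [Field F] [Field K] [Algebra F K] {Q : QuadraticForm F (K × K × K)} {l : Dual F K}
  {M : Subgroup (OG Q)} {g k : OG Q} {ν t : K}

/-- Linearity over the extension field. -/
def Lin (g : OG Q) : Prop := ∀ (x : K) v, g.1 (x • v) = x • g.1 v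

theorem Lin.mul (a : Lin g) (b : Lin k) : Lin (g * k) := fun x v => by rw [OG_mul_apply, b, a]; rfl

theorem Lin.nk (a : Lin g) : H12.NK K g.1 := fun x => ⟨x, a x⟩

/-- Stabilising the first coordinate line. -/
def St (g : OG Q) : Prop := ∀ a, (g.1 (a, 0, 0)).2 = 0

theorem St.eq (H : St g) (a : K) : g.1 (a, 0, 0) = ((g.1 (a, 0, 0)).1, 0, 0) := Prod.ext rfl (H a)

theorem St.mul (a : St g) (b : St k) : St (g * k) := fun x => by rw [OG_mul_apply, b.eq, a]

variable [Finite K]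

theorem St.surj (H : St g) (a : K) : ∃ a', g.1 (a', 0, 0) = (a, 0, 0) :=
  (Finite.injective_iff_surjective.mp (fun x y (e : (g.1 (x, 0, 0)).1 = (g.1 (y, 0, 0)).1) =>
    congrArg Prod.fst (g.1.injective (by rw [H.eq x, H.eq y, e]) : ((x, 0, 0) : K × K × K) = (y, 0, 0))) a).imp
      fun x e => by rw [H.eq, e]

theorem St.inv (H : St g) : St g⁻¹ := fun a => by
  obtain ⟨a', e⟩ := H.surj a
  rw [← e, OG_inv_apply_apply]; rfl

/-- The normaliser of the extension field. -/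
def NS (Q : QuadraticForm F (K × K × K)) : Subgroup (OG Q) where
  carrier := {g | H12.NK K g.1}
  one_mem' x := ⟨x, fun _ => rfl⟩
  mul_mem' {a b} ha hb x := by
    obtain ⟨y, hy⟩ := hb x
    obtain ⟨z, hz⟩ := ha y
    exact ⟨z, fun v => by rw [OG_mul_apply, hy, hz]; rfl⟩
  inv_mem' {a} ha x := by
    obtain ⟨ψ, hψ⟩ := exists_aut ha
    exact ⟨ψ.symm x, fun v => a.1.injective (by rw [hψ, OG_apply_inv, OG_apply_inv, ψ.apply_symm_apply])⟩

theorem dedekind {ψ : K ≃ₐ[F] K} {n : ℕ} (hn : n ≤ orderOf ψ) (c : Fin n → K)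
    (H : ∀ x, ∑ i, c i * (ψ ^ (i : ℕ)) x = 0) (i : Fin n) : c i = 0 :=
  Fintype.linearIndependent_iff.mp ((linearIndependent_monoidHom K K).comp
    (fun i : Fin n => ((ψ ^ (i : ℕ) : K ≃ₐ[F] K) : K →* K)) fun i j e => Fin.ext (pow_injOn_Iio_orderOf
      (i.2.trans_le hn) (j.2.trans_le hn) (AlgEquiv.ext fun x => DFunLike.congr_fun e x))) c (funext fun x => by
        simpa using H x) i

theorem orderOf_aut (hr : (finrank F K).Prime) {ψ : K ≃ₐ[F] K} (h1 : ψ ≠ 1) : orderOf ψ = finrank F K := by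
  haveI : Finite F := Finite.of_injective _ (algebraMap F K).injective
  exact (hr.eq_one_or_self_of_dvd _ (IsGalois.card_aut_eq_finrank F K ▸ orderOf_dvd_natCard ψ)).resolve_left
    (by simpa)

variable (h : QF Q (qS K) l)

omit [Finite K] in
theorem lin_res (g : OG (qS K)) : Lin (h.res g) := g.1.map_smul

omit [Finite K] in
theorem lin_W (ν : K) : Lin (W h ν) := ((lin_res h _).mul (lin_res h _)).mul (lin_res h _)

include h

theorem St.layer (H : St k) (hg : ∀ a b, (g.1 (a, b, 0)).2 = (b, 0)) (b : K) :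
    ((k * g * k⁻¹).1 (0, b, 0)).2.1 = b := by
  have a1 : ((k⁻¹).1 (0, b, 0)).2.2 = 0 := h.eq_zero fun a => by
    have := OG_polar_left k (a, 0, 0) (0, b, 0)
    rw [H.eq, pol h, pol h] at this
    simpa using this.symm
  obtain ⟨⟨x, y, z⟩, e⟩ := k.1.surjective (0, b, 0)
  rw [← e, OG_inv_apply_apply] at a1
  obtain rfl : z = 0 := a1
  rw [OG_mul_apply, OG_mul_apply, ← e, OG_inv_apply_apply, show g.1 (x, y, 0) = (x, y, 0) +
    ((g.1 (x, y, 0)).1 - x, 0, 0) by ext <;> simp [hg], map_add, e, H.eq]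
  simp

variable (hr : (finrank F K).Prime) (h3 : 3 ≤ finrank F K)

include hr h3 in
theorem cent {κ : End F (K × K × K)} (h1 : ∀ t v, κ ((X h t).1 v) = (X h t).1 (κ v))
    (h2 : ∀ ν ≠ 0, ∀ v, κ (ν ^ 4 * v.1, v.2.1, (ν ^ 4)⁻¹ * v.2.2) =
      (ν ^ 4 * (κ v).1, (κ v).2.1, (ν ^ 4)⁻¹ * (κ v).2.2)) : ∃ γ : K, ∀ v, κ v = γ • v := by
  have k2 := h.twoK
  have a1 : ∀ t v, κ (2 * t * v.2.1, t * v.2.2, 0) = (2 * t * (κ v).2.1, t * (κ v).2.2, 0) := fun t v => by
    have : ∀ v, (X h (t / 2)).1 v - (X h (-(t / 2))).1 v = (2 * t * v.2.1, t * v.2.2, 0) := fun v => by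
      ext <;> simp [X_apply] <;> field_simp <;> ring
    rw [← this, ← this, map_sub, h1, h1]
  obtain ⟨α, β, γ, e⟩ : ∃ α β γ, κ (0, 0, 1) = (α, β, γ) := ⟨_, _, _, rfl⟩
  have a2 : ∀ t, κ (0, t, 0) = (2 * t * β, t * γ, 0) := fun t => by simpa [e] using a1 t (0, 0, 1)
  have a3 : ∀ a, κ (a, 0, 0) = (a * γ, 0, 0) := fun a => by
    simpa [a2, mul_div_cancel₀ _ k2] using a1 (a / 2) (0, 1, 0)
  have a4 : ∀ c, (κ (0, 0, c)).2 = (c * β, c * γ) := fun c => by
    have := a1 1 (0, 0, c)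
    simp only [mul_zero, one_mul, a2, mul_one, Prod.mk.injEq, mul_assoc, mul_right_inj' k2] at this
    exact Prod.ext this.1.symm this.2.1.symm
  obtain rfl : β = 0 := by_contra fun c => by
    obtain ⟨o, ho⟩ := H12.exists_notMem_span hr.two_le (1 : K)
    obtain ⟨d, μ, b1, rfl⟩ := exists_four h.two (hr.odd_of_ne_two (by omega)) (y := o) (by rintro rfl; simp at ho)
    have := congrArg Prod.fst (h2 μ b1 (0, 1, 0))
    simp [a2, k2, c] at this
    exact ho (this ▸ Submodule.mem_span_singleton.mpr ⟨d, rfl⟩)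
  have a5 := eq_zero_of_four h.two hr h3 (D := LinearMap.fst F _ _ ∘ₗ κ ∘ₗ LinearMap.inr F _ _ ∘ₗ LinearMap.inr F _ _)
    fun ν b c => by
      have := congrArg Prod.fst (h2 ν b (0, 0, ν ^ 4 * c))
      simpa [b] using this.symm
  refine ⟨γ, fun ⟨a, b, c⟩ => ?_⟩
  rw [show (a, b, c) = (a, 0, 0) + (0, b, 0) + (0, 0, c) by simp, map_add, map_add, a2, a3,
    show κ (0, 0, c) = (0, _) from Prod.ext (LinearMap.congr_fun a5 c) (a4 c)]
  simp [mul_comm]

variable (hM : ∀ g ∈ Om (qS K), h.res g ∈ M) (hZ : ∀ g ∈ M, (∀ a b, g.1 (a, b, 0) = (a, b, 0)) → g = 1)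
include hM hZ

omit [Finite K] in
theorem eq_X (hg : g ∈ M) (h1 : ∀ a, g.1 (a, 0, 0) = (a, 0, 0)) (h2 : ∀ b, (g.1 (0, b, 0)).2.1 = b) :
    ∃ t, g = X h t := by
  have a1 : ∀ a b, g.1 (a, b, 0) = (a + (g.1 (0, b, 0)).1, b, 0) := fun a b => by
    rw [show (a, b, (0 : K)) = (a, 0, 0) + (0, b, 0) by simp, map_add, h1]
    ext <;> simp [h2, third h h1]
  have a2 : ∀ t, (g.1 (0, t, 0)).1 = 2 * (g.1 (0, 0, 1)).2.1 * t := fun t => by
    have b1 := inv_mul_eq_one.mp (hZ ((X h t * g)⁻¹ * (g * X h t)) (mul_mem (inv_mem (mul_mem (X_mem h hM t) hg))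
      (mul_mem hg (X_mem h hM t))) fun a b => (X h t * g).1.injective (by
        rw [OG_mul_apply _ (g * _), OG_apply_inv, OG_mul_apply, OG_mul_apply, a1, X_apply, X_apply]
        simp only [mul_zero, add_zero]
        rw [a1, add_right_comm]))
    have b2 := congrArg (fun k : OG Q => (k.1 (0, 0, 1)).1) b1
    simp only [OG_mul_apply, X_apply, third h h1, mul_zero, mul_one, zero_add] at b2
    rw [show (t ^ 2, t, (1 : K)) = (t ^ 2, t, 0) + (0, 0, 1) by simp, map_add, a1] at b2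
    simp only [Prod.fst_add] at b2
    linear_combination -b2
  exact ⟨_, (inv_mul_eq_one.mp (hZ _ (mul_mem (inv_mem (X_mem h hM (g.1 (0, 0, 1)).2.1)) hg) fun a b =>
    (X h _).1.injective (by rw [OG_mul_apply, OG_apply_inv, a1, a2, X_apply]; simp))).symm⟩

theorem St.conjX (H : St k) (hk : k ∈ M) (t : K) : ∃ t', k * X h t * k⁻¹ = X h t' :=
  eq_X h hM hZ (mul_mem (mul_mem hk (X_mem h hM t)) (inv_mem hk)) (fun a => by
    obtain ⟨a', e⟩ := H.surj a
    rw [← e, OG_mul_apply, OG_mul_apply, OG_inv_apply_apply, X_apply]; simp)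
    (H.layer h fun a b => by simp [X_apply])

theorem St.linT (H : St k) (hk : k ∈ M) (hν : ν ≠ 0) : Lin (k * (W h ν * W h 1 * (W h ν * W h 1)) * k⁻¹) := by
  have a0 : ∀ ν, W h ν * W h 1 ∈ M := fun ν => mul_mem (W_mem h hM ν) (W_mem h hM 1)
  have a1 : St (k * (W h ν * W h 1) * k⁻¹) := (H.mul fun a => by rw [T_apply h hν]; simp).mul H.inv
  have a2 := H.layer h (g := W h ν * W h 1) fun a b => by rw [T_apply h hν]; simp
  have a3 := mul_mem (mul_mem hk (a0 ν)) (inv_mem hk)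
  rw [show k * (W h ν * W h 1 * (W h ν * W h 1)) * k⁻¹ = k * (W h ν * W h 1) * k⁻¹ * (k * (W h ν * W h 1) * k⁻¹) by group]
  generalize k * (W h ν * W h 1) * k⁻¹ = g at a1 a2 a3
  obtain ⟨t, ht⟩ := a1.conjX h hM hZ a3 2⁻¹
  have a4 : ∀ a, g.1 (a, 0, 0) = (2 * t * a, 0, 0) := fun a => by
    have := congrArg (fun k : OG Q => (k.1 (0, a, 0)).1) (mul_inv_eq_iff_eq_mul.mp ht)
    simp only [OG_mul_apply, X_apply, a2, mul_inv_cancel₀ h.twoK, mul_zero, add_zero, zero_add, one_mul] at this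
    rw [show (a, a, (0 : K)) = (a, 0, 0) + (0, a, 0) by simp, map_add, Prod.fst_add] at this
    have b1 : (g.1 (0, a, 0)).2.2 = 0 := h.eq_zero fun x => by
      obtain ⟨x', e⟩ := a1.surj x
      have := OG_polar g (x', 0, 0) (0, a, 0)
      rw [e, pol h, pol h] at this
      simpa using this
    rw [a1.eq, show (g.1 (a, 0, 0)).1 = 2 * t * a by linear_combination this + t ^ 2 * b1]
  have a5 : 2 * t ≠ 0 := fun e => one_ne_zero (congrArg Prod.fst (g.1.injective (by rw [a4, a4, e]; simp) :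
    ((1, 0, 0) : K × K × K) = (0, 0, 0)))
  have a6 : ∀ b, g.1 (0, b, 0) = ((g.1 (0, b, 0)).1, 0, 0) + (0, b, 0) := fun b => by
    have b1 : (g.1 (0, b, 0)).2.2 = 0 := h.eq_zero fun x => by
      have := OG_polar g (x / (2 * t), 0, 0) (0, b, 0)
      rw [a4, pol h, pol h] at this
      simpa [mul_div_cancel₀ _ a5] using this
    ext <;> simp [a2, b1]
  obtain ⟨s, hs⟩ := eq_X h hM hZ (mul_mem (a0 (2 * t)⁻¹) (mul_mem a3 a3)) (fun a => by
    rw [OG_mul_apply, OG_mul_apply g, a4, a4, T_apply h (inv_ne_zero a5)]; generalize 2 * t = u at a5; simp; field_simp) fun b => by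
      rw [OG_mul_apply, OG_mul_apply g, T_apply h (inv_ne_zero a5), a6, map_add, a4]; simp [a2]
  rw [← eq_inv_mul_iff_mul_eq] at hs
  refine hs ▸ Lin.mul (fun x v => (W h (2 * t)⁻¹ * W h 1).1.injective ?_) (lin_res h _)
  rw [(lin_W h _).mul (lin_W h _), OG_apply_inv, OG_apply_inv]

include hr h3

theorem St.nk (H : St k) (hk : k ∈ M) : k ∈ NS Q := fun x => by
  let κ := k.1.toLinearMap ∘ₗ Algebra.lsmul F F (K × K × K) x ∘ₗ (k⁻¹).1.toLinearMap
  have a1 : ∀ g, Lin (k⁻¹ * g * k⁻¹⁻¹) → ∀ v, κ (g.1 v) = g.1 (κ v) := fun g b v => (k⁻¹).1.injective (by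
    have := b x ((k⁻¹).1 v)
    simp only [OG_mul_apply, inv_inv, OG_apply_inv] at this
    exact (OG_inv_apply_apply ..).trans this.symm)
  obtain ⟨γ, hγ⟩ := cent h hr h3 (κ := κ) (fun t => a1 _ (by
    obtain ⟨t', e⟩ := H.inv.conjX h hM hZ (inv_mem hk) t
    exact e ▸ lin_res h _)) fun ν hν v => by
      have := a1 _ (H.inv.linT h hM hZ (inv_mem hk) hν) v
      simp only [OG_mul_apply (W h ν * W h 1), T_apply h hν] at this
      convert this using 2 <;> simp only [← mul_assoc, ← mul_inv, ← pow_add]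
  exact ⟨γ, fun v => by simpa [κ, OG_inv_apply_apply] using hγ (k.1 v)⟩

end Cfsg.Agent.H18.F3
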