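import Mathlib
import Cfsg.Agent.H18.F3C
import Cfsg.Agent.H18.Av

/-!
Normalisers of field subalgebras of relative dimension three in orthogonal groups are maximal.
-/

set_option autoImplicit false

namespace Cfsg.Agent.H18

open Module QuadraticMap H13

theorem PD.linear {F Y : Type*} [Field F] [AddCommMonoid Y] [Module F Y] {k : ℕ} (N : (Fin k → F) →ₗ[F] Y) :
    PD 1 N := by
  have : ∀ s : Finset (Fin k), PD 1 fun c : Fin k → F => ∑ i ∈ s, c i • N (Pi.single i 1) := fun s => by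
    induction s using Finset.induction_on with
    | empty => simpa using PD.const 0
    | insert i s hi ih => simpa [Finset.sum_insert hi] using (PD.coord i _).add ih
  convert this Finset.univ with c
  exact LinearMap.pi_apply_eq_sum_univ N c |>.trans (by congr; ext; congr; ext; simp [Pi.single_apply, eq_comm])

namespace F3

variable {F K : Type*} [Field F] [Field K] [Algebra F K] {Q : QuadraticForm F (K × K × K)} {l : Dual F K}
  {M : Subgroup (OG Q)} {g k : OG Q} {ν t : K} [Finite K] (h : QF Q (qS K) l)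
  (hM : ∀ g ∈ Om (qS K), h.res g ∈ M) (hZ : ∀ g ∈ M, (∀ a b, g.1 (a, b, 0) = (a, b, 0)) → g = 1)
  (hr : (finrank F K).Prime) (h3 : 3 ≤ finrank F K)
include hM hZ hr h3

theorem ti_lin (hg : g ∈ M) (ht : t ≠ 0) (H : Lin (g * X h t * g⁻¹)) : g ∈ NS Q := by
  have a1 : ∀ v, (g * X h t * g⁻¹).1 (g.1 v) = g.1 ((X h t).1 v) := fun v => by
    rw [OG_mul_apply, OG_mul_apply, OG_inv_apply_apply]
  generalize g * X h t * g⁻¹ = a at H a1
  have k2 := h.twoK
  have a2 : ∀ v, a.1 (a.1 (g.1 v)) - a.1 (g.1 v) - a.1 (g.1 v) + g.1 v = g.1 (2 * t ^ 2 * v.2.2, 0, 0) := fun v => by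
    rw [a1, a1, ← map_sub, ← map_sub, ← map_add]
    congr 1
    ext <;> simp [X_apply] <;> ring
  have a3 : ∀ x : K, ∃ c, x • g.1 (1, 0, 0) = g.1 (c, 0, 0) := fun x => by
    obtain ⟨v, hv⟩ := g.1.surjective (x • g.1 (0, 0, (2 * t ^ 2)⁻¹))
    have := a2 (0, 0, (2 * t ^ 2)⁻¹)
    rw [mul_inv_cancel₀ (by simp [ht, k2])] at this
    exact ⟨_, Eq.trans (by rw [← this, hv, H, H, smul_add, smul_sub, smul_sub]) (a2 v)⟩
  have a4 := h.pol_zero (x := g.1 (1, 0, 0)) (y := g.1 (1, 0, 0)) fun x => by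
    obtain ⟨c, e⟩ := a3 x
    rw [e, OG_polar, pol h]; simp
  obtain ⟨k, b1, b2, d, b3⟩ : ∃ k ∈ M, Lin k ∧ ∃ d, k.1 (g.1 (1, 0, 0)) = (d, 0, 0) := by
    generalize g.1 (1, 0, 0) = v at a4
    rw [qS_polar] at a4
    by_cases e : v.2.2 = 0
    · exact ⟨1, one_mem _, fun _ _ => rfl, v.1, Prod.ext rfl (Prod.ext (by simpa [e, k2] using a4) e)⟩
    refine ⟨_, mul_mem (W_mem h hM 1) (X_mem h hM (-v.2.1 / v.2.2)), (lin_W h 1).mul (lin_res h _), v.2.2, ?_⟩
    rw [OG_mul_apply, W_apply h one_ne_zero, X_apply]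
    ext <;> simp [e]
    field_simp
    exact mul_left_cancel₀ k2 (by linear_combination a4)
  have b4 : d ≠ 0 := fun e => one_ne_zero (congrArg Prod.fst ((k * g).1.injective (by
    rw [OG_mul_apply, b3, e]; exact (map_zero _).symm) : ((1, 0, 0) : K × K × K) = 0))
  have b5 : St (k * g)⁻¹ := fun x => by
    obtain ⟨c, e⟩ := a3 (x / d)
    rw [show ((x, 0, 0) : K × K × K) = (k * g).1 (c, 0, 0) by rw [OG_mul_apply, ← e, b2, b3]; simp [b4],
      OG_inv_apply_apply]
    rfl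
  simpa using mul_mem (inv_mem (show k ∈ NS Q from b2.nk)) (inv_mem (b5.nk h hr h3 hM hZ (inv_mem (mul_mem b1 hg))))

theorem not_three (hg : g ∈ M) (ht : t ≠ 0) {a : OG Q} (a1 : ∀ v, a.1 (g.1 v) = g.1 ((X h t).1 v)) {ψ : K ≃ₐ[F] K}
    (hψ : ∀ (x : K) v, a.1 (x • v) = ψ x • a.1 v) (h1 : ψ ≠ 1) (h4 : finrank F K = 3) (h5 : ∀ v, a.1 (a.1 (a.1 v)) = v) :
    False := by
  haveI : Finite F := Finite.of_injective _ (algebraMap F K).injective
  haveI := Module.Finite.of_finite (R := F) (M := K)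
  have k2 := h.twoK
  let U := LinearMap.range (g.1.toLinearMap ∘ₗ LinearMap.inl F K (K × K))
  have a2 : ∀ u, u ∈ U ↔ a.1 u = u := fun u => ⟨by
    rintro ⟨c, rfl⟩; exact (a1 _).trans (by simp [X_apply]), fun e => by
      obtain ⟨v, rfl⟩ := g.1.surjective u
      rw [a1, g.1.injective.eq_iff, X_apply, Prod.ext_iff, Prod.ext_iff] at e
      have b1 : v.2.2 = 0 := by simpa [ht] using e.2.1
      exact ⟨v.1, congrArg g.1 (Prod.ext rfl (Prod.ext (by simpa [b1, ht, k2, eq_comm] using e.1) b1.symm))⟩⟩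
  have a3 : ∀ u, (∀ u' ∈ U, polar (qS K) u u' = 0) → u = 0 := fun u hu => h.nd u fun v =>
    dedekind (n := 3) (orderOf_aut hr h1 ▸ h3) ![polar (qS K) u v, polar (qS K) u (a.1 v), polar (qS K) u (a.1 (a.1 v))]
      (fun x => by
        have := hu (x • v + a.1 (x • v) + a.1 (a.1 (x • v))) ((a2 _).mpr (by simp only [map_add, h5]; abel))
        simpa [hψ, Fin.sum_univ_three, _root_.sq, mul_comm] using this) 0
  have a4 : ∀ u ∈ U, ∀ u' ∈ U, ∀ x, l (x * polar (qS K) u u') = l (ψ x * polar (qS K) u u') := fun u b u' b' x => by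
    rw [← h.smul_left, ← h.smul_left, ← OG_polar a, hψ, (a2 u).mp b, (a2 u').mp b']
  obtain ⟨u₁, b1, b2⟩ : ∃ u' ∈ U, polar (qS K) (g.1 (1, 0, 0)) u' ≠ 0 := by
    by_contra! e
    simpa [Prod.ext_iff] using g.1.map_eq_zero_iff.mp (a3 _ e)
  have b3 := a4 _ ⟨1, rfl⟩ _ b1
  change ∀ x, l (x * polar (qS K) (g.1 (1, 0, 0)) u₁) = l (_ * polar (qS K) (g.1 (1, 0, 0)) u₁) at b3
  generalize polar (qS K) (g.1 (1, 0, 0)) u₁ = β at b2 b3
  obtain ⟨m, hm⟩ := h.exists_eq b2 1
  have h' : QF ((l ∘ₗ LinearMap.mul F K m).compQuadraticMap' (qS K)) (qS K) (l ∘ₗ LinearMap.mul F K m) :=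
    ⟨h.nd, fun _ => rfl, fun e => by simpa [hm] using LinearMap.congr_fun e β, h.two⟩
  generalize (l ∘ₗ LinearMap.mul F K m).compQuadraticMap' (qS K) = Q' at h'
  have a5 : ∀ u ∈ U, ∀ u' ∈ U, polar (qS K) u u' = polar Q' u u' • β := fun u b u' b' => by
    have c1 : (ψ (polar (qS K) u u' / β) - polar (qS K) u u' / β) * β = 0 := h.eq_zero fun y => by
      obtain ⟨y, rfl⟩ := ψ.surjective y
      rw [sub_mul, mul_sub, map_sub, ← mul_assoc, ← map_mul, ← b3, mul_assoc, div_mul_cancel₀ _ b2, ← a4 u b u' b',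
        sub_self]
    obtain ⟨c, hc⟩ : polar (qS K) u u' / β ∈ (algebraMap F K).range := by_contra fun e => h1 (AlgEquiv.ext fun x =>
      (H12.eq_top_of_finrank_prime hr (S := RingHom.eqLocus (ψ : K →+* K) (RingHom.id K)) (fun c => ψ.commutes c)
        (sub_eq_zero.mp ((mul_eq_zero.mp c1).resolve_right b2)) e).ge (Subring.mem_top x))
    rw [h'.pol, ← div_mul_cancel₀ (polar (qS K) u u') b2, ← hc]
    simp [← Algebra.smul_def, hm]
  have a6 : ND (Q'.restrict U) := fun u hu => Subtype.ext (a3 _ fun u' b => by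
    rw [a5 _ u.2 _ b, show polar Q' u u' = 0 from hu ⟨u', b⟩, zero_smul])
  have a7 : 3 ≤ finrank F U := by
    rw [LinearMap.finrank_range_of_inj fun x y e => LinearMap.inl_injective (g.1.injective e), h4]
  have : Nontrivial U := Module.nontrivial_of_finrank_pos (R := F) (by omega)
  obtain ⟨⟨v, c1⟩, c2⟩ := a6.exists_ne_zero
  obtain ⟨w, c3, c4, c5⟩ := exists_norm_perp a6 a7 c1 (by rw [polar_self']; exact mul_ne_zero h.two c2) (Q' v)
  obtain ⟨⟨z, c6⟩, c7, c8, c9⟩ := H12.exists_mem_ker₂ a7 (polarBilin Q' v ∘ₗ U.subtype) (polarBilin Q' w ∘ₗ U.subtype)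
  have a8 : ∀ u ∈ U, qS K u = Q' u • β := fun u b => mul_left_cancel₀ k2 (by
    rw [← polar_self', a5 u b u b, polar_self', mul_smul, Algebra.smul_def, map_ofNat])
  have d1 : qS K v ≠ 0 := by rw [a8 v c1]; exact smul_ne_zero c2 b2
  have d2 : qS K w = qS K v := by rw [a8 v c1, a8 w c3, c5]
  have d3 : polar (qS K) v w = 0 := by rw [a5 v c1 w c3, c4, zero_smul]
  have d4 : refl (qS K) v * refl (qS K) w ∈ Om (qS K) := by
    have := Subgroup.commutator_mem_commutator (Subgroup.mem_top (refl (qS K) v))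
      (Subgroup.mem_top (refl (qS K) (v - w)))
    rwa [commutatorElement_def, refl_inv, mul_assoc, mul_assoc, ← mul_assoc (refl _ (v - w)), conj_refl,
      show (refl (qS K) (v - w)).1 v = w by
        rw [refl_apply, Q_sub, polar_sub_left, polar_self', polar_comm _ w, d2, d3, sub_zero, sub_zero, ← two_mul,
          mul_inv_cancel₀ (mul_ne_zero k2 d1)]
        simp] at this
  have d5 : ∀ x ∈ U, qS K x ≠ 0 → ∀ u ∈ U, (refl (qS K) x).1 u ∈ U := fun x b b' u c => by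
    rw [refl_apply, a5 x b u c, a8 x b, smul_inv₀, smul_mul_smul_comm, mul_inv_cancel₀ b2, smul_assoc, one_smul]
    exact sub_mem c (U.smul_mem _ b)
  have d6 : St (g⁻¹ * h.res (refl (qS K) v * refl (qS K) w) * g) := fun x => by
    obtain ⟨y, hy⟩ := d5 v c1 d1 _ (d5 w c3 (d2 ▸ d1) _ ⟨x, rfl⟩)
    rw [OG_mul_apply, OG_mul_apply, h.res_apply, OG_mul_apply]
    exact congrArg Prod.snd ((congrArg (g⁻¹).1 hy.symm).trans (OG_inv_apply_apply ..))
  obtain ⟨χ, hχ⟩ := exists_aut (d6.nk h hr h3 hM hZ (mul_mem (mul_mem (inv_mem hg) (hM _ d4)) hg))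
  have d7 : ∀ y, (refl (qS K) v * refl (qS K) w).1 ((refl (qS K) v * refl (qS K) w).1 y) = y := fun y => by
    have := conj_refl (refl (qS K) v) w
    rw [refl_apply_of_perp d3, refl_inv] at this
    rw [← OG_mul_apply, ← mul_assoc, this, refl_mul_self]; rfl
  have d8 : (refl (qS K) v * refl (qS K) w).1 v = -v := by
    rw [OG_mul_apply, refl_apply_of_perp (v := w) (by rwa [polar_comm]), refl_apply_self d1]
  have d9 : (refl (qS K) v * refl (qS K) w).1 z = z := by
    rw [OG_mul_apply, refl_apply_of_perp (v := w) (by rw [a5 w c3 z c6, show polar Q' w z = 0 from c9, zero_smul]),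
      refl_apply_of_perp (by rw [a5 v c1 z c6, show polar Q' v z = 0 from c8, zero_smul])]
  simp only [OG_mul_apply _ g, OG_mul_apply g⁻¹, h.res_apply] at hχ
  generalize (refl (qS K) v * refl (qS K) w).1 = τ at hχ d7 d8 d9
  obtain rfl : χ = 1 := by_contra fun e => by
    have e1 : χ ^ 2 = 1 := AlgEquiv.ext fun x => by
      have := hχ (χ x) ((g⁻¹).1 (τ (g.1 (1, 0, 0))))
      rw [← hχ] at this
      simpa [OG_apply_inv, d7, OG_inv_apply_apply, _root_.sq] using (congrArg Prod.fst this).symm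
    have := Nat.le_of_dvd two_pos (orderOf_aut hr e ▸ orderOf_dvd_of_pow_eq_one e1)
    omega
  obtain ⟨x, rfl⟩ := c1
  obtain ⟨y, rfl⟩ := c6
  have e1 := hχ x (1, 0)
  have e2 := hχ y (1, 0)
  simp only [LinearMap.comp_apply, LinearMap.inl_apply, LinearEquiv.coe_coe] at d1 d8 d9 c7
  simp only [Prod.smul_mk, smul_eq_mul, mul_one, smul_zero, d8, d9, map_neg, OG_inv_apply_apply, AlgEquiv.one_apply] at e1 e2
  have e3 := congrArg Prod.fst e1
  have e4 := congrArg Prod.fst e2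
  have e5 : x ≠ 0 := by rintro rfl; simp [show ((0, 0) : K × K × K) = 0 from rfl] at d1
  have e6 : y ≠ 0 := by rintro rfl; exact c7 (Subtype.ext (map_zero g.1))
  simp only [Prod.fst_neg, Prod.smul_fst, smul_eq_mul] at e3 e4
  exact mul_ne_zero (mul_ne_zero k2 e5) e6 (by linear_combination x * e4 - y * e3)

theorem ti (hg : g ∈ M) (ht : t ≠ 0) (H : g * X h t * g⁻¹ ∈ NS Q) : g ∈ NS Q := by
  obtain ⟨ψ, hψ⟩ := exists_aut H
  by_cases e : ψ = 1
  · exact ti_lin h hM hZ hr h3 hg ht (fun x v => by rw [hψ, e]; rfl)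
  have a1 : ∀ v, (g * X h t * g⁻¹).1 (g.1 v) = g.1 ((X h t).1 v) := fun v => by
    rw [OG_mul_apply, OG_mul_apply, OG_inv_apply_apply]
  generalize g * X h t * g⁻¹ = a at hψ a1
  have a2 : ∀ v, -v + (3 : F) • a.1 v + (-3 : F) • a.1 (a.1 v) + a.1 (a.1 (a.1 v)) = 0 := fun v => by
    obtain ⟨v, rfl⟩ := g.1.surjective v
    simp only [a1, ← map_neg, ← map_smul, ← map_add, g.1.map_eq_zero_iff]
    ext <;> simp [X_apply, Algebra.smul_def, map_ofNat] <;> ring
  have a3 := orderOf_aut hr e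
  by_cases e' : finrank F K = 3
  · have b1 : ∀ x, ψ (ψ (ψ x)) = x := fun x => DFunLike.congr_fun (e' ▸ a3 ▸ pow_orderOf_eq_one ψ : ψ ^ 3 = 1) x
    have b2 : (3 : F) = 0 := by
      obtain ⟨v, hv⟩ := a.1.surjective (1, 0, 0)
      have := dedekind (n := 3) (a3 ▸ h3) ![(a.1 (a.1 (a.1 v)) - v).1, ((3 : F) • a.1 v).1, ((-3 : F) • a.1 (a.1 v)).1]
        (fun x => by
          have := congrArg Prod.fst (a2 (x • v))
          simp only [hψ, b1] at this
          simp [Fin.sum_univ_three, _root_.sq, Algebra.smul_def] at this ⊢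
          linear_combination this) 1
      simpa [hv] using this
    exact (not_three h hM hZ hr h3 hg ht a1 hψ e e' fun v => by
      simpa [b2, neg_add_eq_zero, eq_comm (a := v)] using a2 v).elim
  simpa using dedekind (n := 4) (by omega) ![-1, ((3 : F) • a.1 (1, 0, 0)).1, ((-3 : F) • a.1 (a.1 (1, 0, 0))).1,
    (a.1 (a.1 (a.1 (1, 0, 0)))).1] (ψ := ψ) (fun x => by
      have := congrArg Prod.fst (a2 (x • (1, 0, 0)))
      simp only [hψ] at this
      simp [Fin.sum_univ_four, pow_succ, Algebra.smul_def] at this ⊢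
      linear_combination this) 0

theorem mem_NS (hg : g ∈ M) : g ∈ NS Q := by
  haveI : Finite F := Finite.of_injective _ (algebraMap F K).injective
  haveI := Module.Finite.of_finite (R := F) (M := K)
  have := Fintype.ofFinite F
  obtain ⟨κ, hκ⟩ := exists_repr (Algebra.trace_ne_zero F K) l
  have κ0 : κ ≠ 0 := fun e => h.ne (LinearMap.ext (by simp [hκ, e]))
  let ξ := ((κ • polarBilin (qS K)).restrictScalars₁₂ F F).compr₂ (LinearMap.llcomp F _ _ _ (polarBilin Q) ∘ₗ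
    (Algebra.lsmul F F (K × K × K) (A := K)).toLinearMap)
  have a0 : ∀ x y z w, ξ x y z w = polar Q ((κ * polar (qS K) x y) • z) w := fun _ _ _ _ => rfl
  have a1 := avg4 (OG Q).subtype (M := M) (H := NS Q) ξ (fun k _ hk x y z w => by
    obtain ⟨ψ, hψ⟩ := exists_aut hk
    simp only [a0, Subgroup.coe_subtype]
    rw [← OG_polar k (_ • z), hψ, sub_eq_zero.mp (eq_zero (Algebra.trace_ne_zero F K)
      (k := κ * polar (qS K) (k.1 x) (k.1 y) - ψ (κ * polar (qS K) x y)) fun a => ?_)]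
    obtain ⟨a, rfl⟩ := ψ.surjective a
    rw [mul_sub, map_sub, ← map_mul, Algebra.trace_eq_of_algEquiv, mul_left_comm, mul_left_comm a, ← hκ, ← hκ,
      ← h.smul_left, ← h.smul_left, ← hψ, OG_polar, sub_self]) (fun δ H => ?_) hg
  · intro c
    refine ⟨κ * polar (qS K) (g.1 (c / κ, 0, 0)) (g.1 (0, 0, 1)), fun v => sub_eq_zero.mp (h.ndF _ fun w => ?_)⟩
    obtain ⟨w, rfl⟩ := g.1.surjective w
    have := a1 (c / κ, 0, 0) (0, 0, 1) v w
    simp only [a0, Subgroup.coe_subtype] at this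
    rw [polar_sub_left, this, OG_polar]
    simp [qS_polar, mul_div_cancel₀ _ κ0]
  let e := (finBasis F K).equivFun.symm
  have b1 := PD.linear e.toLinearMap
  have b2 : ∀ v : K × K × K, PD 1 fun c => e c • v := fun v =>
    (b1.map (Algebra.lsmul F F (K × K × K) (A := K)).toLinearMap).app (PD.const (d := 0) v)
  have b3 : ∀ v : K × K × K, PD 2 fun c => e c • e c • v := fun v =>
    (b1.map (Algebra.lsmul F F (K × K × K) (A := K)).toLinearMap).app (b2 v)
  let dg : K × K × K → ℕ → Prop := fun v d => PD d fun c => (X h (e c)).1 v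
  have b4 : ∀ v, dg v 2 := fun v => by
    convert ((PD.const v).add ((b2 (2 * v.2.1, v.2.2, 0)).mono one_le_two)).add (b3 (v.2.2, 0, 0)) using 2 with c
    ext <;> simp [X_apply] <;> ring
  have b5 : ∀ a b, dg (a, b, 0) 1 := fun a b => by
    convert (PD.const (a, b, 0)).add (b2 (2 * b, 0, 0)) using 2 with c
    ext <;> simp [X_apply]; ring
  have b6 : ∀ a, dg (a, 0, 0) 0 := fun a => by simpa [dg, X_apply] using PD.const (a, (0 : K), (0 : K))
  have b7 : ∀ k ∈ M, Lin k → ∀ x y z w d₁ d₂ d₃ d₄, dg x d₁ → dg y d₂ → dg z d₃ → dg w d₄ → d₁ + d₂ + d₃ + d₄ ≤ 5 →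
      δ (k.1 x) (k.1 y) (k.1 z) (k.1 w) = 0 := fun k hk hl x y z w d₁ d₂ d₃ d₄ c1 c2 c3 c4 c5 => by
    have c6 : ∀ {v d}, dg v d → PD d fun c => (OG Q).subtype (k * X h (e c) * k⁻¹) (k.1 v) := fun {v d} c => by
      simpa [OG_mul_apply, OG_inv_apply_apply] using c.map k.1.toLinearMap
    refine H _ (fun c => k * X h (e c) * k⁻¹) (fun c c' => ?_) (fun c => mul_mem (mul_mem hk (X_mem h hM _)) (inv_mem hk))
      (fun c => mul_mem (mul_mem hl.nk (lin_res h _).nk) (inv_mem (show k ∈ NS Q from hl.nk))) (fun c c0 g hg c7 => ?_)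
      _ _ _ _ _ _ _ _ (c6 c1) (c6 c2) (c6 c3) (c6 c4) ?_
    · rw [show X h (e (c + c')) = X h (e c) * X h (e c') from OG_ext fun v => by
        ext <;> simp [X_apply, OG_mul_apply] <;> ring]
      group
    · simpa using mul_mem (ti h hM hZ hr h3 (mul_mem hg hk) (e.map_ne_zero_iff.mpr c0) (by simpa [mul_assoc] using c7))
        (inv_mem (show k ∈ NS Q from hl.nk))
    · have := H12.odd_card_of_two_ne_zero h.two
      have := Fintype.one_lt_card (α := F)
      have : 2 ≤ Fintype.card F - 1 := by grind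
      nlinarith
  have b8 : ∀ k ∈ M, Lin k → ∀ x y z a, δ x y z (k.1 (a, 0, 0)) = 0 := fun k hk hl x y z a => by
    have c0 : ∀ v, ∃ a b c, v = k.1 (a, b, 0) + k.1 (0, 0, c) := fun v => by
      obtain ⟨v, rfl⟩ := k.1.surjective v
      exact ⟨v.1, v.2.1, v.2.2, by rw [← map_add]; simp⟩
    obtain ⟨x₁, x₂, x₃, rfl⟩ := c0 x
    obtain ⟨y₁, y₂, y₃, rfl⟩ := c0 y
    obtain ⟨z₁, z₂, z₃, rfl⟩ := c0 z
    have c1 := b7 _ (mul_mem hk (W_mem h hM 1)) (hl.mul (lin_W h 1)) _ _ _ _ _ _ _ _ (b6 x₃) (b6 y₃) (b6 z₃)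
      (b4 (0, 0, a)) (by omega)
    simp only [OG_mul_apply, W_apply h one_ne_zero, one_pow, one_mul, neg_zero, inv_one] at c1
    simp only [map_add, LinearMap.add_apply, c1, b7 k hk hl _ _ _ _ _ _ _ _ (b5 _ _) (b4 _) (b4 _) (b6 a) le_rfl,
      b7 k hk hl _ _ _ _ _ _ _ _ (b4 _) (b5 _ _) (b4 _) (b6 a) le_rfl,
      b7 k hk hl _ _ _ _ _ _ _ _ (b4 _) (b4 _) (b5 _ _) (b6 a) le_rfl, add_zero]
  refine LinearMap.ext fun x => LinearMap.ext fun y => LinearMap.ext fun z => LinearMap.ext fun w => ?_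
  have c1 := b8 1 (one_mem _) (fun _ _ => rfl) x y z (w.1 - w.2.1)
  have c2 := b8 _ (W_mem h hM 1) (lin_W h 1) x y z (w.2.2 - w.2.1)
  have c3 := b8 _ (Y_mem h hM 1) (lin_res h _) x y z w.2.1
  rw [show w = (1 : OG Q).1 (w.1 - w.2.1, 0, 0) + (W h 1).1 (w.2.2 - w.2.1, 0, 0) + (Y h 1).1 (w.2.1, 0, 0) by
    ext <;> simp [W_apply, Y_apply], map_add, map_add, c1, c2, c3]
  simp

end F3

variable {F V : Type*} [Field F] [AddCommGroup V] [Module F V] {Q : QuadraticForm F V}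
  {K : Type*} [Field K] [Algebra F K] [Module K V] [IsScalarTower F K V] {q : QuadraticForm K V}
  {l : Dual F K} {M : Subgroup (OG Q)} [FiniteDimensional K V] [Finite K]

theorem QF.Om_le3 (h : QF Q q l) (hM : ∀ g ∈ Om q, h.res g ∈ M) (hr : (finrank F K).Prime) (h3 : 3 ≤ finrank F K)
    (h4 : finrank K V = 3) {g : OG Q} (hg : g ∈ M) (hg' : ¬ H12.NK K g.1) : Om Q ≤ M := by
  obtain ⟨z, a1, a2⟩ := exists_singular q h4.ge
  obtain ⟨z', hp⟩ := h.nd.exists_hp a2 a1
  have a3 : finrank K (pp q z z') = 1 := by have := hp.finrank_pp; omega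
  have : Nontrivial (pp q z z') := Module.nontrivial_of_finrank_pos (R := K) (by omega)
  obtain ⟨s, hs⟩ := (hp.nd_pp h.nd).exists_ne_zero
  replace hs : q s ≠ 0 := hs
  let φ₀ : K × K × K →ₗ[K] V := (LinearMap.toSpanSingleton K V z).coprod ((LinearMap.toSpanSingleton K V s).coprod
    (LinearMap.toSpanSingleton K V (-q s • z')))
  have b0 : ∀ v, φ₀ v = v.1 • z + (v.2.2 * -q s) • z' + (v.2.1 • s : pp q z z') := fun v => by
    simp [φ₀, smul_smul]; abel
  have b2 : Function.Surjective φ₀ := fun v => by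
    obtain ⟨a, b, w, rfl⟩ := hp.exists_eq v
    obtain ⟨c, rfl⟩ := (finrank_eq_one_iff_of_nonzero' s (by rintro rfl; simp at hs)).mp a3 w
    exact ⟨(a, c, b / -q s), by rw [b0, div_mul_cancel₀ _ (neg_ne_zero.mpr hs)]⟩
  let φ := LinearEquiv.ofBijective φ₀
    ⟨(LinearMap.injective_iff_surjective_of_finrank_eq_finrank (by simp [h4])).mpr b2, b2⟩
  have b1 : ∀ v, q (φ v) = -q s * F3.qS K v := fun v => by
    rw [show φ v = φ₀ v from rfl, b0, hp.Q_comb, F3.qS_apply, Submodule.coe_smul, Q_smul]; ring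
  let sK := SemiSim.ofLinear φ _ (neg_ne_zero.mpr hs) b1
  let sF := SemiSim.ofIsometry (Q := Q.comp (φ.restrictScalars F).toLinearMap) (R := Q) (φ.restrictScalars F) fun _ => rfl
  have h' : QF (Q.comp (φ.restrictScalars F).toLinearMap) (F3.qS K) (l ∘ₗ LinearMap.mul F K (-q s)) :=
    ⟨sK.symm.nd h.nd, fun v => (h.map _).trans (congrArg l (b1 v)), fun e => h.ne (LinearMap.ext fun x => by
      simpa [mul_div_cancel₀ _ hs] using LinearMap.congr_fun e (-(x / q s))), h.two⟩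
  have hM' : ∀ g ∈ Om (F3.qS K), h'.res g ∈ M.comap sF.conj.toMonoidHom := fun g hg =>
    hM (sK.conj g) ((mem_commutator_equiv _ _).mpr hg)
  by_contra c
  refine hg' fun k => (F3.mem_NS h' hM' (fun g b1 b2 => by_contra fun b3 => c fun x hx => ?_) hr h3
    (g := sF.conj.symm g) (by simpa) k).imp fun k' e v => ?_
  · simpa using F3.le_of_Z h' hM' hr h3 b1 b3 b2 ((mem_commutator_equiv sF.conj.symm x).mpr hx)
  · obtain ⟨v, rfl⟩ := φ.surjective v
    have : φ.symm (g.1 (φ (k • v))) = k' • φ.symm (g.1 (φ v)) := e v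
    rwa [map_smul, ← map_smul φ.symm, φ.symm.injective.eq_iff] at this

open Cfsg.Geo Matrix in
theorem max_field3 {ι : Type} [Fintype ι] [DecidableEq ι] [Fintype F] {Q : (ι → F) → F}
    (hQ : IsNondegenerateQuadraticForm Q) (h2 : Odd (Fintype.card F)) {r : ℕ} (hr : r.Prime) (h3 : 3 ≤ r)
    (hn : 3 * r = Fintype.card ι) {K : Subalgebra F (Matrix ι ι F)} (hK : IsFieldSubalgebra r K)
    (h1 : IsSelfAdjointFor (polar Q) K) :
    IsMaximalIn (omegaGL Q) (subalgebraNormalizer K ⊓ omegaGL Q) := by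
  have : Nonempty ι := Fintype.card_pos_iff.mp (by omega)
  let := (isField_of_inv K hK.comm hK.inv).toField
  have a1 := finrank_mul_finrank F K (ι → F)
  rw [hK.finrank_eq, finrank_fintype_fun_eq_card] at a1
  obtain ⟨q, h⟩ := exists_QF (K := K) (nd_mkQ hQ) (two_ne_zero_iff_odd.mpr h2) fun k x y => h1 k k.2 x y
  refine max_omega hQ ((subalgebraNormalizer K).comap (jO hQ)) (fun _ => Iff.rfl)
    (omega_not_le_field hQ (by omega) hr.two_le hK) fun M c1 _ g c2 c3 => h.Om_le3 (fun t ht =>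
      c1 _ (h.res_mem ht) (H12.mem_normalizer_iff.mpr fun k => ⟨k, fun v => ?_⟩)) (hK.finrank_eq ▸ hr)
      (hK.finrank_eq ▸ h3) (by nlinarith) c2 fun b => c3 (H12.mem_normalizer_iff.mpr fun k => ?_)
  · simp only [H12.glEq_apply, jO_apply, ofOG_mulVec]
    exact t.1.map_smul k v
  · simpa only [H12.glEq_apply, jO_apply, ofOG_mulVec] using b k

end Cfsg.Agent.H18
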