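import Mathlib
import Cfsg.Agent.H18.FxD
import Cfsg.Agent.H18.FrE
import Cfsg.Agent.H18.OMxG

/-!
Special cases of stabilisers of non-degenerate subspaces in small dimension.
-/

set_option autoImplicit false

namespace Cfsg.Agent.H18

open Module QuadraticMap Cfsg.Geo

variable {ι : Type} [Fintype ι] [DecidableEq ι] {F : Type*} [Field F] [Fintype F] {Q : (ι → F) → F}
  (hQ : IsNondegenerateQuadraticForm Q) {W : Submodule F (ι → F)}
include hQ

theorem max_nd_odd (hn : 8 ≤ Fintype.card ι) (he : Even (Fintype.card ι)) (hq : Odd (Fintype.card F))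
    (h0 : W ≠ ⊥) (h1 : W ≠ ⊤) (h2 : Odd (finrank F W)) (hW : IsNondegenerateOn (polar Q) W)
    (hd : 2 * finrank F W = Fintype.card ι → ¬ AreIsometricFor Q W ((hform_of_quad hQ).perp W)) :
    IsMaximalIn (omegaGL Q) (subspaceStabilizer W ⊓ omegaGL Q) := by
  obtain ⟨a, ha⟩ := he
  obtain ⟨b, hb⟩ := hq
  obtain ⟨c, hc⟩ := h2
  have := Fintype.one_lt_card (α := F)
  refine max_nd' hQ hn h0 h1 hW hd (Or.inl (by omega)) ?_
  rintro ⟨-, U, a1, -, -, rfl | ⟨-, a2⟩⟩ <;> omega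

theorem max_nd_two (hn : 8 ≤ Fintype.card ι) (h2 : finrank F W = 2)
    (hW : IsNondegenerateOn (polar Q) W) (h : ¬ IsPlusTypeOn Q W ∨ 4 ≤ Fintype.card F) :
    IsMaximalIn (omegaGL Q) (subspaceStabilizer W ⊓ omegaGL Q) := by
  refine max_nd' hQ hn (by rintro rfl; simp at h2) (by rintro rfl; simp at h2; omega) hW (by omega)
    (by omega) ?_
  rintro ⟨a0, U, a1, -, a3, rfl | ⟨-, a2⟩⟩
  · exact h.elim (· a3) (by omega)
  · omega

theorem max_nd_four (h4 : finrank F W = 4) (hW : IsNondegenerateOn (polar Q) W)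
    (h : 10 ≤ Fintype.card ι ∨ (Fintype.card ι = 8 ∧ ¬ IsPlusTypeOn Q ⊤)) :
    IsMaximalIn (omegaGL Q) (subspaceStabilizer W ⊓ omegaGL Q) := by
  have h0 : W ≠ ⊥ := by rintro rfl; simp at h4
  refine max_nd' hQ (by omega) h0 (by rintro rfl; simp at h4; omega) hW (fun a1 a2 => ?_)
    (Or.inr (Or.inr (h.imp (by omega) fun h => ⟨h4, h⟩))) ?_
  · refine (h.resolve_left (by omega)).2 (plus_of_even hQ (t := 2)
      ⟨((hform_of_quad hQ).pair_decomp h0 hW a1).1, fun i j => ?_⟩ even_two (by omega))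
    fin_cases i <;> fin_cases j
    exacts [⟨.refl _ _, fun _ => rfl⟩, a2, AreIsometricFor.symm a2, ⟨.refl _ _, fun _ => rfl⟩]
  · rintro ⟨-, U, a1, -, -, rfl | ⟨-, a2⟩⟩ <;> omega

theorem max_noniso (hn : 8 ≤ Fintype.card ι) (hq : Odd (Fintype.card F)) {k : ℕ} (hk : Odd k)
    {D : Fin 2 → Submodule F (ι → F)} (hD : IsNondegenerateMDecomposition (polar Q) k D)
    (hni : ¬ AreIsometricFor Q (D 0) (D 1)) :
    IsMaximalIn (omegaGL Q) (decompositionStabilizer D ⊓ omegaGL Q) := by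
  have hf := hform_of_quad hQ
  have h0 := hD.decomp.finrank_eq
  have h5 := card_eq_of_isMDecomposition hD.decomp
  have h1 : D 1 = hf.perp (D 0) := Submodule.eq_of_le_of_finrank_eq
    (fun x hx y hy => hD.orthogonal 1 0 (by simp) x hx y hy) (by
      have := (hf.finrank_perp (hD.nondegenerate 0)).1
      simp [h0] at this ⊢; omega)
  have h2 : D 0 ≠ ⊥ := fun h => by have := h0 0; rw [h] at this; simp at this; omega
  have h3 : D = ![D 0, hf.perp (D 0)] := by ext1 i; fin_cases i; exacts [rfl, h1]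
  have h4 : decompositionStabilizer D ⊓ omegaGL Q = subspaceStabilizer (D 0) ⊓ omegaGL Q := by
    refine le_antisymm (fun g hg => ⟨?_, hg.2⟩) fun g hg => ⟨?_, hg.2⟩
    swap
    · obtain ⟨⟨σ, a1⟩, a2⟩ := hg
      have a3 : σ 0 = 0 := by
        by_contra a3
        have a4 := a1 0
        rw [show σ 0 = 1 by omega] at a4
        exact hni (areIsometric_of_map (omegaGL_le a2) a4)
      obtain ⟨k, -, rfl⟩ := exists_ofOG hQ a2
      have a4 := a1 0
      rw [a3, toLin'_ofOG] at a4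
      exact (ofOG_mem_stab hQ k).mpr (mem_stO_iff_map.mpr a4)
    · rw [h3]
      exact (hf.pair_decomp h2 (hD.nondegenerate 0) (by rw [h0]; omega)).2
        ⟨isoG_le_sim _ (omegaGL_le_isoG hg.2), hg.1⟩
  rw [h4]
  exact max_nd_odd hQ hn ⟨k, by omega⟩ hq h2
    (fun h => by have := h0 0; rw [h] at this; simp at this; omega) (h0 0 ▸ hk) (hD.nondegenerate 0)
    fun _ => h1 ▸ hni

end Cfsg.Agent.H18
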