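import Cfsg.Agent.H18.Frame

/-! The normaliser of a cubic field in `SL₃(4)` lies in a subfield subgroup. -/

set_option autoImplicit false
set_option synthInstance.maxSize 4096

namespace Cfsg.Agent.H18

open Cfsg.Geo
open scoped MatrixGroups Matrix Kronecker

variable {ι : Type} [Fintype ι] [DecidableEq ι] {F : Type*} [Field F]

lemma mat_eq_trans {κ : Type} [Fintype κ] [DecidableEq κ] {e : ι ≃ κ} {P : GL ι F}
    {Y : Matrix ι ι F} {X : Matrix κ κ F}
    (h : ∀ c : κ → F, Y *ᵥ ((P : Matrix ι ι F) *ᵥ (c ∘ e)) = (P : Matrix ι ι F) *ᵥ ((X *ᵥ c) ∘ e)) :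
    Y = trans e P X := by
  apply Matrix.toLin'.injective
  refine LinearMap.ext fun v => ?_
  obtain ⟨c, rfl⟩ := exists_eq_mulVec_comp e P v
  rw [Matrix.toLin'_apply, Matrix.toLin'_apply, h, trans_mulVec]

lemma cj_inv_trans {κ : Type} [Fintype κ] [DecidableEq κ] (e : ι ≃ κ) (P : GL ι F)
    (X : Matrix κ κ F) (i j : ι) : cj P⁻¹ (trans e P X) i j = X (e i) (e j) := by
  rw [trans_apply, cj_inv_cj]; rfl

lemma exists_root_cubic [Fintype F] [Nonempty ι] (h : Fintype.card F = 4)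
    {K : Subalgebra F (Matrix ι ι F)} (hK : IsFieldSubalgebra 3 K) :
    ∃ k ∈ K, k ^ 3 = k + 1 ∧ ∀ y ∈ K, y ^ 3 = y + 1 → y = k ∨ y = k ^ 2 ∨ y = k ^ 4 := by
  let _ : Field K := (isField_of_inv K hK.comm hK.inv).toField
  have h2 : (2 : F) = 0 := by
    have h4 : (2 : F) ^ 2 = 0 := by
      have := FiniteField.cast_card_eq_zero F
      rw [h] at this; linear_combination this
    exact pow_eq_zero_iff two_ne_zero |>.mp h4
  have h2K : (2 : K) = 0 := by rw [← map_ofNat (algebraMap F K) 2, h2, map_zero]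
  have hc : Nat.card K = 64 := by
    rw [Module.natCard_eq_pow_finrank (K := F), hK.finrank_eq, Nat.card_eq_fintype_card, h]; rfl
  have : Fact (Nat.Prime 7) := ⟨by decide⟩
  obtain ⟨u, hu⟩ := exists_prime_orderOf_dvd_card' (G := Kˣ) 7 (by rw [Nat.card_units, hc]; decide)
  have h7 : (u : K) ^ 7 = 1 := by rw [← Units.val_pow_eq_pow_val, ← hu, pow_orderOf_eq_one]; rfl
  have h1 : (u : K) - 1 ≠ 0 := fun h0 => by
    rw [Units.ext (sub_eq_zero.mp h0 : (u : K) = (1 : Kˣ)), orderOf_one] at hu; omega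
  obtain ⟨k, hk⟩ : ∃ k : K, k ^ 3 = k + 1 := by
    have h3 : ((u : K) - 1) * (((u : K) ^ 3 - u - 1) * (((u : K) + 1) ^ 3 - (u + 1) - 1)) = 0 := by
      linear_combination h7 + ((u : K) ^ 6 - u ^ 5 - 3 * u ^ 4 + 2 * u ^ 2 + u) * h2K
    rcases mul_eq_zero.mp ((mul_eq_zero.mp h3).resolve_left h1) with h4 | h4
    · exact ⟨u, by linear_combination h4⟩
    · exact ⟨u + 1, by linear_combination h4⟩
  refine ⟨k, k.2, congrArg Subtype.val hk, fun y hy h3 => ?_⟩
  have h4 : (⟨y, hy⟩ : K) ^ 3 = ⟨y, hy⟩ + 1 := Subtype.ext h3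
  generalize hz : (⟨y, hy⟩ : K) = z at h4
  have h5 : (z - k) * ((z - k ^ 2) * (z - k ^ 4)) = 0 := by
    linear_combination h4 + (-k * z ^ 2 + (k ^ 3 + k ^ 2 + k + 3) * z - (k ^ 4 + k ^ 2 + k + 1)) * hk
      + (-(k ^ 2 + k) * z ^ 2 + (k ^ 2 + 2 * k + 2) * z - (k ^ 2 + k)) * h2K
  rcases mul_eq_zero.mp h5 with h6 | h6
  · exact Or.inl (congrArg Subtype.val (hz.trans (sub_eq_zero.mp h6)))
  · rcases mul_eq_zero.mp h6 with h6 | h6
    · exact Or.inr (Or.inl (congrArg Subtype.val (hz.trans (sub_eq_zero.mp h6))))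
    · exact Or.inr (Or.inr (congrArg Subtype.val (hz.trans (sub_eq_zero.mp h6))))

lemma F4_cubic : ∀ x : F4, x ^ 3 ≠ x + 1 := by decide +kernel

lemma F4_det : ∀ a b c : F4, a * (a + c) * (a + c) - a * (b + c) * b - c * b * (a + c) +
    c * (b + c) * c + b * b * b - b * (a + c) * c = 1 → ∃ z : F4, z ≠ 0 ∧ (z * a = 0 ∨ z * a = 1) ∧
    (z * b = 0 ∨ z * b = 1) ∧ (z * c = 0 ∨ z * c = 1) := by decide +kernel

/-- companion matrix -/
def C3 (F : Type*) [Field F] : Matrix (Fin 3) (Fin 3) F := !![0, 0, 1; 1, 0, 1; 0, 1, 0]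

/-- Frobenius map -/
def Phi3 (F : Type*) [Field F] : Matrix (Fin 3) (Fin 3) F := !![1, 0, 0; 0, 0, 1; 0, 1, 1]

theorem SL3_cubic [Fintype F] (h : Fintype.card F = 4) (hn : Fintype.card ι = 3)
    {K : Subalgebra F (Matrix ι ι F)} (hK : IsFieldSubalgebra 3 K) {H : Subgroup (GL ι F)}
    (hH : H ≤ subalgebraNormalizer K) (hS : H ≤ specialLinear ι F) : InC5 H := by
  have : Nonempty ι := Fintype.card_pos_iff.mp (by omega)
  obtain ⟨φ⟩ := exists_equiv_F4 h
  have h2 : (2 : F) = 0 := by rw [← map_ofNat φ 2, show (2 : F4) = 0 by decide, map_zero]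
  have hroot : ∀ x : F, x ^ 3 ≠ x + 1 := fun x hx => F4_cubic (φ.symm x) (by
    simpa using congrArg φ.symm hx)
  obtain ⟨k, hk, hk3, hk'⟩ := exists_root_cubic h hK
  obtain ⟨i₀⟩ := ‹Nonempty ι›
  set v : ι → F := Pi.single i₀ 1
  have hv : v ≠ 0 := fun h0 => by simpa [v] using congrFun h0 i₀
  have hns : ∀ a b : F, a • (1 : Matrix ι ι F) + b • k = 0 → a = 0 ∧ b = 0 := by
    intro a b hab
    by_cases hb : b = 0
    · subst hb; simpa using hab
    · exfalso
      have h3 : k = (-a / b) • 1 := by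
        rw [div_eq_inv_mul, mul_smul, eq_inv_smul_iff₀ hb, neg_smul]
        exact eq_neg_of_add_eq_zero_right hab
      apply hroot (-a / b)
      rw [h3, smul_pow, one_pow] at hk3
      simpa using congrFun (congrFun hk3 i₀) i₀
  have hli : LinearIndependent F ![v, k *ᵥ v, (k * k) *ᵥ v] := by
    rw [Fintype.linearIndependent_iff]
    intro c hc
    have h3 : c 0 • (1 : Matrix ι ι F) + c 1 • k + c 2 • (k * k) = 0 := by
      by_contra h0
      obtain ⟨y, hy, h4⟩ := hK.inv _ (add_mem (add_mem (K.smul_mem (one_mem _) _) (K.smul_mem hk _))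
        (K.smul_mem (mul_mem hk hk) _)) h0
      apply hv
      rw [← Matrix.one_mulVec v, ← h4, hK.comm _ (add_mem (add_mem (K.smul_mem (one_mem _) _)
        (K.smul_mem hk _)) (K.smul_mem (mul_mem hk hk) _)) _ hy, ← Matrix.mulVec_mulVec]
      simp only [Fin.sum_univ_three] at hc
      simp only [Matrix.add_mulVec, Matrix.smul_mulVec, Matrix.one_mulVec]
      rw [show c 0 • v + c 1 • k *ᵥ v + c 2 • (k * k) *ᵥ v = 0 from hc, Matrix.mulVec_zero]
    have h4 : c 2 = 0 := by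
      by_contra h0
      have h5 : k * k = (-c 0 / c 2) • 1 + (-c 1 / c 2) • k := by
        rw [div_eq_inv_mul, div_eq_inv_mul, mul_smul, mul_smul, ← smul_add, eq_inv_smul_iff₀ h0,
          neg_smul, neg_smul, ← neg_add]
        exact eq_neg_of_add_eq_zero_right h3
      generalize -c 0 / c 2 = a at h5
      generalize -c 1 / c 2 = b at h5
      rw [pow_succ, sq, h5, add_mul, Matrix.smul_mul, Matrix.smul_mul, h5, one_mul] at hk3
      obtain ⟨h6, h7⟩ := hns (a * b - 1) (a + b * b - 1) (by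
        rw [← sub_eq_zero] at hk3; rw [← hk3]; module)
      exact hroot b (by linear_combination b * h7 - h6 - h2)
    rw [h4, zero_smul, add_zero] at h3
    obtain ⟨h5, h6⟩ := hns _ _ h3
    intro i; fin_cases i <;> assumption
  obtain ⟨e, P, hP⟩ := exists_eP_of_basis
    (basisOfLinearIndependentOfCardEqFinrank hli (by simp [hn]))
  have hkC : k = trans e P (C3 F) := mat_eq_trans fun c => by
    rw [hP, hP]
    have : k *ᵥ k *ᵥ k *ᵥ v = k *ᵥ v + v := by
      rw [Matrix.mulVec_mulVec, Matrix.mulVec_mulVec, ← sq, ← pow_succ, hk3, Matrix.add_mulVec,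
        Matrix.one_mulVec]
    simp only [Fin.sum_univ_three, coe_basisOfLinearIndependentOfCardEqFinrank, Matrix.mulVec_add,
      Matrix.mulVec_smul, ← Matrix.mulVec_mulVec, Matrix.cons_val, this]
    simp [C3, Matrix.mulVec, dotProduct, Fin.sum_univ_three]
    module
  have : Fact (Nat.Prime 2) := ⟨Nat.prime_two⟩
  have : CharP F 2 := charP_of_card_eq_prime_pow (p := 2) (f := 2) h
  obtain ⟨F₀, h0, -⟩ := exists_subfield_pow (d := 1) Nat.prime_two h one_pos one_lt_two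
  obtain ⟨F₁, r, -, hr, hc⟩ := exists_prime_index_subfield F₀ h0
  refine ⟨F₁, r, P, hr, hc, fun g hg => mem_subfieldSubgroup_iff.mpr ?_⟩
  have key : ∀ X : Matrix (Fin 3) (Fin 3) F, X * C3 F = C3 F * X → X.det = 1 →
      ∃ ζ : F, ζ ≠ 0 ∧ ∀ i j, ζ * X i j ∈ F₁ := by
    intro X hX hd
    have e1 := fun i j => congrFun (congrFun hX i) j
    have a1 := e1 0 0; have a2 := e1 1 0; have a3 := e1 2 0
    have a4 := e1 0 1; have a5 := e1 1 1; have a6 := e1 2 1
    simp [C3, Matrix.mul_apply, Fin.sum_univ_three] at a1 a2 a3 a4 a5 a6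
    rw [Matrix.det_fin_three, a4, a5, a6, a1, a2, a3, add_comm (X 2 0) (X 1 0)] at hd
    obtain ⟨z, hz, b1, b2, b3⟩ := F4_det (φ.symm (X 0 0)) (φ.symm (X 1 0)) (φ.symm (X 2 0)) (by
      simpa using congrArg φ.symm hd)
    have hm : ∀ x : F, z * φ.symm x = 0 ∨ z * φ.symm x = 1 → φ z * x ∈ F₁ := by
      rintro x (hx | hx)
      · rw [show φ z * x = 0 by simpa using congrArg φ hx]; exact zero_mem _
      · rw [show φ z * x = 1 by simpa using congrArg φ hx]; exact one_mem _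
    have c1 := hm _ b1; have c2 := hm _ b2; have c3 := hm _ b3
    refine ⟨φ z, by simpa using hz, fun i j => ?_⟩
    fin_cases i <;> fin_cases j <;>
      simp only [Fin.zero_eta, Fin.mk_one, Fin.reduceFinMk, a4, a5, a6, a1, a2, a3, mul_add] <;>
      first | assumption | exact add_mem ‹_› ‹_›
  have hΦ : ∀ i j, Phi3 F i j ∈ F₁ := fun i j => by
    fin_cases i <;> fin_cases j <;> simp [Phi3]
  have hmul : ∀ (ζ : F) (X : Matrix (Fin 3) (Fin 3) F), (∀ i j, ζ * X i j ∈ F₁) →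
      ∀ i j, ζ * (Phi3 F * X) i j ∈ F₁ := fun ζ X hX i j => by
    rw [Matrix.mul_apply, Finset.mul_sum]
    exact sum_mem fun l _ => by rw [mul_left_comm]; exact mul_mem (hΦ _ _) (hX _ _)
  have p1 : (Phi3 F).det = 1 := by
    simp [Phi3, Matrix.det_fin_three]; linear_combination -h2
  have p3 : Phi3 F * (Phi3 F * Phi3 F) = 1 := by
    ext i j
    fin_cases i <;> fin_cases j <;> simp [Phi3, Matrix.mul_apply, Fin.sum_univ_three] <;>
      linear_combination h2
  have p4 : Phi3 F * Phi3 F * C3 F ^ 2 = C3 F * (Phi3 F * Phi3 F) := by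
    ext i j
    fin_cases i <;> fin_cases j <;> simp [Phi3, C3, sq, Matrix.mul_apply, Fin.sum_univ_three] <;>
      first | linear_combination h2 | linear_combination -h2
  have p5 : Phi3 F * C3 F ^ 4 = C3 F * Phi3 F := by
    ext i j
    fin_cases i <;> fin_cases j <;>
      simp [Phi3, C3, pow_succ, Matrix.mul_apply, Fin.sum_univ_three] <;>
      first | linear_combination h2 | linear_combination -h2
  obtain ⟨s, hs⟩ := (trans e P).surjective g
  have hd : s.det = 1 := by rw [← det_trans e P, hs]; exact mem_specialLinear.mp (hS hg)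
  have hj : ∀ j : ℕ, cj g k = k ^ j → s * C3 F = C3 F ^ j * s := fun j hj => by
    apply (trans e P).injective
    rw [map_mul, map_mul, map_pow, ← hkC, hs]; exact (cj_eq_iff _ _ _).mp hj
  rw [← hs]
  simp only [cj_inv_trans]
  suffices h3 : ∃ ζ : F, ζ ≠ 0 ∧ ∀ i j, ζ * s i j ∈ F₁ by
    obtain ⟨ζ, h3, h4⟩ := h3; exact ⟨ζ, h3, fun i j => h4 _ _⟩
  rcases hk' (cj g k) ((mem_subalgebraNormalizer.mp (hH hg) k).mp hk)
    (by rw [← map_pow, hk3, map_add, map_one]) with h3 | h3 | h3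
  · exact key s (by simpa using hj 1 (by simpa using h3)) hd
  · obtain ⟨ζ, h4, h5⟩ := key (Phi3 F * Phi3 F * s) (by
      rw [mul_assoc, hj 2 h3, ← mul_assoc, p4, mul_assoc]) (by simp [p1, hd])
    exact ⟨ζ, h4, by simpa only [← mul_assoc _ _ s, p3, one_mul] using hmul ζ _ h5⟩
  · obtain ⟨ζ, h4, h5⟩ := key (Phi3 F * s) (by
      rw [mul_assoc, hj 4 h3, ← mul_assoc, p5, mul_assoc]) (by simp [p1, hd])
    have := hmul ζ _ (hmul ζ _ h5)
    rw [← mul_assoc _ _ s, ← mul_assoc _ _ s, p3, one_mul] at this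
    exact ⟨ζ, h4, this⟩

lemma frame_SL4 [Fintype F] {H : Subgroup (GL ι F)} (hH : IsMaximalIn (specialLinear ι F) H)
    {D : Fin 4 → Submodule F (ι → F)} (hD : IsMDecomposition 1 D)
    (h : H = decompositionStabilizer D ⊓ specialLinear ι F) (h5 : 5 ≤ Fintype.card F) :
    7 ≤ Fintype.card F := by
  have := card_ne_six (F := F)
  have : Fintype.card F ≠ 5 := fun h0 => SL4_frame h0 hH hD (h.le.trans inf_le_left)
  omega

end Cfsg.Agent.H18
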