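import Cfsg.Agent.H18.SuMax
import Cfsg.Agent.H18.SL34

/-! Coordinate models of formed spaces over small explicit fields. -/

set_option autoImplicit false

namespace Cfsg.Agent.H18

open Cfsg.Geo
open scoped MatrixGroups Matrix

variable {ι : Type} [Fintype ι] [DecidableEq ι] {F : Type*} [Field F]
  {κ : Type} [Fintype κ] [DecidableEq κ] {R : Type} [Field R]

lemma false_of_pred {G : Type*} [Group G] [Finite G] {G₀ H : Subgroup G} (hH : IsMaximalIn G₀ H)
    (p : G → Prop) (p1 : p 1) (pm : ∀ a b, p a → p b → p (a * b)) (h1 : ∀ g ∈ H, p g)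
    {a b : G} (ha : a ∈ G₀) (ha' : ¬ p a) (hb : b ∈ G₀) (hb' : p b) (hb'' : b ∉ H) : False := by
  let S : Submonoid G := ⟨⟨{g | p g}, fun {x y} => pm x y⟩, p1⟩
  let K : Subgroup G := ⟨S, fun {x} hx => by
    have h := pow_mem (show x ∈ S from hx) (orderOf x - 1)
    rwa [show x ^ (orderOf x - 1) = x⁻¹ from eq_inv_of_mul_eq_one_left (by
      rw [← pow_succ, Nat.sub_add_cancel (orderOf_pos x), pow_orderOf_eq_one])] at h⟩
  exact false_of_overgroup hH le_rfl (K := K) h1 (fun h => ha' (h ha)) hb hb' hb''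

/-- a model of the space with form `f` over the explicit field `R` -/
structure Md (σ : F →+* F) (f : (ι → F) → (ι → F) → F) (φ : R ≃+* F) (τ : R → R)
    (G : Matrix κ κ R) where
  e : ι ≃ κ
  P : GL ι F
  conj : ∀ x, σ (φ x) = φ (τ x)
  form : ∀ x y : κ → F, f ((P : Matrix ι ι F) *ᵥ (x ∘ e)) ((P : Matrix ι ι F) *ᵥ (y ∘ e)) =
    frm σ (G.map φ) x y

/-- the model form -/
def fm (τ : R → R) (G : Matrix κ κ R) (x y : κ → R) : R := x ⬝ᵥ (G *ᵥ (τ ∘ y))

namespace Md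

variable {σ : F →+* F} {f : (ι → F) → (ι → F) → F} {φ : R ≃+* F} {τ : R → R} {G : Matrix κ κ R}
  (m : Md σ f φ τ G)

/-- vectors from coordinates -/
def vec (x : κ → R) : ι → F := (m.P : Matrix ι ι F) *ᵥ ((φ ∘ x) ∘ m.e)

/-- matrices from coordinates -/
def mat : Matrix κ κ R ≃+* Matrix ι ι F := φ.mapMatrix.trans (trans m.e m.P).toRingEquiv

lemma mat_apply (X : Matrix κ κ R) : m.mat X = trans m.e m.P (X.map φ) := rfl

lemma exists_vec (v : ι → F) : ∃ x, v = m.vec x := by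
  obtain ⟨c, rfl⟩ := exists_eq_mulVec_comp m.e m.P v
  exact ⟨φ.symm ∘ c, by unfold vec; congr 2; ext; simp⟩

lemma vec_inj {x y : κ → R} (h : m.vec x = m.vec y) : x = y := by
  have := congrArg (fun v => ((m.P⁻¹ : GL ι F) : Matrix ι ι F) *ᵥ v) h
  simp only [vec, inv_mulVec_mulVec] at this
  ext k
  simpa using congrFun this (m.e.symm k)

lemma vec_add (x y : κ → R) : m.vec (x + y) = m.vec x + m.vec y := by
  unfold vec; rw [← Matrix.mulVec_add]; congr 1; ext; simp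

lemma vec_smul (c : R) (x : κ → R) : m.vec (c • x) = φ c • m.vec x := by
  unfold vec; rw [← Matrix.mulVec_smul]; congr 1; ext; simp

lemma vec_zero : m.vec 0 = 0 := by simpa using m.vec_smul 0 0

lemma mat_mulVec (X : Matrix κ κ R) (x : κ → R) : m.mat X *ᵥ m.vec x = m.vec (X *ᵥ x) := by
  unfold vec
  rw [mat_apply, trans_mulVec]
  congr 2
  ext k
  exact ((φ : R →+* F).map_mulVec X x k).symm

lemma mat_eq {Y : Matrix ι ι F} {X : Matrix κ κ R}
    (h : ∀ k, Y *ᵥ m.vec (Pi.single k 1) = m.vec (X *ᵥ Pi.single k 1)) : Y = m.mat X := by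
  obtain ⟨Z, rfl⟩ := m.mat.surjective Y
  congr 1
  ext i k
  have := congrFun (m.vec_inj ((m.mat_mulVec _ _).symm.trans (h k))) i
  simpa using this

lemma mat_smul (c : R) (X : Matrix κ κ R) : m.mat (c • X) = φ c • m.mat X := by
  rw [mat_apply, mat_apply, ← map_smul]; congr 1; ext; simp

lemma det_mat (X : Matrix κ κ R) : (m.mat X).det = φ X.det := by
  rw [mat_apply, det_trans]; exact ((φ : R →+* F).map_det X).symm

lemma trace_mat (X : Matrix κ κ R) : (m.mat X).trace = φ X.trace := by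
  rw [mat_apply, trans_apply, cj_apply, Matrix.trace_units_conj]
  simp only [Matrix.trace, Matrix.diag, Matrix.submatrix_apply, Matrix.map_apply, map_sum]
  exact Equiv.sum_comp m.e fun k => φ (X k k)

lemma form_vec (x y : κ → R) : f (m.vec x) (m.vec y) = φ (fm τ G x y) := by
  unfold vec
  rw [m.form, frm_eq_sum]
  simp [fm, dotProduct, Matrix.mulVec, Finset.mul_sum, m.conj, mul_assoc]

include m in
lemma map_gram (X : Matrix κ κ R) : (Xᵀ * G * X.map τ).map φ =
    (X.map φ)ᵀ * G.map φ * (X.map φ).map σ := by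
  ext i j
  simp [Matrix.mul_apply, m.conj]

lemma mem_isoG {g : GL ι F} {X : Matrix κ κ R} (h : (g : Matrix ι ι F) = m.mat X) :
    g ∈ isoG f ↔ Xᵀ * G * X.map τ = G := by
  rw [H18.mem_isoG, ← (Matrix.map_injective φ.injective).eq_iff]
  simp only [m.map_gram]
  constructor
  · intro h1
    refine frm_inj (σ := σ) fun u v => ?_
    rw [← frm_mulVec_mulVec, ← m.form, ← m.form, ← trans_mulVec, ← trans_mulVec, ← mat_apply, ← h,
      h1]
  · intro h1 u v
    obtain ⟨x, rfl⟩ := exists_eq_mulVec_comp m.e m.P u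
    obtain ⟨y, rfl⟩ := exists_eq_mulVec_comp m.e m.P v
    rw [h, mat_apply, trans_mulVec, trans_mulVec, m.form, m.form, frm_mulVec_mulVec, h1]

lemma exists_GL {X : Matrix κ κ R} (h : X.det = 1) :
    ∃ g ∈ specialLinear ι F, (g : Matrix ι ι F) = m.mat X :=
  have h1 : (m.mat X).det = 1 := by rw [det_mat, h, map_one]
  ⟨Matrix.GeneralLinearGroup.mkOfDetNeZero _ (h1 ▸ one_ne_zero), mem_specialLinear.mpr h1, rfl⟩

variable [Finite F] {H : Subgroup (GL ι F)}

theorem false_of {G₀ : Subgroup (GL ι F)} (hH : IsMaximalIn G₀ H)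
    (hG : isoG f ⊓ specialLinear ι F ≤ G₀) (p : Matrix κ κ R → Prop)
    (p1 : p 1) (pm : ∀ X Y, p X → p Y → p (X * Y))
    (h1 : ∀ g ∈ H, ∀ X, (g : Matrix ι ι F) = m.mat X → p X)
    {A B : Matrix κ κ R} (a1 : Aᵀ * G * A.map τ = G) (a2 : A.det = 1) (a3 : ¬ p A)
    (b1 : Bᵀ * G * B.map τ = G) (b2 : B.det = 1) (b3 : p B)
    (b4 : ∀ g ∈ H, (g : Matrix ι ι F) ≠ m.mat B) : False := by
  obtain ⟨a, a4, a5⟩ := m.exists_GL a2
  obtain ⟨b, b5, b6⟩ := m.exists_GL b2
  refine false_of_pred hH (fun g => p (m.mat.symm g)) (by simpa using p1)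
    (fun x y hx hy => by simpa using pm _ _ hx hy) (fun g hg => h1 g hg _ (by simp))
    (hG ⟨(m.mem_isoG a5).mpr a1, a4⟩) (by simpa [a5] using a3)
    (hG ⟨(m.mem_isoG b6).mpr b1, b5⟩) (by simpa [b6] using b3) fun h => b4 b h b6

theorem false_set {G₀ : Subgroup (GL ι F)} (hH : IsMaximalIn G₀ H)
    (hG : isoG f ⊓ specialLinear ι F ≤ G₀) (S : (κ → R) → Prop)
    (h1 : ∀ g ∈ H, ∀ X, (g : Matrix ι ι F) = m.mat X → ∀ x, S x → S (X *ᵥ x))
    {A B : Matrix κ κ R} (a1 : Aᵀ * G * A.map τ = G) (a2 : A.det = 1) {x : κ → R} (a3 : S x)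
    (a4 : ¬ S (A *ᵥ x)) (b1 : Bᵀ * G * B.map τ = G) (b2 : B.det = 1)
    (b3 : ∀ x, S x → S (B *ᵥ x)) (b4 : ∀ g ∈ H, (g : Matrix ι ι F) ≠ m.mat B) : False :=
  m.false_of hH hG (fun X => ∀ x, S x → S (X *ᵥ x)) (fun x hx => by rwa [Matrix.one_mulVec])
    (fun X Y hX hY x hx => by rw [← Matrix.mulVec_mulVec]; exact hX _ (hY _ hx)) h1 a1 a2
    (fun h => a4 (h _ a3)) b1 b2 b3 b4

end Md

variable {σ : F →+* F} {ε : F} {f : (ι → F) → (ι → F) → F} {φ : R ≃+* F} {τ : R → R}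
  {G : Matrix κ κ R}

/-- the model attached to a basis -/
def Sesq.md (hf : Sesq σ f) (hτ : ∀ x, σ (φ x) = φ (τ x)) {v : κ → ι → F}
    (hv : ∀ i j, f (v i) (v j) = φ (G i j)) (e : ι ≃ κ) (P : GL ι F)
    (hP : ∀ c : κ → F, (P : Matrix ι ι F) *ᵥ (c ∘ e) = ∑ k, c k • v k) : Md σ f φ τ G where
  e := e
  P := P
  conj := hτ
  form x y := by
    rw [hP, hP, hf.sum_left, frm_eq_sum]
    refine Finset.sum_congr rfl fun i _ => ?_
    rw [hf.sum_right]
    refine Finset.sum_congr rfl fun j _ => ?_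
    rw [hf.smul_left, hf.smul_right, hv, Matrix.map_apply]; ring

theorem Sesq.exists_md (hf : Sesq σ f) (hτ : ∀ x, σ (φ x) = φ (τ x)) {v : κ → ι → F}
    (hv : ∀ i j, f (v i) (v j) = φ (G i j)) {G' : Matrix κ κ R} (hG : G * G' = 1)
    (hc : Fintype.card κ = Fintype.card ι) :
    ∃ m : Md σ f φ τ G, ∀ k, m.vec (Pi.single k 1) = v k := by
  have hli : LinearIndependent F v := by
    rw [Fintype.linearIndependent_iff]
    intro c hc
    have h1 : c ᵥ* G.map φ = 0 := by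
      ext j
      have := hf.zero_left (v j)
      rw [← hc, hf.sum_left] at this
      simpa [Matrix.vecMul, dotProduct, hf.smul_left, hv] using this
    have h2 : G.map φ * G'.map φ = 1 := by
      rw [← Matrix.map_mul (f := φ), hG]; simp
    have h3 : c = 0 := by rw [← Matrix.vecMul_one c, ← h2, ← Matrix.vecMul_vecMul, h1]; simp
    exact congrFun h3
  rcases isEmpty_or_nonempty κ with h0 | h0
  · have : IsEmpty ι := Fintype.card_eq_zero_iff.mp (by rw [← hc]; simp)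
    exact ⟨hf.md hτ hv (Equiv.equivOfIsEmpty _ _) 1 fun _ => Subsingleton.elim _ _,
      fun k => h0.elim k⟩
  obtain ⟨e, P, hP⟩ := exists_eP_of_basis
    (basisOfLinearIndependentOfCardEqFinrank hli (by simp [hc]))
  simp only [coe_basisOfLinearIndependentOfCardEqFinrank] at hP
  refine ⟨hf.md hτ hv e P hP, fun k => (hP _).trans ?_⟩
  rw [Finset.sum_eq_single k (fun j _ hj => by simp [hj]) (by simp)]
  simp

theorem HForm.exists_md_frame [Finite F] (hf : HForm σ 1 f) (hσ : σ ≠ RingHom.id F)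
    (hτ : ∀ x, σ (φ x) = φ (τ x)) {t : ℕ} {D : Fin t → Submodule F (ι → F)}
    (hD : IsNondegenerateMDecomposition f 1 D) :
    ∃ m : Md σ f φ τ (1 : Matrix (Fin t) (Fin t) R), ∀ g ∈ decompositionStabilizer D, ∀ X,
      (g : Matrix ι ι F) = m.mat X → ∃ ρ d, X = monMat ρ d := by
  obtain ⟨v, h1, h2⟩ := hf.exists_unit_frame hσ hD
  obtain ⟨e, P, h3, -, h4⟩ := exists_frame hD.decomp v h1 fun i h => by
    have := h2 i i
    rw [h, hf.zero_left] at this; simp at this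
  refine ⟨hf.toSesq.md hτ (v := v) (fun i j => by rw [h2, Matrix.one_apply]; split_ifs <;> simp)
    e P h3, fun g hg X hX => ?_⟩
  obtain ⟨ρ, d, -, h5⟩ := h4 g hg
  refine ⟨ρ, φ.symm ∘ d, ?_⟩
  have h6 : X.map φ = monMat ρ d := (trans e P).injective (hX.symm.trans h5)
  ext i j
  apply φ.injective
  have := congrFun (congrFun h6 i) j
  simp only [monMat, Matrix.map_apply, Matrix.of_apply] at this ⊢
  rw [this]; split_ifs <;> simp

lemma det_eq_one_of_pow {X : Matrix κ κ R} {n : ℕ} (h : X ^ n = 1) (h1 : ∀ d : R, d ^ n = 1 → d = 1) :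
    X.det = 1 := h1 _ (by rw [← Matrix.det_pow, h, Matrix.det_one])

end Cfsg.Agent.H18
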