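import Cfsg.Agent.H18.MdA

/-! Frame stabilisers in `SU₆(2)` and `SU₄(3)` are not maximal. -/

set_option autoImplicit false
set_option synthInstance.maxSize 4096

namespace Cfsg.Agent.H18

open Cfsg.Geo
open scoped MatrixGroups Matrix

section mon

variable {κ : Type} [Fintype κ] [DecidableEq κ] {R : Type} [Field R] [DecidableEq R]
  {ρ : Equiv.Perm κ} {d : κ → R}

/-- the number of nonzero coordinates -/
def wt (x : κ → R) : ℕ := (Finset.univ.filter fun i => x i ≠ 0).card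

lemma wt_monMat (hd : ∀ j, d j ≠ 0) (x : κ → R) : wt (monMat ρ d *ᵥ x) = wt x :=
  Finset.card_equiv ρ (by simp [monMat_mulVec, hd])

omit [DecidableEq R] in
lemma prod_monMat (x : κ → R) : ∏ i, (monMat ρ d *ᵥ x) i = (∏ i, d i) * ∏ i, x i := by
  simp only [monMat_mulVec]
  rw [Equiv.prod_comp ρ fun j => d j * x j, Finset.prod_mul_distrib]

omit [DecidableEq R] [Fintype κ] in
lemma ne_monMat {X : Matrix κ κ R} {i j k : κ} (h : j ≠ k) (hj : X i j ≠ 0) (hk : X i k ≠ 0) :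
    X ≠ monMat ρ d := by
  rintro rfl
  simp only [monMat, Matrix.of_apply, ne_eq, ite_eq_right_iff, Classical.not_imp] at hj hk
  exact h (hj.1.symm.trans hk.1)

omit [DecidableEq R] in
lemma unit_monMat {τ : R → R} (h0 : τ 0 = 0)
    (h : (monMat ρ d)ᵀ * 1 * (monMat ρ d).map τ = 1) (j : κ) : d j * τ (d j) = 1 := by
  have := congrFun (congrFun h j) j
  rw [mul_one, Matrix.mul_apply, Finset.sum_eq_single (ρ.symm j) (fun i _ hi => by
    have : ρ i ≠ j := fun h => hi (by rw [← h]; simp)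
    simp [monMat, this]) (by simp)] at this
  simpa [monMat] using this

end mon

/-- the field with nine elements -/
abbrev F9 : Type := QuadraticAlgebra (ZMod 3) (-1) 0

instance instFactF9 : Fact (∀ r : ZMod 3, r ^ 2 ≠ -1 + 0 * r) := ⟨by decide⟩

variable {ι : Type} [Fintype ι] [DecidableEq ι] {F : Type*} [Field F] [Fintype F]
  {σ : F →+* F} {f : (ι → F) → (ι → F) → F} {a : F} {H : Subgroup (GL ι F)}

lemma exists_equiv_F9 (h : Fintype.card F = 9) : Nonempty (F9 ≃+* F) :=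
  ⟨FiniteField.ringEquivOfCardEq (by rw [h, card_quad]; simp)⟩

lemma SuH.tau {q : ℕ} (h : SuH σ q f a H) {R : Type} [Field R] (φ : R ≃+* F) (x : R) :
    σ (φ x) = φ (x ^ q) := by rw [h.hq, map_pow]

omit [Fintype F] in
lemma Md.det_eq_one {κ : Type} [Fintype κ] [DecidableEq κ] {R : Type} [Field R] {φ : R ≃+* F}
    {τ : R → R} {G : Matrix κ κ R} (m : Md σ f φ τ G) {g : GL ι F} (hg : g ∈ specialLinear ι F)
    {X : Matrix κ κ R} (h : (g : Matrix ι ι F) = m.mat X) : X.det = 1 :=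
  φ.injective (by rw [← m.det_mat, ← h, map_one]; exact mem_specialLinear.mp hg)

/-- 126 isotropic points -/
def S6 (x : Fin 6 → F4) : Prop := wt x = 2 ∨ ∏ i, x i = 1

instance (x : Fin 6 → F4) : Decidable (S6 x) := by unfold S6; infer_instance

/-- a transvection -/
def tv4 {n : ℕ} (w : Fin n → F4) : Matrix (Fin n) (Fin n) F4 := 1 + Matrix.vecMulVec w w

lemma S6_tv : ∀ a b c d e f : F4, S6 ![a, b, c, d, e, f] →
    S6 (tv4 ![1, 1, 1, 1, 1, 1] *ᵥ ![a, b, c, d, e, f]) := by decide +kernel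

lemma F4_sq : ∀ d : F4, d ^ 2 = 1 → d = 1 := by decide +kernel

theorem SU6_frame (h : SuH σ 2 f a H) {D : Fin 6 → Submodule F (ι → F)}
    (hD : IsNondegenerateMDecomposition f 1 D) (hle : H ≤ decompositionStabilizer D) : False := by
  obtain ⟨φ⟩ := exists_equiv_F4 h.hF
  obtain ⟨m, hm⟩ := h.hf.toHForm.exists_md_frame h.hσ (h.tau φ) hD
  refine m.false_set h.max le_rfl S6 (fun g hg X hX x hx => ?_) (A := tv4 ![1, 1, 1, 1, 0, 0])
    (B := tv4 ![1, 1, 1, 1, 1, 1]) (by decide +kernel)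
    (det_eq_one_of_pow (n := 2) (by decide +kernel) F4_sq) (x := ![1, ⟨0, 1⟩, 0, 0, 0, 0])
    (by decide +kernel) (by decide +kernel) (by decide +kernel)
    (det_eq_one_of_pow (n := 2) (by decide +kernel) F4_sq) (fun x hx => ?_) fun g hg hX => ?_
  · obtain ⟨ρ, d, rfl⟩ := hm g (hle hg) X hX
    have h1 := F4_sq _ (sq_prod_of_det_monMat (m.det_eq_one (h.max.1.le hg).2 hX))
    have h2 : ∀ j, d j ≠ 0 := fun j h0 => by
      rw [Finset.prod_eq_zero (Finset.mem_univ j) h0] at h1; exact zero_ne_one h1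
    rwa [S6, wt_monMat h2, prod_monMat, h1, one_mul]
  · have h1 : x = ![x 0, x 1, x 2, x 3, x 4, x 5] := by ext1 i; fin_cases i <;> rfl
    rw [h1] at hx ⊢; exact S6_tv _ _ _ _ _ _ hx
  · obtain ⟨ρ, d, h1⟩ := hm g (hle hg) _ hX
    exact ne_monMat (i := 0) (j := 1) (k := 2) (by decide) (by decide +kernel) (by decide +kernel) h1

/-- 60 points -/
def S9 (x : Fin 4 → F9) : Prop := wt x ≠ 3 ∧ (∀ i j, x i ≠ 0 → x j ≠ 0 → x i ^ 4 = x j ^ 4) ∧
  ((∏ i, x i) ^ 2 = 0 ∨ (∏ i, x i) ^ 2 = 1)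

instance (x : Fin 4 → F9) : Decidable (S9 x) := by unfold S9; infer_instance

/-- a Hadamard matrix -/
def H9 : Matrix (Fin 4) (Fin 4) F9 := !![-1, -1, -1, -1; -1, 1, -1, 1; -1, -1, 1, 1; -1, 1, 1, -1]

lemma S9_H9 : ∀ a b c d : F9, S9 ![a, b, c, d] → S9 (H9 *ᵥ ![a, b, c, d]) := by decide +kernel

theorem SU4_frame (h : SuH σ 3 f a H) {D : Fin 4 → Submodule F (ι → F)}
    (hD : IsNondegenerateMDecomposition f 1 D) (hle : H ≤ decompositionStabilizer D) : False := by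
  obtain ⟨φ⟩ := exists_equiv_F9 h.hF
  obtain ⟨m, hm⟩ := h.hf.toHForm.exists_md_frame h.hσ (h.tau φ) hD
  refine m.false_set h.max le_rfl S9 (fun g hg X hX x hx => ?_)
    (A := 1 + (⟨0, 1⟩ : F9) • Matrix.vecMulVec ![1, 1, 1, 0] ![1, 1, 1, 0])
    (B := H9) (by decide +kernel) (by decide +kernel) (x := ![1, 0, 0, 0])
    (by decide +kernel) (by decide +kernel) (by decide +kernel) (by decide +kernel)
    (fun x hx => ?_) fun g hg hX => ?_
  · obtain ⟨ρ, d, rfl⟩ := hm g (hle hg) X hX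
    have h1 := sq_prod_of_det_monMat (m.det_eq_one (h.max.1.le hg).2 hX)
    have h3 : ∀ j, d j ^ 4 = 1 := fun j => by
      rw [← unit_monMat (by simp) ((m.mem_isoG hX).mp (h.le hg)) j]; ring
    have h2 : ∀ j, d j ≠ 0 := fun j h0 => by simpa [h0] using h3 j
    rw [S9, wt_monMat h2, prod_monMat, mul_pow, h1, one_mul]
    refine ⟨hx.1, fun i j hi hj => ?_, hx.2.2⟩
    rw [monMat_mulVec] at hi hj
    rw [monMat_mulVec, monMat_mulVec, mul_pow, mul_pow, h3, h3,
      hx.2.1 _ _ (right_ne_zero_of_mul hi) (right_ne_zero_of_mul hj)]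
  · have h1 : x = ![x 0, x 1, x 2, x 3] := by ext1 i; fin_cases i <;> rfl
    rw [h1] at hx ⊢; exact S9_H9 _ _ _ _ hx
  · obtain ⟨ρ, d, h1⟩ := hm g (hle hg) _ hX
    exact ne_monMat (i := 0) (j := 1) (k := 2) (by decide) (by decide +kernel) (by decide +kernel) h1

end Cfsg.Agent.H18
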