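import Cfsg.Agent.H18.MdB
import Cfsg.Agent.H18.SpMax
import Cfsg.Agent.H13.Forms

/-! Pairs of totally singular subspaces and normal vectors for field subalgebras. -/

set_option autoImplicit false
set_option synthInstance.maxSize 4096

namespace Cfsg.Agent.H18

open Cfsg.Geo Matrix
open scoped MatrixGroups

variable {ι : Type} [Fintype ι] [DecidableEq ι] {F : Type*} [Field F]
  {R : Type} [Field R] {σ : F →+* F} {ε : F} {f : (ι → F) → (ι → F) → F} {φ : R ≃+* F} {τ : R → R}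

theorem HForm.exists_md_pair (hf : HForm σ ε f) (hτ : ∀ x, σ (φ x) = φ (τ x)) {n : ℕ}
    {D : Fin 2 → Submodule F (ι → F)} (hD : IsMDecomposition n D)
    (h1 : ∀ i, IsTotallySingularFor f (D i)) (hn : Fintype.card ι = 2 * n) {ε₀ : R}
    (hε : φ ε₀ = ε) :
    ∃ m : Md σ f φ τ (fromBlocks 0 1 (ε₀ • 1) 0 : Matrix (Fin n ⊕ Fin n) (Fin n ⊕ Fin n) R),
      ∀ g ∈ decompositionStabilizer D, ∀ X, (g : Matrix ι ι F) = m.mat X →
        (∃ A B, X = fromBlocks A 0 0 B) ∨ ∃ A B, X = fromBlocks 0 A B 0 := by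
  set u := decompBasis hD 0
  set w := decompBasis hD 1
  let M : Matrix (Fin n) (Fin n) F := Matrix.of fun i j => f (u i) (w j)
  have hM : M.det ≠ 0 := fun h0 => by
    obtain ⟨c, hc, h2⟩ := Matrix.exists_vecMul_eq_zero_iff.mpr h0
    have h3 : ((∑ i, c i • u i : D 0) : ι → F) = 0 := hf.nondeg' _ fun x => by
      have hx : x ∈ D 0 ⊔ D 1 := by
        have : iSup D ≤ D 0 ⊔ D 1 :=
          iSup_le fun i => by fin_cases i; exacts [le_sup_left, le_sup_right]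
        exact this (hD.iSup_eq_top ▸ trivial)
      obtain ⟨y, hy, z, hz, rfl⟩ := Submodule.mem_sup.mp hx
      rw [hf.add_right, h1 0 _ (Subtype.prop _) y hy, zero_add,
        show z = ((∑ j, w.repr ⟨z, hz⟩ j • w j : D 1) : ι → F) by rw [w.sum_repr]]
      simp only [Submodule.coe_sum, Submodule.coe_smul, hf.sum_right, hf.smul_right]
      refine Finset.sum_eq_zero fun j _ => mul_eq_zero_of_right _ ?_
      simpa [hf.sum_left, hf.smul_left, Matrix.vecMul, dotProduct, M] using congrFun h2 j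
    exact hc (funext (Fintype.linearIndependent_iff.mp u.linearIndependent c (Subtype.ext h3)))
  let u' : Fin n → ι → F := fun i => ∑ k, M⁻¹ i k • (u k : ι → F)
  have hu : ∀ i, u' i ∈ D 0 := fun i => sum_mem fun k _ => (D 0).smul_mem _ (u k).2
  have h2 : ∀ i j, f (u' i) (w j) = (1 : Matrix (Fin n) (Fin n) F) i j := fun i j => by
    rw [← Matrix.nonsing_inv_mul M (Ne.isUnit hM), Matrix.mul_apply]
    simp [u', hf.sum_left, hf.smul_left, M]
  have hε0 : ε₀ ≠ 0 := fun h => hf.eps_ne (by rw [← hε, h, map_zero])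
  have hτ0 : τ 0 = 0 := φ.injective (by rw [← hτ]; simp)
  have hτ1 : τ 1 = 1 := φ.injective (by rw [← hτ]; simp)
  obtain ⟨m, hm⟩ := hf.toSesq.exists_md hτ (v := Sum.elim u' fun j => (w j : ι → F))
    (G := fromBlocks 0 1 (ε₀ • 1) 0) (G' := fromBlocks 0 (ε₀⁻¹ • 1) 1 0) (by
      rintro (i | i) (j | j)
      · simpa using h1 0 _ (hu i) _ (hu j)
      · simp only [Sum.elim_inl, Sum.elim_inr, h2, fromBlocks_apply₁₂, one_apply]
        split_ifs <;> simp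
      · simp only [Sum.elim_inl, Sum.elim_inr, fromBlocks_apply₂₁]
        rw [hf.herm, h2]
        by_cases h : i = j <;> simp [h, one_apply, hε, eq_comm]
      · simpa using h1 1 _ (w i).2 _ (w j).2)
    (by simp [fromBlocks_multiply, smul_smul, hε0]) (by simp [hn, two_mul])
  have h3 : ∀ x, m.vec x ∈ D 0 → ∀ i, x (.inr i) = 0 := fun x hx i => by
    have := h1 0 _ hx _ (hu i)
    rw [show u' i = m.vec (Pi.single (.inl i) 1) from (hm (.inl i)).symm, m.form_vec,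
      show fm τ _ x _ = x (.inr i) * ε₀ by
        simp [fm, dotProduct, mulVec, Pi.single_apply, apply_ite τ, hτ0, hτ1, one_apply]] at this
    simpa [hε0] using this
  have h4 : ∀ x, m.vec x ∈ D 1 → ∀ i, x (.inl i) = 0 := fun x hx i => by
    have := h1 1 _ hx _ (w i).2
    rw [show (w i : ι → F) = m.vec (Pi.single (.inr i) 1) from (hm (.inr i)).symm, m.form_vec,
      show fm τ _ x _ = x (.inl i) by
        simp [fm, dotProduct, mulVec, Pi.single_apply, apply_ite τ, hτ0, hτ1, one_apply]] at this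
    simpa using this
  refine ⟨m, fun g ⟨π, hπ⟩ X hX => ?_⟩
  have h5 : ∀ j, m.vec (X *ᵥ Pi.single (.inl j) 1) ∈ D (π 0) := fun j => by
    rw [← m.mat_mulVec, hm, ← hX, ← hπ]; exact ⟨_, hu j, rfl⟩
  have h6 : ∀ j, m.vec (X *ᵥ Pi.single (.inr j) 1) ∈ D (π 1) := fun j => by
    rw [← m.mat_mulVec, hm, ← hX, ← hπ]; exact ⟨_, (w j).2, rfl⟩
  rcases (by decide : ∀ π : Equiv.Perm (Fin 2), (π 0 = 0 ∧ π 1 = 1) ∨ (π 0 = 1 ∧ π 1 = 0)) π with
    ⟨h7, h8⟩ | ⟨h7, h8⟩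
  · rw [h7] at h5; rw [h8] at h6
    refine Or.inl ⟨X.toBlocks₁₁, X.toBlocks₂₂, ?_⟩
    ext (i | i) (j | j)
    · rfl
    · simpa using h4 _ (h6 j) i
    · simpa using h3 _ (h5 j) i
    · rfl
  · rw [h7] at h5; rw [h8] at h6
    refine Or.inr ⟨X.toBlocks₁₂, X.toBlocks₂₁, ?_⟩
    ext (i | i) (j | j)
    · simpa using h4 _ (h5 j) i
    · rfl
    · rfl
    · simpa using h3 _ (h6 j) i

lemma exists_dual_eq {K : Type*} [Field K] [Algebra F K] [Finite K] {θ : K →+* K}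
    (h1 : θ ≠ RingHom.id K) (h2 : ∀ x, θ (θ x) = x) (μ l : K →ₗ[F] F) {x₀ : K} (h0 : μ x₀ ≠ 0)
    (s : F → F) (hμ : ∀ x, μ (θ x) = s (μ x)) (hl : ∀ x, l (θ x) = s (l x)) :
    ∃ z, ∀ x, μ (θ z * x * z) = l x := by
  let L : K →ₗ[F] Module.Dual F K := (LinearMap.mul F K).compr₂ μ
  have hL : Function.Injective L := (injective_iff_map_eq_zero L).mpr fun c hc => by
    by_contra h
    have := LinearMap.congr_fun hc (c⁻¹ * x₀)
    simp only [L, LinearMap.compr₂_apply, LinearMap.mul_apply', mul_inv_cancel_left₀ h] at this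
    exact h0 this
  obtain ⟨c, hc⟩ := (LinearMap.injective_iff_surjective_of_finrank_eq_finrank
    (Subspace.dual_finrank_eq).symm).mp hL l
  have hc' : ∀ x, μ (c * x) = l x := fun x => LinearMap.congr_fun hc x
  obtain ⟨z, hz⟩ := H13.exists_conj_mul_eq h1 h2 (c := c) (hL (LinearMap.ext fun x => by
    change μ (_ * x) = μ (c * x)
    rw [← h2 x, ← map_mul, hμ, hc', hc', hl (θ x)]))
  exact ⟨z, fun x => by rw [← hc', ← hz, mul_right_comm]⟩

section normal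

variable [Fintype F] [Nonempty ι] {r : ℕ} {K : Subalgebra F (Matrix ι ι F)}

omit [Fintype F] [Nonempty ι] in
lemma HForm.exists_ne_zero (hf : HForm σ ε f) (hK : IsFieldSubalgebra r K)
    (ha : ∀ x ∈ K, adj σ f x ∈ K) {y : Matrix ι ι F} (hy : y ∈ K) (hy' : adj σ f y ≠ y)
    {U : Submodule F (ι → F)} (hU : IsNondegenerateOn f U) (h0 : U ≠ ⊥)
    (hUK : ∀ x ∈ K, ∀ u ∈ U, x *ᵥ u ∈ U) : ∃ v ∈ U, ∃ x ∈ K, f (x *ᵥ v) v ≠ 0 := by
  by_contra! h
  have h1 : ∀ x ∈ K, ∀ u ∈ U, ∀ w ∈ U, f (x *ᵥ u) w = - f (x *ᵥ w) u := fun x hx u hu w hw => by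
    have := h _ (add_mem hu hw) x hx
    rw [mulVec_add, hf.add_left, hf.add_right, hf.add_right, h u hu x hx, h w hw x hx] at this
    linear_combination this
  obtain ⟨u, hu, hu0⟩ := U.exists_mem_ne_zero_of_ne_bot h0
  obtain ⟨z, hz, h2⟩ := hK.inv _ (sub_mem (ha y hy) hy) (sub_ne_zero.mpr hy')
  have h3 : (adj σ f y - y) *ᵥ u ≠ 0 := fun h3 => hu0 (by
    rw [← one_mulVec u, ← h2, hK.comm _ (sub_mem (ha y hy) hy) _ hz, ← mulVec_mulVec, h3,
      mulVec_zero])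
  obtain ⟨w, hw, h4⟩ := (hU _ (hUK _ (sub_mem (ha y hy) hy) u hu) h3).2
  apply h4
  have h5 := h1 1 (one_mem K) _ (hUK y hy u hu) w hw
  rw [sub_mulVec, hf.sub_left, h1 _ (ha y hy) u hu w hw, ← hf.adj_spec']
  simp only [one_mulVec] at h5
  rw [h5, sub_self]

theorem HForm.exists_normal (hf : HForm σ ε f) (hK : IsFieldSubalgebra r K)
    (ha : ∀ x ∈ K, adj σ f x ∈ K) (hne : ∃ y ∈ K, adj σ f y ≠ y) (l : K →ₗ[F] F)
    (hl : ∀ x : K, l ⟨_, ha x x.2⟩ = ε * σ (l x)) {U : Submodule F (ι → F)}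
    (hU : IsNondegenerateOn f U) (h0 : U ≠ ⊥) (hUK : ∀ x ∈ K, ∀ u ∈ U, x *ᵥ u ∈ U) :
    ∃ v ∈ U, ∀ x : K, f (x.1 *ᵥ v) v = l x := by
  obtain ⟨y, hy, hy'⟩ := hne
  obtain ⟨v, hv, x₀, hx₀, h1⟩ := hf.exists_ne_zero hK ha hy hy' hU h0 hUK
  let μ : K →ₗ[F] F :=
    { toFun := fun x => f (x.1 *ᵥ v) v
      map_add' := fun x y => by rw [Subalgebra.coe_add, add_mulVec, hf.add_left]
      map_smul' := fun c x => by rw [Subalgebra.coe_smul, smul_mulVec, hf.smul_left]; rfl }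
  have hμ : ∀ x : K, μ (adjHom hf hK.comm ha x) = ε * σ (μ x) := fun x => by
    change f (adj σ f x *ᵥ v) v = ε * σ (f (x.1 *ᵥ v) v)
    rw [← hf.adj_spec', hf.herm]
  have a1 : adjHom hf hK.comm ha ≠ RingHom.id K := fun h => hy' (by
    have : (adjHom hf hK.comm ha ⟨y, hy⟩).1 = y := by rw [h]; rfl
    exact this)
  have a2 : ∀ x, adjHom hf hK.comm ha (adjHom hf hK.comm ha x) = x :=
    fun x => Subtype.ext (hf.adj_adj _)
  have a3 : μ ⟨x₀, hx₀⟩ ≠ 0 := h1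
  have a4 : ∀ x : K, l (adjHom hf hK.comm ha x) = ε * σ (l x) := hl
  let _ : Field K := (isField_of_inv K hK.comm hK.inv).toField
  obtain ⟨z, hz⟩ := exists_dual_eq (F := F) (K := K) a1 a2 μ l a3 (fun c => ε * σ c) hμ a4
  refine ⟨z.1 *ᵥ v, hUK _ z.2 v hv, fun x => ?_⟩
  rw [hf.adj_spec', mulVec_mulVec, mulVec_mulVec]
  exact hz x

theorem HForm.exists_normal_two (hf : HForm σ ε f) (hK : IsFieldSubalgebra r K)
    (ha : ∀ x ∈ K, adj σ f x ∈ K) (hne : ∃ y ∈ K, adj σ f y ≠ y) (l : K →ₗ[F] F)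
    (hl : ∀ x : K, l ⟨_, ha x x.2⟩ = ε * σ (l x)) {z : K} (hz : l z ≠ 0)
    (hr : r < Fintype.card ι) : ∃ v w, (∀ x : K, f (x.1 *ᵥ v) v = l x) ∧
      (∀ x : K, f (x.1 *ᵥ w) w = l x) ∧ ∀ x ∈ K, f (x *ᵥ w) v = 0 := by
  obtain ⟨v, -, hv⟩ := hf.exists_normal hK ha hne l hl (U := ⊤)
    (hf.nondegOn_iff.mpr (by
      rw [top_inf_eq, eq_bot_iff]; exact fun x hx => hf.nondeg' x fun y => hx y trivial))
    top_ne_bot fun _ _ _ _ => trivial
  let L : K →ₗ[F] (ι → F) :=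
    { toFun := fun x => x.1 *ᵥ v
      map_add' := fun x y => by rw [Subalgebra.coe_add, add_mulVec]
      map_smul' := fun c x => by rw [Subalgebra.coe_smul, smul_mulVec]; rfl }
  have h1 : IsNondegenerateOn f (LinearMap.range L) := hf.nondegOn_iff.mpr (by
    rw [eq_bot_iff]
    rintro _ ⟨⟨x, rfl⟩, h⟩
    by_contra h0
    obtain ⟨y, hy, h2⟩ := hK.inv x x.2 fun h3 => h0 (by
      change x.1 *ᵥ v = 0; rw [h3, zero_mulVec])
    have := h _ ⟨⟨_, ha _ (mul_mem z.2 hy)⟩, rfl⟩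
    change f (x.1 *ᵥ v) (adj σ f (z * y) *ᵥ v) = 0 at this
    rw [← hf.adj_spec, mulVec_mulVec, mul_assoc, hK.comm y hy x x.2, h2, mul_one, hv] at this
    exact hz this)
  obtain ⟨w, hw, h2⟩ := hf.exists_normal hK ha hne l hl (hf.nondegOn_perp h1) (fun h0 => by
    have := (hf.finrank_perp h1).1
    have h3 := LinearMap.finrank_range_le L
    rw [h0, finrank_bot] at this
    rw [hK.finrank_eq] at h3
    omega) (by
      rintro x hx u hu _ ⟨y, rfl⟩
      rw [hf.adj_spec]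
      exact hu _ ⟨⟨_, mul_mem (ha x hx) y.2⟩, (mulVec_mulVec _ _ _).symm⟩)
  refine ⟨v, w, hv, h2, fun x hx => ?_⟩
  rw [hf.adj_spec]
  exact hw _ ⟨⟨_, ha x hx⟩, rfl⟩

end normal

end Cfsg.Agent.H18
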