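import Cfsg.Agent.H18.MdC
import Cfsg.Agent.H13.Disc

/-! Non-maximal geometric subgroups of `SU₄(2)`, `SU₄(3)` and `Sp₄(3)`. -/

set_option autoImplicit false
set_option synthInstance.maxSize 4096

namespace Cfsg.Agent.H18

open Cfsg.Geo Matrix
open scoped MatrixGroups

variable {ι : Type} [Fintype ι] [DecidableEq ι] {F : Type*} [Field F]
  {R : Type} [Field R] {σ : F →+* F} {f : (ι → F) → (ι → F) → F} {φ : R ≃+* F} {τ : R → R}
  {a : F} {H : Subgroup (GL ι F)}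

lemma Md.det_map {κ κ' : Type} [Fintype κ] [DecidableEq κ] [Fintype κ'] [DecidableEq κ']
    {G : Matrix κ κ R} (m : Md σ f φ τ G) (A : Matrix κ' κ' R) : (A.map τ).det = τ A.det := by
  apply φ.injective
  rw [← m.conj, φ.map_det, φ.map_det, σ.map_det]
  congr 1
  ext i j
  simp [m.conj]

lemma det_anti (A B : Matrix (Fin 2) (Fin 2) R) : (fromBlocks 0 A B 0).det = A.det * B.det := by
  rw [show fromBlocks 0 A B 0 = fromBlocks A 0 0 B * fromBlocks 0 1 1 0 by
    simp [fromBlocks_multiply], det_mul, H13.det_fromBlocks_swap, det_fromBlocks_zero₂₁]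
  simp

lemma tJ2 (A : Matrix (Fin 2) (Fin 2) R) : Aᵀ * J2 R * A = A.det • J2 R := by
  simpa using transpose_J2 A

lemma ne_blocks {n : ℕ} {X : Matrix (Fin n ⊕ Fin n) (Fin n ⊕ Fin n) R} {i j k l : Fin n}
    (h1 : X (.inl i) (.inl j) ≠ 0) (h2 : X (.inl k) (.inr l) ≠ 0) :
    ¬ ((∃ A B, X = fromBlocks A 0 0 B) ∨ ∃ A B, X = fromBlocks 0 A B 0) := by
  rintro (⟨A, B, rfl⟩ | ⟨A, B, rfl⟩)
  exacts [h2 rfl, h1 rfl]

/-- similarities of an alternating form -/
def simB (X : Matrix (Fin 2 ⊕ Fin 2) (Fin 2 ⊕ Fin 2) R) : Prop :=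
  ∃ c : R, Xᵀ * fromBlocks (J2 R) 0 0 (J2 R) * X = c • fromBlocks (J2 R) 0 0 (J2 R)

instance [Fintype R] [DecidableEq R] (X : Matrix (Fin 2 ⊕ Fin 2) (Fin 2 ⊕ Fin 2) R) :
    Decidable (simB X) := by unfold simB; infer_instance

/-- the hyperbolic Gram matrix -/
abbrev hypG (c : R) : Matrix (Fin 2 ⊕ Fin 2) (Fin 2 ⊕ Fin 2) R := fromBlocks 0 1 (c • 1) 0

/-- a transvection -/
def tvm {κ : Type} [Fintype κ] [DecidableEq κ] (τ : R → R) (G : Matrix κ κ R) (c : R) (w : κ → R) :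
    Matrix κ κ R := 1 + c • vecMulVec w (G *ᵥ (τ ∘ w))

variable [Fintype F]

lemma SuH.pair4 {q : ℕ} (h : SuH σ q f a H) (φ : R ≃+* F)
    (hR : ∀ x y : R, x * y = 1 → x * y ^ q = 1 → x = y) {D : Fin 2 → Submodule F (ι → F)}
    (hD : IsMDecomposition 2 D) (h1 : ∀ i, IsTotallySingularFor f (D i))
    (hn : Fintype.card ι = 2 * 2) (hle : H ≤ decompositionStabilizer D)
    {A B : Matrix (Fin 2 ⊕ Fin 2) (Fin 2 ⊕ Fin 2) R}
    (a1 : Aᵀ * hypG 1 * A.map (· ^ q) = hypG 1) (a2 : A.det = 1) (a3 : ¬ simB A)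
    (b1 : Bᵀ * hypG 1 * B.map (· ^ q) = hypG 1) (b2 : B.det = 1) (b3 : simB B)
    (b4 : B (.inl 0) (.inl 0) ≠ 0) (b5 : B (.inl 0) (.inr 0) ≠ 0) : False := by
  obtain ⟨m, hm⟩ := h.hf.toHForm.exists_md_pair (h.tau φ) hD h1 hn (map_one φ)
  have h0 : (0 : R) ^ q = 0 := zero_pow (by have := two_le_of_card_sq h.hF; omega)
  refine m.false_of h.max le_rfl simB ⟨1, by simp⟩ ?_ (fun g hg X hX => ?_) a1 a2 a3 b1 b2 b3
    fun g hg hX => ne_blocks b4 b5 (hm g (hle hg) _ hX)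
  · rintro X Y ⟨c, hc⟩ ⟨d, hd⟩
    exact ⟨c * d, by rw [transpose_mul, mul_assoc Yᵀ, mul_assoc Yᵀ, ← mul_assoc _ X, hc,
      Matrix.smul_mul, Matrix.mul_smul, ← mul_assoc, hd, smul_smul]⟩
  have h2 := (m.mem_isoG hX).mp (h.le hg)
  have h3 := m.det_eq_one (h.max.1.le hg).2 hX
  have h4 : ∀ A B : Matrix (Fin 2) (Fin 2) R, Aᵀ * B.map (· ^ q) = 1 → A.det * B.det = 1 →
      A.det = B.det := fun A B h5 h6 => hR _ _ h6 (by
    rw [← m.det_map B, ← det_transpose A, ← det_mul, h5, det_one])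
  rcases hm g (hle hg) X hX with ⟨A, B, rfl⟩ | ⟨A, B, rfl⟩
  · simp only [fromBlocks_map, fromBlocks_transpose, fromBlocks_multiply, Matrix.map_zero _ h0,
      fromBlocks_inj] at h2
    refine ⟨A.det, ?_⟩
    have h5 := h4 A B (by simpa using h2.2.1) (by rwa [det_fromBlocks_zero₂₁] at h3)
    simp [fromBlocks_transpose, fromBlocks_multiply, tJ2, fromBlocks_smul, h5]
  · simp only [fromBlocks_map, fromBlocks_transpose, fromBlocks_multiply, Matrix.map_zero _ h0,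
      fromBlocks_inj] at h2
    refine ⟨A.det, ?_⟩
    have h5 := h4 A B (by simpa using h2.2.2.1) (by rwa [det_anti] at h3)
    simp [fromBlocks_transpose, fromBlocks_multiply, tJ2, fromBlocks_smul, h5]

theorem SU4_pair {q : ℕ} (h : SuH σ q f a H) {D : Fin 2 → Submodule F (ι → F)}
    (hD : IsMDecomposition 2 D) (h1 : ∀ i, IsTotallySingularFor f (D i))
    (hn : Fintype.card ι = 2 * 2) (hle : H ≤ decompositionStabilizer D) : 4 ≤ q := by
  have h2 := two_le_of_card_sq h.hF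
  by_contra h3
  interval_cases q
  · obtain ⟨φ⟩ := exists_equiv_F4 h.hF
    exact h.pair4 φ (by decide +kernel) hD h1 hn hle
      (A := tvm (· ^ 2) (hypG 1) 1 (Sum.elim ![1, 0] ![0, 0]))
      (B := tvm (· ^ 2) (hypG 1) 1 (Sum.elim ![1, 0] ![0, 1])) (by decide +kernel)
      (by decide +kernel) (by decide +kernel) (by decide +kernel) (by decide +kernel)
      (by decide +kernel) (by decide +kernel) (by decide +kernel)
  · obtain ⟨φ⟩ := exists_equiv_F9 h.hF
    exact h.pair4 φ (by decide +kernel) hD h1 hn hle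
      (A := tvm (· ^ 3) (hypG 1) ⟨0, 1⟩ (Sum.elim ![1, 0] ![0, 0]))
      (B := tvm (· ^ 3) (hypG 1) ⟨0, 1⟩ (Sum.elim ![1, 0] ![0, ⟨1, 1⟩])) (by decide +kernel)
      (by decide +kernel) (by decide +kernel) (by decide +kernel) (by decide +kernel)
      (by decide +kernel) (by decide +kernel) (by decide +kernel)

lemma exists_equiv_F3 (h : Fintype.card F = 3) : Nonempty (ZMod 3 ≃+* F) :=
  ⟨FiniteField.ringEquivOfCardEq (by rw [h]; simp)⟩

/-- a self-adjoint square root of `-1` -/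
def jj : Matrix (Fin 2 ⊕ Fin 2) (Fin 2 ⊕ Fin 2) (ZMod 3) := fromBlocks 0 (J2 _) (J2 _) 0

lemma pm_mul {κ : Type} [Fintype κ] {j X Y : Matrix κ κ R} (hX : X * j = j * X ∨ X * j = -(j * X))
    (hY : Y * j = j * Y ∨ Y * j = -(j * Y)) :
    X * Y * j = j * (X * Y) ∨ X * Y * j = -(j * (X * Y)) := by
  rw [mul_assoc]
  rcases hX with hX | hX <;> rcases hY with hY | hY <;>
    simp [hY, ← mul_assoc, hX]

lemma jj_aux : ∀ A B : Matrix (Fin 2) (Fin 2) (ZMod 3), Aᵀ * B = 1 ∨ Aᵀ * B = -1 →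
    (A * J2 _ = J2 _ * B ∧ B * J2 _ = J2 _ * A) ∨
      (A * J2 _ = -(J2 _ * B) ∧ B * J2 _ = -(J2 _ * A)) := by
  have : ∀ a b c d a' b' c' d' : ZMod 3, !![a, b; c, d]ᵀ * !![a', b'; c', d'] = 1 ∨
      !![a, b; c, d]ᵀ * !![a', b'; c', d'] = -1 →
      (!![a, b; c, d] * J2 _ = J2 _ * !![a', b'; c', d'] ∧
        !![a', b'; c', d'] * J2 _ = J2 _ * !![a, b; c, d]) ∨
      (!![a, b; c, d] * J2 _ = -(J2 _ * !![a', b'; c', d']) ∧
        !![a', b'; c', d'] * J2 _ = -(J2 _ * !![a, b; c, d])) := by decide +kernel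
  intro A B
  rw [eta_fin_two A, eta_fin_two B]
  exact this _ _ _ _ _ _ _ _

theorem Sp4_pair (h : SpH f H) (hF : Fintype.card F = 3) {D : Fin 2 → Submodule F (ι → F)}
    (hD : IsMDecomposition 2 D) (h1 : ∀ i, IsTotallySingularFor f (D i))
    (hn : Fintype.card ι = 2 * 2) (hle : H ≤ decompositionStabilizer D) : False := by
  obtain ⟨φ⟩ := exists_equiv_F3 hF
  obtain ⟨m, hm⟩ := h.hf.toHForm.exists_md_pair (φ := φ) (τ := id) (fun _ => rfl) hD h1 hn
    (ε₀ := -1) (by simp)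
  refine m.false_of h.max inf_le_left (fun X => X * jj = jj * X ∨ X * jj = -(jj * X)) (by simp)
    (fun X Y => pm_mul) (fun g hg X hX => ?_)
    (A := tvm id (hypG (-1)) 1 (Sum.elim ![1, 0] ![0, 0]))
    (B := tvm id (hypG (-1)) 1 (Sum.elim ![1, 0] ![0, 0]) *
      tvm id (hypG (-1)) (-1) (Sum.elim ![0, 0] ![0, 1])) (by decide +kernel) (by decide +kernel)
    (by decide +kernel) (by decide +kernel) (by decide +kernel) (by decide +kernel)
    fun g hg hX => ne_blocks (i := 0) (j := 0) (k := 0) (l := 0) (by decide +kernel)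
      (by decide +kernel) (hm g (hle hg) _ hX)
  have h2 := (m.mem_isoG hX).mp (h.le hg)
  rcases hm g (hle hg) X hX with ⟨A, B, rfl⟩ | ⟨A, B, rfl⟩
  · simp only [Matrix.map_id, fromBlocks_transpose, fromBlocks_multiply, fromBlocks_inj] at h2
    simpa [jj, fromBlocks_multiply, fromBlocks_neg] using jj_aux A B (.inl (by simpa using h2.2.1))
  · simp only [Matrix.map_id, fromBlocks_transpose, fromBlocks_multiply, fromBlocks_inj] at h2
    simpa [jj, fromBlocks_multiply, fromBlocks_neg] using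
      jj_aux A B (.inr (by simpa using h2.2.2.1))

/-- Gram matrix and complex structure -/
def I4 : Matrix (Fin 4) (Fin 4) (ZMod 3) := !![0, -1, 0, 0; 1, 0, 0, 0; 0, 0, 0, -1; 0, 0, 1, 0]

/-- ten involutions -/
def T10 (Y : Matrix (Fin 4) (Fin 4) (ZMod 3)) : Prop :=
  Y.trace = 0 ∧ Y * Y = 1 ∧ (Y * I4 = I4 * Y ∨ Y * I4 = -(I4 * Y)) ∧ Yᵀ * I4 = I4 * Y

instance (Y : Matrix (Fin 4) (Fin 4) (ZMod 3)) : Decidable (T10 Y) := by
  unfold T10; infer_instance

/-- an element normalising the ten involutions -/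
def B4 : Matrix (Fin 4) (Fin 4) (ZMod 3) := !![0, 1, 0, 0; 2, 2, 0, 0; 0, 0, 1, 1; 0, 0, 0, 1]

lemma T10_B4 (Y : Matrix (Fin 4) (Fin 4) (ZMod 3)) (h : T10 Y) : T10 (B4 * Y * (B4 * B4)) := by
  have h1 : ∀ a b c d e f : ZMod 3, T10 !![a, 0, b, c; 0, a, d, e; e, -c, f, 0; -d, b, 0, f] →
      T10 (B4 * !![a, 0, b, c; 0, a, d, e; e, -c, f, 0; -d, b, 0, f] * (B4 * B4)) := by
    decide +kernel
  have e := fun i j => congrFun (congrFun h.2.2.2 i) j
  have a1 := e 0 0; have a2 := e 0 1; have a3 := e 0 2; have a4 := e 0 3; have a5 := e 1 1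
  have a6 := e 1 2; have a7 := e 1 3; have a8 := e 2 2; have a9 := e 2 3; have a10 := e 3 3
  simp only [I4, mul_apply, Fin.sum_univ_four, transpose_apply] at a1 a2 a3 a4 a5 a6 a7 a8 a9 a10
  simp at a1 a2 a3 a4 a5 a6 a7 a8 a9 a10
  have h2 : ∀ x : ZMod 3, x = -x → x = 0 := by decide
  have h3 : Y = !![Y 0 0, 0, Y 0 2, Y 0 3; 0, Y 0 0, Y 1 2, Y 1 3; Y 1 3, -Y 0 3, Y 2 2, 0;
      -Y 1 2, Y 0 2, 0, Y 2 2] := by
    ext i j
    fin_cases i <;> fin_cases j <;> simp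
    all_goals first
      | linear_combination a2 | linear_combination -a2 | linear_combination a3
      | linear_combination -a3 | linear_combination a4 | linear_combination -a4
      | linear_combination a6 | linear_combination -a6 | linear_combination a7
      | linear_combination -a7 | linear_combination a9 | linear_combination -a9
      | exact h2 _ a1 | exact h2 _ a5.symm | exact h2 _ a8 | exact h2 _ a10.symm
  rw [h3] at h ⊢
  exact h1 _ _ _ _ _ _ h

theorem Sp4_unit (h : SpH f H) (hF : Fintype.card F = 3) (hn : Fintype.card ι = 4)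
    {K : Subalgebra F (Matrix ι ι F)} (hK : IsFieldSubalgebra 2 K) (h1 : IsAdjointClosedFor f K)
    (h2 : ¬ IsSelfAdjointFor f K) (hle : H ≤ subalgebraNormalizer K) : False := by
  have : Nonempty ι := Fintype.card_pos_iff.mp (by omega)
  obtain ⟨φ⟩ := exists_equiv_F3 hF
  have hf := h.hf.toHForm
  have ha := hf.adjClosed_iff.mp h1
  rw [hf.selfAdj_iff] at h2
  push Not at h2
  obtain ⟨i, hi, i1, i2, i3⟩ : ∃ i ∈ K, adj (RingHom.id F) f i = -i ∧ i * i = -1 ∧
      ∀ y ∈ K, y * y = -1 → y = i ∨ y = -i := by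
    obtain ⟨y, hy, h2⟩ := h2
    have a1 : adjHom hf hK.comm ha ≠ RingHom.id K := fun h => h2 (by
      have : (adjHom hf hK.comm ha ⟨y, hy⟩).1 = y := by rw [h]; rfl
      exact this)
    have a2 : ∀ x, adjHom hf hK.comm ha (adjHom hf hK.comm ha x) = x :=
      fun x => Subtype.ext (hf.adj_adj _)
    let _ : Field K := (isField_of_inv K hK.comm hK.inv).toField
    obtain ⟨a3, a4⟩ := exists_pow_of_invol (adjHom hf hK.comm ha) a2 a1
    rw [card_fieldSub hK, hF] at a3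
    rw [← Nat.pow_left_injective two_ne_zero a3] at a4
    set z : K := ⟨y, hy⟩ - adjHom hf hK.comm ha ⟨y, hy⟩ with hz
    have a5 : adjHom hf hK.comm ha z = -z := by rw [hz, map_sub, a2, neg_sub]
    have a6 : z ≠ 0 := fun h0 => h2 (congrArg Subtype.val (sub_eq_zero.mp h0)).symm
    have a7 : z * z = -1 := mul_left_cancel₀ a6 (by rw [a4] at a5; linear_combination a5)
    refine ⟨z, z.2, congrArg Subtype.val a5, congrArg Subtype.val a7, fun w hw h3 => ?_⟩
    have a8 : (⟨w, hw⟩ : K) * ⟨w, hw⟩ = z * z := by rw [a7]; exact Subtype.ext h3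
    exact (mul_self_eq_mul_self_iff.mp a8).imp (congrArg Subtype.val) (congrArg Subtype.val)
  have h3 : (3 : F) = 0 := by simpa [hF] using FiniteField.cast_card_eq_zero F
  let l : K →ₗ[F] F := -(traceLinearMap ι F F ∘ₗ LinearMap.mulLeft F i ∘ₗ K.val.toLinearMap)
  have hl : ∀ x : K, l x = -(i * x).trace := fun _ => rfl
  have l1 : l 1 = 0 := by
    have := hf.trace_adj i
    rw [i1, trace_neg] at this
    rw [hl, Subalgebra.coe_one, mul_one]
    linear_combination -this - i.trace * h3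
  have l2 : l ⟨i, hi⟩ = 1 := by
    rw [hl, i2, trace_neg, trace_one, hn]; linear_combination h3
  obtain ⟨v, w, hv, hw, hvw⟩ := hf.exists_normal_two hK ha h2 l (fun x => by
    rw [hl, hl, ← neg_neg i, ← i1, neg_mul, ← hf.adj_mul, trace_neg, hf.trace_adj, i1, neg_neg,
      trace_mul_comm]
    simp) (z := ⟨i, hi⟩) (by rw [l2]; exact one_ne_zero) (by omega)
  have b1 : ∀ u u', f (i *ᵥ u) (i *ᵥ u') = f u u' := fun u u' => by
    rw [hf.adj_spec, i1, mulVec_mulVec, neg_mul, i2, neg_neg, one_mulVec]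
  have b2 : ∀ u u', f u (i *ᵥ u') = - f (i *ᵥ u) u' := fun u u' => by
    rw [hf.adj_spec, i1, neg_mulVec, hf.neg_right, neg_neg]
  have b3 : f v v = 0 := by simpa [l1] using hv 1
  have b4 : f w w = 0 := by simpa [l1] using hw 1
  have b5 : f (i *ᵥ v) v = 1 := l2 ▸ hv ⟨i, hi⟩
  have b6 : f (i *ᵥ w) w = 1 := l2 ▸ hw ⟨i, hi⟩
  have b7 : f w v = 0 := by simpa using hvw 1 (one_mem K)
  have b8 : f (i *ᵥ w) v = 0 := hvw i hi
  have b9 : f (i *ᵥ v) w = 0 := hf.eq_zero_comm (by rw [b2, b8, neg_zero])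
  obtain ⟨m, hm⟩ := hf.toSesq.exists_md (φ := φ) (τ := id) (fun _ => rfl)
    (v := ![v, i *ᵥ v, w, i *ᵥ w]) (G := I4) (G' := -I4) (fun a b => by
      fin_cases a <;> fin_cases b <;>
        simp [I4, b1, b2, b3, b4, b5, b6, b7, b8, b9, hf.eq_zero_comm b7])
    (by decide +kernel) (by simp [hn])
  have hi4 : i = m.mat I4 := m.mat_eq fun k => by
    have c1 : ∀ u, i *ᵥ i *ᵥ u = φ (-1) • u := fun u => by
      rw [mulVec_mulVec, i2, neg_mulVec, one_mulVec, map_neg, map_one, neg_one_smul]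
    rw [hm]
    fin_cases k
    · exact (hm 1).symm.trans (congrArg m.vec (by decide +kernel))
    · exact (c1 v).trans ((congrArg _ (hm 0).symm).trans ((m.vec_smul _ _).symm.trans
        (congrArg m.vec (by decide +kernel))))
    · exact (hm 3).symm.trans (congrArg m.vec (by decide +kernel))
    · exact (c1 w).trans ((congrArg _ (hm 2).symm).trans ((m.vec_smul _ _).symm.trans
        (congrArg m.vec (by decide +kernel))))
  have h4 : ∀ g ∈ H, ∀ X, (g : Matrix ι ι F) = m.mat X → X * I4 = I4 * X ∨ X * I4 = -(I4 * X) := by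
    intro g hg X hX
    simp only [← m.mat.injective.eq_iff, map_mul, map_neg, ← hX, ← hi4, ← neg_mul, ← cj_eq_iff]
    exact i3 _ ((mem_subalgebraNormalizer.mp (hle hg) i).mp hi) (by rw [← map_mul, i2]; simp)
  refine m.false_of h.max inf_le_left (fun X => ∀ Y, T10 Y → ∃ Y', T10 Y' ∧ X * Y = Y' * X)
    (fun Y hY => ⟨Y, hY, by simp⟩) (fun X X' hX hX' Y hY => ?_) (fun g hg X hX Y hY => ?_)
    (A := tvm id I4 1 ![1, 0, 1, 0]) (B := B4) (by decide +kernel) (by decide +kernel)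
    (fun hA => ?_) (by decide +kernel) (by decide +kernel)
    (fun Y hY => ⟨_, T10_B4 Y hY, by
      rw [mul_assoc (B4 * Y), show B4 * B4 * B4 = 1 by decide +kernel, mul_one]⟩)
    fun g hg hX => absurd (h4 g hg _ hX) (by decide +kernel)
  · obtain ⟨Y₁, c1, c2⟩ := hX' Y hY
    obtain ⟨Y₂, c3, c4⟩ := hX Y₁ c1
    exact ⟨Y₂, c3, by rw [mul_assoc, c2, ← mul_assoc, c4, mul_assoc]⟩
  · have c1 := (m.mem_isoG hX).mp (h.le hg)
    rw [Matrix.map_id] at c1
    obtain ⟨Z, hZ⟩ := m.mat.surjective (g⁻¹ : GL ι F)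
    have c2 : X * Z = 1 := m.mat.injective (by rw [map_mul, ← hX, hZ, map_one, Units.mul_inv])
    have c3 : Z * X = 1 := m.mat.injective (by rw [map_mul, ← hX, hZ, map_one, Units.inv_mul])
    refine ⟨X * Y * Z, ⟨?_, ?_, pm_mul (pm_mul (h4 g hg X hX) hY.2.2.1)
      (h4 _ (inv_mem hg) Z hZ.symm), ?_⟩, by rw [mul_assoc, c3, mul_one]⟩
    · rw [trace_mul_cycle, c3, one_mul, hY.1]
    · rw [mul_assoc, ← mul_assoc Z, ← mul_assoc Z, c3, one_mul, mul_assoc, ← mul_assoc Y, hY.2.1,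
        one_mul, c2]
    · have c4 : Xᵀ * I4 = I4 * Z := by rw [← c1, mul_assoc _ X, c2, mul_one, c1]
      have c5 : Zᵀ * I4 = I4 * X := by
        conv_lhs => rw [← c1, mul_assoc Xᵀ, ← mul_assoc, ← transpose_mul, c2, transpose_one, one_mul]
      rw [transpose_mul, transpose_mul, mul_assoc, mul_assoc, c4, ← mul_assoc Yᵀ, hY.2.2.2,
        ← mul_assoc, ← mul_assoc, c5]
      simp only [mul_assoc]
  · obtain ⟨Y, c1, c2⟩ := hA !![1, 0, 0, 0; 0, 1, 0, 0; 0, 0, 2, 0; 0, 0, 0, 2] (by decide +kernel)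
    have c3 := congrArg (· * tvm id I4 (-1) ![1, 0, 1, 0]) c2
    simp only [mul_assoc Y] at c3
    rw [show tvm id I4 1 ![1, 0, 1, 0] * tvm id I4 (-1) ![1, 0, 1, 0] = 1 by decide +kernel,
      mul_one] at c3
    rw [← c3] at c1
    exact absurd c1 (by decide +kernel)

end Cfsg.Agent.H18
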