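import Cfsg.Agent.H18.MdD

/-! The normaliser of a field of degree five in `SU₅(2)` is not maximal. -/

set_option autoImplicit false
set_option synthInstance.maxSize 4096

namespace Cfsg.Agent.H18

open Cfsg.Geo Matrix
open scoped MatrixGroups

variable {ι : Type} [Fintype ι] [DecidableEq ι] {F : Type*} [Field F]
  {R : Type} [Field R] {σ : F →+* F} {ε : F} {f : (ι → F) → (ι → F) → F} {φ : R ≃+* F} {τ : R → R}
  {a : F} {H : Subgroup (GL ι F)}

lemma Md.eq_vec {κ : Type} [Fintype κ] [DecidableEq κ] {G G' : Matrix κ κ R} (m : Md σ f φ τ G)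
    (hG : G * G' = 1) {u : ι → F} {x : κ → R}
    (h : ∀ k, f u (m.vec (Pi.single k 1)) = φ (fm τ G x (Pi.single k 1))) : u = m.vec x := by
  obtain ⟨y, rfl⟩ := m.exists_vec u
  have hτ0 : τ 0 = 0 := φ.injective (by rw [← m.conj]; simp)
  have hτ1 : τ 1 = 1 := φ.injective (by rw [← m.conj]; simp)
  have h1 : y ᵥ* G = x ᵥ* G := funext fun k => by
    have := φ.injective ((m.form_vec _ _).symm.trans (h k))
    simpa [fm, mulVec, vecMul, dotProduct, Pi.single_apply, apply_ite τ, hτ0, hτ1] using this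
  rw [← vecMul_one y, ← hG, ← vecMul_vecMul, h1, vecMul_vecMul, hG, vecMul_one]

section field

variable [Fintype F] [Nonempty ι] {r : ℕ} {K : Subalgebra F (Matrix ι ι F)}

omit [Fintype F] in
lemma HForm.exists_adj_ne (hf : HForm σ ε f) (hσ : σ ≠ RingHom.id F)
    (K : Subalgebra F (Matrix ι ι F)) : ∃ y ∈ K, adj σ f y ≠ y := by
  obtain ⟨c, hc⟩ := DFunLike.ne_iff.mp hσ
  refine ⟨c • 1, K.smul_mem (one_mem _) _, fun h => hc ?_⟩
  obtain ⟨i⟩ := ‹Nonempty ι›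
  rw [hf.adj_smul, hf.adj_one] at h
  simpa using congrFun (congrFun h i) i

lemma HForm.adj_eq_pow (hf : HForm σ ε f) (hK : IsFieldSubalgebra r K)
    (ha : ∀ x ∈ K, adj σ f x ∈ K) (hne : ∃ y ∈ K, adj σ f y ≠ y) {s : ℕ}
    (hs : Fintype.card F ^ r = s ^ 2) : ∀ x ∈ K, adj σ f x = x ^ s := by
  obtain ⟨y, hy, h2⟩ := hne
  have a1 : adjHom hf hK.comm ha ≠ RingHom.id K := fun h => h2 (by
    have : (adjHom hf hK.comm ha ⟨y, hy⟩).1 = y := by rw [h]; rfl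
    exact this)
  have a2 : ∀ x, adjHom hf hK.comm ha (adjHom hf hK.comm ha x) = x :=
    fun x => Subtype.ext (hf.adj_adj _)
  let _ : Field K := (isField_of_inv K hK.comm hK.inv).toField
  obtain ⟨a3, a4⟩ := exists_pow_of_invol (adjHom hf hK.comm ha) a2 a1
  rw [card_fieldSub hK, hs] at a3
  rw [← Nat.pow_left_injective two_ne_zero a3] at a4
  exact fun x hx => congrArg Subtype.val (a4 ⟨x, hx⟩)

lemma exists_primRoot (hK : IsFieldSubalgebra r K) {n : ℕ} (hn : n ∣ Fintype.card F ^ r - 1) :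
    ∃ k ∈ K, orderOf k = n := by
  let _ : Field K := (isField_of_inv K hK.comm hK.inv).toField
  obtain ⟨u, hu⟩ := IsCyclic.exists_ofOrder_eq_natCard (α := Kˣ)
  rw [Nat.card_units, card_fieldSub hK] at hu
  have h0 : orderOf u ≠ 0 := (orderOf_pos u).ne'
  refine ⟨((u ^ (orderOf u / n) : Kˣ) : K), Subtype.prop _, ?_⟩
  rw [← hu] at hn
  exact (orderOf_injective K.val.toRingHom.toMonoidHom Subtype.val_injective _).trans
    (orderOf_units.trans (orderOf_pow_orderOf_div h0 hn))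

omit [Fintype F] in
lemma primRoot_spec (hK : IsFieldSubalgebra r K) {n : ℕ} (hn : 1 < n) {k : Matrix ι ι F}
    (hk : k ∈ K) (h : orderOf k = n) : (∀ y ∈ K, y ^ n = 1 → ∃ i < n, y = k ^ i) ∧
      ∑ i ∈ Finset.range n, k ^ i = 0 := by
  let _ : Field K := (isField_of_inv K hK.comm hK.inv).toField
  have h1 : IsPrimitiveRoot (⟨k, hk⟩ : K) n := by
    rw [← h, ← show orderOf (⟨k, hk⟩ : K) = orderOf k from
      (orderOf_injective K.val.toRingHom.toMonoidHom Subtype.val_injective _).symm]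
    exact IsPrimitiveRoot.orderOf _
  have : NeZero n := ⟨by omega⟩
  refine ⟨fun y hy h2 => ?_, ?_⟩
  · obtain ⟨i, hi, h3⟩ := h1.eq_pow_of_pow_eq_one (ξ := ⟨y, hy⟩) (Subtype.ext h2)
    exact ⟨i, hi, (congrArg Subtype.val h3).symm⟩
  · simpa using congrArg Subtype.val (h1.geom_sum_eq_zero hn)

end field

/-- elements of the field with four elements -/
def e4 : ℕ → F4
  | 0 => 0
  | 1 => 1
  | 2 => ⟨0, 1⟩
  | _ => ⟨1, 1⟩

/-- traces of eleventh roots of unity -/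
def t11 (j : ℕ) : F4 := e4 ([1, 2, 3, 2, 2, 2, 3, 3, 3, 2, 3].getD (j % 11) 0)

/-- the Gram matrix -/
def G5 : Matrix (Fin 5) (Fin 5) F4 := Matrix.of fun i j => t11 (10 * j + i)

/-- eleven vectors -/
def zz (j : Fin 11) : Fin 5 → F4 := e4 ∘ ![![1, 0, 0, 0, 0], ![0, 1, 0, 0, 0], ![0, 0, 1, 0, 0],
  ![0, 0, 0, 1, 0], ![0, 0, 0, 0, 1], ![1, 3, 1, 1, 2], ![2, 0, 1, 3, 2], ![2, 3, 2, 3, 0],
  ![0, 2, 3, 2, 3], ![3, 2, 1, 0, 3], ![3, 1, 1, 2, 1]] j

/-- the companion matrix -/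
def C5 : Matrix (Fin 5) (Fin 5) F4 := Matrix.of fun i j => zz (j.castLE (by decide) + 1) i

/-- an involution of `L₂(11)` -/
def T5 : Matrix (Fin 5) (Fin 5) F4 := Matrix.map
  !![1, 2, 0, 3, 1; 0, 1, 3, 3, 2; 0, 1, 1, 2, 3; 0, 2, 1, 3, 2; 0, 1, 2, 0, 3] e4

/-- sixty-six vectors -/
def S66 (x : Fin 5 → F4) : Prop := ∃ i e, x = zz i ∨ (e ≠ 0 ∧ x = zz i + zz (i + e))

instance (x : Fin 5 → F4) : Decidable (S66 x) := by unfold S66; infer_instance

lemma T5_S66 : ∀ i e, S66 (T5 *ᵥ zz i) ∧ (e ≠ 0 → S66 (T5 *ᵥ (zz i + zz (i + e)))) := by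
  decide +kernel

lemma zz_of_norm : ∀ a b c d e : F4, fm (· ^ 2) G5 ![a, b, c, d, e] ![a, b, c, d, e] = t11 0 →
    fm (· ^ 2) G5 (C5 *ᵥ ![a, b, c, d, e]) ![a, b, c, d, e] = t11 1 →
    fm (· ^ 2) G5 (C5 *ᵥ C5 *ᵥ ![a, b, c, d, e]) ![a, b, c, d, e] = t11 2 →
    ∃ i, ∃ s : F4, s ≠ 0 ∧ ![a, b, c, d, e] = s • zz i := by decide +kernel

end Cfsg.Agent.H18
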