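import Cfsg.Agent.H18.MdE

/-! The normaliser of a field of degree five in `SU₅(2)` is not maximal. -/

set_option autoImplicit false
set_option synthInstance.maxSize 4096

namespace Cfsg.Agent.H18

open Cfsg.Geo Matrix
open scoped MatrixGroups

variable {ι : Type} [Fintype ι] [DecidableEq ι] {F : Type*} [Field F] [Fintype F]
  {σ : F →+* F} {f : (ι → F) → (ι → F) → F} {a : F} {H : Subgroup (GL ι F)}

lemma trace_pow_mod {k : Matrix ι ι F} {n : ℕ} (h : k ^ n = 1) (j : ℕ) :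
    (k ^ (j * Fintype.card F % n)).trace = (k ^ j).trace := by
  rw [← pow_eq_pow_mod _ h, pow_mul, FiniteField.trace_pow_card, FiniteField.pow_card]

/-- the trace on a subalgebra -/
def trK (K : Subalgebra F (Matrix ι ι F)) : K →ₗ[F] F := traceLinearMap ι F F ∘ₗ K.val.toLinearMap

omit [Fintype F] in
lemma normal_mulVec {K : Subalgebra F (Matrix ι ι F)} {g : GL ι F} (hg : g ∈ isoG f)
    (hK : g ∈ subalgebraNormalizer K) {v : ι → F} (hv : ∀ x ∈ K, f (x *ᵥ v) v = x.trace) :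
    ∀ x ∈ K, f (x *ᵥ (g : Matrix ι ι F) *ᵥ v) ((g : Matrix ι ι F) *ᵥ v) = x.trace := fun x hx => by
  obtain ⟨y, rfl⟩ := (cj g).surjective x
  rw [cj_mulVec, mem_isoG.mp hg, hv _ ((mem_subalgebraNormalizer.mp hK y).mpr hx), cj_apply,
    trace_units_conj]

theorem SU5_field (h : SuH σ 2 f a H) (hn : Fintype.card ι = 5)
    {K : Subalgebra F (Matrix ι ι F)} (hK : IsFieldSubalgebra 5 K) (h1 : IsAdjointClosedFor f K)
    (hle : H ≤ subalgebraNormalizer K) : False := by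
  have : Nonempty ι := Fintype.card_pos_iff.mp (by omega)
  have hF : Fintype.card F = 4 := h.hF
  obtain ⟨φ⟩ := exists_equiv_F4 hF
  have hf := h.hf.toHForm
  have ha := hf.adjClosed_iff.mp h1
  have hne := hf.exists_adj_ne h.hσ K
  have hadj : ∀ x ∈ K, x ^ 11 = 1 → adj σ f x = x ^ 10 := fun x hx h2 => by
    rw [hf.adj_eq_pow hK ha hne (s := 32) (by rw [hF]; rfl) x hx, pow_eq_pow_mod _ h2]
  have htr : ∀ k ∈ K, k ^ 11 = 1 → ∀ j < 11, (k ^ j).trace =
      [1, k.trace, σ k.trace, k.trace, k.trace, k.trace, σ k.trace, σ k.trace, σ k.trace, k.trace,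
        σ k.trace].getD j 0 := fun k hk h2 j hj => by
    have b := fun j => trace_pow_mod h2 j
    rw [hF] at b
    have b1 := b 1; have b4 := b 4; have b5 := b 5; have b9 := b 9
    have b10 := b 10; have b7 := b 7; have b6 := b 6; have b2 := b 2
    have b0 := hf.trace_adj k
    rw [hadj k hk h2] at b0
    norm_num at b1 b4 b5 b9 b10 b7 b6 b2
    interval_cases j <;> simp [*]
    rw [← map_ofNat φ 5, show (5 : F4) = 1 by decide +kernel, map_one]
  obtain ⟨k, hk, k1, k2⟩ : ∃ k ∈ K, orderOf k = 11 ∧ k.trace = φ (e4 2) := by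
    obtain ⟨k, hk, k1⟩ := exists_primRoot hK (n := 11) (by rw [hF]; decide)
    have k2 : k ^ 11 = 1 := k1 ▸ pow_orderOf_eq_one k
    have k3 := congrArg trace (primRoot_spec hK (by decide) hk k1).2
    rw [trace_sum, Finset.sum_congr rfl fun j hj => htr k hk k2 j (Finset.mem_range.mp hj)] at k3
    obtain ⟨b, hb⟩ := φ.surjective k.trace
    have k4 : ∀ b : F4, 1 + b + b ^ 2 + b + b + b + b ^ 2 + b ^ 2 + b ^ 2 + b + b ^ 2 = 0 →
        b = e4 2 ∨ b ^ 2 = e4 2 := by decide +kernel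
    rcases k4 b (φ.injective (by simpa [Finset.sum_range_succ, ← hb, h.hq] using k3)) with k5 | k5
    · exact ⟨k, hk, k1, by rw [← hb, k5]⟩
    · exact ⟨k ^ 10, pow_mem hk _, by rw [Nat.Coprime.orderOf_pow (by rw [k1]; decide), k1],
        by rw [htr k hk k2 10 (by decide), ← k5, ← hb]; exact h.tau φ b⟩
  have k3 : k ^ 11 = 1 := k1 ▸ pow_orderOf_eq_one k
  have k4 : ∀ j, (k ^ j).trace = φ (t11 j) := fun j => by
    rw [pow_eq_pow_mod _ k3, htr k hk k3 _ (Nat.mod_lt _ (by decide)), k2, h.tau φ, t11]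
    have := Nat.mod_lt j (show 0 < 11 by decide)
    generalize j % 11 = i at this
    interval_cases i <;> simp [e4] <;> rw [← map_pow] <;> exact congrArg φ (by decide +kernel)
  obtain ⟨v, -, hv⟩ := hf.exists_normal hK ha hne (trK K) (fun x => by
    rw [one_mul]; exact hf.trace_adj _) (U := ⊤) (hf.nondegOn_iff.mpr (by
      rw [top_inf_eq, eq_bot_iff]; exact fun x hx => hf.nondeg' x fun y => hx y trivial))
    top_ne_bot fun _ _ _ _ => trivial
  replace hv : ∀ x ∈ K, f (x *ᵥ v) v = x.trace := fun x hx => hv ⟨x, hx⟩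
  have k5 : ∀ i j, f (k ^ i *ᵥ v) (k ^ j *ᵥ v) = φ (t11 (10 * j + i)) := fun i j => by
    rw [hf.adj_spec', hf.adj_pow, hadj k hk k3, mulVec_mulVec, ← pow_mul, ← pow_add,
      hv _ (pow_mem hk _), k4]
  have hG : G5 * Matrix.map !![0, 0, 3, 2, 0; 0, 0, 1, 0, 2; 2, 1, 1, 1, 3; 3, 0, 1, 0, 0;
      0, 3, 2, 0, 0] e4 = 1 := by decide +kernel
  obtain ⟨m, hm⟩ := hf.toSesq.exists_md (h.tau φ) (v := fun i : Fin 5 => k ^ (i : ℕ) *ᵥ v)
    (G := G5) (fun i j => k5 i j) hG (by simp [hn])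
  have hz : ∀ j : Fin 11, k ^ (j : ℕ) *ᵥ v = m.vec (zz j) := fun j => m.eq_vec hG fun i => by
    rw [hm, k5]
    exact congrArg φ ((by decide +kernel : ∀ (j : Fin 11) (i : Fin 5), t11 (10 * i + j) =
      fm (· ^ 2) G5 (zz j) (Pi.single i 1)) j i)
  have hz' : ∀ i e : Fin 11, k ^ (e : ℕ) *ᵥ m.vec (zz i) = m.vec (zz (i + e)) := fun i e => by
    rw [← hz, ← hz, mulVec_mulVec, ← pow_add, Fin.val_add, ← pow_eq_pow_mod _ k3, add_comm]
  have hC : k = m.mat C5 := m.mat_eq fun i => by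
    have := hz' (i.castLE (by decide)) 1
    rw [← hz, Fin.val_one, pow_one] at this
    rw [hm, Fin.val_castLE] at *
    rw [this]; congr 1; ext1 j; simp [C5]
  have key : ∀ g ∈ H, ∀ X, (g : Matrix ι ι F) = m.mat X → ∀ i, ∃ j, ∃ s : F4, s ≠ 0 ∧
      X *ᵥ zz i = s • zz j := fun g hg X hX i => by
    have c1 : ∀ x ∈ K, f (x *ᵥ m.vec (zz i)) (m.vec (zz i)) = x.trace := fun x hx => by
      rw [← hz, hf.adj_spec', hf.adj_pow, hadj k hk k3, mulVec_mulVec, mulVec_mulVec,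
        mul_assoc, hK.comm x hx _ (pow_mem hk _), ← mul_assoc, ← pow_mul, ← pow_add,
        show 10 * (i : ℕ) + i = 11 * i by ring, pow_mul, k3, one_pow, one_mul, hv x hx]
    have c2 := fun j => normal_mulVec (h.le hg) (hle hg) c1 (k ^ j) (pow_mem hk j)
    simp only [k4, hX, m.mat_mulVec] at c2
    have c3 := c2 0; have c4 := c2 1; have c5 := c2 2
    rw [pow_zero, one_mulVec] at c3
    rw [pow_one, hC, m.mat_mulVec] at c4
    rw [sq, ← mulVec_mulVec, hC, m.mat_mulVec, m.mat_mulVec] at c5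
    rw [m.form_vec, φ.injective.eq_iff] at c3 c4 c5
    generalize X *ᵥ zz i = x at c3 c4 c5 ⊢
    have c6 : x = ![x 0, x 1, x 2, x 3, x 4] := by ext1 i; fin_cases i <;> rfl
    rw [c6] at c3 c4 c5 ⊢
    exact zz_of_norm _ _ _ _ _ c3 c4 c5
  refine m.false_set h.max le_rfl (fun x => ∃ s : F4, s ≠ 0 ∧ ∃ y, S66 y ∧ x = s • y) ?_
    (A := tvm (· ^ 2) G5 1 ![0, 0, 1, 1, 1]) (B := T5) (by decide +kernel)
    (det_eq_one_of_pow (n := 2) (by decide +kernel) F4_sq) (x := zz 0)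
    ⟨1, one_ne_zero, zz 0, ⟨0, 0, .inl rfl⟩, (one_smul _ _).symm⟩ ?_ (by decide +kernel)
    (det_eq_one_of_pow (n := 2) (by decide +kernel) F4_sq) ?_
    fun g hg hX => absurd (key g hg _ hX 1) (by decide +kernel)
  · rintro g hg X hX _ ⟨s, hs, y, ⟨i, e, hy⟩, rfl⟩
    obtain ⟨j, t, ht, c1⟩ := key g hg X hX i
    refine ⟨s * t, mul_ne_zero hs ht, ?_⟩
    rcases hy with rfl | ⟨he, rfl⟩
    · exact ⟨zz j, ⟨j, 0, .inl rfl⟩, by rw [mulVec_smul, c1, smul_smul]⟩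
    obtain ⟨d, hd, c2⟩ := (primRoot_spec hK (by decide) hk k1).1 (cj g (k ^ (e : ℕ)))
      ((mem_subalgebraNormalizer.mp (hle hg) _).mp (pow_mem hk _))
      (by rw [← map_pow, ← pow_mul, mul_comm, pow_mul, k3, one_pow, map_one])
    have c3 : X *ᵥ zz (i + e) = t • zz (j + ⟨d, hd⟩) := m.vec_inj (by
      rw [← m.mat_mulVec, ← hz' i, ← hX, ← cj_mulVec, c2, hX, m.mat_mulVec, c1, m.vec_smul,
        m.vec_smul, ← hz' j, mulVec_smul])
    refine ⟨zz j + zz (j + ⟨d, hd⟩), ⟨j, ⟨d, hd⟩, .inr ⟨fun h0 => he ?_, rfl⟩⟩, by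
      rw [mulVec_smul, mulVec_add, c1, c3, ← smul_add, smul_smul]⟩
    obtain rfl : d = 0 := congrArg Fin.val h0
    rw [pow_zero, map_eq_one_iff _ (cj g).injective, ← orderOf_dvd_iff_pow_eq_one, k1] at c2
    exact Fin.ext (Nat.eq_zero_of_dvd_of_lt c2 e.2)
  · rintro ⟨s, hs, y, hy, c1⟩
    have c2 : ∀ s : F4, s ≠ 0 → ¬ S66 (s ^ 2 • tvm (· ^ 2) G5 1 ![0, 0, 1, 1, 1] *ᵥ zz 0) := by
      decide +kernel
    refine c2 s hs ?_
    rwa [c1, smul_smul, (by decide +kernel : ∀ s : F4, s ≠ 0 → s ^ 2 * s = 1) s hs, one_smul]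
  · rintro _ ⟨s, hs, y, ⟨i, e, hy⟩, rfl⟩
    refine ⟨s, hs, T5 *ᵥ y, ?_, mulVec_smul _ _ _⟩
    rcases hy with rfl | ⟨he, rfl⟩
    exacts [(T5_S66 i e).1, (T5_S66 i e).2 he]

end Cfsg.Agent.H18
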