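import Cfsg.Agent.H18.MdF

/-! The normaliser of a cubic field in `SU₆(2)` is not maximal. -/

set_option autoImplicit false
set_option synthInstance.maxSize 4096

namespace Cfsg.Agent.H18

open Cfsg.Geo Matrix
open scoped MatrixGroups

variable {ι : Type} [Fintype ι] [DecidableEq ι] {F : Type*} [Field F] [Fintype F]
  {σ : F →+* F} {ε : F} {f : (ι → F) → (ι → F) → F} {a : F} {H : Subgroup (GL ι F)}

lemma HForm.exists_trace [Nonempty ι] (hf : HForm σ ε f) {r : ℕ} {K : Subalgebra F (Matrix ι ι F)}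
    (hK : IsFieldSubalgebra r K) (ha : ∀ x ∈ K, adj σ f x ∈ K) : ∃ l : K →ₗ[F] F,
      (∀ x : K, l ⟨_, ha x x.2⟩ = σ (l x)) ∧ l 1 = r ∧ ∀ x : K, l (x ^ Fintype.card F) = l x := by
  have a2 : ∀ x, adjHom hf hK.comm ha (adjHom hf hK.comm ha x) = x :=
    fun x => Subtype.ext (hf.adj_adj _)
  have h0 : ∀ c : F, adjHom hf hK.comm ha (algebraMap F K c) = algebraMap F K (σ c) := fun c =>
    Subtype.ext (by
      change adj _ f (algebraMap F _ c) = algebraMap F _ (σ c)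
      rw [Algebra.algebraMap_eq_smul_one, hf.adj_smul, hf.adj_one, Algebra.algebraMap_eq_smul_one])
  let _ : Field K := (isField_of_inv K hK.comm hK.inv).toField
  refine ⟨Algebra.trace F K, fun x => ?_, ?_, fun x => ?_⟩
  · have := Algebra.trace_eq_of_equiv_equiv
      (RingEquiv.ofBijective σ (Function.Involutive.bijective hf.invol))
      (RingEquiv.ofBijective (adjHom hf hK.comm ha) (Function.Involutive.bijective a2))
      (RingHom.ext fun c => (h0 c).symm) x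
    rw [this]; exact ((RingEquiv.ofBijective σ _).apply_symm_apply _).symm
  · rw [← map_one (algebraMap F K), Algebra.trace_algebraMap, hK.finrank_eq, nsmul_one]
  · rw [Algebra.trace_eq_matrix_trace (Module.finBasis F K), map_pow, FiniteField.trace_pow_card,
      FiniteField.pow_card, Algebra.trace_eq_matrix_trace (Module.finBasis F K)]

section cw

variable {R : Type} [Field R]

/-- a cube root of a scalar -/
def Cw (w : R) : Matrix (Fin 3) (Fin 3) R := !![0, 0, w; 1, 0, 0; 0, 1, 0]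

/-- polynomials in `Cw w` -/
def pcw (w a b c : R) : Matrix (Fin 3) (Fin 3) R := !![a, w * c, w * b; b, a, w * c; c, b, a]

/-- the trace form -/
def Tw (w : R) : Matrix (Fin 3) (Fin 3) R := !![1, 0, 0; 0, 0, w; 0, w, 0]

variable {w : R} {Y Z : Matrix (Fin 3) (Fin 3) R}

lemma eq_pc (h : Y * Cw w = Cw w * Y) : ∃ a b c, Y = pcw w a b c := by
  have e := fun i j => congrFun (congrFun h i) j
  have a1 := e 0 0; have a2 := e 1 0; have a3 := e 2 0
  have a4 := e 0 1; have a5 := e 1 1; have a6 := e 2 1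
  simp [Cw, mul_apply, Fin.sum_univ_three] at a1 a2 a3 a4 a5 a6
  refine ⟨Y 0 0, Y 1 0, Y 2 0, ?_⟩
  ext i j
  fin_cases i <;> fin_cases j <;> simp [pcw, *]

lemma Cw_comm (hY : Y * Cw w = Cw w * Y) (hZ : Z * Cw w = Cw w * Z) : Y * Z = Z * Y := by
  obtain ⟨a, b, c, rfl⟩ := eq_pc hY
  obtain ⟨a', b', c', rfl⟩ := eq_pc hZ
  ext i j
  fin_cases i <;> fin_cases j <;> simp [pcw, mul_apply, Fin.sum_univ_three] <;> ring

lemma Cw_adj (hY : Y * Cw w = Cw w * Y) : Yᵀ * Tw w = Tw w * Y := by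
  obtain ⟨a, b, c, rfl⟩ := eq_pc hY
  ext i j
  fin_cases i <;> fin_cases j <;> simp [pcw, Tw, mul_apply, Fin.sum_univ_three] <;> ring

end cw

/-- the alternating form -/
abbrev B6 : Matrix (Fin 3 ⊕ Fin 3) (Fin 3 ⊕ Fin 3) F4 := fromBlocks 0 (Tw (e4 2)) (Tw (e4 2)) 0

/-- the generator of the field -/
abbrev C6 : Matrix (Fin 3 ⊕ Fin 3) (Fin 3 ⊕ Fin 3) F4 := fromBlocks (Cw (e4 2)) 0 0 (Cw (e4 2))

/-- similarities of the alternating form -/
def sim6 (X : Matrix (Fin 3 ⊕ Fin 3) (Fin 3 ⊕ Fin 3) F4) : Prop := ∃ c : F4, Xᵀ * B6 * X = c • B6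

instance (X : Matrix (Fin 3 ⊕ Fin 3) (Fin 3 ⊕ Fin 3) F4) : Decidable (sim6 X) := by
  unfold sim6; infer_instance

lemma sim6_mul (X Y : Matrix (Fin 3 ⊕ Fin 3) (Fin 3 ⊕ Fin 3) F4) : sim6 X → sim6 Y → sim6 (X * Y) := by
  rintro ⟨c, hc⟩ ⟨d, hd⟩
  exact ⟨c * d, by rw [transpose_mul, mul_assoc Yᵀ, mul_assoc Yᵀ, ← mul_assoc _ X, hc,
    Matrix.smul_mul, Matrix.mul_smul, ← mul_assoc, hd, smul_smul]⟩

lemma pc_scalar : ∀ a b c : F4, Tw (e4 2) * pcw (e4 2) a b c * (Tw (e4 2) * pcw (e4 2) a b c).map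
    (· ^ 2) = 1 → (pcw (e4 2) a b c).det * (pcw (e4 2) a b c).det = 1 →
    Tw (e4 2) * pcw (e4 2) a b c = a • Tw (e4 2) := by decide +kernel

lemma sim6_of_comm {X : Matrix (Fin 3 ⊕ Fin 3) (Fin 3 ⊕ Fin 3) F4} (h1 : X * C6 = C6 * X)
    (h2 : Xᵀ * 1 * X.map (· ^ 2) = 1) (h3 : X.det = 1) : sim6 X := by
  have : CharP F4 2 := charP_of_card_eq_prime_pow (p := 2) (f := 2) (by rw [card_quad]; simp)
  obtain ⟨A, B, C, D, rfl⟩ : ∃ A B C D, X = fromBlocks A B C D :=
    ⟨_, _, _, _, (fromBlocks_toBlocks X).symm⟩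
  simp only [fromBlocks_multiply, Matrix.mul_zero, Matrix.zero_mul, add_zero, zero_add,
    fromBlocks_inj] at h1
  obtain ⟨hA, hB, hC, hD⟩ := h1
  obtain ⟨a, b, c, hΔ⟩ := eq_pc (w := e4 2) (Y := A * D + B * C) (by
    rw [add_mul, mul_add, mul_assoc, hD, ← mul_assoc, hA, mul_assoc B, hC, ← mul_assoc B, hB]
    simp only [mul_assoc])
  have h0 : ∀ Y : Matrix (Fin 3) (Fin 3) F4, Y + Y = 0 := fun Y => by
    ext1 i j; exact CharTwo.add_self_eq_zero _
  have h4 : (fromBlocks A B C D)ᵀ * B6 * fromBlocks A B C D =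
      B6 * fromBlocks (pcw (e4 2) a b c) 0 0 (pcw (e4 2) a b c) := by
    simp only [fromBlocks_transpose, fromBlocks_multiply, Matrix.mul_zero, Matrix.zero_mul,
      add_zero, zero_add, Cw_adj hA, Cw_adj hB, Cw_adj hC, Cw_adj hD, mul_assoc, ← mul_add, ← hΔ,
      Cw_comm hC hA, Cw_comm hD hB, Cw_comm hC hB, Cw_comm hD hA, h0, add_comm (B * C)]
  have h5 := congrArg det h4
  rw [det_mul, det_mul, det_mul, det_transpose, h3, det_fromBlocks_zero₂₁, one_mul, mul_one,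
    eq_comm, mul_eq_left₀ (det_ne_zero_of_right_inverse (B := B6.map (· ^ 2))
      (by decide +kernel))] at h5
  have h6 : ∀ Y Z : Matrix (Fin 3 ⊕ Fin 3) (Fin 3 ⊕ Fin 3) F4,
      (Y * Z).map (· ^ 2) = Y.map (· ^ 2) * Z.map (· ^ 2) := fun Y Z =>
    Matrix.map_mul (f := frobenius F4 2)
  set X := fromBlocks A B C D
  rw [mul_one] at h2
  have h7 : X * Xᵀ.map (· ^ 2) = 1 := mul_eq_one_comm.mp (by
    rw [transpose_map, ← transpose_transpose X, ← transpose_mul, transpose_transpose, h2,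
      transpose_one])
  have h8 : Xᵀ * B6 * X * (Xᵀ * B6 * X).map (· ^ 2) = 1 := by
    rw [h6, h6, mul_assoc _ X, ← mul_assoc X, ← mul_assoc X, h7, one_mul, mul_assoc,
      ← mul_assoc B6, show B6 * B6.map (· ^ 2) = 1 by decide +kernel, one_mul, h2]
  refine ⟨a, ?_⟩
  rw [h4] at h8 ⊢
  simp only [fromBlocks_multiply, Matrix.mul_zero, Matrix.zero_mul, add_zero, zero_add,
    fromBlocks_map, ← fromBlocks_one, fromBlocks_inj] at h8 ⊢
  rw [pc_scalar a b c (by simpa using h8.1) h5]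
  simp [fromBlocks_smul]

/-- the Frobenius map -/
def Ph6 : Matrix (Fin 3 ⊕ Fin 3) (Fin 3 ⊕ Fin 3) F4 :=
  diagonal (Sum.elim ![1, e4 2, e4 3] ![1, e4 2, e4 3])

lemma sim6_of_twist {X : Matrix (Fin 3 ⊕ Fin 3) (Fin 3 ⊕ Fin 3) F4} {j : ℕ}
    (h1 : X * C6 = e4 2 ^ j • (C6 * X)) (h2 : Xᵀ * 1 * X.map (· ^ 2) = 1) (h3 : X.det = 1) :
    sim6 X := by
  have : CharP F4 2 := charP_of_card_eq_prime_pow (p := 2) (f := 2) (by rw [card_quad]; simp)
  induction j generalizing X with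
  | zero => exact sim6_of_comm (by simpa using h1) h2 h3
  | succ j ih =>
    have h4 : X = Ph6 * (Ph6 * Ph6 * X) := by
      rw [← mul_assoc, show Ph6 * (Ph6 * Ph6) = 1 by decide +kernel, one_mul]
    rw [h4]
    refine sim6_mul _ _ (by decide +kernel) (ih ?_ ?_ ?_)
    · rw [mul_assoc, h1, Matrix.mul_smul, ← mul_assoc, ← mul_assoc C6, pow_succ, mul_smul,
        ← Matrix.smul_mul, show e4 2 • (Ph6 * Ph6 * C6) = C6 * (Ph6 * Ph6) by decide +kernel]
    · rw [transpose_mul, show (Ph6 * Ph6 * X).map (· ^ 2) = (Ph6 * Ph6).map (· ^ 2) * X.map (· ^ 2)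
        from Matrix.map_mul (f := frobenius F4 2), mul_one, mul_assoc, ← mul_assoc _ _ (X.map _),
        show (Ph6 * Ph6)ᵀ * (Ph6 * Ph6).map (· ^ 2) = 1 by decide +kernel, ← mul_assoc, h2]
    · rw [det_mul, det_mul, h3, Ph6, det_diagonal]; decide +kernel

theorem SU6_field (h : SuH σ 2 f a H) (hn : Fintype.card ι = 6)
    {K : Subalgebra F (Matrix ι ι F)} (hK : IsFieldSubalgebra 3 K) (h1 : IsAdjointClosedFor f K)
    (hle : H ≤ subalgebraNormalizer K) : False := by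
  have : Nonempty ι := Fintype.card_pos_iff.mp (by omega)
  have hF : Fintype.card F = 4 := h.hF
  obtain ⟨φ⟩ := exists_equiv_F4 hF
  have hf := h.hf.toHForm
  have ha := hf.adjClosed_iff.mp h1
  have hne := hf.exists_adj_ne h.hσ K
  set ω := φ (e4 2) with hω
  have w1 : ω ^ 3 = 1 := by rw [hω, ← map_pow, show e4 2 ^ 3 = 1 by decide +kernel, map_one]
  have w2 : ω ≠ 1 := by rw [hω, Ne, map_eq_one_iff _ φ.injective]; decide +kernel
  have w3 : ω ^ 2 ≠ 1 := fun h0 => w2 (by rwa [pow_succ, h0, one_mul] at w1)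
  have : Fact (Nat.Prime 3) := ⟨by decide⟩
  have w4 := (primRoot_spec hK (n := 3) (by decide) (K.smul_mem (one_mem K) ω) (orderOf_eq_prime
    (by rw [smul_pow, w1, one_pow, one_smul]) fun h0 => w2 (by
      obtain ⟨i⟩ := ‹Nonempty ι›
      simpa using congrFun (congrFun h0 i) i))).1
  simp only [smul_pow, one_pow] at w4
  obtain ⟨k, hk, k1⟩ : ∃ k ∈ K, k ^ 3 = ω • 1 := by
    obtain ⟨k, hk, k1⟩ := exists_primRoot hK (n := 9) (by rw [hF]; decide)
    obtain ⟨i, hi, k2⟩ := w4 (k ^ 3) (pow_mem hk _) 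
      (by rw [← pow_mul]; exact orderOf_dvd_iff_pow_eq_one.mp (by rw [k1]))
    interval_cases i
    · rw [pow_zero, one_smul, ← orderOf_dvd_iff_pow_eq_one, k1] at k2
      exact absurd k2 (by decide)
    · exact ⟨k, hk, by rw [k2, pow_one]⟩
    · exact ⟨k ^ 2, pow_mem hk _, by
        rw [← pow_mul, mul_comm, pow_mul, k2, smul_pow, one_pow, ← pow_mul, pow_succ, w1, one_mul]⟩
  have k2 : ∀ n, k ^ n = ω ^ (n / 3) • k ^ (n % 3) := fun n => by
    conv_lhs => rw [← Nat.div_add_mod n 3, pow_add, pow_mul, k1, smul_pow, one_pow, Matrix.smul_mul,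
      one_mul]
  have k3 : k ^ 9 = 1 := by rw [k2]; simpa using congrArg (· • (1 : Matrix ι ι F)) w1
  have hadj : adj σ f k = k ^ 8 := hf.adj_eq_pow hK ha hne (s := 8) (by rw [hF]; rfl) k hk
  obtain ⟨l, l1, l2, l3⟩ := hf.exists_trace hK ha
  have l4 : l 1 = 1 := by
    rw [l2, Nat.cast_ofNat, ← map_ofNat φ 3, show (3 : F4) = 1 by decide +kernel, map_one]
  have l5 : ∀ n, l ⟨_, pow_mem hk n⟩ = ω ^ (n / 3) * l ⟨_, pow_mem hk (n % 3)⟩ := fun n => by
    rw [← smul_eq_mul, ← map_smul]; exact congrArg l (Subtype.ext (k2 n))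
  have l6 : ∀ n, l ⟨_, pow_mem hk (n * 4)⟩ = l ⟨_, pow_mem hk n⟩ := fun n => by
    rw [← l3 ⟨_, pow_mem hk n⟩, hF]; exact congrArg l (Subtype.ext (pow_mul k n 4))
  have l7 : ∀ i j : Fin 3, l ⟨_, pow_mem hk (8 * j + i)⟩ = φ ((1 : Matrix _ _ F4) i j) := by
    have c1 : l ⟨_, pow_mem hk 1⟩ = 0 := by
      have := (l5 4).symm.trans (l6 1)
      exact (mul_eq_zero.mp (by linear_combination this : (ω - 1) * _ = 0)).resolve_left
        (sub_ne_zero.mpr w2)
    have c2 : l ⟨_, pow_mem hk 2⟩ = 0 := by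
      have := (l5 8).symm.trans (l6 2)
      exact (mul_eq_zero.mp (by linear_combination this : (ω ^ 2 - 1) * _ = 0)).resolve_left
        (sub_ne_zero.mpr w3)
    have c3 : l ⟨_, pow_mem hk 0⟩ = 1 := l4 ▸ congrArg l (Subtype.ext (pow_zero k))
    intro i j
    rw [l5]
    have c4 : ω ^ 6 = 1 := by rw [show 6 = 3 * 2 from rfl, pow_mul, w1, one_pow]
    fin_cases i <;> fin_cases j <;> norm_num only [c1, c2, c3, c4, w1] <;> simp
  obtain ⟨v, w, hv, hw, hvw⟩ := hf.exists_normal_two hK ha hne l (fun x => by rw [one_mul, l1])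
    (z := 1) (by rw [l4]; exact one_ne_zero) (by omega)
  have k5 : ∀ (i j : ℕ) u u', f (k ^ i *ᵥ u) (k ^ j *ᵥ u') = f (k ^ (8 * j + i) *ᵥ u) u' :=
    fun i j u u' => by rw [hf.adj_spec', hf.adj_pow, hadj, mulVec_mulVec, ← pow_mul, ← pow_add]
  obtain ⟨m, hm⟩ := hf.toSesq.exists_md (h.tau φ) (G := 1) (G' := 1)
    (v := Sum.elim (fun i : Fin 3 => k ^ (i : ℕ) *ᵥ v) fun i : Fin 3 => k ^ (i : ℕ) *ᵥ w) (by
      rintro (i | i) (j | j)
      · simpa [k5, one_apply] using (hv ⟨_, pow_mem hk _⟩).trans (l7 i j)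
      · simpa using hf.eq_zero_comm ((k5 _ _ _ _).trans (hvw _ (pow_mem hk _)))
      · simpa using (k5 _ _ _ _).trans (hvw _ (pow_mem hk _))
      · simpa [k5, one_apply] using (hw ⟨_, pow_mem hk _⟩).trans (l7 i j))
    (one_mul _) (by simp [hn])
  have hC : k = m.mat C6 := m.mat_eq fun i => by
    have c1 : ∀ (n : ℕ) u, k *ᵥ k ^ n *ᵥ u = k ^ (n + 1) *ᵥ u := fun n u => by
      rw [mulVec_mulVec, pow_succ']
    have c2 : ∀ u, k ^ (2 + 1) *ᵥ u = ω • k ^ 0 *ᵥ u := fun u => by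
      rw [k1, smul_mulVec, pow_zero]
    rw [hm]
    rcases i with i | i <;> fin_cases i
    · exact (c1 _ _).trans ((hm (.inl 1)).symm.trans (congrArg m.vec (by decide +kernel)))
    · exact (c1 _ _).trans ((hm (.inl 2)).symm.trans (congrArg m.vec (by decide +kernel)))
    · exact (c1 _ _).trans ((c2 _).trans ((congrArg _ (hm (.inl 0)).symm).trans
        ((m.vec_smul _ _).symm.trans (congrArg m.vec (by decide +kernel)))))
    · exact (c1 _ _).trans ((hm (.inr 1)).symm.trans (congrArg m.vec (by decide +kernel)))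
    · exact (c1 _ _).trans ((hm (.inr 2)).symm.trans (congrArg m.vec (by decide +kernel)))
    · exact (c1 _ _).trans ((c2 _).trans ((congrArg _ (hm (.inr 0)).symm).trans
        ((m.vec_smul _ _).symm.trans (congrArg m.vec (by decide +kernel)))))
  have key : ∀ g ∈ H, ∀ X, (g : Matrix ι ι F) = m.mat X → ∃ j < 3, X * C6 = e4 2 ^ j • (C6 * X) := by
    intro g hg X hX
    have c1 := (mem_subalgebraNormalizer.mp (hle hg) _).mp hk
    obtain ⟨j, hj, c2⟩ := w4 (cj g k * k ^ 8) (mul_mem c1 (pow_mem hk _)) (by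
      rw [Commute.mul_pow (hK.comm _ c1 _ (pow_mem hk _)), ← map_pow, k1, map_smul, map_one,
        ← k1, ← pow_mul, ← pow_add, show 3 + 8 * 3 = 9 * 3 from rfl, pow_mul, k3, one_pow])
    refine ⟨j, hj, m.mat.injective ?_⟩
    rw [m.mat_smul, map_mul, map_mul, ← hX, ← hC, map_pow, ← Matrix.smul_mul, ← cj_eq_iff,
      ← mul_one (cj g k), ← k3, pow_succ, ← mul_assoc, c2, Matrix.smul_mul, one_mul]
  refine m.false_of h.max le_rfl sim6 ⟨1, by simp⟩ sim6_mul (fun g hg X hX => ?_)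
    (A := tvm (· ^ 2) 1 1 (Sum.elim ![1, 1, 0] ![0, 0, 0]))
    (B := tvm (· ^ 2) 1 1 (Sum.elim ![1, 0, 0] ![1, 0, 0])) (by decide +kernel)
    (det_eq_one_of_pow (n := 2) (by decide +kernel) F4_sq) (by decide +kernel) (by decide +kernel)
    (det_eq_one_of_pow (n := 2) (by decide +kernel) F4_sq) (by decide +kernel)
    fun g hg hX => absurd (key g hg _ hX) (by decide +kernel)
  obtain ⟨j, -, c1⟩ := key g hg X hX
  exact sim6_of_twist c1 ((m.mem_isoG hX).mp (h.le hg)) (m.det_eq_one (h.max.1.le hg).2 hX)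

end Cfsg.Agent.H18
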