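import Cfsg.Agent.H18.MdG
import Cfsg.Agent.H18.SpAux

/-! Frames and orthogonal subgroups in `SU₃(3)` and `SU₃(5)`. -/

set_option autoImplicit false
set_option synthInstance.maxSize 4096

namespace Cfsg.Agent.H18

open Cfsg.Geo Matrix
open scoped MatrixGroups

/-- the field with 25 elements -/
abbrev F25 : Type := QuadraticAlgebra (ZMod 5) 2 0

instance instFactF25 : Fact (∀ r : ZMod 5, r ^ 2 ≠ 2 + 0 * r) := ⟨by decide⟩

/-- conjugation -/
def qc {R : Type} [Neg R] {a b : R} (x : QuadraticAlgebra R a b) : QuadraticAlgebra R a b :=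
  ⟨x.re, -x.im⟩

variable {ι : Type} [Fintype ι] [DecidableEq ι] {F : Type*} [Field F]
  {R : Type} [Field R] {σ : F →+* F} {f : (ι → F) → (ι → F) → F} {φ : R ≃+* F} {τ : R → R}
  {a : F} {H : Subgroup (GL ι F)}

omit [DecidableEq ι] in
lemma HForm.exists_scalar_gram [Finite F] (hf : HForm (RingHom.id F) 1 f) (h2 : (2 : F) ≠ 0)
    (hn : Fintype.card ι = 3) : ∃ (c : F) (v : Fin 3 → ι → F), c ≠ 0 ∧
      ∀ i j, f (v i) (v j) = if i = j then c else 0 := by
  classical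
  obtain ⟨b, b1, b2⟩ := hf.exists_orth_basis h2 hf.nondegOn_top (m := 3) (by simp [hn])
  have h4 : (4 : F) ≠ 0 := by rw [show (4 : F) = 2 * 2 by norm_num]; exact mul_ne_zero h2 h2
  have a0 := b2 0; have a1 := b2 1; have a2 := b2 2
  have e1 := b1 0 1 (by decide); have e2 := b1 0 2 (by decide); have e3 := b1 1 2 (by decide)
  have e4 := b1 1 0 (by decide); have e5 := b1 2 0 (by decide); have e6 := b1 2 1 (by decide)
  generalize (b 0 : ι → F) = u₀, (b 1 : ι → F) = u₁, (b 2 : ι → F) = u₂ at *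
  obtain ⟨x, y, h3⟩ := H13.exists_binary_eq (b := 0) (c := f u₁ u₁) a0 (Or.inl (by simp [*]))
    (f u₀ u₀ * f u₁ u₁ * f u₂ u₂)
  obtain ⟨s, t, h5⟩ := H13.exists_binary_eq (b := 0) (c := (1 : F)) one_ne_zero (Or.inl (by simp [*]))
    (f u₀ u₀ * f u₁ u₁)
  have h6 : (f u₀ u₀)⁻¹ * f u₀ u₀ = 1 := inv_mul_cancel₀ a0
  have h7 : (f u₁ u₁)⁻¹ * f u₁ u₁ = 1 := inv_mul_cancel₀ a1
  set w := (x * (f u₁ u₁)⁻¹) • u₁ - (y * (f u₀ u₀)⁻¹) • u₀ with hw
  have w1 : f w w = f u₂ u₂ := by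
    simp only [hw, hf.sub_left, hf.sub_right, hf.smul_left, hf.smul_right, e1, e4, RingHom.id_apply]
    field_simp
    linear_combination h3
  have w2 : f w u₂ = 0 := by simp [hw, hf.sub_left, hf.smul_left, e2, e3]
  have w3 : f w (x • u₀ + y • u₁) = 0 := by
    simp only [hw, hf.sub_left, hf.add_right, hf.smul_left, hf.smul_right, e1, e4, RingHom.id_apply]
    linear_combination x * y * h7 - x * y * h6
  have w4 : f u₂ (x • u₀ + y • u₁) = 0 := by simp [hf.add_right, hf.smul_right, e5, e6]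
  have w5 : f (x • u₀ + y • u₁) (x • u₀ + y • u₁) = f u₀ u₀ * f u₁ u₁ * f u₂ u₂ := by
    simp only [hf.add_left, hf.add_right, hf.smul_left, hf.smul_right, e1, e4, RingHom.id_apply]
    linear_combination h3
  have w6 := hf.eq_zero_comm w2
  have w7 := hf.eq_zero_comm w3
  have w8 := hf.eq_zero_comm w4
  generalize x • u₀ + y • u₁ = v at *
  refine ⟨_, ![v, s • w + t • u₂, s • u₂ - t • w], mul_ne_zero (mul_ne_zero a0 a1) a2,
    fun i j => ?_⟩
  fin_cases i <;> fin_cases j <;> simp [hf.add_left, hf.add_right, hf.sub_left, hf.sub_right,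
    hf.smul_left, hf.smul_right, w1, w2, w3, w4, w5, w6, w7, w8] <;>
    first | linear_combination f u₂ u₂ * h5 | ring

theorem SuH.exists_md_orth [Fintype F] {q : ℕ} (h : SuH σ q f a H) (hq : Odd q)
    (hn : Fintype.card ι = 3) (hτ : ∀ x, σ (φ x) = φ (τ x)) {F₀ : Subfield F} {P : GL ι F}
    (h0 : Fintype.card F = Nat.card F₀ ^ 2) (h1 : IsFormRationalStructure f F₀ 1 P)
    (hle : H ≤ subfieldSubgroup F₀ P) :
    ∃ m : Md σ f φ τ (1 : Matrix (Fin 3) (Fin 3) R), ∀ g ∈ H, ∀ X, (g : Matrix ι ι F) = m.mat X →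
      ∃ z : R, z ≠ 0 ∧ ∀ i j, τ (z * X i j) = z * X i j := by
  have hf := h.hf.toHForm
  have hc : Nat.card F₀ = q := Nat.pow_left_injective two_ne_zero (h0.symm.trans h.hF)
  have hfix : ∀ x ∈ F₀, σ x = x := fun x hx => by
    have := Fintype.ofFinite F₀
    rw [h.hq, ← hc, Nat.card_eq_fintype_card]
    exact congrArg Subtype.val (FiniteField.pow_card (⟨x, hx⟩ : F₀))
  let L : (ι → F₀) → ι → F := fun u => (P : Matrix ι ι F) *ᵥ fun i => (u i : F)
  have hL : ∀ u v, f (L u) (L v) ∈ F₀ := fun u v => by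
    simpa using h1 _ _ (fun i => (u i).2) fun i => (v i).2
  have L1 : ∀ u v, L (u + v) = L u + L v := fun u v => by
    simp only [L, ← mulVec_add]; rfl
  have L2 : ∀ (c : F₀) u, L (c • u) = (c : F) • L u := fun c u => by
    simp only [L, ← mulVec_smul]; rfl
  have hf₀ : HForm (RingHom.id F₀) 1 fun u v => ⟨f (L u) (L v), hL u v⟩ :=
    { add_left := fun x y v => Subtype.ext (by simp [L1, hf.add_left])
      smul_left := fun c x v => Subtype.ext (by simp [L2, hf.smul_left])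
      add_right := fun v x y => Subtype.ext (by simp [L1, hf.add_right])
      smul_right := fun c v x => Subtype.ext (by simp [L2, hf.smul_right, hfix])
      invol := fun _ => rfl
      eps := by simp
      herm := fun u v => Subtype.ext (by simpa [hfix _ (hL v u)] using hf.herm (L u) (L v))
      nondeg := fun v hv => by
        have h2 : L v = 0 := hf.nondeg _ fun x => by
          rw [← mulVec_inv_mulVec P x, pi_eq_sum_univ' (_ *ᵥ x), mulVec_sum, hf.sum_left]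
          refine Finset.sum_eq_zero fun i _ => ?_
          rw [mulVec_smul, hf.smul_left]
          refine mul_eq_zero_of_right _ ?_
          refine Eq.trans ?_ (congrArg Subtype.val (hv (Pi.single i 1)))
          congr 2
          ext j; by_cases hj : j = i <;> simp [hj]
        have h3 := congrArg (((P⁻¹ : GL ι F) : Matrix ι ι F) *ᵥ ·) h2
        simp only [L, inv_mulVec_mulVec, mulVec_zero] at h3
        ext i; simpa using congrFun h3 i }
  obtain ⟨c, v, hc0, hv⟩ := hf₀.exists_scalar_gram (fun h2 => two_ne_zero_iff_odd.mpr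
    (h.hF ▸ hq.pow) (congrArg Subtype.val h2)) hn
  replace hv : ∀ i j, f (L (v i)) (L (v j)) = if i = j then (c : F) else 0 := fun i j => by
    have := congrArg Subtype.val (hv i j)
    split_ifs at this ⊢ <;> exact this
  obtain ⟨l, hl⟩ := H13.exists_conj_mul_eq h.hσ hf.invol (hfix _ (F₀.inv_mem c.2))
  have hc1 : (c : F) ≠ 0 := fun h2 => hc0 (Subtype.ext h2)
  obtain ⟨m, hm⟩ := hf.toSesq.exists_md hτ (v := fun i => l • L (v i)) (G := 1) (G' := 1)
    (fun i j => by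
      rw [hf.smul_left, hf.smul_right, hv, one_apply, ← mul_assoc, mul_comm l, hl]
      split_ifs <;> simp [hc1]) (one_mul _) (by simp [hn])
  refine ⟨m, fun g hg X hX => ?_⟩
  obtain ⟨z, hz, h2⟩ := mem_subfieldSubgroup_iff.mp (hle hg)
  refine ⟨φ.symm z, by simpa using hz, fun i j => φ.injective ?_⟩
  have hτ0 : τ 0 = 0 := φ.injective (by rw [← hτ]; simp)
  have hτ1 : τ 1 = 1 := φ.injective (by rw [← hτ]; simp)
  have h3 : φ (X i j) = f ((g : Matrix ι ι F) *ᵥ (l • L (v j))) (l • L (v i)) := by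
    rw [← hm, ← hm, hX, m.mat_mulVec, m.form_vec]
    simp [fm, dotProduct, Pi.single_apply, apply_ite τ, hτ0, hτ1]
  have h4 : z • (g : Matrix ι ι F) *ᵥ L (v j) = L fun a => ⟨∑ b, z * cj P⁻¹ g a b * v j b,
      sum_mem fun b _ => mul_mem (h2 a b) (v j b).2⟩ := by
    conv_lhs => rw [← cj_cj_inv P g, cj_mulVec, ← mulVec_smul]
    congr 1
    ext a
    simp [mulVec, dotProduct, Finset.mul_sum, mul_assoc]
  rw [← hτ, map_mul, φ.apply_symm_apply, h3]
  refine hfix _ ?_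
  rw [mulVec_smul, hf.smul_left, hf.smul_right, ← mul_assoc l, mul_comm l, hl, mul_left_comm,
    ← hf.smul_left, h4]
  exact mul_mem (F₀.inv_mem c.2) (hL _ _)

section orth

variable (τ) in
/-- projectively rational vectors -/
def ratV (x : Fin 3 → R) : Prop := ∀ i j, x i * τ (x j) = x j * τ (x i)

instance [DecidableEq R] (x : Fin 3 → R) : Decidable (ratV τ x) := by unfold ratV; infer_instance

lemma orth_inv (θ : R →+* R) {X : Matrix (Fin 3) (Fin 3) R} {z : R} (hz : z ≠ 0)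
    (h1 : ∀ i j, θ (z * X i j) = z * X i j) (h2 : Xᵀ * 1 * X.map θ = 1) (x : Fin 3 → R) :
    (X *ᵥ x) ⬝ᵥ (θ ∘ (X *ᵥ x)) = x ⬝ᵥ (θ ∘ x) ∧ z * ((X *ᵥ x) ⬝ᵥ (X *ᵥ x)) = θ z * (x ⬝ᵥ x) ∧
      (ratV θ x → ratV θ (X *ᵥ x)) := by
  have h3 : θ z • X.map θ = z • X := by ext i j; simpa using h1 i j
  rw [mul_one] at h2
  refine ⟨?_, ?_, fun hx i j => mul_left_cancel₀ ((map_ne_zero θ).mpr hz) ?_⟩
  · rw [comp_mulVec, dotProduct_mulVec, vecMul_mulVec, h2, vecMul_one]
  · rw [← smul_eq_mul, ← dotProduct_smul, ← smul_mulVec, ← h3, smul_mulVec, dotProduct_smul,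
      dotProduct_mulVec, vecMul_mulVec, h2, vecMul_one, smul_eq_mul]
  · have h4 : ∀ i, θ z * θ ((X *ᵥ x) i) = z * (X *ᵥ (θ ∘ x)) i := fun i => by
      have := congrFun (congrArg (· *ᵥ (θ ∘ x)) h3) i
      simp only [smul_mulVec, ← comp_mulVec] at this
      exact this
    rw [mul_left_comm, h4, mul_left_comm (θ z), h4]
    have e1 := hx 0 1; have e2 := hx 0 2; have e3 := hx 1 2
    simp only [mulVec, dotProduct, Fin.sum_univ_three, Function.comp]
    linear_combination z * (X i 0 * X j 1 - X i 1 * X j 0) * e1 +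
      z * (X i 0 * X j 2 - X i 2 * X j 0) * e2 + z * (X i 1 * X j 2 - X i 2 * X j 1) * e3

lemma det_rat (θ : R →+* R) {X : Matrix (Fin 3) (Fin 3) R} {z : R}
    (h1 : ∀ i j, θ (z * X i j) = z * X i j) (h2 : X.det = 1) : θ (z ^ 3) = z ^ 3 := by
  have h3 : (z • X).map θ = z • X := by ext i j; simpa using h1 i j
  have := θ.map_det (z • X)
  rwa [RingHom.mapMatrix_apply, h3, det_smul, h2, mul_one, Fintype.card_fin] at this

end orth

section pres

variable {κ : Type} [Fintype κ] [DecidableEq κ] {S : (κ → R) → Prop} {X Y : Matrix κ κ R}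

/-- preservation of a set of vectors -/
def Pres (S : (κ → R) → Prop) (X : Matrix κ κ R) : Prop := ∀ x, S x → S (X *ᵥ x)

omit [DecidableEq κ] in
lemma Pres.mul (hX : Pres S X) (hY : Pres S Y) : Pres S (X * Y) := fun x hx => by
  rw [← mulVec_mulVec]; exact hX _ (hY _ hx)

lemma Pres.pow (hX : Pres S X) (n : ℕ) : Pres S (X ^ n) := by
  induction n with
  | zero => intro x hx; rwa [pow_zero, one_mulVec]
  | succ n ih => rw [pow_succ]; exact ih.mul hX

lemma pres_three {S : (Fin 3 → R) → Prop} {X : Matrix (Fin 3) (Fin 3) R}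
    (h : ∀ a b c, S ![a, b, c] → S (X *ᵥ ![a, b, c])) : Pres S X := fun x hx => by
  have h1 : x = ![x 0, x 1, x 2] := by ext1 i; fin_cases i <;> rfl
  rw [h1] at hx ⊢; exact h _ _ _ hx

end pres

lemma cube_dot (θ : R →+* R) {X : Matrix (Fin 3) (Fin 3) R} {z : R} (hz : z ≠ 0)
    (h1 : ∀ i j, θ (z * X i j) = z * X i j) (h2 : Xᵀ * 1 * X.map θ = 1) (h3 : X.det = 1)
    (x : Fin 3 → R) : ((X *ᵥ x) ⬝ᵥ (X *ᵥ x)) ^ 3 = (x ⬝ᵥ x) ^ 3 :=
  mul_left_cancel₀ (pow_ne_zero 3 hz) (by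
    rw [← mul_pow, (orth_inv θ hz h1 h2 x).2.1, mul_pow, ← map_pow, det_rat θ h1 h3])

lemma qc_F9 : ∀ x : F9, x ^ 3 = qc x := by decide +kernel

lemma qc_F25 : ∀ x : F25, x ^ 5 = qc x := by decide +kernel

lemma exists_qc9 : ∃ θ : F9 →+* F9, ⇑θ = qc :=
  have : CharP F9 3 := charP_of_card_eq_prime_pow (p := 3) (f := 2) (by rw [card_quad]; simp)
  ⟨frobenius F9 3, funext qc_F9⟩

instance instFactFive : Fact (Nat.Prime 5) := ⟨by decide⟩

lemma exists_qc25 : ∃ θ : F25 →+* F25, ⇑θ = qc :=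
  have : CharP F25 5 := charP_of_card_eq_prime_pow (p := 5) (f := 2) (by rw [card_quad]; simp)
  ⟨frobenius F25 5, funext qc_F25⟩

variable [Fintype F]

lemma exists_equiv_F25 (h : Fintype.card F = 25) : Nonempty (F25 ≃+* F) :=
  ⟨FiniteField.ringEquivOfCardEq (by rw [h, card_quad]; simp)⟩

/-- vectors of weight one -/
def S3 (x : Fin 3 → F9) : Prop :=
  ratV qc x ∧ x ⬝ᵥ (qc ∘ x) ≠ 0 ∧ ((x ⬝ᵥ x) ^ 3) ^ 2 = x ⬝ᵥ (qc ∘ x)

instance (x : Fin 3 → F9) : Decidable (S3 x) := by unfold S3; infer_instance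

lemma S3_diag : Pres S3 (diagonal ![⟨0, 1⟩, ⟨0, 2⟩, 1]) := pres_three (by decide +kernel)

/-- 105 points -/
def S105 (x : Fin 3 → F25) : Prop := x ⬝ᵥ (qc ∘ x) ≠ 0 ∧
  ((x ⬝ᵥ x) ^ 3 = 2 * x ⬝ᵥ (qc ∘ x) ∨ (x ⬝ᵥ x) ^ 3 = 0 ∨ ratV qc x)

instance (x : Fin 3 → F25) : Decidable (S105 x) := by unfold S105; infer_instance

/-- an element of order six -/
def u6 : F25 := ⟨3, 2⟩

lemma S105_diag : Pres S105 (diagonal ![u6, u6 ^ 5, 1]) := by
  rw [show u6 ^ 5 = ⟨3, 3⟩ by decide +kernel]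
  refine pres_three fun a b c => ?_
  rw [show diagonal ![u6, ⟨3, 3⟩, 1] *ᵥ ![a, b, c] = ![u6 * a, ⟨3, 3⟩ * b, c] by
    ext1 i; fin_cases i <;> simp [mulVec_diagonal]]
  revert a b c
  decide +kernel

end Cfsg.Agent.H18
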