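import Cfsg.Agent.H18.MdH

/-! Frames and orthogonal subgroups in `SU₃(3)` and `SU₃(5)`. -/

set_option autoImplicit false
set_option synthInstance.maxSize 4096

namespace Cfsg.Agent.H18

open Cfsg.Geo Matrix
open scoped MatrixGroups

variable {ι : Type} [Fintype ι] [DecidableEq ι] {F : Type*} [Field F] [Fintype F]
  {σ : F →+* F} {f : (ι → F) → (ι → F) → F} {a : F} {H : Subgroup (GL ι F)}

theorem SU3_orth3 (h : SuH σ 3 f a H) (hn : Fintype.card ι = 3) {F₀ : Subfield F} {P : GL ι F}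
    (h0 : Fintype.card F = Nat.card F₀ ^ 2) (h1 : IsFormRationalStructure f F₀ 1 P)
    (hle : H ≤ subfieldSubgroup F₀ P) : False := by
  obtain ⟨φ⟩ := exists_equiv_F9 h.hF
  obtain ⟨m, hm⟩ := h.exists_md_orth (by decide) hn (φ := φ) (τ := qc)
    (fun x => by rw [h.tau φ, qc_F9]) h0 h1 hle
  refine m.false_set h.max le_rfl S3 (fun g hg X hX x hx => ?_)
    (A := tvm qc 1 ⟨0, 1⟩ ![1, 1, 1]) (B := diagonal ![⟨0, 1⟩, ⟨0, 2⟩, 1]) (by decide +kernel)
    (by decide +kernel) (x := ![1, 0, 0]) (by decide +kernel) (by decide +kernel)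
    (by decide +kernel) (by decide +kernel) S3_diag
    fun g hg hX => absurd (hm g hg _ hX) (by decide +kernel)
  obtain ⟨z, hz, h2⟩ := hm g hg X hX
  have h3 := (m.mem_isoG hX).mp (h.le hg)
  have h4 := m.det_eq_one (h.max.1.le hg).2 hX
  obtain ⟨θ, hθ⟩ := exists_qc9
  unfold S3 at hx ⊢
  rw [← hθ] at h2 h3 hx ⊢
  rw [(orth_inv θ hz h2 h3 x).1, cube_dot θ hz h2 h3 h4]
  exact ⟨(orth_inv θ hz h2 h3 x).2.2 hx.1, hx.2⟩

lemma S105_orth {X : Matrix (Fin 3) (Fin 3) F25} {z : F25} (hz : z ≠ 0)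
    (h2 : ∀ i j, qc (z * X i j) = z * X i j) (h3 : Xᵀ * 1 * X.map qc = 1) (h4 : X.det = 1) :
    Pres S105 X := fun x hx => by
  obtain ⟨θ, hθ⟩ := exists_qc25
  unfold S105 at hx ⊢
  rw [← hθ] at h2 h3 hx ⊢
  rw [(orth_inv θ hz h2 h3 x).1, cube_dot θ hz h2 h3 h4]
  exact ⟨hx.1, hx.2.imp_right (Or.imp_right (orth_inv θ hz h2 h3 x).2.2)⟩

theorem SU3_orth5 (h : SuH σ 5 f a H) (hn : Fintype.card ι = 3) {F₀ : Subfield F} {P : GL ι F}
    (h0 : Fintype.card F = Nat.card F₀ ^ 2) (h1 : IsFormRationalStructure f F₀ 1 P)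
    (hle : H ≤ subfieldSubgroup F₀ P) : False := by
  obtain ⟨φ⟩ := exists_equiv_F25 h.hF
  obtain ⟨m, hm⟩ := h.exists_md_orth (by decide) hn (φ := φ) (τ := qc)
    (fun x => by rw [h.tau φ, qc_F25]) h0 h1 hle
  refine m.false_set h.max le_rfl S105 (fun g hg X hX => ?_)
    (A := tvm qc 1 ⟨0, 1⟩ ![1, 2, 0]) (B := diagonal ![u6, u6 ^ 5, 1]) (by decide +kernel)
    (by decide +kernel) (x := ![1, 0, 0]) (by decide +kernel) (by decide +kernel)
    (by decide +kernel) (by decide +kernel) S105_diag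
    fun g hg hX => absurd (hm g hg _ hX) (by decide +kernel)
  obtain ⟨z, hz, h2⟩ := hm g hg X hX
  exact S105_orth hz h2 ((m.mem_isoG hX).mp (h.le hg)) (m.det_eq_one (h.max.1.le hg).2 hX)

theorem SU3_frame5 (h : SuH σ 5 f a H) {D : Fin 3 → Submodule F (ι → F)}
    (hD : IsNondegenerateMDecomposition f 1 D) (hle : H ≤ decompositionStabilizer D) : False := by
  obtain ⟨φ⟩ := exists_equiv_F25 h.hF
  obtain ⟨m, hm⟩ := h.hf.toHForm.exists_md_frame h.hσ (φ := φ) (τ := qc)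
    (fun x => by rw [h.tau φ, qc_F25]) hD
  refine m.false_set h.max le_rfl S105 (fun g hg X hX => ?_)
    (A := tvm qc 1 ⟨0, 1⟩ ![1, 2, 0]) (B := !![1, 1, 2; 1, 2, 1; 2, 1, 1]) (by decide +kernel)
    (by decide +kernel) (x := ![1, 0, 0]) (by decide +kernel) (by decide +kernel)
    (by decide +kernel) (by decide +kernel)
    (S105_orth one_ne_zero (by decide +kernel) (by decide +kernel) (by decide +kernel))
    fun g hg hX => ?_
  · obtain ⟨ρ, d, rfl⟩ := hm g (hle hg) X hX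
    have h1 := unit_monMat (by decide +kernel) ((m.mem_isoG hX).mp (h.le hg))
    have h2 := m.det_eq_one (h.max.1.le hg).2 hX
    rw [det_monMat, Fin.prod_univ_three] at h2
    have h3 : ∀ ρ : Equiv.Perm (Fin 3), ∀ s : F25, s = ((Equiv.Perm.sign ρ : ℤ) : F25) →
        s * qc s = 1 ∧ s * s = 1 ∧ (∀ i j, qc (1 * monMat ρ ![1, s, 1] i j) =
          1 * monMat ρ ![1, s, 1] i j) ∧ (monMat ρ ![1, s, 1])ᵀ * 1 *
            (monMat ρ ![1, s, 1]).map qc = 1 ∧ (monMat ρ ![1, s, 1]).det = 1 := by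
      rintro ρ _ rfl; revert ρ; decide +kernel
    obtain ⟨-, c2, c3, c4, c5⟩ := h3 ρ _ rfl
    generalize ((Equiv.Perm.sign ρ : ℤ) : F25) = s at *
    have h4 : ∀ d : F25, d * qc d = 1 → ∃ i < 6, d = u6 ^ i := by decide +kernel
    obtain ⟨i, -, hi⟩ := h4 _ (h1 0)
    obtain ⟨j, -, hj⟩ := h4 _ (h1 2)
    have h5 : diagonal ![1, u6 ^ 5, u6] = !![0, 0, 1; 0, -1, 0; 1, 0, 0] *
        diagonal ![u6, u6 ^ 5, 1] * !![0, 0, 1; 0, -1, 0; 1, 0, 0] := by decide +kernel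
    have h6 : Pres S105 !![0, 0, 1; 0, -1, 0; 1, 0, 0] :=
      S105_orth one_ne_zero (by decide +kernel) (by decide +kernel) (by decide +kernel)
    have h7 : monMat ρ d = monMat ρ ![1, s, 1] *
        (diagonal ![u6, u6 ^ 5, 1] ^ i * diagonal ![1, u6 ^ 5, u6] ^ j) := by
      rw [diagonal_pow, diagonal_pow, diagonal_mul_diagonal, monMat_eq, monMat_eq, mul_assoc,
        diagonal_mul_diagonal]
      congr 2
      ext1 k
      have c6 : u6 ^ 5 * u6 = 1 := by decide +kernel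
      have c7 : (u6 ^ 5) ^ i * u6 ^ i = 1 := by rw [← mul_pow, c6, one_pow]
      have c8 : (u6 ^ 5) ^ j * u6 ^ j = 1 := by rw [← mul_pow, c6, one_pow]
      rw [hi, hj] at h2
      fin_cases k <;> simp [hi, hj]
      linear_combination s * (u6 ^ 5) ^ i * (u6 ^ 5) ^ j * h2 - d 1 * c2 -
        d 1 * s * s * (u6 ^ 5) ^ j * u6 ^ j * c7 - d 1 * s * s * c8
    rw [h7]
    exact (S105_orth one_ne_zero c3 c4 c5).mul
      ((S105_diag.pow i).mul ((h5 ▸ (h6.mul S105_diag).mul h6).pow j))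
  · obtain ⟨ρ, d, h1⟩ := hm g (hle hg) _ hX
    exact ne_monMat (i := 0) (j := 1) (k := 2) (by decide) (by decide +kernel) (by decide +kernel) h1

end Cfsg.Agent.H18
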