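import Cfsg.Agent.H18.MdI

/-! Normalisers of cubic fields in `SU₃(3)` and `SU₃(5)`. -/

set_option autoImplicit false
set_option synthInstance.maxSize 4096

namespace Cfsg.Agent.H18

open Cfsg.Geo Matrix
open scoped MatrixGroups

variable {ι : Type} [Fintype ι] [DecidableEq ι] {F : Type*} [Field F]
  {R : Type} [Field R] {σ : F →+* F} {ε : F} {f : (ι → F) → (ι → F) → F} {φ : R ≃+* F} {τ : R → R}
  {a : F} {H : Subgroup (GL ι F)}

section ps

variable {κ : Type} [Fintype κ] {n : ℕ} {L : Fin n → κ → R} {X : Matrix κ κ R}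

/-- a set of points given by a list -/
def PtSet (L : Fin n → κ → R) (x : κ → R) : Prop := ∃ j, ∃ s : R, s ≠ 0 ∧ x = s • L j

instance [Fintype R] [DecidableEq R] (x : κ → R) : Decidable (PtSet L x) := by
  unfold PtSet; infer_instance

lemma pres_PS (π : Fin n → Fin n) (h : ∀ i, ∃ s : R, s ≠ 0 ∧ X *ᵥ L i = s • L (π i)) :
    Pres (PtSet L) X := by
  rintro _ ⟨i, s, hs, rfl⟩
  obtain ⟨t, ht, h1⟩ := h i
  exact ⟨π i, s * t, mul_ne_zero hs ht, by rw [mulVec_smul, h1, smul_smul]⟩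

lemma Pres.smul (h : Pres (PtSet L) X) {c : R} (hc : c ≠ 0) : Pres (PtSet L) (c • X) := fun x hx => by
  obtain ⟨i, s, hs, h1⟩ := h x hx
  exact ⟨i, c * s, mul_ne_zero hc hs, by rw [smul_mulVec, h1, smul_smul]⟩

lemma gram_apply [DecidableEq κ] (G : Matrix κ κ R) (i j : κ) :
    (Xᵀ * G * X.map τ) i j = fm τ G (X *ᵥ Pi.single i 1) (X *ᵥ Pi.single j 1) := by
  rw [mul_assoc]
  simp [fm, mul_apply, dotProduct, mulVec, Pi.single_apply]

end ps

/-- traces of seventh roots of unity -/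
def t7 (β : R) (j : ℕ) : R := [3, β, β, -1 - β, β, -1 - β, -1 - β].getD (j % 7) 0

/-- the Gram matrix -/
def G7 (β : R) : Matrix (Fin 3) (Fin 3) R := !![3, -1 - β, -1 - β; β, 3, -1 - β; β, β, 3]

/-- the companion matrix -/
def C7 (β : R) : Matrix (Fin 3) (Fin 3) R := !![0, 0, 1; 1, 0, 1 + β; 0, 1, β]

/-- the Frobenius map -/
def P7 (β : R) : Matrix (Fin 3) (Fin 3) R := !![1, 0, β; 0, 0, -1; 0, 1, -1]

/-- seven vectors -/
def z7 (β : R) : Fin 7 → Fin 3 → R := ![![1, 0, 0], ![0, 1, 0], ![0, 0, 1], ![1, 1 + β, β],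
  ![β, -1, -1], ![-1, -1, -1 - β], ![-1 - β, -β, 1]]

lemma C7_cols {β : R} {X : Matrix (Fin 3) (Fin 3) R} (h : X * C7 β = C7 β * X) :
    X *ᵥ Pi.single 1 1 = C7 β *ᵥ X *ᵥ Pi.single 0 1 ∧
      X = (Matrix.of ![X *ᵥ Pi.single 0 1, C7 β *ᵥ X *ᵥ Pi.single 0 1,
        C7 β *ᵥ C7 β *ᵥ X *ᵥ Pi.single 0 1])ᵀ := by
  have h1 : ∀ v, C7 β *ᵥ X *ᵥ v = X *ᵥ C7 β *ᵥ v := fun v => by
    rw [mulVec_mulVec, mulVec_mulVec, h]
  have h2 : C7 β *ᵥ Pi.single 0 1 = Pi.single 1 1 := by ext i; fin_cases i <;> simp [C7]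
  have h3 : C7 β *ᵥ Pi.single 1 1 = Pi.single 2 1 := by ext i; fin_cases i <;> simp [C7]
  rw [h1, h2, h1, h3]
  refine ⟨rfl, ?_⟩
  ext i j
  fin_cases j <;> simp

variable [Fintype F]

lemma HForm.exists_trace' [Nonempty ι] (hf : HForm σ ε f) {K : Subalgebra F (Matrix ι ι F)}
    (hK : IsFieldSubalgebra 3 K) (ha : ∀ x ∈ K, adj σ f x ∈ K) : ∃ l : K →ₗ[F] F,
      (∀ x : K, l ⟨_, ha x x.2⟩ = σ (l x)) ∧ ∀ x : K, l x • (1 : Matrix ι ι F) =
        x + x ^ Fintype.card F + x ^ Fintype.card F ^ 2 := by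
  have a2 : ∀ x, adjHom hf hK.comm ha (adjHom hf hK.comm ha x) = x :=
    fun x => Subtype.ext (hf.adj_adj _)
  have h0 : ∀ c : F, adjHom hf hK.comm ha (algebraMap F K c) = algebraMap F K (σ c) := fun c =>
    Subtype.ext (by
      change adj _ f (algebraMap F _ c) = algebraMap F _ (σ c)
      rw [Algebra.algebraMap_eq_smul_one, hf.adj_smul, hf.adj_one, Algebra.algebraMap_eq_smul_one])
  let _ : Field K := (isField_of_inv K hK.comm hK.inv).toField
  refine ⟨Algebra.trace F K, fun x => ?_, fun x => ?_⟩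
  · have := Algebra.trace_eq_of_equiv_equiv
      (RingEquiv.ofBijective σ (Function.Involutive.bijective hf.invol))
      (RingEquiv.ofBijective (adjHom hf hK.comm ha) (Function.Involutive.bijective a2))
      (RingHom.ext fun c => (h0 c).symm) x
    rw [this]; exact ((RingEquiv.ofBijective σ _).apply_symm_apply _).symm
  · have := congrArg Subtype.val (FiniteField.algebraMap_trace_eq_sum_pow F K x)
    rw [hK.finrank_eq, Nat.card_eq_fintype_card] at this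
    simpa [Finset.sum_range_succ, Algebra.algebraMap_eq_smul_one] using this

theorem SuH.md7 {q : ℕ} (h : SuH σ q f a H) (hn : Fintype.card ι = 3)
    {K : Subalgebra F (Matrix ι ι F)} (hK : IsFieldSubalgebra 3 K) (h1 : IsAdjointClosedFor f K)
    (hle : H ≤ subalgebraNormalizer K) (hτ : ∀ x, σ (φ x) = φ (τ x))
    (hQ : q ^ 2 % 7 = 2 ∨ q ^ 2 % 7 = 4) (hq : q ^ 3 % 7 = 6) (h7 : 7 ∣ (q ^ 2) ^ 3 - 1) {β : R}
    (hβ : β ^ 2 + β + 2 = 0) (hβ' : ∀ j < 7, t7 β j = β → j = 1 ∨ j = 2 ∨ j = 4)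
    {G' : Matrix (Fin 3) (Fin 3) R} (hG : G7 β * G' = 1)
    (hz : ∀ i : Fin 3, t7 β (6 * i + 3) = fm τ (G7 β) (z7 β 3) (Pi.single i 1)) :
    ∃ m : Md σ f φ τ (G7 β), ∀ g ∈ H, ∀ X, (g : Matrix ι ι F) = m.mat X →
      X * C7 β = C7 β * X ∨ X * C7 β = C7 β ^ 2 * X ∨ X * C7 β = C7 β ^ 4 * X := by
  have : Nonempty ι := Fintype.card_pos_iff.mp (by omega)
  have hf := h.hf.toHForm
  have ha := hf.adjClosed_iff.mp h1
  have hne := hf.exists_adj_ne h.hσ K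
  have hs : ∀ c d : F, c • (1 : Matrix ι ι F) = d • 1 → c = d := fun c d h0 => by
    obtain ⟨i⟩ := ‹Nonempty ι›
    simpa using congrFun (congrFun h0 i) i
  obtain ⟨l, l1, l2⟩ := hf.exists_trace' hK ha
  have l3 : ∀ y (hy : y ∈ K), y ^ 7 = 1 → l ⟨y, hy⟩ • (1 : Matrix ι ι F) = y + y ^ 2 + y ^ 4 := by
    intro y hy h0
    rw [l2, h.hF, pow_eq_pow_mod (q ^ 2) h0, pow_eq_pow_mod ((q ^ 2) ^ 2) h0, Nat.pow_mod (q ^ 2)]
    rcases hQ with hQ | hQ <;> rw [hQ]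
    exact add_right_comm _ _ _
  obtain ⟨k, hk, k1, k2⟩ : ∃ k ∈ K, orderOf k = 7 ∧ φ β • 1 = k + k ^ 2 + k ^ 4 := by
    obtain ⟨k, hk, k1⟩ := exists_primRoot hK (n := 7) (h.hF ▸ h7)
    have k2 : k ^ 7 = 1 := k1 ▸ pow_orderOf_eq_one k
    have k3 := (primRoot_spec hK (by decide) hk k1).2
    simp only [Finset.sum_range_succ, Finset.sum_range_zero] at k3
    have k4 := l3 k hk k2
    generalize l ⟨k, hk⟩ = b at k4
    have k5 : b ^ 2 + b + 2 = 0 := hs _ _ (by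
      rw [add_smul, add_smul, sq, ← smul_smul, k4, ← Matrix.one_mul (k + k ^ 2 + k ^ 4),
        ← Matrix.smul_mul, k4, zero_smul, Matrix.one_mul, two_smul]
      have k5 : (k + k ^ 2 + k ^ 4) * (k + k ^ 2 + k ^ 4) + (k + k ^ 2 + k ^ 4) + (1 + 1) =
          2 * (0 + k ^ 0 + k ^ 1 + k ^ 2 + k ^ 3 + k ^ 4 + k ^ 5 + k ^ 6) + k * (k ^ 7 - 1) := by
        noncomm_ring
      rw [k5, k3, k2, sub_self, mul_zero, mul_zero, add_zero])
    have k6 := congrArg φ hβ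
    simp only [map_add, map_pow, map_ofNat, map_zero] at k6
    rcases mul_eq_zero.mp (by linear_combination k5 - k6 : (b - φ β) * (b + 1 + φ β) = 0) with
      k7 | k7
    · exact ⟨k, hk, k1, sub_eq_zero.mp k7 ▸ k4⟩
    · refine ⟨k ^ 6, pow_mem hk _, by rw [Nat.Coprime.orderOf_pow (by rw [k1]; decide), k1], ?_⟩
      rw [← pow_mul, ← pow_mul, pow_eq_pow_mod (6 * 2) k2, pow_eq_pow_mod (6 * 4) k2,
        show φ β = -1 - b by linear_combination k7, sub_smul, k4, ← sub_eq_zero, ← neg_eq_zero,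
        ← k3]
      norm_num
      abel
  have k3 : k ^ 7 = 1 := k1 ▸ pow_orderOf_eq_one k
  have k4 : ∀ j, l ⟨_, pow_mem hk j⟩ = φ (t7 β j) := fun j => hs _ _ (by
    have k5 := (primRoot_spec hK (by decide) hk k1).2
    simp only [Finset.sum_range_succ, Finset.sum_range_zero] at k5
    have k6 : φ (-1 - β) • (1 : Matrix ι ι F) = k ^ 3 + k ^ 5 + k ^ 6 := by
      rw [map_sub, sub_smul, k2, ← sub_eq_zero, ← neg_eq_zero, ← k5]
      norm_num
      abel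
    rw [l3 _ _ (by rw [← pow_mul, mul_comm, pow_mul, k3, one_pow]), ← pow_mul, ← pow_mul,
      pow_eq_pow_mod j k3, pow_eq_pow_mod (j * 2) k3, pow_eq_pow_mod (j * 4) k3, Nat.mul_mod j 2,
      Nat.mul_mod j 4, t7]
    have := Nat.mod_lt j (show 0 < 7 by decide)
    generalize j % 7 = i at this
    interval_cases i <;> norm_num only [List.getD_cons_zero, List.getD_cons_succ, k2, k6] <;>
      try simp only [pow_zero, pow_one]
    · rw [map_ofNat, ofNat_smul_eq_nsmul, three'_nsmul, add_assoc]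
    all_goals abel)
  have hadj : adj σ f k = k ^ 6 := by
    rw [hf.adj_eq_pow hK ha hne (s := q ^ 3) (by rw [h.hF]; ring) k hk, pow_eq_pow_mod _ k3, hq]
  obtain ⟨v, -, hv⟩ := hf.exists_normal hK ha hne l (fun x => by rw [one_mul, l1]) (U := ⊤)
    hf.nondegOn_top top_ne_bot fun _ _ _ _ => trivial
  have k5 : ∀ i j, f (k ^ i *ᵥ v) (k ^ j *ᵥ v) = φ (t7 β (6 * j + i)) := fun i j => by
    rw [hf.adj_spec', hf.adj_pow, hadj, mulVec_mulVec, ← pow_mul, ← pow_add, ← k4]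
    exact hv ⟨_, pow_mem hk _⟩
  obtain ⟨m, hm⟩ := hf.toSesq.exists_md hτ (v := fun i : Fin 3 => k ^ (i : ℕ) *ᵥ v) (G := G7 β)
    (fun i j => by rw [k5]; fin_cases i <;> fin_cases j <;> rfl) hG (by simp [hn])
  have hC : k = m.mat (C7 β) := m.mat_eq fun i => by
    rw [hm, mulVec_mulVec, ← pow_succ']
    fin_cases i
    · exact (hm 1).symm.trans (congrArg m.vec (by ext i; fin_cases i <;> simp [C7]))
    · exact (hm 2).symm.trans (congrArg m.vec (by ext i; fin_cases i <;> simp [C7]))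
    · exact (m.eq_vec hG (x := z7 β 3) fun i => by rw [hm, k5, ← hz]).trans
        (congrArg m.vec (by ext i; fin_cases i <;> simp [C7, z7]))
  refine ⟨m, fun g hg X hX => ?_⟩
  obtain ⟨j, hj, c1⟩ := (primRoot_spec hK (by decide) hk k1).1 (cj g k)
    ((mem_subalgebraNormalizer.mp (hle hg) _).mp hk) (by rw [← map_pow, k3, map_one])
  have c2 : t7 β j = β := φ.injective (hs _ _ (by
    rw [← k4, l3 _ _ (by rw [← pow_mul, mul_comm, pow_mul, k3, one_pow]), ← c1, ← map_pow,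
      ← map_pow, ← map_add, ← map_add, ← k2, map_smul, map_one]))
  have c3 : X * C7 β = C7 β ^ j * X := m.mat.injective (by
    rw [map_mul, map_mul, map_pow, ← hX, ← hC, ← cj_eq_iff, c1])
  rcases hβ' j hj c2 with rfl | rfl | rfl
  exacts [.inl (by rwa [pow_one] at c3), .inr (.inl c3), .inr (.inr c3)]

theorem SuH.field7 {q : ℕ} (h : SuH σ q f a H) {β : R} (m : Md σ f φ τ (G7 β))
    (hm : ∀ g ∈ H, ∀ X, (g : Matrix ι ι F) = m.mat X →
      X * C7 β = C7 β * X ∨ X * C7 β = C7 β ^ 2 * X ∨ X * C7 β = C7 β ^ 4 * X)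
    (hx : ∀ a b c, fm τ (G7 β) ![a, b, c] ![a, b, c] = 3 →
      fm τ (G7 β) (C7 β *ᵥ ![a, b, c]) ![a, b, c] = β →
      (Matrix.of ![![a, b, c], C7 β *ᵥ ![a, b, c], C7 β *ᵥ C7 β *ᵥ ![a, b, c]]).det = 1 →
      ∃ j, ∃ s : R, ![a, b, c] = s • z7 β j)
    (hz : ∀ j : Fin 7, C7 β ^ (j : ℕ) *ᵥ Pi.single 0 1 = z7 β j)
    (p1 : (P7 β)ᵀ * G7 β * (P7 β).map τ = G7 β) (p2 : P7 β * P7 β * P7 β = 1)
    (p3 : P7 β * C7 β ^ 4 = C7 β * P7 β) (p4 : P7 β * P7 β * C7 β ^ 2 = C7 β * (P7 β * P7 β))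
    {n : ℕ} {L : Fin n → Fin 3 → R} (hC : Pres (PtSet L) (C7 β)) (hP : Pres (PtSet L) (P7 β))
    {A B : Matrix (Fin 3) (Fin 3) R} (a1 : Aᵀ * G7 β * A.map τ = G7 β) (a2 : A.det = 1) {x : _}
    (a3 : PtSet L x) (a4 : ¬ PtSet L (A *ᵥ x)) (b1 : Bᵀ * G7 β * B.map τ = G7 β) (b2 : B.det = 1)
    (b3 : Pres (PtSet L) B)
    (b4 : ¬ (B * C7 β = C7 β * B ∨ B * C7 β = C7 β ^ 2 * B ∨ B * C7 β = C7 β ^ 4 * B)) : False := by
  have p5 : (P7 β).det = 1 := by simp [P7, det_fin_three]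
  obtain ⟨γ, -, hγ⟩ := m.exists_GL p5
  have key : ∀ g ∈ isoG f, ∀ X, (g : Matrix ι ι F) = m.mat X → X.det = 1 →
      X * C7 β = C7 β * X → Pres (PtSet L) X := fun g hg X hX h1 h2 => by
    have h3 := (m.mem_isoG hX).mp hg
    obtain ⟨h4, h5⟩ := C7_cols h2
    have h6 := (gram_apply _ 0 0).symm.trans (congrFun (congrFun h3 0) 0)
    have h7 := (gram_apply _ 1 0).symm.trans (congrFun (congrFun h3 1) 0)
    have h8 := h1
    rw [h4] at h7
    rw [h5, det_transpose] at h8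
    have h9 : ∀ y : Fin 3 → R, y = ![y 0, y 1, y 2] := fun y => by ext1 i; fin_cases i <;> rfl
    rw [h9 (X *ᵥ Pi.single 0 1)] at h6 h7 h8
    obtain ⟨j, s, h10⟩ := hx _ _ _ h6 h7 h8
    have h11 : X = s • C7 β ^ (j : ℕ) := by
      rw [h5, (C7_cols (X := s • C7 β ^ (j : ℕ)) (by
        rw [Matrix.smul_mul, Matrix.mul_smul, pow_mul_comm'])).2, smul_mulVec, hz, ← h10, ← h9]
    rw [h11] at h1 ⊢
    exact (hC.pow j).smul fun h0 => by simp [h0] at h1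
  have hγ' := (m.mem_isoG hγ).mpr p1
  refine m.false_set h.max le_rfl (PtSet L) (fun g hg X hX => ?_) a1 a2 a3 a4 b1 b2 b3
    fun g hg hX => b4 (hm g hg _ hX)
  have h1 := m.det_eq_one (h.max.1.le hg).2 hX
  rcases hm g hg X hX with h2 | h2 | h2
  · exact key g (h.le hg) X hX h1 h2
  · have := hP.mul (key (γ * γ * g) (mul_mem (mul_mem hγ' hγ') (h.le hg)) (P7 β * P7 β * X)
      (by simp [hγ, hX]) (by simp [p5, h1]) (by rw [mul_assoc, h2, ← mul_assoc, p4, mul_assoc]))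
    rwa [← mul_assoc, ← mul_assoc, p2, one_mul] at this
  · have := (hP.mul hP).mul (key (γ * g) (mul_mem hγ' (h.le hg)) (P7 β * X)
      (by simp [hγ, hX]) (by simp [p5, h1]) (by rw [mul_assoc, h2, ← mul_assoc, p3, mul_assoc]))
    rwa [← mul_assoc, p2, one_mul] at this

end Cfsg.Agent.H18
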