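import Cfsg.Agent.H18.MdJ

/-! The normaliser of `3^(1+2)` in `SU₃(5)` lies in `3.M₁₀`: finite part. -/

set_option autoImplicit false
set_option synthInstance.maxSize 4096

namespace Cfsg.Agent.H18

open Cfsg.Geo Matrix
open scoped MatrixGroups

section gen

variable {κ : Type} [Fintype κ] [DecidableEq κ] {R : Type} [Field R] {S : (κ → R) → Prop}
  {W X : Matrix κ κ R}

lemma Pres.of_mul [Finite R] (hW : Pres S W) (h1 : W.det = 1) (h : Pres S (W * X)) : Pres S X := by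
  let u := GeneralLinearGroup.mkOfDetNeZero W (h1 ▸ one_ne_zero)
  have h2 : W ^ (orderOf u - 1) * W = 1 := by
    rw [← pow_succ, Nat.sub_add_cancel (orderOf_pos u)]
    exact (Units.val_pow_eq_pow_val u _).symm.trans (congrArg Units.val (pow_orderOf_eq_one u))
  have := (hW.pow (orderOf u - 1)).mul h
  rwa [← mul_assoc, h2, one_mul] at this

end gen

/-- cube roots of unity -/
def w3 (n : ℕ) : F25 := [1, ⟨2, 2⟩, ⟨2, 3⟩].getD (n % 3) 0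

/-- the extraspecial group -/
def rr (t : Fin 3 × Fin 3 × Fin 3) : Matrix (Fin 3) (Fin 3) F25 :=
  Matrix.of fun x y => if x = y + t.2.2 then w3 (t.1 + t.2.1 * x) else 0

/-- a generator of `Q₈` -/
def qI : Matrix (Fin 3) (Fin 3) F25 :=
  !![⟨0, 2⟩, ⟨0, 2⟩, ⟨0, 2⟩; ⟨0, 2⟩, ⟨3, 4⟩, ⟨2, 4⟩; ⟨0, 2⟩, ⟨2, 4⟩, ⟨3, 4⟩]

/-- a generator of `Q₈` -/
def qJ : Matrix (Fin 3) (Fin 3) F25 :=
  !![⟨0, 2⟩, ⟨0, 2⟩, ⟨2, 4⟩; ⟨0, 2⟩, ⟨3, 4⟩, ⟨3, 4⟩; ⟨3, 4⟩, ⟨0, 2⟩, ⟨3, 4⟩]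

/-- an involution of `M₁₀` -/
def qT : Matrix (Fin 3) (Fin 3) F25 :=
  !![⟨0, 0⟩, ⟨0, 4⟩, ⟨0, 4⟩; ⟨0, 1⟩, ⟨2, 0⟩, ⟨3, 0⟩; ⟨0, 1⟩, ⟨3, 0⟩, ⟨2, 0⟩]

/-- 36 isotropic points -/
def L36 : Fin 36 → Fin 3 → F25 :=
  ![![⟨1, 0⟩, ⟨0, 1⟩, ⟨1, 0⟩], ![⟨1, 0⟩, ⟨0, 1⟩, ⟨2, 2⟩], ![⟨1, 0⟩, ⟨0, 2⟩, ⟨0, 2⟩], ![⟨1,
    0⟩, ⟨0, 2⟩, ⟨2, 4⟩], ![⟨1, 0⟩, ⟨0, 3⟩, ⟨0, 3⟩], ![⟨1, 0⟩, ⟨0, 3⟩, ⟨2, 1⟩], ![⟨1, 0⟩, ⟨0,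
    4⟩, ⟨1, 0⟩], ![⟨1, 0⟩, ⟨0, 4⟩, ⟨2, 3⟩], ![⟨1, 0⟩, ⟨1, 0⟩, ⟨0, 1⟩], ![⟨1, 0⟩, ⟨1, 0⟩, ⟨0,
    4⟩], ![⟨1, 0⟩, ⟨1, 0⟩, ⟨4, 2⟩], ![⟨1, 0⟩, ⟨1, 0⟩, ⟨4, 3⟩], ![⟨1, 0⟩, ⟨1, 2⟩, ⟨2, 2⟩],
    ![⟨1, 0⟩, ⟨1, 2⟩, ⟨2, 3⟩], ![⟨1, 0⟩, ⟨1, 3⟩, ⟨2, 2⟩], ![⟨1, 0⟩, ⟨1, 3⟩, ⟨2, 3⟩], ![⟨1, 0⟩,
    ⟨2, 1⟩, ⟨0, 3⟩], ![⟨1, 0⟩, ⟨2, 1⟩, ⟨3, 1⟩], ![⟨1, 0⟩, ⟨2, 2⟩, ⟨0, 1⟩], ![⟨1, 0⟩, ⟨2, 2⟩,
    ⟨1, 2⟩], ![⟨1, 0⟩, ⟨2, 2⟩, ⟨1, 3⟩], ![⟨1, 0⟩, ⟨2, 2⟩, ⟨4, 3⟩], ![⟨1, 0⟩, ⟨2, 3⟩, ⟨0, 4⟩],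
    ![⟨1, 0⟩, ⟨2, 3⟩, ⟨1, 2⟩], ![⟨1, 0⟩, ⟨2, 3⟩, ⟨1, 3⟩], ![⟨1, 0⟩, ⟨2, 3⟩, ⟨4, 2⟩], ![⟨1, 0⟩,
    ⟨2, 4⟩, ⟨0, 2⟩], ![⟨1, 0⟩, ⟨2, 4⟩, ⟨3, 4⟩], ![⟨1, 0⟩, ⟨3, 1⟩, ⟨2, 1⟩], ![⟨1, 0⟩, ⟨3, 1⟩,
    ⟨3, 1⟩], ![⟨1, 0⟩, ⟨3, 4⟩, ⟨2, 4⟩], ![⟨1, 0⟩, ⟨3, 4⟩, ⟨3, 4⟩], ![⟨1, 0⟩, ⟨4, 2⟩, ⟨1, 0⟩],
    ![⟨1, 0⟩, ⟨4, 2⟩, ⟨2, 3⟩], ![⟨1, 0⟩, ⟨4, 3⟩, ⟨1, 0⟩], ![⟨1, 0⟩, ⟨4, 3⟩, ⟨2, 2⟩]]

/-- normalising the extraspecial group -/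
def nR (X : Matrix (Fin 3) (Fin 3) F25) : Prop := ∀ t, ∃ t', X * rr t = rr t' * X

instance (X : Matrix (Fin 3) (Fin 3) F25) : Decidable (nR X) := by unfold nR; infer_instance

/-- elements of `SU₃(5)` normalising the extraspecial group -/
def nSU (X : Matrix (Fin 3) (Fin 3) F25) : Prop := nR X ∧ Xᵀ * 1 * X.map qc = 1 ∧ X.det = 1

instance (X : Matrix (Fin 3) (Fin 3) F25) : Decidable (nSU X) := by unfold nSU; infer_instance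

lemma nSU.mul {X Y : Matrix (Fin 3) (Fin 3) F25} (hX : nSU X) (hY : nSU Y) : nSU (X * Y) := by
  refine ⟨fun t => ?_, ?_, by rw [det_mul, hX.2.2, hY.2.2, one_mul]⟩
  · obtain ⟨t₁, h1⟩ := hY.1 t
    obtain ⟨t₂, h2⟩ := hX.1 t₁
    exact ⟨t₂, by rw [mul_assoc, h1, ← mul_assoc, h2, mul_assoc]⟩
  · obtain ⟨θ, hθ⟩ := exists_qc25
    have h1 := hX.2.1
    have h2 := hY.2.1
    rw [← hθ, mul_one] at h1 h2 ⊢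
    rw [transpose_mul, Matrix.map_mul, mul_assoc, ← mul_assoc Xᵀ, h1, one_mul, h2]

lemma nSU.pow {X : Matrix (Fin 3) (Fin 3) F25} (hX : nSU X) (n : ℕ) : nSU (X ^ n) := by
  induction n with
  | zero => exact ⟨fun t => ⟨t, by simp⟩, by rw [pow_zero]; decide +kernel, by simp⟩
  | succ n ih => rw [pow_succ]; exact ih.mul hX

lemma rr_eq : ∀ t, rr t = w3 1 ^ (t.1 : ℕ) • (rr (0, 1, 0) ^ (t.2.1 : ℕ) * rr (0, 0, 1) ^ (t.2.2 : ℕ)) := by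
  decide +kernel

lemma rr_inj : Function.Injective rr := by decide +kernel

lemma pres_A : Pres (PtSet L36) (rr (0, 1, 0)) :=
  pres_PS ![33, 32, 30, 31, 17, 16, 15, 14, 19, 21, 18, 20, 0, 1, 34, 35, 29, 28, 23, 25, 22, 24, 11,
    10, 9, 8, 3, 2, 4, 5, 27, 26, 13, 12, 7, 6] (by decide +kernel)

lemma pres_B : Pres (PtSet L36) (rr (0, 0, 1)) :=
  pres_PS ![8, 23, 6, 14, 0, 13, 9, 20, 4, 2, 29, 31, 25, 18, 22, 21, 1, 33, 5, 17, 26, 30, 3, 16,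
    27, 28, 7, 35, 12, 32, 15, 34, 10, 19, 11, 24] (by decide +kernel)

lemma pres_I : Pres (PtSet L36) qI :=
  pres_PS ![26, 15, 29, 0, 31, 9, 5, 19, 3, 16, 27, 28, 7, 21, 33, 18, 6, 11, 24, 22, 25, 23, 12, 35,
    1, 14, 8, 32, 34, 2, 10, 4, 30, 20, 17, 13] (by decide +kernel)

lemma pres_J : Pres (PtSet L36) qJ :=
  pres_PS ![19, 27, 1, 11, 12, 30, 18, 34, 4, 29, 2, 31, 28, 6, 3, 32, 9, 17, 24, 25, 22, 23, 7, 15,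
    13, 33, 26, 10, 8, 35, 5, 14, 21, 0, 20, 16] (by decide +kernel)

lemma pres_T : Pres (PtSet L36) qT :=
  pres_PS ![1, 0, 4, 15, 2, 19, 22, 9, 18, 7, 32, 11, 16, 21, 33, 3, 12, 28, 8, 5, 25, 13, 6, 35, 26,
    20, 24, 27, 17, 31, 30, 29, 10, 14, 34, 23] (by decide +kernel)

/-- words -/
def wd (t : Fin 3 × Fin 3 × Fin 3) : ℕ × ℕ × ℕ :=
  [(0, 0, 0), (0, 1, 0), (0, 3, 0), (0, 0, 0), (1, 0, 1), (0, 1, 1), (0, 2, 0), (2, 3, 1),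
    (0, 2, 1), (0, 0, 0), (1, 1, 0), (1, 3, 0), (1, 0, 0), (2, 0, 1), (1, 1, 1), (1, 2, 0),
    (0, 3, 1), (1, 2, 1), (0, 0, 0), (2, 1, 0), (2, 3, 0), (2, 0, 0), (0, 0, 1), (2, 1, 1),
    (2, 2, 0), (1, 3, 1), (2, 2, 1)].getD (9 * t.1 + 3 * t.2.1 + t.2.2) 0

lemma wd_spec : ∀ t, rr t = w3 t.1 • 1 ∨ rr (0, 0, 1) ^ (wd t).1 * qI ^ (wd t).2.1 * qJ ^ (wd t).2.2 *
    rr t = rr (0, 1, 0) * (rr (0, 0, 1) ^ (wd t).1 * qI ^ (wd t).2.1 * qJ ^ (wd t).2.2) := by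
  decide +kernel

lemma diag_spec : ∀ a : F25, a * qc a = 1 → ∀ b : F25, b * qc b = 1 → ∀ c : F25, a * b * c = 1 →
    ∀ t, diagonal ![a, b, c] * rr (0, 0, 1) = rr t * diagonal ![a, b, c] →
      ∃ t, diagonal ![a, b, c] = rr t := by decide +kernel

theorem nSU.pres {X : Matrix (Fin 3) (Fin 3) F25} (h : nSU X) : Pres (PtSet L36) X := by
  obtain ⟨t, ht⟩ := h.1 (0, 1, 0)
  rcases wd_spec t with h1 | h1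
  · exfalso
    have h2 := congrArg (X⁻¹ * ·) ht
    simp only [h1, Matrix.smul_mul, Matrix.mul_smul, one_mul, ← mul_assoc,
      nonsing_inv_mul X (h.2.2 ▸ isUnit_one)] at h2
    exact (by decide +kernel : ∀ i : Fin 3, rr (0, 1, 0) ≠ w3 i • 1) _ h2
  have h2 : nSU (rr (0, 0, 1) ^ (wd t).1 * qI ^ (wd t).2.1 * qJ ^ (wd t).2.2) :=
    ((nSU.pow (by decide +kernel) _).mul (nSU.pow (by decide +kernel) _)).mul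
      (nSU.pow (by decide +kernel) _)
  refine Pres.of_mul (((pres_B.pow _).mul (pres_I.pow _)).mul (pres_J.pow _)) h2.2.2 ?_
  generalize rr (0, 0, 1) ^ (wd t).1 * qI ^ (wd t).2.1 * qJ ^ (wd t).2.2 = W at h1 h2
  have h3 := h2.mul h
  have h4 : W * X * rr (0, 1, 0) = rr (0, 1, 0) * (W * X) := by
    rw [mul_assoc, ht, ← mul_assoc, h1, mul_assoc]
  generalize W * X = Y at h3 h4
  have h5 : Y = diagonal ![Y 0 0, Y 1 1, Y 2 2] := by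
    rw [show rr (0, 1, 0) = diagonal fun i : Fin 3 => w3 i by decide +kernel] at h4
    have h6 : ∀ i j : Fin 3, i ≠ j → ∀ y : F25, y * w3 j = w3 i * y → y = 0 := by decide +kernel
    ext1 i j
    by_cases hij : i = j
    · subst hij; fin_cases i <;> rfl
    · rw [diagonal_apply_ne _ hij]
      exact h6 i j hij _ (by simpa using congrFun (congrFun h4 i) j)
  obtain ⟨s, hs⟩ := h3.1 (0, 0, 1)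
  have h6 := h3.2.1
  have h7 := h3.2.2
  rw [h5] at hs h6 h7 ⊢
  rw [det_diagonal, Fin.prod_univ_three] at h7
  rw [diagonal_transpose, mul_one, diagonal_map (by decide +kernel), diagonal_mul_diagonal,
    ← diagonal_one, diagonal_eq_diagonal_iff] at h6
  obtain ⟨u, hu⟩ := diag_spec (Y 0 0) (h6 0) (Y 1 1) (h6 1) (Y 2 2) h7 s hs
  rw [hu, rr_eq]
  exact ((pres_A.pow _).mul (pres_B.pow _)).smul (pow_ne_zero _ (by decide +kernel))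

lemma not_pres : ¬ PtSet L36 (tvm qc 1 ⟨0, 1⟩ ![⟨0, 0⟩, ⟨1, 0⟩, ⟨1, 1⟩] *ᵥ L36 0) := by decide +kernel

end Cfsg.Agent.H18
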