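import Cfsg.Agent.H18.MdL

/-! Normalisers of `3^(1+2)` in `SU₃(p)`. -/

set_option autoImplicit false
set_option synthInstance.maxSize 4096

namespace Cfsg.Agent.H18

open Cfsg.Geo Matrix
open scoped MatrixGroups

variable {ι : Type} [Fintype ι] [DecidableEq ι] {F : Type*} [Field F] [Fintype F]
  {σ : F →+* F} {f : (ι → F) → (ι → F) → F} {a : F} {H R : Subgroup (GL ι F)}

omit [Fintype F] in
lemma cube_eq_one (h1 : IsSymplecticTypeGroup 3 R) {x : GL ι F} (hx : x ∈ R) : x ^ 3 = 1 :=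
  congrArg Subtype.val (show (⟨x, hx⟩ : R) ^ 3 = 1 by
    simpa [h1.exponent_eq] using Monoid.pow_exponent_eq_one (⟨x, hx⟩ : R))

lemma comm_of_conj {G : Type*} [Group G] {s x z : G} (hz : ∀ y, Commute z y) (h3 : z ^ 3 = 1)
    (h : s * x * s⁻¹ = z * x) : Commute (s ^ 3) x := by
  have : ∀ n : ℕ, s ^ n * x * (s ^ n)⁻¹ = z ^ n * x := fun n => by
    induction n with
    | zero => simp
    | succ n ih =>
      rw [show s ^ (n + 1) * x * (s ^ (n + 1))⁻¹ = s * (s ^ n * x * (s ^ n)⁻¹) * s⁻¹ by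
        rw [pow_succ']; group, ih, ← mul_assoc, ← ((hz s).pow_left n).eq, mul_assoc, mul_assoc,
        ← mul_assoc s, h, pow_succ, mul_assoc]
  exact mul_inv_eq_iff_eq_mul.mp (by rw [this, h3, one_mul])

theorem SuH.eq_normalizer3 {q p : ℕ} (h : SuH σ q f a H) (hp : p.Prime) [CharP F p] (h11 : 11 ≤ p)
    (h1 : IsSymplecticTypeGroup 3 R) (h2 : ActsAbsolutelyIrreducibly (matrixSet R))
    (h3 : Nat.card R = 27) (h4 : Nat.card (Subgroup.center R) = 3)
    (hle : H ≤ subgroupNormalizer R) : H = subgroupNormalizer R ⊓ (isoG f ⊓ specialLinear ι F) := by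
  refine eq_of_maximal h.max hle fun hG => ?_
  obtain ⟨w, hw0, hw⟩ := h.hf.iso
  have ht := Subgroup.mem_set_normalizer_iff.mp (hG (h.has w hw))
  have hs := h.hf.ft_sqz a hw
  have hv := h.hf.ft_mulVec a hw
  generalize h.hf.ft a hw = t at ht hs hv
  have h5 : t ^ p = 1 := by
    have : ∀ n : ℕ, (t : Matrix ι ι F) ^ n = 1 + (n : F) • ((t : Matrix ι ι F) - 1) := fun n => by
      induction n with
      | zero => simp
      | succ n ih =>
        rw [pow_succ, ih, ← sub_eq_zero, ← smul_zero (n : F), ← hs]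
        simp only [Nat.cast_succ, add_smul, one_smul, add_mul, mul_sub, Matrix.smul_mul, smul_sub,
          one_mul, mul_one, sub_mul]
        abel
    exact Units.ext (by rw [Units.val_pow_eq_pow_val, this, CharP.cast_eq_zero, zero_smul, add_zero]; rfl)
  have h6 : ∀ (n : ℕ), ∀ x ∈ R, t ^ n * x * (t ^ n)⁻¹ ∈ R := fun n x hx => by
    induction n with
    | zero => simpa using hx
    | succ n ih =>
      rw [show t ^ (n + 1) * x * (t ^ (n + 1))⁻¹ = t * (t ^ n * x * (t ^ n)⁻¹) * t⁻¹ by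
        rw [pow_succ']; group]
      exact (ht _).mp ih
  have h7 : Nat.card (R ⧸ Subgroup.center R) = 9 := by
    have := (Subgroup.center R).card_eq_card_quotient_mul_card_subgroup
    rw [h3, h4] at this
    omega
  obtain ⟨c, hc⟩ := scalar_of_absIrr h2 (y := t) fun x hx => by
    have key : ∀ i j : ℕ, i < j → j < 10 → (QuotientGroup.mk ⟨_, h6 i x hx⟩ : R ⧸ Subgroup.center R) =
        QuotientGroup.mk ⟨_, h6 j x hx⟩ → x * t = t * x := fun i j hij hj h0 => by
      obtain ⟨m, rfl⟩ := Nat.exists_eq_add_of_lt hij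
      rw [QuotientGroup.eq] at h0
      set z := (⟨_, h6 i x hx⟩ : R)⁻¹ * ⟨_, h6 (i + m + 1) x hx⟩ with hz
      obtain ⟨d, hd⟩ := scalar_of_absIrr h2 (y := z) fun y hy =>
        congrArg Subtype.val (Subgroup.mem_center_iff.mp h0 ⟨y, hy⟩)
      have c1 : ∀ y : GL ι F, Commute (z : GL ι F) y := fun y => Units.ext (by simp [hd])
      have c3 := comm_of_conj c1 (cube_eq_one h1 z.2) (s := t ^ (m + 1)) (x := x)
        (mul_left_cancel (a := t ^ i) (mul_right_cancel (b := (t ^ i)⁻¹) (by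
          rw [(c1 x).eq, ← mul_assoc (t ^ i) x, mul_assoc _ (z : GL ι F), (c1 _).eq, ← mul_assoc, hz]
          simp only [Subgroup.coe_mul, Subgroup.coe_inv]
          group)))
      rw [← pow_mul] at c3
      obtain ⟨n, hn⟩ := exists_pow_eq_self_of_coprime (x := t) (n := (m + 1) * 3)
        (Nat.Coprime.coprime_dvd_right (orderOf_dvd_of_pow_eq_one h5)
          (Nat.Coprime.symm ((Nat.coprime_mul_iff_right).mpr
            ⟨Nat.coprime_of_lt_prime (by omega) (by omega) hp,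
              Nat.coprime_of_lt_prime (by omega) (by omega) hp⟩)))
      rw [← hn]
      exact (c3.pow_left n).symm.eq
    have := Fintype.ofFinite (R ⧸ Subgroup.center R)
    obtain ⟨i, j, hij, h0⟩ := Fintype.exists_ne_map_eq_of_card_lt
      (fun i : Fin 10 => (QuotientGroup.mk ⟨_, h6 i x hx⟩ : R ⧸ Subgroup.center R))
      (by rw [← Nat.card_eq_fintype_card, h7]; simp)
    rcases lt_or_gt_of_ne hij with h8 | h8
    exacts [key i j h8 j.2 h0, key j i h8 i.2 h0.symm]
  rw [hc] at hv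
  simp only [smul_mulVec, one_mulVec] at hv
  have h8 : c = 1 := smul_left_injective F hw0 (by simpa [hw] using hv w)
  refine hw0 (h.hf.nondeg w fun u => ?_)
  simpa [h8, hw0, h.hf.ne] using hv u

theorem SU3_ext5 (h : SuH σ 5 f a H) (hn : Fintype.card ι = 3) (h1 : IsSymplecticTypeGroup 3 R)
    (h2 : ActsAbsolutelyIrreducibly (matrixSet R)) (h3 : Nat.card R = 27) (h4 : R ≤ isoG f)
    (hle : H ≤ subgroupNormalizer R) : False := by
  have : Nonempty ι := Fintype.card_pos_iff.mp (by omega)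
  have hf := h.hf.toHForm
  obtain ⟨φ⟩ := exists_equiv_F25 h.hF
  have hτ : ∀ x, σ (φ x) = φ (qc x) := fun x => by rw [h.tau φ, qc_F25]
  set ω := φ (w3 1) with hω
  obtain ⟨x, hx, y, hy, h5⟩ : ∃ x ∈ R, ∃ y ∈ R, (x : Matrix ι ι F) * y = ω • ((y : Matrix ι ι F) * x) := by
    obtain ⟨y, hy, h5⟩ := exists_mem_Z2 (by omega) h1.prime h1.pGroup h2
    obtain ⟨x, hx, h6⟩ : ∃ x ∈ R, x * y ≠ y * x := by
      by_contra! h6
      obtain ⟨c, hc⟩ := scalar_of_absIrr h2 h6
      exact h5 (mem_scalars_of_eq_smul hc)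
    obtain ⟨c, c1, c2⟩ := hy.2 x hx
    have c3 := congrArg Units.val c2
    rw [sc_mul_coe, Units.val_mul, Units.val_mul] at c3
    obtain ⟨d, hd⟩ := φ.surjective c
    rcases (by decide +kernel : ∀ d : F25, d ^ 3 = 1 → d = 1 ∨ d = w3 1 ∨ d * d = w3 1) d
      (φ.injective (by rw [map_pow, hd, map_one, ← Units.val_pow_eq_pow_val, c1]; rfl)) with
      rfl | rfl | c4
    · exact absurd (Units.ext (by rw [Units.val_mul, c3, ← hd, map_one, one_smul]; rfl)) h6
    · exact ⟨x, hx, y, hy.1, by rw [c3, ← hd]⟩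
    · exact ⟨x * x, mul_mem hx hx, y, hy.1, by
        rw [Units.val_mul, mul_assoc, c3, Matrix.mul_smul, ← mul_assoc, c3, Matrix.smul_mul,
          smul_smul, ← hd, ← map_mul, c4, mul_assoc]⟩
  have x3 : (x : Matrix ι ι F) ^ 3 = 1 := congrArg Units.val (cube_eq_one h1 hx)
  have y3 : (y : Matrix ι ι F) ^ 3 = 1 := congrArg Units.val (cube_eq_one h1 hy)
  have w1 : ω ^ 2 + ω + 1 = 0 := by
    simpa [hω] using congrArg φ (by decide +kernel : w3 1 ^ 2 + w3 1 + 1 = 0)
  have w2 : (3 : F) ≠ 0 := by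
    rw [← map_ofNat φ 3, map_ne_zero]; decide +kernel
  obtain ⟨e, he0, he⟩ : ∃ e : ι → F, e ≠ 0 ∧ (x : Matrix ι ι F) *ᵥ e = e := by
    by_contra! h6
    have c1 : (1 : Matrix ι ι F) + x + x ^ 2 = 0 := by
      ext1 i j
      refine congrFun (by_contra fun h0 => h6 _ h0 ?_ : (1 + x + x ^ 2 : Matrix ι ι F).col j = 0) i
      rw [← mulVec_single_one, mulVec_mulVec, mul_add, mul_add, ← pow_succ', x3, mul_one, ← sq]
      congr 1; abel
    have c2 : ∀ c d : F, (1 : Matrix ι ι F) + c • x + d • x ^ 2 = 0 →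
        (1 : Matrix ι ι F) + (c * ω) • x + (d * ω ^ 2) • x ^ 2 = 0 := fun c d h0 => by
      have := congrArg (fun Z => ((y⁻¹ : GL ι F) : Matrix ι ι F) * (Z * y)) h0
      simp only [add_mul, Matrix.smul_mul, sq, mul_assoc, h5, Matrix.mul_smul, mul_add, one_mul,
        zero_mul, mul_zero, ← mul_assoc (x : Matrix ι ι F) (y : Matrix ι ι F), smul_smul,
        Units.inv_mul, Units.inv_mul_cancel_left] at this
      simpa [sq] using this
    have c3 := c2 1 1 (by simpa using c1)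
    have c4 := c2 _ _ c3
    have c5 : (3 : F) • (1 : Matrix ι ι F) = 0 := by
      have := congrArg₂ (· + ·) (congrArg₂ (· + ·) c1 c3) c4
      simp only [add_zero] at this
      rw [← this, ← sub_eq_zero, ← smul_zero (-1 : F), ← add_zero 0]
      nth_rw 1 [← zero_smul F (x : Matrix ι ι F), ← zero_smul F ((x : Matrix ι ι F) ^ 2)]
      rw [← w1]
      nth_rw 2 [show ω ^ 2 + ω + 1 = 1 + ω ^ 2 + ω ^ 2 * ω ^ 2 by
        linear_combination (1 - ω) * ω * w1]
      module
    obtain ⟨i⟩ := ‹Nonempty ι›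
    exact w2 (by simpa using congrFun (congrFun c5 i) i)
  have e1 : ∀ (e : ι → F), (x : Matrix ι ι F) *ᵥ e = e → ∀ i : Fin 3,
      (x : Matrix ι ι F) *ᵥ ((y : Matrix ι ι F) ^ (i : ℕ) *ᵥ e) =
        φ (w3 i) • ((y : Matrix ι ι F) ^ (i : ℕ) *ᵥ e) := fun e he i => by
    have c1 : ∀ (u : ι → F) c, (x : Matrix ι ι F) *ᵥ u = c • u →
        (x : Matrix ι ι F) *ᵥ (y : Matrix ι ι F) *ᵥ u = (ω * c) • (y : Matrix ι ι F) *ᵥ u :=
      fun u c hu => by
        rw [mulVec_mulVec, h5, smul_mulVec, ← mulVec_mulVec, hu, mulVec_smul, smul_smul]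
    have c2 := c1 e 1 (by rw [he, one_smul])
    have c3 := c1 _ _ c2
    fin_cases i
    · simpa [show w3 0 = 1 from rfl] using he
    · simpa using c2
    · simpa [sq, show w3 2 = w3 1 * w3 1 by decide +kernel] using c3
  have e2 : ∀ (e : ι → F), (x : Matrix ι ι F) *ᵥ e = e → ∀ i j : Fin 3,
      f ((y : Matrix ι ι F) ^ (i : ℕ) *ᵥ e) ((y : Matrix ι ι F) ^ (j : ℕ) *ᵥ e) =
        if i = j then f e e else 0 := fun e he i j => by
    split_ifs with hij
    · rw [hij]; exact mem_isoG.mp (pow_mem (h4 hy) j) e e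
    · have := mem_isoG.mp (h4 hx) ((y : Matrix ι ι F) ^ (i : ℕ) *ᵥ e) ((y : Matrix ι ι F) ^ (j : ℕ) *ᵥ e)
      rw [e1 e he, e1 e he, hf.smul_left, hf.smul_right, hτ, ← mul_assoc, ← map_mul] at this
      by_contra h0
      exact (by decide +kernel : ∀ i j : Fin 3, w3 i * qc (w3 j) = 1 → i = j) i j
        (φ.injective (by rw [map_one]; exact (mul_eq_right₀ h0).mp this)) |> hij
  have e3 : f e e ≠ 0 := fun h0 => by
    have c1 : LinearIndependent F fun i : Fin 3 => (y : Matrix ι ι F) ^ (i : ℕ) *ᵥ e :=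
      Module.End.eigenvectors_linearIndependent' (toLin' (x : Matrix ι ι F))
        (fun i : Fin 3 => φ (w3 i)) (φ.injective.comp (by decide +kernel)) _ fun i =>
        ⟨Module.End.mem_eigenspace_iff.mpr (e1 e he i), fun c2 => he0 (by
          rw [← inv_mulVec_mulVec (y ^ (i : ℕ)) e, Units.val_pow_eq_pow_val, c2, mulVec_zero])⟩
    refine he0 (hf.nondeg e fun u => ?_)
    obtain ⟨c, rfl⟩ := (Submodule.mem_span_range_iff_exists_fun F).mp
      (c1.span_eq_top_of_card_eq_finrank (by simp [hn]) ▸ Submodule.mem_top (x := u))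
    rw [hf.sum_left]
    refine Finset.sum_eq_zero fun i _ => ?_
    have := e2 e he i 0
    rw [h0, ite_self, Fin.val_zero, pow_zero, one_mulVec] at this
    rw [hf.smul_left, this, mul_zero]
  obtain ⟨l, hl⟩ := H13.exists_conj_mul_eq h.hσ hf.invol (c := (f e e)⁻¹) (by
    rw [map_inv₀, ← one_mul (σ _), ← hf.herm])
  have e4 : (x : Matrix ι ι F) *ᵥ (l • e) = l • e := by rw [mulVec_smul, he]
  have e5 : f (l • e) (l • e) = 1 := by
    rw [hf.smul_left, hf.smul_right, ← mul_assoc, mul_comm l, hl, inv_mul_cancel₀ e3]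
  generalize l • e = v at e4 e5
  obtain ⟨m, hm⟩ := hf.toSesq.exists_md hτ (G := 1) (G' := 1)
    (v := fun i : Fin 3 => (y : Matrix ι ι F) ^ (i : ℕ) *ᵥ v)
    (fun i j => by rw [e2 v e4, e5, one_apply]; split_ifs <;> simp) (one_mul _) (by simp [hn])
  have hA : (x : Matrix ι ι F) = m.mat (rr (0, 1, 0)) := m.mat_eq fun i => by
    rw [hm, e1 v e4, ← hm, ← m.vec_smul]
    exact congrArg m.vec ((by decide +kernel : ∀ i : Fin 3, w3 i • Pi.single i (1 : F25) =
      rr (0, 1, 0) *ᵥ Pi.single i 1) i)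
  have hB : (y : Matrix ι ι F) = m.mat (rr (0, 0, 1)) := m.mat_eq fun i => by
    rw [(by decide +kernel : ∀ i : Fin 3, rr (0, 0, 1) *ᵥ Pi.single i (1 : F25) =
      Pi.single (i + 1) 1) i, hm, hm, mulVec_mulVec, ← pow_succ', Fin.val_add,
      ← pow_eq_pow_mod _ y3]
    rfl
  have h6 : ∀ t, ∃ r : R, ((r : GL ι F) : Matrix ι ι F) = m.mat (rr t) := fun t =>
    ⟨⟨(x * y * x⁻¹ * y⁻¹) ^ (t.1 : ℕ) * (x ^ (t.2.1 : ℕ) * y ^ (t.2.2 : ℕ)),
      mul_mem (pow_mem (mul_mem (mul_mem (mul_mem hx hy) (inv_mem hx)) (inv_mem hy)) _)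
        (mul_mem (pow_mem hx _) (pow_mem hy _))⟩, by
      rw [rr_eq, m.mat_smul, map_mul, map_pow, map_pow, map_pow, ← hA, ← hB]
      simp [h5, smul_pow, ← hω]⟩
  choose r hr using h6
  have h7 : Function.Surjective r := (Function.Injective.bijective_of_nat_card_le
    (fun t t' h0 => rr_inj (m.mat.injective (by rw [← hr, ← hr, h0]))) (by simp [h3])).2
  have key : ∀ g ∈ H, ∀ X, (g : Matrix ι ι F) = m.mat X → nR X := fun g hg X hX t => by
    obtain ⟨t', ht'⟩ := h7 ⟨_, (Subgroup.mem_set_normalizer_iff.mp (hle hg) _).mp (r t).2⟩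
    refine ⟨t', m.mat.injective ?_⟩
    rw [map_mul, map_mul, ← hr, ← hr, ← hX, ht']
    simp
  exact m.false_set h.max le_rfl (PtSet L36) (fun g hg X hX => nSU.pres ⟨key g hg X hX,
    (m.mem_isoG hX).mp (h.le hg), m.det_eq_one (h.max.1.le hg).2 hX⟩) (by decide +kernel)
    (by decide +kernel) ⟨0, 1, one_ne_zero, (one_smul _ _).symm⟩ not_pres (by decide +kernel)
    (by decide +kernel) pres_T fun g hg hX => absurd (key g hg _ hX) (by decide +kernel)

end Cfsg.Agent.H18
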