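import Mathlib
import Cfsg.Agent.H18.NmA

/-!
Non-maximality of some geometric subgroups of `Ω`: matrix form.
-/

set_option autoImplicit false

namespace Cfsg.Agent.H18

open Cfsg.Geo QuadraticMap Module H13
open scoped MatrixGroups Matrix

variable {ι : Type} [Fintype ι] [DecidableEq ι] {F : Type*} [Field F] {Q : (ι → F) → F}
  (hQ : IsNondegenerateQuadraticForm Q) {W U : Submodule F (ι → F)} {t m : ℕ}
  {D : Fin t → Submodule F (ι → F)}
include hQ

lemma nm_of {S : Subgroup (GL ι F)} (K : Subgroup (OG (mkQ hQ)))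
    (h1 : ∀ g ∈ Om _, ofOG hQ g ∈ S → g ∈ K) (h2 : ¬ Om _ ≤ K)
    (h3 : ∃ g ∈ Om _, g ∈ K ∧ ofOG hQ g ∉ S) : ∃ L, S ⊓ omegaGL Q < L ∧ L < omegaGL Q := by
  have hi : Function.Injective (jO hQ) :=
    Subtype.coe_injective.comp (toOG (mkQ hQ)).symm.injective
  refine H12.exists_between (T := K.map (jO hQ)) (fun g hg => ?_) (fun h => h2 fun g hg => ?_)
    fun h => ?_
  · obtain ⟨g, h4, rfl⟩ := exists_ofOG hQ hg.2
    exact ⟨g, h1 g h4 hg.1, rfl⟩
  · obtain ⟨k, h4, h5⟩ := h (ofOG_mem hQ hg)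
    exact hi h5 ▸ h4
  · obtain ⟨g, h4, h5, h6⟩ := h3
    exact h6 (h ⟨⟨g, h5, rfl⟩, ofOG_mem hQ h4⟩)

variable [Fintype F]

theorem nm_plane (hn : 6 ≤ Fintype.card ι) (h : Fintype.card F ≤ 3)
    (h1 : IsNondegenerateOn (polar Q) W) (h2 : finrank F W = 2) (h3 : IsPlusTypeOn Q W) :
    ∃ L, subspaceStabilizer W ⊓ omegaGL Q < L ∧ L < omegaGL Q := by
  obtain ⟨v, h4, h5⟩ := le_stab_of_plus hQ h h1 h2 h3
  have h6 := finrank_span_of_quad hQ h4
  refine H12.exists_between ((inf_le_inf_left _ omegaGL_le).trans h5) (omega_not_le_stab hQ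
    (by omega) (fun h' => by rw [h', finrank_bot] at h6; omega) fun h' => by
      rw [h'] at h6; simp at h6; omega) fun H => ?_
  obtain ⟨w, h7, h8⟩ := SetLike.not_le_iff_exists.mp (show ¬ W ≤ F ∙ v from fun h => by
    have := Submodule.finrank_mono h; omega)
  obtain ⟨g, a1, a2, a3⟩ := exists_fix_not_mem (nd_mkQ hQ) (by simp; omega) h7 h8 (by simp; omega)
  exact a3 (((ofOG_mem_stab hQ g).mp (H ⟨(ofOG_mem_stab hQ g).mpr (mem_stO_of_maps fun x hx => by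
    obtain ⟨c, rfl⟩ := Submodule.mem_span_singleton.mp hx
    rwa [map_smul, a2]), ofOG_mem hQ a1⟩) w).mp h7)

theorem nm_submax (hn : 5 ≤ Fintype.card ι) (hp : IsPlusTypeOn Q ⊤)
    (h1 : IsTotallySingularQuad Q W) (h2 : 2 * (finrank F W + 1) = Fintype.card ι) :
    ∃ L, subspaceStabilizer W ⊓ omegaGL Q < L ∧ L < omegaGL Q := by
  obtain ⟨U, h3, h4, h5⟩ := le_stab_max hQ hn hp h1 h2
  refine H12.exists_between h5 (omega_not_le_stab hQ hn (fun h => by rw [h, finrank_bot] at h4; omega)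
    fun h => by rw [h] at h4; simp at h4; omega) fun H => ?_
  obtain ⟨u, h7, h8⟩ := SetLike.not_le_iff_exists.mp (show ¬ U ≤ W from fun h => by
    have := Submodule.finrank_mono h; omega)
  obtain ⟨w, h9, a0⟩ := Submodule.exists_mem_ne_zero_of_ne_bot (p := W) fun h => by
    rw [h, finrank_bot] at h2; omega
  obtain ⟨a, a1, a2⟩ := exists_sieg_not_mem (nd_mkQ hQ) (h3 u h7) h8 h9 a0 (by simp; omega)
  exact a2 (((ofOG_mem_stab hQ _).mp (H ⟨(ofOG_mem_stab hQ _).mpr (sieg_mem_stO h7 h3 a1),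
    ofOG_mem hQ (sieg_mem_Om (nd_mkQ hQ) (by simpa using hn) _ _)⟩) w).mp h9)

theorem nm_pair (hn : 5 ≤ Fintype.card ι) (hm : Odd m) {D : Fin 2 → Submodule F (ι → F)}
    (hD : IsMDecomposition m D) (h : ∀ i, IsTotallySingularQuad Q (D i)) :
    ∃ L, decompositionStabilizer D ⊓ omegaGL Q < L ∧ L < omegaGL Q := by
  have h1 := card_eq_of_isMDecomposition hD
  have h2 := hD.finrank_eq
  have h3 : ∀ i, D i ≠ ⊥ := fun i h => by have := h2 i; rw [h, finrank_bot] at this; omega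
  refine H12.exists_between (pair_le_stab hQ hn hm hD h) (omega_not_le_stab hQ hn (h3 0)
    fun h => by have := h2 0; rw [h] at this; simp at this; omega) fun H => ?_
  obtain ⟨u, h7, h8⟩ := Submodule.exists_mem_ne_zero_of_ne_bot (h3 0)
  obtain ⟨w, h9, a0⟩ := Submodule.exists_mem_ne_zero_of_ne_bot (h3 1)
  have a3 : ∀ x ∈ D 0, x ∈ D 1 → x = 0 :=
    Submodule.disjoint_def.mp (hD.indep.pairwiseDisjoint zero_ne_one)
  obtain ⟨a, a1, a2⟩ := exists_sieg_not_mem (nd_mkQ hQ) (h 0 u h7) (fun h => h8 (a3 u h7 h)) h9 a0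
    (by simp [h2]; omega)
  have a4 := sieg_mem_stO (Q := mkQ hQ) h7 (h 0) a1
  obtain ⟨π, hπ⟩ := (ofOG_mem_dec hQ _).mp (H ⟨(ofOG_mem_stab hQ _).mpr a4,
    ofOG_mem hQ (sieg_mem_Om (nd_mkQ hQ) (by simpa using hn) _ _)⟩)
  have a5 := (hπ 1).le ⟨w, h9, rfl⟩
  generalize π 1 = j at a5
  fin_cases j
  · exact a0 (a3 w ((a4 w).mpr a5) h9)
  · exact a2 a5

lemma nm_blk (hD : IsOrthogonalMDecomposition Q m D) (hn : 5 ≤ Fintype.card ι)
    (hm : m + 3 ≤ Fintype.card ι) {c : F} (hc : c ≠ 0) {i : Fin t} {v : ι → F} (h1 : v ∈ D i)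
    (h2 : Q v = c) (h : ∃ g ∈ Om _, g ∈ mapS (mkQ hQ) (blkS (mkQ hQ) D c) ∧ g ∉ dsO _ D) :
    ∃ L, decompositionStabilizer D ⊓ omegaGL Q < L ∧ L < omegaGL Q :=
  nm_of hQ (mapS _ (blkS _ D c)) (fun g _ hg _ => blkS_map ((ofOG_mem_dec hQ g).mp hg))
    ((odq_of hQ hD.decomp).not_Om_le (nd_mkQ hQ) (by simpa using hn) hc h1 h2
      (by simpa [hD.decomp.decomp.finrank_eq] using hm)) (by simpa only [ofOG_mem_dec] using h)

lemma nm_frame (hD : IsOrthogonalMDecomposition Q m D) (ht : 3 ≤ t) (hm : 2 ≤ m) (h2 : (2 : F) ≠ 0)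
    {c : F} (hc : c ≠ 0) {i : Fin t} {v : ι → F} (h1 : v ∈ D i) (h3 : Q v = c)
    (hP : ∀ s ∈ D i, ∀ r ∈ D i, Q s = c → Q r = c → r = s ∨ r = -s ∨ polar Q s r = 0) :
    ∃ L, decompositionStabilizer D ⊓ omegaGL Q < L ∧ L < omegaGL Q := by
  have h4 := card_eq_of_isMDecomposition hD.decomp.decomp
  choose e he using hD.isometric i
  refine nm_blk hQ hD (by nlinarith) (by nlinarith) hc h1 h3 ((odq_of hQ hD.decomp).exists_frame_elt
    (nd_mkQ hQ) h2 hc (fun j s hs r hr h5 h6 => ?_) (i := ⟨0, by omega⟩) (j := ⟨1, by omega⟩)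
    (k := ⟨2, by omega⟩) (by simp) (by simp) (by simp) (e _ ⟨v, h1⟩).2 (e _ ⟨v, h1⟩).2
    (e _ ⟨v, h1⟩).2 ((he _ _).trans h3) ((he _ _).trans h3) ((he _ _).trans h3)
    (hD.decomp.decomp.finrank_eq _ ▸ hm))
  obtain ⟨s, h7⟩ := (e j).surjective ⟨s, hs⟩
  obtain ⟨r, h8⟩ := (e j).surjective ⟨r, hr⟩
  obtain rfl := congrArg Subtype.val h7
  obtain rfl := congrArg Subtype.val h8
  rcases hP s s.2 r r.2 ((he _ _).symm.trans h5) ((he _ _).symm.trans h6) with h | h | h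
  · exact Or.inl (by rw [Subtype.ext h])
  · exact Or.inr (Or.inl (by rw [show r = -s from Subtype.ext h, map_neg]; rfl))
  · exact Or.inr (Or.inr ((polar_of_isometric (he j) _ _).trans h))

theorem nm_two_three (hD : IsOrthogonalMDecomposition Q 2 D) (ht : 3 ≤ t) (h : Fintype.card F = 3) :
    ∃ L, decompositionStabilizer D ⊓ omegaGL Q < L ∧ L < omegaGL Q := by
  have h3 := three_eq_zero h
  have h2 : (2 : F) ≠ 0 := fun h2 => one_ne_zero (by linear_combination h3 - h2 : (1 : F) = 0)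
  have h4 := nd_restrict hQ (hD.decomp.nondegenerate ⟨0, by omega⟩)
  have h5 := hD.decomp.decomp.finrank_eq ⟨0, by omega⟩
  have : Nontrivial (D ⟨0, by omega⟩) := Module.nontrivial_of_finrank_pos (R := F) (by omega)
  obtain ⟨v, hv⟩ := h4.exists_ne_zero
  refine nm_frame hQ hD ht le_rfl h2 hv v.2 rfl fun s hs r hr h6 h7 => ?_
  have key : ∀ r ∈ D ⟨0, by omega⟩, mkQ hQ r = mkQ hQ s → polar (mkQ hQ) s r = 2 * mkQ hQ s →
      r = s := fun r hr h8 h9 => by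
    by_contra h0
    have a1 := finrank_inf_perp h4 (sub_mem hr hs) (sub_ne_zero.mpr h0)
    have a2 : polar (mkQ hQ) (r - s) s = 0 := by
      rw [polar_sub_left, polar_comm, h9, polar_self', sub_self]
    obtain ⟨c, hc⟩ := (finrank_eq_one_iff_of_nonzero' (⟨r - s, sub_mem hr hs,
      mem_perp_singleton.mpr (by
        rw [polar_sub_right, a2, polar_sub_left, h9, polar_self', h8]; ring)⟩ :
          ↥(D ⟨0, by omega⟩ ⊓ perp (mkQ hQ) (F ∙ (r - s))))
      (fun h => h0 (sub_eq_zero.mp (congrArg Subtype.val h)))).mp (Nat.succ_injective (a1.trans h5))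
      ⟨s, hs, mem_perp_singleton.mpr a2⟩
    have a3 : c • (r - s) = s := congrArg Subtype.val hc
    have a4 := polar_self' (mkQ hQ) s
    nth_rw 1 [← a3] at a4
    rw [polar_smul_left, a2, smul_zero] at a4
    exact mul_ne_zero h2 hv (a4.symm ▸ congrArg (2 * ·) h6.symm :)
  by_cases a5 : polar Q s r = 0
  · exact Or.inr (Or.inr a5)
  have a6 : mkQ hQ s ≠ 0 := h6.trans_ne hv
  rcases sq_eq_sq_iff_eq_or_eq_neg.mp ((pow_pred_card (q := 2) h a5).trans
    (pow_pred_card h (mul_ne_zero h2 a6)).symm) with a7 | a7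
  · exact Or.inl (key r hr (h7.trans h6.symm) a7)
  · exact Or.inr (Or.inl (neg_eq_iff_eq_neg.mp (key (-r) (neg_mem hr)
      ((QuadraticMap.map_neg _ _).trans (h7.trans h6.symm))
      (by rw [polar_neg_right]; exact neg_eq_iff_eq_neg.mpr a7))))

theorem nm_three_three (hD : IsOrthogonalMDecomposition Q 3 D) (ht : 3 ≤ t)
    (h : Fintype.card F = 3) :
    ∃ L, decompositionStabilizer D ⊓ omegaGL Q < L ∧ L < omegaGL Q := by
  have hf := hform_of_quad hQ
  have h3 := three_eq_zero h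
  have h2 : (2 : F) ≠ 0 := fun h2 => one_ne_zero (by linear_combination h3 - h2 : (1 : F) = 0)
  have h5 := hD.decomp.decomp.finrank_eq ⟨0, by omega⟩
  obtain ⟨c, v, a1, a2, a3, -⟩ := hf.frame3 h (hD.decomp.nondegenerate ⟨0, by omega⟩) h5
  have a4 : ∀ a b : Fin 3 → F, polar Q (∑ i, a i • v i) (∑ i, b i • v i) = c * ∑ i, a i * b i :=
    fun a b => by
      simp [Fin.sum_univ_three, hf.add_left, hf.add_right, hf.smul_left, hf.smul_right, a3]; ring
  refine nm_frame hQ hD ht (by omega) h2 (div_ne_zero a1 h2) (a2 0) (by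
    rw [eq_div_iff h2, mul_comm, ← polar_self_of_quad hQ, a3, if_pos rfl]) fun s hs r hr h6 h7 => ?_
  obtain ⟨a, rfl⟩ := hf.exists_coord (fun k => by simp [a3, a1]) (fun k l h => by simp [a3, h]) h5 a2 hs
  obtain ⟨b, rfl⟩ := hf.exists_coord (fun k => by simp [a3, a1]) (fun k l h => by simp [a3, h]) h5 a2 hr
  rw [eq_div_iff h2, mul_comm, ← polar_self_of_quad hQ, a4, mul_right_eq_self₀, or_iff_left a1]
    at h6 h7
  let φ := ZMod.ringEquivOfPrime F (by decide) h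
  obtain ⟨a, rfl⟩ : ∃ b : Fin 3 → ZMod 3, φ ∘ b = a := ⟨φ.symm ∘ a, by ext; simp⟩
  obtain ⟨b, rfl⟩ : ∃ a : Fin 3 → ZMod 3, φ ∘ a = b := ⟨φ.symm ∘ b, by ext; simp⟩
  rcases (by decide : ∀ a b : Fin 3 → ZMod 3, ∑ i, a i * a i = 1 → ∑ i, b i * b i = 1 →
    b = a ∨ b = -a ∨ ∑ i, a i * b i = 0) a b (φ.injective (by simpa using h6))
      (φ.injective (by simpa using h7)) with rfl | rfl | h
  · exact Or.inl rfl
  · exact Or.inr (Or.inl (by simp))
  · exact Or.inr (Or.inr (by rw [a4]; simpa [a1] using congrArg φ h))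

theorem nm_two_five (hD : IsOrthogonalMDecomposition Q 2 D) (ht : 3 ≤ t) (h : Fintype.card F = 5)
    (hp : ∀ i, IsPlusTypeOn Q (D i)) :
    ∃ L, decompositionStabilizer D ⊓ omegaGL Q < L ∧ L < omegaGL Q := by
  have hf := hform_of_quad hQ
  have h5 : (5 : F) = 0 := by simpa [h] using FiniteField.cast_card_eq_zero F
  have h2 : (2 : F) ≠ 0 := fun h2 => one_ne_zero (by linear_combination h5 - 2 * h2 : (1 : F) = 0)
  obtain ⟨x, hx, y, hy, a1, a2, a3, a4⟩ := exists_hyp_of_plus hQ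
    (hD.decomp.nondegenerate ⟨0, by omega⟩) (hD.decomp.decomp.finrank_eq _) (hp _)
  refine nm_frame hQ hD ht le_rfl h2 one_ne_zero (add_mem hx hy) (by
    simpa using quad_hyp hQ a1 a2 a3 1 1) fun s hs r hr h6 h7 => ?_
  obtain ⟨a, b, rfl⟩ := a4 s hs
  obtain ⟨c, d, rfl⟩ := a4 r hr
  rw [quad_hyp hQ a1 a2 a3] at h6 h7
  let φ := ZMod.ringEquivOfPrime F (by decide) h
  obtain ⟨a, rfl⟩ := φ.surjective a
  obtain ⟨b, rfl⟩ := φ.surjective b
  obtain ⟨c, rfl⟩ := φ.surjective c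
  obtain ⟨d, rfl⟩ := φ.surjective d
  rcases (by decide : ∀ a b c d : ZMod 5, a * b = 1 → c * d = 1 →
    (c = a ∧ d = b) ∨ (c = -a ∧ d = -b) ∨ a * d + b * c = 0) a b c d
      (φ.injective (by simpa using h6)) (φ.injective (by simpa using h7)) with
      ⟨rfl, rfl⟩ | ⟨rfl, rfl⟩ | h
  · exact Or.inl rfl
  · exact Or.inr (Or.inl (by simp [add_comm]))
  · refine Or.inr (Or.inr ?_)
    simp only [hf.add_left, hf.add_right, hf.smul_left, hf.smul_right, polar_self_of_quad hQ, a1, a2,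
      a3, hf.symm y x, RingHom.id_apply]
    linear_combination (by simpa using congrArg φ h : φ a * φ d + φ b * φ c = 0)

theorem nm_two_even (hD : IsOrthogonalMDecomposition Q 2 D) (ht : 3 ≤ t)
    (h : Fintype.card F = 2 ∨ Fintype.card F = 4) (hp : ∀ i, IsPlusTypeOn Q (D i)) :
    ∃ L, decompositionStabilizer D ⊓ omegaGL Q < L ∧ L < omegaGL Q := by
  have h2 : (2 : F) = 0 := by_contra fun h2 => by
    rcases h with h | h <;> exact absurd (h ▸ two_ne_zero_iff_odd.mp h2) (by decide)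
  obtain ⟨T, w, h3, h4, h5⟩ : ∃ (T : AddSubgroup F) (w : F), (∀ c ∈ T, c = 0 ∨ c = 1) ∧ w ∉ T ∧
      ∀ a b : F, a * b = 1 → a + b ∈ T := by
    rcases h with h | h
    · refine ⟨⊥, 1, fun c hc => Or.inl hc, by simp, fun a b hab => ?_⟩
      have h6 := pow_pred_card (q := 1) h (left_ne_zero_of_mul_eq_one hab)
      have h7 := pow_pred_card (q := 1) h (right_ne_zero_of_mul_eq_one hab)
      rw [AddSubgroup.mem_bot]; linear_combination h6 + h7 + h2
    · obtain ⟨w, h3, h4⟩ := exists_ne_zero_one (F := F) (by simp [h])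
      refine ⟨⟨⟨⟨{c | c * (c - 1) = 0}, fun {a b} (ha : _ = _) (hb : _ = _) => show _ = _ by
        linear_combination ha + hb + a * b * h2⟩, by simp⟩, fun {a} (ha : _ = _) => show _ = _ by
        linear_combination ha + a * h2⟩, w, fun c hc => (mul_eq_zero.mp hc).imp_right sub_eq_zero.mp,
        mul_ne_zero h3 (sub_ne_zero.mpr h4), fun a b hab => show _ = _ from ?_⟩
      have h6 := pow_pred_card (q := 3) h (left_ne_zero_of_mul_eq_one hab)
      have h7 : b = a ^ 2 := by linear_combination a ^ 2 * hab - b * h6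
      subst h7
      linear_combination a * h6 + a ^ 3 * h2
  choose p hp q hq a1 a2 a3 a4 using fun i => exists_hyp_of_plus hQ
    (hD.decomp.nondegenerate i) (hD.decomp.decomp.finrank_eq _) (hp i)
  have h6 := card_eq_of_isMDecomposition hD.decomp.decomp
  have ho := odq_of hQ hD.decomp
  have a5 : ∀ i, HP (mkQ hQ) (p i) (q i) := fun i => ⟨a1 i, a2 i, a3 i⟩
  obtain ⟨b1, b2⟩ := ho.exists_add_elt (nd_mkQ hQ) h2 T h3 (fun i s hs r hr h7 h8 => by
    obtain ⟨a, b, rfl⟩ := a4 i s hs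
    obtain ⟨c, d, rfl⟩ := a4 i r hr
    replace h7 := (quad_hyp hQ (a1 i) (a2 i) (a3 i) _ _).symm.trans h7
    replace h8 := (quad_hyp hQ (a1 i) (a2 i) (a3 i) _ _).symm.trans h8
    convert h5 (a * d) (b * c) (by linear_combination c * d * h7 + h8)
    simp [polar_self', (a5 i).1, (a5 i).2, (a5 i).3, polar_comm _ (q i) (p i)]
    ring) hp hq a5 (i := ⟨0, by omega⟩) (j := ⟨1, by omega⟩) (k := ⟨2, by omega⟩)
      (by simp) (by simp) (by simp)
  refine nm_of hQ (mapS _ (AddSubgroup.closure (blkS _ D 1))) (fun g _ hg x hx => ?_)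
    (fun H => h4 ?_) (by simpa only [ofOG_mem_dec] using b2)
  · exact AddSubgroup.closure_le (K := (AddSubgroup.closure _).comap g.1.toLinearMap.toAddMonoidHom)
      |>.mpr (fun y hy => AddSubgroup.subset_closure (blkS_map ((ofOG_mem_dec hQ g).mp hg) hy)) hx
  · have b3 : ∀ i, mkQ hQ (p i + q i) = 1 := fun i => by
      rw [Q_add, (a5 i).1, (a5 i).2, (a5 i).3]; simp
    have b4 : ∀ i, p i + q i ∈ AddSubgroup.closure (blkS (mkQ hQ) D 1) := fun i =>
      AddSubgroup.subset_closure ⟨⟨i, add_mem (hp i) (hq i)⟩, b3 i⟩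
    have b5 : mkQ hQ (w • p ⟨1, by omega⟩) = 0 := by rw [Q_smul, (a5 _).1, mul_zero]
    obtain ⟨g, c1, c2⟩ := exists_Om_add (nd_mkQ hQ) (by simp; omega) b5
      (v := p ⟨0, by omega⟩ + q ⟨0, by omega⟩) (mem_perp.mp (ho.orth ⟨1, by omega⟩ ⟨0, by omega⟩
        (by simp) (add_mem (hp _) (hq _))) _ (Submodule.smul_mem _ _ (hp _))) fun h => by
      obtain ⟨d, hd⟩ := Submodule.mem_span_singleton.mp h
      have := b3 ⟨0, by omega⟩
      rw [← hd, Q_smul, b5] at this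
      simp at this
    have := b1 _ (sub_mem (c2 ▸ H c1 _ (b4 _)) (b4 ⟨0, by omega⟩)) _ (b4 ⟨1, by omega⟩)
    simpa [polar_self', (a5 _).1, (a5 _).3] using this

theorem nm_four_two (hD : IsOrthogonalMDecomposition Q 4 D) (h : Fintype.card F = 2)
    (hp : ∀ i, IsPlusTypeOn Q (D i)) :
    ∃ L, decompositionStabilizer D ⊓ omegaGL Q < L ∧ L < omegaGL Q := by
  have h2 : (2 : F) = 0 := by simpa [h] using FiniteField.cast_card_eq_zero F
  let φ := ZMod.ringEquivOfPrime F (by decide) h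
  choose e he using fun i => (nd_restrict hQ (hD.decomp.nondegenerate i)).equiv_QPlus
    ((plus_iff_restrict hQ).mp (hp i)) (m := 2) (hD.decomp.decomp.finrank_eq i)
  let ψ : Fin t → (Fin 2 ⊕ Fin 2 → F) →ₗ[F] ι → F := fun i => (D i).subtype ∘ₗ (e i).symm
  have a1 : ∀ i c, Q (ψ i c) = qq4 c := fun i c => by
    refine (he i ((e i).symm c)).symm.trans ?_
    simp [H13.QPlus_apply, qq4]
  have a2 : ∀ i c, ψ i c ∈ D i := fun i c => ((e i).symm c).2
  have a3 : ∀ i, ∀ v ∈ D i, ∃ c : Fin 2 ⊕ Fin 2 → ZMod 2, ψ i (φ ∘ c) = v := fun i v hv =>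
    ⟨φ.symm ∘ e i ⟨v, hv⟩, by simp [ψ, Function.comp_def]⟩
  have a4 : ∀ c : Fin 2 ⊕ Fin 2 → ZMod 2, qq4 (φ ∘ c) = φ (qq4 c) := fun c => by simp [qq4]
  have a5 : ∀ a b : Fin 2 ⊕ Fin 2 → ZMod 2, φ ∘ (a + b) = φ ∘ a + φ ∘ b := fun a b => by ext; simp
  have a6 : ∀ i c d, polar (mkQ hQ) (ψ i (φ ∘ c)) (ψ i (φ ∘ d)) =
      φ (qq4 (c + d) - qq4 c - qq4 d) := fun i c d => by
    change Q _ - Q _ - Q _ = _
    rw [← map_add, ← a5, a1, a1, a1, a4, a4, a4, map_sub, map_sub]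
  have h6 := card_eq_of_isMDecomposition hD.decomp.decomp
  have h7 := hD.decomp.decomp.two_le
  have a7 : ∀ i l, Q (ψ i (φ ∘ uu4 (ZMod 2) 0 l)) = 1 := fun i l => by
    rw [a1, a4, (by decide : ∀ l, qq4 (uu4 (ZMod 2) 0 l) = 1), map_one]
  refine nm_blk hQ hD (by omega) (by omega) one_ne_zero (a2 ⟨0, by omega⟩ _) (a7 _ 0)
    ((odq_of hQ hD.decomp).exists_swap_elt (nd_mkQ hQ) (by simp; omega) h2
      (fun i => a2 i (φ ∘ uu4 (ZMod 2) 0 0)) (fun i => a2 i (φ ∘ uu4 (ZMod 2) 0 1))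
      (fun i => a7 i 0) (fun i => a7 i 1) (fun i => ?_) (fun i x hx h8 => ?_) (i := ⟨0, by omega⟩)
      (j := ⟨1, by omega⟩) (by simp) (by simp [hD.decomp.decomp.finrank_eq]))
  · rw [a6, ← map_one φ]; exact congrArg φ (by decide)
  · obtain ⟨c, rfl⟩ := a3 i x hx
    rcases (by decide : ∀ c, qq4 c = 1 → c = uu4 (ZMod 2) 0 0 ∨ c = uu4 _ 0 1 ∨
      c = uu4 _ 0 0 + uu4 _ 0 1 ∨ ∀ l, qq4 (uu4 _ 0 l + c) - qq4 (uu4 _ 0 l) - qq4 c = 0) c
      (φ.injective (by rw [← a4, ← a1 i, map_one]; exact h8)) with rfl | rfl | rfl | h9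
    · exact Or.inl rfl
    · exact Or.inr (Or.inl rfl)
    · exact Or.inr (Or.inr (Or.inl (by rw [a5, map_add])))
    · exact Or.inr (Or.inr (Or.inr ⟨by rw [a6, h9, map_zero], by rw [a6, h9, map_zero]⟩))

end Cfsg.Agent.H18
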