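import Cfsg.Agent.H18.OmRef

/-! The tensor structure of the four-dimensional orthogonal space of plus type. -/

set_option autoImplicit false

namespace Cfsg.Agent.H18

open Cfsg.Geo QuadraticMap Module
open scoped MatrixGroups Matrix Kronecker commutatorElement

variable {ι : Type} [Fintype ι] [DecidableEq ι] {F : Type*} [Field F]

/-- the form `J ⊗ J` -/
abbrev fJJ (F : Type*) [Field F] := frm (RingHom.id F) (J2 F ⊗ₖ J2 F)

/-- the form `J` -/
abbrev fJ (F : Type*) [Field F] := frm (RingHom.id F) (J2 F)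

lemma hform_JJ : HForm (RingHom.id F) 1 (fJJ F) := by
  simpa [gram_frm] using (hform_J2 (F := F)).kron hform_J2

lemma adj_JJ_kron (X Y : Matrix (Fin 2) (Fin 2) F) : adj (RingHom.id F) (fJJ F) (X ⊗ₖ Y) =
    adj (RingHom.id F) (fJ F) X ⊗ₖ adj (RingHom.id F) (fJ F) Y := by
  simpa [gram_frm] using (hform_J2 (F := F)).adj_kron hform_J2 X Y

lemma adj_J (X : Matrix (Fin 2) (Fin 2) F) : adj (RingHom.id F) (fJ F) X = X.trace • 1 - X :=
  hform_J2.adj_eq fun u v => by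
    simp [frm_J2, Matrix.mulVec, dotProduct, Matrix.trace_fin_two]; ring

lemma sq_of_trace {X : Matrix (Fin 2) (Fin 2) F} (h : X.trace = 0) : X * X = (-X.det) • 1 := by
  rw [Matrix.trace_fin_two, add_eq_zero_iff_eq_neg] at h
  ext i j
  fin_cases i <;> fin_cases j <;> simp [Matrix.mul_apply, Matrix.det_fin_two, h] <;> ring

lemma skew_JJ (h2 : (2 : F) ≠ 0) {Z : Matrix (Fin 2 × Fin 2) (Fin 2 × Fin 2) F}
    (h : adj (RingHom.id F) (fJJ F) Z = -Z) {c : F} (hc : Z * Z = c • 1) :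
    (∃ a, Z = a ⊗ₖ (1 : Matrix (Fin 2) (Fin 2) F)) ∨ ∃ b, Z = (1 : Matrix (Fin 2) (Fin 2) F) ⊗ₖ b := by
  have h3 : Z.trace = 0 := by
    have := hform_JJ.trace_adj Z
    rw [h, Matrix.trace_neg, RingHom.id_apply] at this
    exact (mul_eq_zero.mp (by linear_combination -this : (2 : F) * _ = 0)).resolve_left h2
  obtain ⟨a, b, h4, h5, rfl⟩ : ∃ a b : Matrix (Fin 2) (Fin 2) F, a.trace = 0 ∧ b.trace = 0 ∧
      Z = a ⊗ₖ (1 : Matrix (Fin 2) (Fin 2) F) + (1 : Matrix (Fin 2) (Fin 2) F) ⊗ₖ b := by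
    let a : Matrix (Fin 2) (Fin 2) F := .of fun i k => ∑ j, Z (i, j) (k, j)
    let b : Matrix (Fin 2) (Fin 2) F := .of fun j l => ∑ i, Z (i, j) (i, l)
    have h4 : adj (RingHom.id F) (fJJ F) Z = Z.trace • 1 - a ⊗ₖ (1 : Matrix (Fin 2) (Fin 2) F) -
        (1 : Matrix (Fin 2) (Fin 2) F) ⊗ₖ b + Z := hform_JJ.adj_eq fun u v => by
      simp [frm_eq_sum, J2, Matrix.mulVec, dotProduct, Matrix.trace, Fintype.sum_prod_type, a, b,
        Matrix.one_apply]
      ring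
    refine ⟨(2 : F)⁻¹ • a, (2 : F)⁻¹ • b, ?_, ?_, ?_⟩
    · rw [Matrix.trace_smul, show a.trace = Z.trace by
        simp [Matrix.trace, Fintype.sum_prod_type, a], h3, smul_zero]
    · rw [Matrix.trace_smul, show b.trace = Z.trace by
        simp [Matrix.trace, Fintype.sum_prod_type_right, b], h3, smul_zero]
    · rw [Matrix.smul_kronecker, Matrix.kronecker_smul, ← smul_add, eq_inv_smul_iff₀ h2]
      linear_combination (norm := module) h - h4 - h3 • (1 : Matrix (Fin 2 × Fin 2) (Fin 2 × Fin 2) F)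
  simp only [add_mul, mul_add, ← Matrix.mul_kronecker_mul, mul_one, one_mul, sq_of_trace h4,
    sq_of_trace h5, Matrix.smul_kronecker, Matrix.kronecker_smul, Matrix.one_kronecker_one] at hc
  have h6 : (2 : F) • (a ⊗ₖ b) = (c + a.det + b.det) • 1 := by
    linear_combination (norm := module) hc
  have h7 := congrArg Matrix.trace h6
  rw [Matrix.trace_smul, Matrix.trace_kronecker, h4, Matrix.trace_smul, Matrix.trace_one] at h7
  rw [(mul_eq_zero.mp (show (2 : F) ^ 2 * (c + a.det + b.det) = 0 by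
    simpa [mul_comm, show (2 : F) ^ 2 = 4 by norm_num] using h7.symm)).resolve_left
      (pow_ne_zero _ h2), zero_smul, smul_eq_zero, or_iff_right h2] at h6
  by_cases h8 : b = 0
  · exact Or.inl ⟨a, by simp [h8]⟩
  · obtain ⟨j, l, h9⟩ : ∃ j l, b j l ≠ 0 := by
      by_contra! h9; exact h8 (Matrix.ext h9)
    obtain rfl : a = 0 := Matrix.ext fun i k =>
      (mul_eq_zero.mp (congrFun (congrFun h6 (i, j)) (k, l))).resolve_right h9
    exact Or.inr ⟨b, by simp⟩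

/-- the flip of the two tensor factors -/
def flipGL (α : Type) [Fintype α] [DecidableEq α] (F : Type*) [Field F] : GL (α × α) F :=
  ⟨Equiv.Perm.permMatrix F (Equiv.prodComm α α), Equiv.Perm.permMatrix F (Equiv.prodComm α α),
    by rw [← Matrix.permMatrix_mul]; exact Matrix.permMatrix_one,
    by rw [← Matrix.permMatrix_mul]; exact Matrix.permMatrix_one⟩

lemma cj_flipGL {α : Type} [Fintype α] [DecidableEq α] (X Y : Matrix α α F) :
    cj (flipGL α F) (X ⊗ₖ Y) = Y ⊗ₖ X := by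
  change Equiv.Perm.permMatrix F (Equiv.prodComm α α) * _ * Equiv.Perm.permMatrix F (Equiv.prodComm α α) = _
  rw [PEquiv.toMatrix_toPEquiv_mul, PEquiv.mul_toMatrix_toPEquiv]
  ext p q; simp [mul_comm]

lemma mult_kron_JJ {s : GL (Fin 2 × Fin 2) F} {a b : Matrix (Fin 2) (Fin 2) F}
    (h : (s : Matrix _ _ F) = a ⊗ₖ b) : Mult (fJJ F) s (a.det * b.det) := fun u v => by
  rw [fJJ, frm_mulVec_mulVec, h, kron_map, ← Matrix.kroneckerMap_transpose, ← Matrix.mul_kronecker_mul,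
    ← Matrix.mul_kronecker_mul, transpose_J2, transpose_J2, Matrix.smul_kronecker,
    Matrix.kronecker_smul, smul_smul, frm_smul]

lemma HForm.mult_ne [Nonempty ι] {σ : F →+* F} {ε : F} {f : (ι → F) → (ι → F) → F} (hf : HForm σ ε f)
    {g : GL ι F} {c : F} (h : Mult f g c) : c ≠ 0 := by
  rintro rfl
  obtain ⟨u, v, huv⟩ := hf.exists_ne
  exact huv (by rw [← mulVec_inv_mulVec g u, ← mulVec_inv_mulVec g v, h, zero_mul])

lemma sim_JJ (h2 : (2 : F) ≠ 0) {s : GL (Fin 2 × Fin 2) F} {c : F} (hs : Mult (fJJ F) s c) :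
    (∃ a b : GL (Fin 2) F, (s : Matrix _ _ F) = a.1 ⊗ₖ b.1 ∧ s.1.det = c ^ 2) ∨
    ∃ a b : GL (Fin 2) F, (flipGL (Fin 2) F * s).1 = a.1 ⊗ₖ b.1 ∧ s.1.det = -c ^ 2 := by
  have h1 : ∀ X : Matrix (Fin 2) (Fin 2) F, cj s (X ⊗ₖ (1 : Matrix (Fin 2) (Fin 2) F)) ∈
      (kronLeft (Fin 2) (Fin 2) F).range ∨ cj s (X ⊗ₖ (1 : Matrix (Fin 2) (Fin 2) F)) ∈
      (kronRight (Fin 2) (Fin 2) F).range := fun X => by
    obtain ⟨Y, d, h3, rfl⟩ : ∃ (Y : Matrix (Fin 2) (Fin 2) F) (d : F), Y.trace = 0 ∧ X = Y + d • 1 :=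
      ⟨X - (X.trace / 2) • 1, X.trace / 2, by simp [h2], by simp⟩
    rw [Matrix.add_kronecker, Matrix.smul_kronecker, Matrix.one_kronecker_one, map_add, map_smul,
      map_one]
    refine (skew_JJ h2 (Z := cj s (Y ⊗ₖ (1 : Matrix (Fin 2) (Fin 2) F))) (c := -Y.det) ?_ ?_).imp
      (fun ⟨a, ha⟩ => add_mem ⟨a, ha.symm⟩ (Subalgebra.smul_mem _ (one_mem _) _))
      fun ⟨a, ha⟩ => add_mem ⟨a, ha.symm⟩ (Subalgebra.smul_mem _ (one_mem _) _)
    · rw [hform_JJ.adj_cj ⟨Units.mk0 c (hform_JJ.mult_ne hs), hs⟩, adj_JJ_kron, hform_J2.adj_one, adj_J, h3, zero_smul, zero_sub,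
        ← map_neg, ← kronLeft_apply, map_neg, kronLeft_apply]
    · rw [← map_mul, ← Matrix.mul_kronecker_mul, sq_of_trace h3, mul_one, Matrix.smul_kronecker,
        Matrix.one_kronecker_one, map_smul, map_one]
  have h3 : ∀ (s : GL (Fin 2 × Fin 2) F) (a b : GL (Fin 2) F), Mult (fJJ F) s c →
      (s : Matrix _ _ F) = a.1 ⊗ₖ b.1 → s.1.det = c ^ 2 := fun s a b hs h => by
    rw [hform_JJ.mult_unique hs (mult_kron_JJ h), h, Matrix.det_kronecker, mul_pow]; rfl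
  by_cases h4 : ∀ X : Matrix (Fin 2) (Fin 2) F, cj s (X ⊗ₖ (1 : Matrix (Fin 2) (Fin 2) F)) ∈
      (kronLeft (Fin 2) (Fin 2) F).range
  · obtain ⟨a, b, h⟩ := exists_kronecker_of_normalizes s fun X => (h4 X).imp fun _ h => h.symm
    exact Or.inl ⟨a, b, h, h3 s a b hs h⟩
  push Not at h4
  obtain ⟨X₀, h4⟩ := h4
  obtain ⟨a, b, h⟩ := exists_kronecker_of_normalizes (flipGL (Fin 2) F * s) fun X => by
    obtain ⟨Y, hY⟩ : cj s (X ⊗ₖ (1 : Matrix (Fin 2) (Fin 2) F)) ∈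
        (kronRight (Fin 2) (Fin 2) F).range := (h1 X).elim (fun h => by
      have := h1 (X₀ + X)
      rw [Matrix.add_kronecker, map_add] at this
      exact (add_mem_cancel_left ((h1 X₀).resolve_left h4)).mp
        (this.resolve_left fun h' => h4 ((add_mem_cancel_right h).mp h'))) id
    exact ⟨Y, by rw [cj_mul, ← hY]; exact cj_flipGL _ _⟩
  refine Or.inr ⟨a, b, h, ?_⟩
  have h5 : Mult (fJJ F) (flipGL (Fin 2) F) 1 := fun u v => by
    simp [flipGL, Matrix.permMatrix_mulVec, frm_eq_sum, J2, Fintype.sum_prod_type]; ring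
  have h6 := h3 _ a b (one_mul c ▸ h5.mul hs) h
  rw [Units.val_mul, Matrix.det_mul, show (flipGL (Fin 2) F).1.det = -1 by
    rw [flipGL, Matrix.det_permutation, (by decide : Equiv.Perm.sign (Equiv.prodComm (Fin 2) (Fin 2)) = -1)]
    simp] at h6
  linear_combination -h6

lemma HForm.exists_JJ [Finite F] {f : (ι → F) → (ι → F) → F} (hf : HForm (RingHom.id F) 1 f)
    (h2 : (2 : F) ≠ 0) (hn : Fintype.card ι = 4) (hp : IsPlusTypeOn (fun v => f v v) ⊤) :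
    ∃ (e : ι ≃ Fin 2 × Fin 2) (P : GL ι F), H18.trF f e P = fJJ F := by
  obtain ⟨L, hL⟩ := (nd_mkQ (hf.quad h2)).equiv_QPlus ((plus_top_iff _).mp hp) (m := 2) (by simp [hn])
  obtain ⟨L', hL'⟩ := (nd_mkQ ((hform_JJ (F := F)).quad h2)).equiv_QPlus ((plus_top_iff _).mp
    (plus_of_family (hform_JJ.quad h2) (v := fun k : Fin 2 => Pi.single (0, k) 1) ((Pi.linearIndependent_single_one
      (Fin 2 × Fin 2) F).comp (Prod.mk 0) (Prod.mk_right_injective _))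
      (fun k => by fin_cases k <;> simp [frm_eq_sum, J2, Fintype.sum_prod_type]) (fun k l => by
        rw [hform_JJ.polar_self]
        fin_cases k <;> fin_cases l <;> simp [frm_eq_sum, J2, Fintype.sum_prod_type]) (by simp)))
    (m := 2) (by simp)
  obtain ⟨e, P, h⟩ := exists_eP_of_basis ((Pi.basisFun F _).map (L'.trans L.symm))
  have h3 : ∀ c, (P : Matrix ι ι F) *ᵥ (c ∘ e) = L.symm (L' c) := fun c => by
    rw [h]; simp only [Basis.map_apply, ← map_smul, ← map_sum]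
    exact congrArg _ ((Pi.basisFun F _).sum_equivFun c)
  refine ⟨e, P, funext₂ fun x y => mul_left_cancel₀ h2 ?_⟩
  rw [← hform_JJ.polar_self, ← (hf.trF e P).polar_self]
  congr 1
  funext v
  exact (congrArg₂ f (h3 v) (h3 v)).trans ((hL _).symm.trans
    ((congrArg _ (L.apply_symm_apply _)).trans (hL' v)))

lemma HForm.det_sq {ε : F} {f : (ι → F) → (ι → F) → F} (hf : HForm (RingHom.id F) ε f) {g : GL ι F}
    {c : F} (h : Mult f g c) : g.1.det ^ 2 = c ^ Fintype.card ι := by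
  have h1 := congrArg Matrix.det (frm_inj (σ := RingHom.id F) (G := g.1ᵀ * gramMatrix f * g.1)
    (G' := c • gramMatrix f) fun u v => by
      rw [frm_smul, ← hf.eq_frm, ← h, hf.eq_frm, frm_mulVec_mulVec, gram_frm]; rfl)
  rw [Matrix.det_mul, Matrix.det_mul, Matrix.det_transpose, Matrix.det_smul] at h1
  exact mul_right_cancel₀ hf.isUnit_det.ne_zero (by linear_combination h1)

lemma KronD.mult {σ : F →+* F} {ε ε₁ ε₂ : F} {f : (ι → F) → (ι → F) → F} (hf : HForm σ ε f) {a b : ℕ}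
    {e : ι ≃ Fin a × Fin b} {P : GL ι F} {f₁ : _} {f₂ : _} (h : KronD σ f e P ε₁ f₁ ε₂ f₂)
    {g : GL ι F} {x : GL (Fin a) F} {y : GL (Fin b) F} (h1 : g.1 = trans e P (x.1 ⊗ₖ y.1)) {c d : F}
    (hx : Mult f₁ x c) (hy : Mult f₂ y d) (hg : g ∈ isoG f) : c * d = 1 := by
  have := h.two_le₁
  have := h.two_le₂
  have : Nonempty (Fin a) := ⟨⟨0, by omega⟩⟩
  have : Nonempty (Fin b) := ⟨⟨0, by omega⟩⟩
  obtain ⟨k, hk, -, h2⟩ := h.form hf
  obtain ⟨u, v, huv⟩ := h.hf₁.exists_ne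
  obtain ⟨z, w, hzw⟩ := h.hf₂.exists_ne
  have h3 := mem_isoG.mp hg (P.1 *ᵥ (kronV u z ∘ e)) (P.1 *ᵥ (kronV v w ∘ e))
  rw [h1, trans_mulVec, trans_mulVec, kron_mulVec, kron_mulVec] at h3
  replace h3 := (h2 _ _).symm.trans (h3.trans (h2 _ _))
  rw [h.form_kronV, h.form_kronV, hx, hy] at h3
  exact mul_left_cancel₀ (mul_ne_zero hk (mul_ne_zero huv hzw)) (by linear_combination h3)

lemma HForm.kronD_of_algHom [Nonempty ι] {σ : F →+* F} {ε : F} {f : (ι → F) → (ι → F) → F}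
    (hf : HForm σ ε f) {a : ℕ} (ha : 2 ≤ a) (φ : Matrix (Fin a) (Fin a) F →ₐ[F] Matrix ι ι F)
    (h1 : φ.range ≠ ⊤) (h2 : ∀ X, adj σ f (φ X) ∈ φ.range) :
    ∃ (b : ℕ) (e : ι ≃ Fin a × Fin b) (P : GL ι F) (ε₁ ε₂ : F) (f₁ : _) (f₂ : _),
      KronD σ f e P ε₁ f₁ ε₂ f₂ ∧ (∀ X, trans e P (X ⊗ₖ (1 : Matrix (Fin b) (Fin b) F)) = φ X) ∧
      ∀ g : GL ι F, (∀ X ∈ φ.range, cj g X ∈ φ.range) → g ∈ tensorProductSubgroup a b e P := by
  obtain ⟨b, e, P, hb, h5, h6⟩ := exists_tensor_of_algHom (by omega) φ h1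
  have : Nonempty (Fin a) := ⟨⟨0, by omega⟩⟩
  have : Nonempty (Fin b) := ⟨⟨0, by omega⟩⟩
  obtain ⟨ε₁, ε₂, f₁, f₂, a1, a2, a3, a4⟩ := (hf.trF e P).exists_kron fun X => by
    obtain ⟨Y, hY⟩ := h2 X
    exact ⟨Y, (trans e P).injective (by rw [← hf.adj_trans, h5, h5]; exact hY.symm)⟩
  exact ⟨b, e, P, ε₁, ε₂, f₁, f₂, ⟨ha, hb, a1, a2, fun X => by rw [hf.adj_trans, a3],
    fun X => by rw [hf.adj_trans, a4]⟩, h5, h6⟩

lemma KronD.two_of_plus [Finite F] {ε ε₁ : F} {f : (ι → F) → (ι → F) → F}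
    (hf : HForm (RingHom.id F) ε f) (h2 : (2 : F) ≠ 0) {a : ℕ} (ha : Odd a) {e : ι ≃ Fin a × Fin 4}
    {P : GL ι F} {f₁ : _} {f₂ : _} (h : KronD (RingHom.id F) f e P ε₁ f₁ 1 f₂)
    (hp : IsPlusTypeOn (fun v => f₂ v v) ⊤) :
    ∃ (b : ℕ) (e' : ι ≃ Fin 2 × Fin b) (P' : GL ι F) (ε₁ ε₂ : F) (f₁ : _) (f₂ : _),
      KronD (RingHom.id F) f e' P' ε₁ f₁ ε₂ f₂ ∧ tensorProductSubgroup a 4 e P ⊓ isoG f ⊓
        specialLinear ι F ≤ tensorProductSubgroup 2 b e' P' := by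
  have := h.two_le₁
  have h3 := h.card
  have : Nonempty ι := Fintype.card_pos_iff.mp (by omega)
  obtain ⟨e₂, P₂, h4⟩ := h.hf₂.exists_JJ h2 (by simp) hp
  let φ := (trans e P).toAlgHom.comp ((kronRight (Fin a) _ F).comp ((trans e₂ P₂).toAlgHom.comp
    (kronLeft (Fin 2) (Fin 2) F)))
  have h5 : ∀ X, φ X = trans e P ((1 : Matrix (Fin a) (Fin a) F) ⊗ₖ
    trans e₂ P₂ (X ⊗ₖ (1 : Matrix (Fin 2) (Fin 2) F))) := fun X => rfl
  obtain ⟨b, e', P', ε₁, ε₂, f₁', f₂', a1, -, a2⟩ := hf.kronD_of_algHom le_rfl φ (fun h6 => by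
    have := LinearMap.finrank_range_le φ.toLinearMap
    rw [show LinearMap.range φ.toLinearMap = ⊤ from congrArg Subalgebra.toSubmodule h6] at this
    simp [finrank_matrix, h3] at this
    nlinarith) fun X => ⟨adj (RingHom.id F) (fJ F) X, by
      rw [h5, h.adj₂, h.hf₂.adj_trans, h4, adj_JJ_kron, hform_J2.adj_one]; rfl⟩
  refine ⟨b, e', P', ε₁, ε₂, f₁', f₂', a1, fun g ⟨⟨b1, b2⟩, b3⟩ => a2 g ?_⟩
  obtain ⟨x, ⟨c, hx⟩, y, ⟨d, hy⟩, b4⟩ := h.sim hf b1 (isoG_le_sim _ b2)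
  have b5 : y.1 = trans e₂ P₂ (unitsBack (trans e₂ P₂) y).1 := by simp [unitsBack_coe]
  have b6 : Mult (fJJ F) (unitsBack (trans e₂ P₂) y) d := fun u v => by
    rw [← h4, trF, ← trans_mulVec, ← trans_mulVec, ← b5, hy]; rfl
  rintro _ ⟨X, rfl⟩
  rcases sim_JJ h2 b6 with ⟨s, t, b7, -⟩ | ⟨s, t, -, b7⟩
  · refine ⟨cj s X, ?_⟩
    rw [b7] at b5
    change φ _ = cj g (φ X)
    rw [h5, h5, cj_kron b4, cj_kron b5, map_one, map_one]
  · have b8 : g.1.det = 1 := congrArg Units.val b3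
    rw [b4, det_trans, Matrix.det_kronecker, b5, det_trans, b7, Fintype.card_fin, Fintype.card_fin,
      ha.neg_pow, show 4 = 2 * 2 from rfl, pow_mul, h.hf₁.det_sq hx, Fintype.card_fin, ← pow_mul,
      ← pow_mul, mul_comm 2, mul_neg, ← mul_pow, h.mult hf b4 hx hy b2, one_pow] at b8
    exact absurd (by linear_combination -b8) h2

lemma HForm.solvable_O2 {f : (Fin 2 → F) → (Fin 2 → F) → F} (hf : HForm (RingHom.id F) 1 f)
    (h2 : (2 : F) ≠ 0) : Group.IsSolvable (isoG f) := by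
  obtain ⟨s, -, -, h3⟩ := hf.exists_skew_two h2
  let φ := Matrix.GeneralLinearGroup.det.comp (isoG f).subtype
  have h4 : ∀ g : φ.ker, ∃ c d : F, g.1.1.1 = c • 1 + d • s := fun ⟨⟨g, hg⟩, h⟩ => by
    have h5 : (g⁻¹).1 = g.1.trace • 1 - g.1 := by
      rw [Matrix.coe_units_inv, Matrix.inv_def, show g.1.det = 1 from congrArg Units.val h]
      ext i j
      fin_cases i <;> fin_cases j <;> simp [Matrix.adjugate_fin_two, Matrix.trace_fin_two]
    obtain ⟨d, hd⟩ := h3 (g.1 - (g⁻¹).1) (by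
      rw [hf.adj_sub, hf.adj_of_isoG hg, hf.adj_of_isoG (inv_mem hg), inv_inv, neg_sub])
    refine ⟨g.1.trace / 2, d / 2, smul_right_injective _ h2 ?_⟩
    simp only [smul_add, smul_smul, mul_div_cancel₀ _ h2, ← hd, h5]
    module
  have : Group.IsSolvable φ.ker := Group.isSolvable_of_comm fun a b => by
    obtain ⟨c, d, h⟩ := h4 a
    obtain ⟨c', d', h'⟩ := h4 b
    refine Subtype.ext (Subtype.ext (Units.ext ?_))
    change a.1.1.1 * b.1.1.1 = b.1.1.1 * a.1.1.1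
    simp only [h, h', add_mul, mul_add, Matrix.smul_mul, Matrix.mul_smul, one_mul, mul_one]
    module
  exact Group.isSolvable_of_ker_le_range φ.ker.subtype φ φ.ker.range_subtype.ge

lemma commD_F2 [Fintype F] (h : Fintype.card F = 2) {f : (Fin 2 → F) → (Fin 2 → F) → F}
    (hf : IsSymplecticForm f) (H : Subgroup (GL (Fin 2) F)) : CommD (RingHom.id F) f H := by
  have h1 := hform_of_symplectic hf
  have h2 := two_eq_zero_of_card_two h
  let φ := ZMod.ringEquivOfPrime F (by decide) h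
  let w : Matrix (Fin 2) (Fin 2) F := !![0, 1; 1, 1]
  have h3 : w * w = w + 1 := by
    ext i j; fin_cases i <;> fin_cases j <;> simp [w, Matrix.mul_apply]
  have h4 : ∀ X : Matrix (Fin 2) (Fin 2) F, X * X = X + 1 → X ∈ Algebra.adjoin F {w} := fun X hX => by
    obtain ⟨X, rfl⟩ := φ.mapMatrix.surjective X
    have h5 := Algebra.self_mem_adjoin_singleton F w
    have h6 : φ.mapMatrix !![0, 1; 1, 1] = w := by
      ext i j; fin_cases i <;> fin_cases j <;> simp [w]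
    rcases (by decide : ∀ X : Matrix (Fin 2) (Fin 2) (ZMod 2), X * X = X + 1 →
      X = !![0, 1; 1, 1] ∨ X = !![0, 1; 1, 1] + 1) X (φ.mapMatrix.injective (by rwa [map_mul, map_add, map_one]))
      with rfl | rfl
    · rwa [h6]
    · rw [map_add, map_one, h6]; exact add_mem h5 (one_mem _)
  obtain ⟨a1, a2, a3⟩ := h1.adjoin_cases (H := H) (h4 _ (by
    rw [← h1.adj_mul, h3, h1.adj_add, h1.adj_one])) fun g _ => h4 _ (by
      rw [← map_mul, h3, map_add, map_one])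
  refine ⟨_, a1, a2, a3, fun h5 => ?_⟩
  obtain ⟨c, hc⟩ := Algebra.mem_bot.mp (h5 ▸ Algebra.self_mem_adjoin_singleton F w)
  simpa [w, Matrix.algebraMap_matrix_apply] using congrFun (congrFun hc 0) 1

end Cfsg.Agent.H18
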