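import Mathlib
import Cfsg.Agent.H18.NmB
import Cfsg.Agent.H18.O4
import Cfsg.Agent.H12.TfI

/-!
Non-maximality of some tensor product subgroups of `Ω`.
-/

set_option autoImplicit false

namespace Cfsg.Agent.H18

open Cfsg.Geo QuadraticMap Module H13
open scoped MatrixGroups Matrix Kronecker

variable {ι : Type} [Fintype ι] [DecidableEq ι] {F : Type*} [Field F] [Fintype F] {Q : (ι → F) → F}
  (hQ : IsNondegenerateQuadraticForm Q)
include hQ

theorem nm_tensor_three (h : Fintype.card F = 3) {b : ℕ} (hb : 4 ≤ b) {e : ι ≃ Fin 3 × Fin b}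
    {P : GL ι F} {f₁ : _} {f₂ : _} (h1 : IsSymmetricForm f₁) (h2 : IsSymmetricForm f₂)
    (hT : IsTensorFormStructure id (polar Q) f₁ f₂ e P) :
    ∃ L, tensorProductSubgroup 3 b e P ⊓ omegaGL Q < L ∧ L < omegaGL Q := by
  have g1 := hform_of_symmetric h1
  have g2 := hform_of_symmetric h2
  have h3 := three_eq_zero h
  have ht : (2 : F) ≠ 0 := fun h2 => one_ne_zero (by linear_combination h3 - h2 : (1 : F) = 0)
  have hn : Fintype.card ι = 3 * b := by simpa using Fintype.card_congr e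
  have hn' : 5 ≤ finrank F (ι → F) := by simp; omega
  obtain ⟨c, hc, a1⟩ := H12.tensor_form_apply (σ := RingHom.id F) g1.toSesq g2.toSesq hT
  obtain ⟨d, v, hd, -, a2, a3⟩ := g1.frame3 h g1.nondegOn_top (by simp)
  set τ := H12.tP e P
  change ∀ u w u' w', polar (mkQ hQ) _ _ = _ at a1
  have a4 : ∀ i z, mkQ hQ (τ (v i) z) * 2 = c * d * f₂ z z := fun i z => by
    rw [mul_comm, ← polar_self', a1, a2, if_pos rfl, mul_assoc]
  have a5 : ∀ z, z ≠ 0 → ∃ w, f₂ w z ≠ 0 := fun z hz => not_forall.mp fun h => hz (g2.nondeg z h)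
  let q : QuadraticForm F (Fin b → F) := (mkQ hQ).comp (τ (v 0))
  obtain ⟨u, u0, hu⟩ := exists_singular q (by simp; omega)
  have hu' : f₂ u u = 0 := by
    have := a4 0 u
    rwa [show mkQ hQ (τ (v 0) u) = 0 from hu, zero_mul, eq_comm, mul_eq_zero,
      or_iff_right (mul_ne_zero hc hd)] at this
  have a6 : ∀ i, mkQ hQ (τ (v i) u) = 0 := fun i => by simpa [hu', ht] using a4 i u
  obtain ⟨w, hw⟩ := a5 u u0
  refine nm_of hQ (mapS _ {x | ∃ i z, x = τ (v i) z}) (fun g _ hg => ?_) (fun H => ?_) ?_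
  · rintro _ ⟨i, z, rfl⟩
    obtain ⟨x, y, hxy⟩ := mem_tensorProductSubgroup.mp hg
    have b1 : ∀ s z, g.1 (τ s z) = τ (x.1 *ᵥ s) (y.1 *ᵥ z) := fun s z => by
      rw [← ofOG_mulVec, hxy, H12.trans_kron_tP]
    have b2 : ∀ i j, f₁ (x.1 *ᵥ v i) (x.1 *ᵥ v j) * f₂ (y.1 *ᵥ w) (y.1 *ᵥ u) =
        (if i = j then d else 0) * f₂ w u := fun i j => mul_left_cancel₀ hc (by
      rw [← a2, ← a1, ← a1, ← b1, ← b1, OG_polar])
    have b3 : f₂ (y.1 *ᵥ w) (y.1 *ᵥ u) ≠ 0 := fun h => by simpa [h, hd, hw] using b2 0 0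
    obtain ⟨j, hj⟩ := a3 (fun i => x.1 *ᵥ v i) (d * f₂ w u / f₂ (y.1 *ᵥ w) (y.1 *ᵥ u))
      (div_ne_zero (mul_ne_zero hd hw) b3) (fun _ => trivial) (fun i j => by
        rw [eq_div_of_mul_eq b3 (b2 i j)]; split_ifs <;> simp) i
    obtain ⟨t, ht⟩ := Submodule.mem_span_singleton.mp hj
    exact ⟨j, t • y.1 *ᵥ z, by rw [b1, ← ht]; simp⟩
  · obtain ⟨g, b1, b2⟩ := exists_Om_add (nd_mkQ hQ) hn' (a6 1) (v := τ (v 0) u)
      (by simp [a1, a2]) fun h => by
        obtain ⟨t, ht⟩ := Submodule.mem_span_singleton.mp h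
        simpa [a1, a2, hc, hd, hw] using congrArg (polar (mkQ hQ) (τ (v 0) w)) ht
    obtain ⟨j, z, hj⟩ := H b1 _ ⟨0, u, rfl⟩
    rw [b2] at hj
    by_cases h0 : j = 0
    · simpa [a1, a2, hc, hd, hw, h0] using congrArg (polar (mkQ hQ) (τ (v 1) w)) hj
    · simpa [a1, a2, hc, hd, hw, Ne.symm h0] using congrArg (polar (mkQ hQ) (τ (v 0) w)) hj
  · obtain ⟨a, b1, b2⟩ := SetLike.not_le_iff_exists.mp (show ¬ LinearMap.ker
      (polarBilin (mkQ hQ) (τ (v 0) u) ∘ₗ τ (v 0)) ≤ F ∙ u from fun h => by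
        have := Submodule.finrank_mono h
        have := finrank_span_singleton (K := F) u0
        have := (polarBilin (mkQ hQ) (τ (v 0) u) ∘ₗ τ (v 0)).finrank_range_add_finrank_ker
        have := Submodule.finrank_le (LinearMap.range (polarBilin (mkQ hQ) (τ (v 0) u) ∘ₗ τ (v 0)))
        simp at *; omega)
    replace b1 : polar (mkQ hQ) (τ (v 0) u) (τ (v 0) a) = 0 := b1
    refine ⟨_, sieg_mem_Om (nd_mkQ hQ) hn' (τ (v 0) u) (τ (v 0) a), ?_, fun H => b2 ?_⟩
    · rintro _ ⟨i, z, rfl⟩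
      by_cases h0 : i = 0
      · subst h0
        rw [sieg_apply (a6 0) b1]
        simp only [← map_smul, ← map_add, ← map_sub]
        exact ⟨0, _, rfl⟩
      · exact ⟨i, z, sieg_apply_of_perp_perp (by simp [a1, a2, Ne.symm h0])
          (by simp [a1, a2, Ne.symm h0])⟩
    · have b3 : ∀ x, (ofOG hQ (sieg _ (τ (v 0) u) (τ (v 0) a))).1 *ᵥ x - x ∈
          Submodule.span F {τ (v 0) u, τ (v 0) a} := fun x => by
        rw [ofOG_mulVec, sieg_apply (a6 0) b1]
        exact Submodule.mem_span_pair.mpr ⟨polar (mkQ hQ) (τ (v 0) a) x - polar (mkQ hQ) (τ (v 0) u) x *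
          mkQ hQ (τ (v 0) a), -polar (mkQ hQ) (τ (v 0) u) x, by module⟩
      have b4 := finrank_span_pair_le (F := F) (τ (v 0) u) (τ (v 0) a)
      obtain ⟨t, ht⟩ := scalar_of_mem_tensor H b3 (by omega) (by omega)
      have b5 := ofOG_mulVec hQ (sieg _ (τ (v 0) u) (τ (v 0) a)) (τ (v 0) w)
      rw [eq_one_of_scalar_small ht b3 (by omega), sieg_apply (a6 0) b1, Units.val_one,
        Matrix.one_mulVec] at b5
      simp only [← map_smul, ← map_add, ← map_sub] at b5
      replace b5 := H12.ten_right_inj (H12.isTen_tP e P) (fun h => hd (by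
        simpa [h, g1.zero_left] using (a2 0 0).symm)) b5
      have b6 : polar (mkQ hQ) (τ (v 0) u) (τ (v 0) w) ≠ 0 := by
        rw [polar_comm]; simp [a1, a2, hc, hd, hw]
      rw [← Submodule.smul_mem_iff _ b6]
      exact Submodule.mem_span_singleton.mpr ⟨polar (mkQ hQ) (τ (v 0) a) (τ (v 0) w) -
        polar (mkQ hQ) (τ (v 0) u) (τ (v 0) w) * mkQ hQ (τ (v 0) a), by
          linear_combination (norm := module) -b5⟩

theorem nm_tensor_two (h : Fintype.card F = 2) {b : ℕ} (hb : 3 ≤ b) {e : ι ≃ Fin 2 × Fin b}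
    {P : GL ι F} {f₁ : _} {f₂ : _} (h1 : IsSymplecticForm f₁) (h2 : IsSymplecticForm f₂)
    (hT : IsTensorFormStructure id (polar Q) f₁ f₂ e P)
    (hp : ∀ x z, Q ((P : Matrix ι ι F) *ᵥ (kronV x z ∘ e)) = 0) :
    ∃ L, tensorProductSubgroup 2 b e P ⊓ omegaGL Q < L ∧ L < omegaGL Q := by
  have g1 := hform_of_symplectic h1
  have g2 := hform_of_symplectic h2
  have ht := two_eq_zero_of_card_two h
  have hn : Fintype.card ι = 2 * b := by simpa using Fintype.card_congr e
  have hn' : 5 ≤ finrank F (ι → F) := by simp; omega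
  obtain ⟨c, hc, a1⟩ := H12.tensor_form_apply (σ := RingHom.id F) g1.toSesq g2.toSesq hT
  set τ := H12.tP e P
  change ∀ u w u' w', polar (mkQ hQ) _ _ = _ at a1
  change ∀ x z, mkQ hQ (τ x z) = 0 at hp
  let φ := ZMod.ringEquivOfPrime F (by decide) h
  let w : Matrix (Fin 2) (Fin 2) F := !![0, 1; 1, 1]
  have h3 : w * w = w + 1 := by
    ext i j; fin_cases i <;> fin_cases j <;> simp [w, Matrix.mul_apply]
  have h4 : ∀ X : Matrix (Fin 2) (Fin 2) F, X * X = X + 1 → X = w ∨ X = w + 1 := fun X hX => by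
    obtain ⟨X, rfl⟩ := φ.mapMatrix.surjective X
    have h6 : φ.mapMatrix !![0, 1; 1, 1] = w := by
      ext i j; fin_cases i <;> fin_cases j <;> simp [w]
    rcases (by decide : ∀ X : Matrix (Fin 2) (Fin 2) (ZMod 2), X * X = X + 1 →
      X = !![0, 1; 1, 1] ∨ X = !![0, 1; 1, 1] + 1) X
      (φ.mapMatrix.injective (by rwa [map_mul, map_add, map_one])) with rfl | rfl
    · exact Or.inl h6
    · exact Or.inr (by rw [map_add, map_one, h6])
  have tt : ∀ {M : Type _} [AddCommGroup M] [Module F M] (x : M), x + x = 0 := fun x => by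
    rw [← two_smul F, ht, zero_smul]
  let wu : GL (Fin 2) F := ⟨w, w + 1, by rw [mul_add, h3, mul_one, add_right_comm, tt, zero_add],
    by rw [add_mul, h3, one_mul, add_right_comm, tt, zero_add]⟩
  let J := trans e P (w ⊗ₖ (1 : Matrix (Fin b) (Fin b) F))
  have J1 : J * J = J + 1 := by
    rw [← map_mul, ← Matrix.mul_kronecker_mul, h3, Matrix.add_kronecker, mul_one, map_add,
      Matrix.one_kronecker_one, map_one]
  let Ju : GL ι F := ⟨J, J + 1, by rw [mul_add, J1, mul_one, add_right_comm, tt, zero_add],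
    by rw [add_mul, J1, one_mul, add_right_comm, tt, zero_add]⟩
  have J2 : ∀ x z, J *ᵥ τ x z = τ (w *ᵥ x) z := fun x z => by
    rw [H12.trans_kron_tP, Matrix.one_mulVec]
  have J3 : Ju ∈ isometryGroup F Q := by
    refine tensor_le_isometryGroup hQ hp ⟨mem_tensorProductSubgroup.mpr ⟨wu, 1, rfl⟩,
      mem_isoG.mpr fun x y => ?_⟩
    have k : ∀ s t, f₁ (w *ᵥ s) (w *ᵥ t) = f₁ s t := fun s t => by
      have e : ∀ s : Fin 2 → F, s = s 0 • Pi.single 0 1 + s 1 • Pi.single 1 1 := fun s => by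
        ext i; fin_cases i <;> simp
      rw [e (w *ᵥ s), e (w *ᵥ t), e s, e t]
      simp [w, g1.add_left, g1.add_right, g1.smul_left, g1.smul_right, h1.alternating,
        h1.skew (Pi.single 1 1) (Pi.single 0 1), Matrix.mulVec, dotProduct]
      linear_combination (s 1 * t 0 - s 0 * t 1) * f₁ (Pi.single 0 1) (Pi.single 1 1) * ht
    have := H12.ten_ext (H12.isTen_tP e P) (f := ((polarBilin (mkQ hQ)).compl₁₂ J.toLin' J.toLin'))
      (g := polarBilin (mkQ hQ)) fun s z => H12.ten_ext (H12.isTen_tP e P) fun t y => by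
        simp [J2, a1, k, τ, -Matrix.mulVec_fin_two]
    exact LinearMap.congr_fun₂ this x y
  let T : Subgroup (GL ι F) :=
    { carrier := {g | cj g J = J ∨ cj g J = J + 1}
      mul_mem' := by
        rintro a b ha (hb | hb) <;> rw [Set.mem_ofPred, cj_mul, hb]
        · exact ha
        · rcases ha with ha | ha <;> rw [map_add, map_one, ha]
          · exact Or.inr rfl
          · exact Or.inl (by rw [add_assoc, tt, add_zero])
      one_mem' := Or.inl ((cj_eq_iff _ _ _).mpr (by simp))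
      inv_mem' := by
        rintro a (ha | ha)
        · exact Or.inl (by rw [← ha, cj_inv_cj, ha])
        · have := congrArg (cj a⁻¹) ha
          rw [cj_inv_cj, map_add, map_one] at this
          exact Or.inr (by rw [← add_left_inj 1, ← this, add_assoc, tt, add_zero]) }
  refine H12.exists_between (T := T) (fun g hg => ?_) (fun H => ?_) fun H => ?_
  · obtain ⟨x, y, hxy⟩ := mem_tensorProductSubgroup.mp hg.1
    change cj g J = J ∨ cj g J = J + 1
    rw [cj_kron hxy, map_one]
    rcases h4 (cj x w) (by rw [← map_mul, h3, map_add, map_one]) with h5 | h5 <;> rw [h5]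
    · exact Or.inl rfl
    · exact Or.inr (by rw [Matrix.add_kronecker, map_add, Matrix.one_kronecker_one, map_one])
  · obtain ⟨t, h5⟩ := scalar_of_comm_rt hQ (by omega) (X := J) fun u a g b1 b2 =>
      (H b2).resolve_right fun b3 => by
        obtain ⟨v, hv⟩ := exists_notMem_of_finrank_lt (W := .span F {u, a} ⊔
          (Submodule.span F {u, a}).map J.toLin') (by
            have := finrank_span_pair_le (F := F) u a
            have := Submodule.finrank_add_le_finrank_add_finrank (Submodule.span F {u, a})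
              ((Submodule.span F {u, a}).map J.toLin')
            have := Submodule.finrank_map_le J.toLin' (Submodule.span F {u, a})
            omega)
        have b4 := cj_mulVec g J v
        rw [b3, Matrix.add_mulVec, Matrix.one_mulVec] at b4
        refine hv ?_
        rw [show v = (g.1 *ᵥ (J *ᵥ v) - J *ᵥ v - (g.1 *ᵥ v - v)) - J *ᵥ (g.1 *ᵥ v - v) by
          rw [Matrix.mulVec_sub, ← b4]; abel]
        exact sub_mem (Submodule.mem_sup_left (sub_mem (b1.mem _) (b1.mem _)))
          (Submodule.mem_sup_right ⟨_, b1.mem _, rfl⟩)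
    have : Nonempty ι := Fintype.card_pos_iff.mp (by omega)
    have h6 := congrFun (congrFun J1 (Classical.arbitrary ι)) (Classical.arbitrary ι)
    simp [h5] at h6
    by_cases h7 : t = 0
    · simp [h7] at h6
    · simp [show t = 1 by simpa using pow_pred_card (q := 1) h h7] at h6
  · have : Nontrivial (ι → F) := Module.nontrivial_of_finrank_pos (R := F) (by omega)
    obtain ⟨v, hv⟩ := (nd_mkQ hQ).exists_ne_zero
    replace hv : mkQ hQ v = 1 := by simpa using pow_pred_card (q := 1) h hv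
    let j : OG (mkQ hQ) := toOG (mkQ hQ) ⟨Ju, J3⟩
    have j0 : ofOG hQ j = Ju := by simp [ofOG, j]
    have j1 : ∀ x, j.1 x = J *ᵥ x := fun x => by rw [← ofOG_mulVec, j0]
    have j2 : j.1 (j.1 v) = j.1 v + v := by
      rw [j1, j1, Matrix.mulVec_mulVec, J1, Matrix.add_mulVec, Matrix.one_mulVec]
    have j3 : polar (mkQ hQ) (j.1 v) v = 1 := by
      have := Q_add (mkQ hQ) (j.1 v) v
      rw [← j2, OG_map, OG_map, hv] at this
      linear_combination -this - ht
    have j4 : (refl (mkQ hQ) (j.1 v)).1 v = j.1 (j.1 v) := by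
      rw [refl_apply, j3, OG_map, hv, j2, sub_eq_iff_eq_add, add_right_comm]; simp [tt]
    have j5 : j * (refl _ v * refl _ (j.1 v)) = refl _ v * refl _ (j.1 v) * j := by
      rw [← mul_inv_eq_iff_eq_mul, show j * (refl _ v * refl _ (j.1 v)) * j⁻¹ = j * refl _ v * j⁻¹ *
        (j * refl _ (j.1 v) * j⁻¹) by group, conj_refl, conj_refl, ← j4, ← conj_refl (refl _ _),
        refl_inv, ← mul_assoc, ← mul_assoc, refl_mul_self, one_mul]
    obtain ⟨x, y, hxy⟩ := mem_tensorProductSubgroup.mp (H (x := ofOG hQ (refl _ v * refl _ (j.1 v)))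
      ⟨Or.inl ((cj_eq_iff _ _ _).mpr (by
        have := congrArg Units.val (congrArg (jO hQ) j5)
        rw [map_mul (jO hQ) j, map_mul (jO hQ) _ j, jO_apply hQ j, j0] at this
        exact this.symm)), ofOG_mem hQ ((nd_mkQ hQ).refl_mul_refl_mem_commutator (by simp [hv])
          (by simp))⟩)
    have b3 : ∀ x, (ofOG hQ (refl _ v * refl _ (j.1 v))).1 *ᵥ x - x ∈
        Submodule.span F {v, j.1 v} := fun x => by
      rw [ofOG_mulVec, OG_mul_apply, refl_apply]
      nth_rw 1 [refl_apply]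
      rw [sub_right_comm, sub_sub_cancel_left]
      exact sub_mem (neg_mem (Submodule.smul_mem _ _ (Submodule.subset_span (by simp))))
        (Submodule.smul_mem _ _ (Submodule.subset_span (by simp)))
    have b4 := finrank_span_pair_le (F := F) v (j.1 v)
    obtain ⟨t, ht'⟩ := scalar_of_small_kron hxy b3 (by simp; omega)
    have b5 : t = 1 := by
      simpa using pow_pred_card (q := 1) h (x := t) fun h => x.ne_zero (by simp [ht', h])
    have b6 : ∀ s z, τ s (y.1 *ᵥ z - z) ∈ Submodule.span F {v, j.1 v} := fun s z => by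
      have := b3 (τ s z)
      rwa [hxy, H12.trans_kron_tP, ht', b5, one_smul, Matrix.one_mulVec, ← map_sub] at this
    by_cases b7 : ∀ z, y.1 *ᵥ z - z = 0
    · have b8 := H12.ten_ext (H12.isTen_tP e P) (f := (refl _ v * refl _ (j.1 v)).1.toLinearMap)
        (g := LinearMap.id) fun s z => by
          rw [LinearEquiv.coe_coe, ← ofOG_mulVec, hxy, H12.trans_kron_tP, ht', b5, one_smul,
            Matrix.one_mulVec, sub_eq_zero.mp (b7 z), LinearMap.id_apply]
      have b9 := LinearMap.congr_fun b8 v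
      rw [LinearEquiv.coe_coe, OG_mul_apply, j4, j2, map_add, refl_apply_self (by simp [hv]),
        refl_apply, polar_comm, j3, hv, LinearMap.id_apply] at b9
      rw [show j.1 v = v + (v + v) by linear_combination (norm := module) b9, tt, add_zero,
        polar_self', ht, zero_mul] at j3
      exact zero_ne_one j3
    · obtain ⟨z, hz⟩ := not_forall.mp b7
      have b8 : LinearMap.range (τ.flip (y.1 *ᵥ z - z)) = Submodule.span F {v, j.1 v} :=
        Submodule.eq_of_le_of_finrank_le (by rintro _ ⟨s, rfl⟩; exact b6 s z) (by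
          rw [LinearMap.finrank_range_of_inj fun _ _ => H12.ten_left_inj (H12.isTen_tP e P) hz]
          simpa using b4)
      obtain ⟨s, hs⟩ := b8.ge (Submodule.subset_span (Set.mem_insert _ _))
      rw [← hs, LinearMap.flip_apply, hp] at hv
      exact zero_ne_one hv

end Cfsg.Agent.H18
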