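import Mathlib
import Cfsg.Agent.H18.OMxE

/-!
Stabilisers of pairs of complementary totally singular subspaces.
-/

set_option autoImplicit false

namespace Cfsg.Agent.H18

open Module QuadraticMap H13

variable {F V : Type*} [Field F] [AddCommGroup V] [Module F V] {Q : QuadraticForm F V}
  {M N : Subgroup (OG Q)} {e f a x y : V} {A B H : Submodule F V}

/-- complementary totally singular subspaces -/
structure TP (Q : QuadraticForm F V) (A B : Submodule F V) : Prop where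
  sa : ∀ x ∈ A, Q x = 0
  sb : ∀ x ∈ B, Q x = 0
  top : ∀ v, ∃ a ∈ A, ∃ b ∈ B, v = a + b

/-- the root elements of the Levi subgroup -/
def PM (M : Subgroup (OG Q)) (A B : Submodule F V) : Prop :=
  ∀ e ∈ A, ∀ f ∈ B, polar Q e f = 0 → AS M e f

theorem PM.map (h : PM M A B) {g : OG Q} (hg : g ∈ M) :
    PM M (A.map g.1.toLinearMap) (B.map g.1.toLinearMap) := by
  rintro _ ⟨e, he, rfl⟩ _ ⟨f, hf, rfl⟩ h1
  exact (h e he f hf (by simpa using h1)).map hg

namespace TP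
variable (h : TP Q A B)
include h

theorem symm : TP Q B A := ⟨h.sb, h.sa, fun v => by
  obtain ⟨a, ha, b, hb, rfl⟩ := h.top v
  exact ⟨b, hb, a, ha, add_comm _ _⟩⟩

theorem aa (hx : x ∈ A) (hy : y ∈ A) : polar Q x y = 0 := le_perp_of_singular h.sa hy x hx

theorem map (g : OG Q) : TP Q (A.map g.1.toLinearMap) (B.map g.1.toLinearMap) :=
  ⟨singular_map h.sa g, singular_map h.sb g, fun v => by
    obtain ⟨v, rfl⟩ := g.1.surjective v
    obtain ⟨a, ha, b, hb, rfl⟩ := h.top v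
    exact ⟨_, ⟨a, ha, rfl⟩, _, ⟨b, hb, rfl⟩, map_add _ _ _⟩⟩

theorem pm_symm (h1 : PM M A B) : PM M B A := fun f hf e he h2 =>
  (h1 e he f hf (by rwa [polar_comm])).swap (h.sb f hf)

theorem eq_zero (hQ : ND Q) (hx : x ∈ A) (hx' : x ∈ B) : x = 0 := hQ x fun y => by
  obtain ⟨a, ha, b, hb, rfl⟩ := h.top y
  rw [polar_add_right, h.aa hx ha, h.symm.aa hx' hb, add_zero]

theorem sieg_mem (he : e ∈ A) (hf : f ∈ B) (h1 : polar Q e f = 0) :
    (∀ x ∈ A, (sieg Q e f).1 x ∈ A) ∧ ∀ x ∈ B, (sieg Q e f).1 x ∈ B := by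
  refine ⟨fun x hx => ?_, fun x hx => ?_⟩
  · rw [sieg_apply_of_perp (h.sa e he) h1 (h.aa he hx)]
    exact add_mem hx (A.smul_mem _ he)
  · rw [sieg_apply (h.sa e he) h1, h.symm.aa hf hx, h.sb f hf]
    simpa using sub_mem hx (B.smul_mem _ hf)

variable [FiniteDimensional F V] (hQ : ND Q)
include hQ

theorem exists_one (hH : H ≤ A) (hx : x ∈ A) (hx' : x ∉ H) :
    ∃ f ∈ B, (∀ y ∈ H, polar Q f y = 0) ∧ polar Q f x = 1 := by
  obtain ⟨b, h1, h2⟩ := hQ.exists_perp_one H hx'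
  obtain ⟨a, ha, b, hb, rfl⟩ := h.top b
  exact ⟨b, hb, fun y hy => by simpa [h.aa ha (hH hy)] using h1 y hy,
    by simpa [h.aa ha hx] using h2⟩

theorem eo (hP : PM M A B) (h3 : 3 ≤ finrank F A) (he : e ∈ A) (ha : a ∈ A) (h1 : a ∉ F ∙ e)
    (h2 : AS M e a) : EO M e := by
  have key : ∀ b ∈ A, a ∉ sp F e b → AS M e b := fun b hb h4 => by
    obtain ⟨f, a1, a2, a3⟩ := h.exists_one hQ (sp_le.mpr ⟨he, hb⟩) ha h4
    have a4 := sp_le.mp (le_refl (sp F e b))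
    simpa [a3, h.aa hb ha] using h2.act (hP b hb f a1 (by rw [polar_comm, a2 b a4.2])) (h.aa hb he)
      (a2 e a4.1)
  refine ⟨h2.Qu, fun z hz => ?_⟩
  obtain ⟨b, hb, f, hf, rfl⟩ := h.top z
  refine AS.add ?_ (hP e he f hf (by simpa [h.aa he hb] using hz))
  by_cases h4 : a ∈ sp F e b
  · obtain ⟨c, a1, a2⟩ := H13.exists_notMem_of_finrank_lt (H := sp F e b) (W := A)
      ((finrank_span_pair_le e b).trans_lt h3)
    obtain ⟨s, t, rfl⟩ := Submodule.mem_span_pair.mp h4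
    have a3 : t ≠ 0 := by rintro rfl; exact h1 (Submodule.mem_span_singleton.mpr ⟨s, by simp⟩)
    have a4 : ∀ r : F, s • e + t • b ∉ sp F e (c + r • b) := fun r a4 => by
      obtain ⟨s', t', a5⟩ := Submodule.mem_span_pair.mp a4
      by_cases a6 : t' = 0
      · exact h1 (Submodule.mem_span_singleton.mpr ⟨s', by simpa [a6] using a5⟩)
      · exact a2 (Submodule.mem_span_pair.mpr ⟨(s - s') / t', t / t' - r, by
          apply smul_right_injective V a6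
          simp only [smul_add, smul_smul, mul_div_cancel₀ _ a6, mul_sub]
          linear_combination (norm := module) -a5⟩)
    simpa using (key _ (add_mem a1 (A.smul_mem 1 hb)) (a4 1)).sub
      (key _ (add_mem a1 (A.smul_mem 0 hb)) (a4 0))
  · exact key b hb h4

theorem Om_le_of_eo [Finite F] (hn : 5 ≤ finrank F V) (hP : PM M A B) (he : e ∈ A) (h0 : e ≠ 0)
    (h1 : EO M e) (hf : f ∈ B) (h0' : f ≠ 0) (h2 : EO M f) : Om Q ≤ M := by
  by_cases h3 : polar Q e f = 0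
  · obtain ⟨b, a1, -, a2⟩ := h.symm.exists_one hQ bot_le hf h0'
    obtain ⟨c, a3, a4, a5⟩ := h.exists_one hQ (H := F ∙ b) (by simpa) he fun a3 => by
      obtain ⟨s, rfl⟩ := Submodule.mem_span_singleton.mp a3
      simp [a2] at h3; simp [h3] at h0
    have a6 := hP b a1 c a3 (by rw [polar_comm, a4 b (Submodule.mem_span_singleton_self b)])
    refine Om_le_of_EO hQ hn (h1.map a6.mem) h2 ?_
    simp [sieg_apply_of_perp a6.Qu a6.ua (h.aa a1 he), h3, a5, a2]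
  · exact Om_le_of_EO hQ hn h1 h2 h3

theorem mem_span (hP : PM M A B) (h5 : 5 ≤ finrank F A)
    (hN : ∀ e ∈ A, e ≠ 0 → ∀ a ∈ A, AS M e a → a ∈ F ∙ e) {x₀ x₁ y₀ y₁ : V} (a1 : x₀ ∈ A)
    (a2 : x₁ ∈ B) (a3 : y₀ ∈ A) (a4 : y₁ ∈ B) (h0 : x₀ ≠ 0) (h1 : AS M (x₀ + x₁) (y₀ + y₁))
    (h2 : Q (y₀ + y₁) = 0) : y₀ ∈ F ∙ x₀ := by
  obtain ⟨e, ⟨⟨b1, b2⟩, b3⟩, b4⟩ := H13.exists_notMem_of_finrank_lt (H := sp F x₀ y₀)
    (W := A ⊓ perp Q (F ∙ x₁) ⊓ perp Q (F ∙ y₁)) (by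
      have := finrank_span_pair_le (F := F) x₀ y₀
      have := le_finrank_inf_perp hQ A x₁
      have := le_finrank_inf_perp hQ (A ⊓ perp Q (F ∙ x₁)) y₁
      change finrank F (Submodule.span F {x₀, y₀}) < _
      omega)
  have b5 := sp_le.mp (le_refl (sp F x₀ y₀))
  obtain ⟨f, c1, c2, c3⟩ := h.exists_one hQ (H := F ∙ e) (by simpa) a1 fun c1 => by
    obtain ⟨s, rfl⟩ := Submodule.mem_span_singleton.mp c1
    exact b4 ((Submodule.smul_mem_iff _ (left_ne_zero_of_smul h0)).mp b5.1)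
  have c4 := hP e b1 f c1 (by rw [polar_comm, c2 e (Submodule.mem_span_singleton_self e)])
  have c5 := c4.act h1 (by simp [h.aa a1 b1, mem_perp_singleton.mp b2])
    (by simp [h.aa a3 b1, mem_perp_singleton.mp b3])
  rw [h2, zero_smul, add_zero, show polar Q (x₀ + x₁) f = 1 by
    simp [polar_comm Q x₀, c3, h.symm.aa a2 c1], one_smul] at c5
  generalize polar Q (y₀ + y₁) f = c at c5
  have c6 : c • x₁ - y₁ ∈ B := sub_mem (B.smul_mem _ a2) a4
  have c7 := c5.sub (hP e b1 _ c6 (by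
    simp [polar_comm Q e, mem_perp_singleton.mp b2, mem_perp_singleton.mp b3]))
  rw [show c • (x₀ + x₁) - (y₀ + y₁) - (c • x₁ - y₁) = c • x₀ - y₀ by module] at c7
  obtain ⟨s, hs⟩ := Submodule.mem_span_singleton.mp (hN e b1 (by rintro rfl; simp at b4) _
    (sub_mem (A.smul_mem _ a1) a3) c7)
  by_cases h3 : s = 0
  · exact Submodule.mem_span_singleton.mpr ⟨c, by rw [← sub_eq_zero, ← hs, h3, zero_smul]⟩
  · exact absurd ((Submodule.smul_mem_iff _ h3).mp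
      (hs ▸ sub_mem (Submodule.smul_mem _ _ b5.1) b5.2)) b4

theorem le_or_le (hP : PM M A B) (h5 : 5 ≤ finrank F A) (h5' : 5 ≤ finrank F B)
    (hN : ∀ e ∈ A, e ≠ 0 → ∀ a ∈ A, AS M e a → a ∈ F ∙ e)
    (hN' : ∀ e ∈ B, e ≠ 0 → ∀ a ∈ B, AS M e a → a ∈ F ∙ e) {X Y : Submodule F V}
    (hP' : PM M X Y) (hY : ∀ y ∈ Y, Q y = 0) (h4 : 4 ≤ finrank F Y) : X ≤ A ∨ X ≤ B := by
  have key : ∀ x ∈ X, x ∈ A ∨ x ∈ B := fun x hx => by
    obtain ⟨x₀, a1, x₁, a2, rfl⟩ := h.top x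
    by_contra! H
    have := Submodule.finrank_mono (show Y ⊓ perp Q (F ∙ (x₀ + x₁)) ≤ sp F x₀ x₁ from fun y hy => by
      obtain ⟨y₀, a3, y₁, a4, rfl⟩ := h.top y
      have a5 := hP' _ hx _ hy.1 (mem_perp_singleton.mp hy.2)
      obtain ⟨s, rfl⟩ := Submodule.mem_span_singleton.mp (h.mem_span hQ hP h5 hN a1 a2 a3 a4
        (by rintro rfl; exact H.2 (by simpa)) a5 (hY _ hy.1))
      rw [add_comm x₀, add_comm (s • x₀)] at a5
      obtain ⟨t, rfl⟩ := Submodule.mem_span_singleton.mp (h.symm.mem_span hQ (h.pm_symm hP) h5' hN'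
        a2 a1 a4 a3 (by rintro rfl; exact H.1 (by simpa)) a5 (by rw [add_comm]; exact hY _ hy.1))
      exact Submodule.mem_span_pair.mpr ⟨s, t, rfl⟩)
    have := finrank_span_pair_le (F := F) x₀ x₁
    have := le_finrank_inf_perp hQ Y (x₀ + x₁)
    change _ ≤ finrank F (Submodule.span F {x₀, x₁}) at *
    omega
  by_contra! H
  obtain ⟨x, a1, a2⟩ := SetLike.not_le_iff_exists.mp H.1
  obtain ⟨y, a3, a4⟩ := SetLike.not_le_iff_exists.mp H.2
  rcases key _ (add_mem a1 a3) with a5 | a5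
  · exact a2 ((A.add_mem_iff_left ((key y a3).resolve_right a4)).mp a5)
  · exact a4 ((B.add_mem_iff_right ((key x a1).resolve_left a2)).mp a5)

theorem exists_swap [Finite F] (hG : Good Q) {k : ℕ} (hn : finrank F V = 2 * k)
    (hk : finrank F A = k) (h2 : Even k) (h0 : A ≠ ⊥) :
    ∃ g ∈ Om Q, (∀ x ∈ A, g.1 x ∈ B) ∧ ∀ x ∈ B, g.1 x ∈ A := by
  classical
  let b := finBasisOfFinrankEq F A hk
  have h1 : ∀ j, ∃ f ∈ B, ∀ i, polar Q (b i : V) f = if i = j then 1 else 0 := fun j => by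
    obtain ⟨c, hc⟩ := hQ.exists_polar_eq (b.linearIndependent.map' A.subtype A.ker_subtype)
      fun i => if i = j then 1 else 0
    obtain ⟨a, ha, c, hc', rfl⟩ := h.top c
    exact ⟨c, hc', fun i => by simpa [h.aa ha (b i).2, polar_comm Q c] using hc i⟩
  choose f h1 h3 using h1
  have H : HypFam Q (fun i => (b i : V)) f := ⟨fun i => h.sa _ (b i).2, fun i => h.sb _ (h1 i),
    fun i j => h.aa (b i).2 (b j).2, fun i j => h.symm.aa (h1 i) (h1 j), fun i j => h3 j i⟩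
  have h4 : hypPerp Q (fun i => (b i : V)) f = ⊥ := Submodule.finrank_eq_zero.mp (by
    have := H.finrank_eq
    simp at this; omega)
  let g : OG Q := ⟨H.split ≪≫ₗ ((LinearEquiv.funCongrLeft F F (Equiv.sumComm _ _)).prodCongr
    (LinearEquiv.refl F _)) ≪≫ₗ H.split.symm, fun v => by
      rw [LinearEquiv.trans_apply, LinearEquiv.trans_apply, H.Q_split_symm, H.Q_split v]
      simp [mul_comm]⟩
  have h5 : ∀ v, g.1 v = ∑ i, polar Q (b i : V) v • (b i : V) + ∑ i, polar Q (f i) v • f i :=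
    fun v => by
      change H.split.symm _ = _
      rw [H.split_symm_apply, (Submodule.eq_bot_iff _).mp h4 _ (Subtype.prop _), add_zero]
      rfl
  have h6 : ∀ x ∈ A, g.1 x ∈ B := fun x hx => by
    simpa [h5, h.aa (b _).2 hx] using sum_mem fun i _ => B.smul_mem _ (h1 i)
  have h7 : ∀ x ∈ B, g.1 x ∈ A := fun x hx => by
    simpa [h5, h.symm.aa (h1 _) hx] using sum_mem fun i _ => A.smul_mem _ (b i).2
  obtain ⟨x, h8, h9⟩ := hQ.exists_mul_mem_Om_of_dickson hG (g := g)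
    (p := fun x => (∀ y ∈ A, x.1 y ∈ A) ∧ ∀ y ∈ B, x.1 y ∈ B) ⟨fun _ h => h, fun _ h => h⟩
    (fun a1 => by
      obtain ⟨c, a2, a3⟩ := exists_sgn_eq_neg_one a1
      obtain ⟨e, a4, a5⟩ := A.exists_mem_ne_zero_of_ne_bot h0
      obtain ⟨f, a6, -, a7⟩ := h.exists_one hQ bot_le a4 a5
      have a8 : HP Q e f := ⟨h.sa e a4, h.sb f a6, by rwa [polar_comm]⟩
      refine ⟨a8.torus (Units.mk0 c a2), ⟨fun y hy => ?_, fun y hy => ?_⟩, a8.dickson_torus hQ hG _,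
        by rw [a8.spinor_torus, ← a3]; rfl⟩
      · obtain ⟨s, w, rfl⟩ := a8.exists_eq_of_perp (h.aa a4 hy)
        rw [map_add, map_smul, a8.torus_left, a8.torus_pp]
        exact add_mem (A.smul_mem _ (A.smul_mem _ a4)) ((A.add_mem_iff_right (A.smul_mem _ a4)).mp hy)
      · obtain ⟨s, w, rfl⟩ := a8.symm.exists_eq_of_perp (h.symm.aa a6 hy)
        rw [map_add, map_smul, a8.torus_right, a8.torus_pp _ ⟨w, (pp_comm f e).le w.2⟩]
        exact add_mem (B.smul_mem _ (B.smul_mem _ a6)) ((B.add_mem_iff_right (B.smul_mem _ a6)).mp hy))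
    ((hQ.even_inf_map_iff hG hn hk h.sa g).mp (by
      rw [(Submodule.eq_bot_iff (A ⊓ _)).mpr fun x hx => h.eq_zero hQ hx.1 (by
        obtain ⟨y, hy, rfl⟩ := hx.2; exact h6 y hy)]
      simpa))
  exact ⟨_, h9, fun y hy => h6 _ (h8.1 y hy), fun y hy => h7 _ (h8.2 y hy)⟩

end TP

/-- Stabilisers of pairs of complementary totally singular subspaces. -/
theorem Om_le_of_pair [FiniteDimensional F V] [Finite F] (hQ : ND Q) {E : Fin 2 → Submodule F V}
    (h : TP Q (E 0) (E 1)) {k : ℕ} (hn : finrank F V = 2 * k) (hk : ∀ i, finrank F (E i) = k)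
    (h2 : Even k) (h5 : 5 ≤ k) (hM : ∀ g ∈ Om Q, g ∈ dsO Q E → g ∈ M) {g : OG Q} (hg : g ∈ M)
    (hg' : g ∉ dsO Q E) : Om Q ≤ M := by
  have a0 : ∀ (g : OG Q) i j, (E i).map g.1.toLinearMap ≤ E j → (E i).map g.1.toLinearMap = E j :=
    fun g i j H => Submodule.eq_of_le_of_finrank_eq H (by rw [finrank_map_OG, hk, hk])
  have a1 : ∀ g : OG Q, (E 0).map g.1.toLinearMap ≤ E 0 → (E 1).map g.1.toLinearMap ≤ E 1 →
      g ∈ dsO Q E := fun g b1 b2 => ⟨1, Fin.forall_fin_two.mpr ⟨a0 g _ _ b1, a0 g _ _ b2⟩⟩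
  have a2 : ∀ g : OG Q, (E 0).map g.1.toLinearMap ≤ E 1 → (E 1).map g.1.toLinearMap ≤ E 0 →
      g ∈ dsO Q E := fun g b1 b2 =>
    ⟨Equiv.swap 0 1, Fin.forall_fin_two.mpr ⟨a0 g _ _ b1, a0 g _ _ b2⟩⟩
  have hP : PM M (E 0) (E 1) := fun e he f hf b1 => ⟨h.sa e he, b1, hM _
    (sieg_mem_Om hQ (by omega) e f) (a1 _ (Submodule.map_le_iff_le_comap.mpr (h.sieg_mem he hf b1).1)
      (Submodule.map_le_iff_le_comap.mpr (h.sieg_mem he hf b1).2))⟩
  obtain ⟨s, b1, b2, b3⟩ := h.exists_swap hQ (good_of_five (by omega)) hn (hk 0) h2 fun e => by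
    have := hk 0; rw [e, finrank_bot] at this; omega
  have b4 := hM s b1 (a2 s (Submodule.map_le_iff_le_comap.mpr b2)
    (Submodule.map_le_iff_le_comap.mpr b3))
  by_contra H
  have hN : ∀ e ∈ E 0, e ≠ 0 → ∀ a ∈ E 0, AS M e a → a ∈ F ∙ e := fun e c1 c2 a c3 c4 => by
    by_contra c5
    have c6 := h.eo hQ hP (by rw [hk]; omega) c1 c3 c5 c4
    exact H (h.Om_le_of_eo hQ (by omega) hP c1 c2 c6 (b2 e c1) (by simpa) (c6.map b4))
  have hN' : ∀ e ∈ E 1, e ≠ 0 → ∀ a ∈ E 1, AS M e a → a ∈ F ∙ e := fun e c1 c2 a c3 c4 => by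
    obtain ⟨c, hc⟩ := Submodule.mem_span_singleton.mp (hN _ (b3 e c1) (by simpa) _ (b3 a c3)
      (c4.map b4))
    exact Submodule.mem_span_singleton.mpr ⟨c, s.1.injective (by rw [map_smul, hc])⟩
  have c1 := h.map g
  have c2 : ∀ i, (E 0).map g.1.toLinearMap ≤ E i → (E 1).map g.1.toLinearMap ≤ E i → False :=
    fun i d1 d2 => by
      have := Submodule.finrank_mono (show ⊤ ≤ E i from fun v _ => by
        obtain ⟨a, ha, b, hb, rfl⟩ := c1.top v
        exact add_mem (d1 ha) (d2 hb))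
      rw [finrank_top, hk] at this
      omega
  rcases h.le_or_le hQ hP (hk 0 ▸ h5) (hk 1 ▸ h5) hN hN' (hP.map hg) c1.sb
    (by rw [finrank_map_OG, hk]; omega) with d1 | d1 <;>
  rcases h.le_or_le hQ hP (hk 0 ▸ h5) (hk 1 ▸ h5) hN hN' (c1.pm_symm (hP.map hg)) c1.sa
    (by rw [finrank_map_OG, hk]; omega) with d2 | d2
  exacts [c2 _ d1 d2, hg' (a1 g d1 d2), hg' (a2 g d1 d2), c2 _ d1 d2]

open Cfsg.Geo in
theorem max_pair {ι : Type} [Fintype ι] [DecidableEq ι] [Fintype F] {Q : (ι → F) → F}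
    (hQ : IsNondegenerateQuadraticForm Q) {k : ℕ} (h2 : Even k) (h5 : 5 ≤ k)
    {D : Fin 2 → Submodule F (ι → F)} (hD : IsMDecomposition k D)
    (h : ∀ i, IsTotallySingularQuad Q (D i)) :
    IsMaximalIn (omegaGL Q) (decompositionStabilizer D ⊓ omegaGL Q) :=
  have h1 := card_eq_of_isMDecomposition hD
  max_omega hQ _ (ofOG_mem_dec hQ) (omega_not_le_pair hQ (by omega) hD h)
    fun _ a1 _ _ a2 a3 => Om_le_of_pair (nd_mkQ hQ) ⟨h 0, h 1, fun v => by
      have := hD.iSup_eq_top.ge (Submodule.mem_top (x := v))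
      rw [show iSup D = D 0 ⊔ D 1 from le_antisymm (iSup_le (Fin.forall_fin_two.mpr
        ⟨le_sup_left, le_sup_right⟩)) (sup_le (le_iSup D 0) (le_iSup D 1))] at this
      obtain ⟨a, ha, b, hb, rfl⟩ := Submodule.mem_sup.mp this
      exact ⟨a, ha, b, hb, rfl⟩⟩ (by simpa using h1) hD.finrank_eq h2 h5 a1 a2 a3

end Cfsg.Agent.H18
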