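import Cfsg.Agent.H18.OmAux

/-! The structure theorem for subgroups of orthogonal groups. -/

set_option autoImplicit false

namespace Cfsg.Agent.H18

open Cfsg.Geo QuadraticMap
open scoped MatrixGroups Matrix Kronecker commutatorElement

variable {ι : Type} [Fintype ι] [DecidableEq ι] {F : Type*} [Field F] {Q : (ι → F) → F}
  {H : Subgroup (GL ι F)}

/-- reducible subgroups of orthogonal groups -/
def ORed (Q : (ι → F) → F) (H : Subgroup (GL ι F)) : Prop :=
  (∃ W, W ≠ ⊥ ∧ IsTotallySingularQuad Q W ∧ H ≤ subspaceStabilizer W) ∨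
  (∃ W, W ≠ ⊥ ∧ IsNondegenerateOn (polar Q) W ∧ 2 * Module.finrank F W ≤ Fintype.card ι ∧
    H ≤ subspaceStabilizer W) ∨
  ((2 : F) = 0 ∧ ∃ v, Q v ≠ 0 ∧ H ≤ subspaceStabilizer (Submodule.span F {v}))

/-- subgroups of orthogonal groups normalising a commutative algebra -/
def OComm (Q : (ι → F) → F) (H : Subgroup (GL ι F)) : Prop :=
  (∃ (t m : ℕ) (D : Fin t → Submodule F (ι → F)), IsOrthogonalMDecomposition Q m D ∧
    H ≤ decompositionStabilizer D) ∨
  (∃ (m : ℕ) (D : Fin 2 → Submodule F (ι → F)), IsMDecomposition m D ∧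
    (∀ i, IsTotallySingularQuad Q (D i)) ∧ H ≤ decompositionStabilizer D) ∨
  (∃ (r : ℕ) (K : Subalgebra F (Matrix ι ι F)), r.Prime ∧ r ≠ Fintype.card ι ∧
    IsFieldSubalgebra r K ∧ IsSelfAdjointFor (polar Q) K ∧ H ≤ subalgebraNormalizer K) ∨
  (∃ K : Subalgebra F (Matrix ι ι F), IsFieldSubalgebra 2 K ∧ IsAdjointClosedFor (polar Q) K ∧
    ¬ IsSelfAdjointFor (polar Q) K ∧ (∀ k ∈ K, ∃ c : F, ∀ v, Q (k *ᵥ v) = c * Q v) ∧
    H ≤ subalgebraNormalizer K)

/-- subfield subgroups of orthogonal groups -/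
def OSub [Fintype F] (Q : (ι → F) → F) (H : Subgroup (GL ι F)) : Prop :=
  ∃ (F₀ : Subfield F) (r : ℕ) (P : GL ι F) (ζ : F), r.Prime ∧ Fintype.card F = Nat.card F₀ ^ r ∧
    ζ ≠ 0 ∧ IsQuadFormRationalStructure (fun v => ζ * Q v) F₀ P ∧ H ≤ subfieldSubgroup F₀ P

lemma mulVec_mem_of_le {W : Submodule F (ι → F)} (h : H ≤ subspaceStabilizer W) {g : GL ι F}
    (hg : g ∈ H) {v : ι → F} (hv : v ∈ W) : (g : Matrix ι ι F) *ᵥ v ∈ W :=
  (mem_subspaceStabilizer.mp (h hg) v).mp hv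

omit [Fintype ι] [DecidableEq ι] in
lemma quad_eq_zero_of_polar (hQ : IsNondegenerateQuadraticForm Q) (h2 : (2 : F) ≠ 0) {v : ι → F}
    (h : polar Q v v = 0) : Q v = 0 :=
  (mul_eq_zero.mp ((polar_self_of_quad hQ v).symm.trans h)).resolve_left h2

omit [Fintype ι] [DecidableEq ι] in
lemma polar_self_two (hQ : IsNondegenerateQuadraticForm Q) (h2 : (2 : F) = 0) (v : ι → F) :
    polar Q v v = 0 := by rw [polar_self_of_quad hQ, h2, zero_mul]

omit [Fintype ι] [DecidableEq ι] in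
lemma IsTotallySingularQuad.polar {W : Submodule F (ι → F)} (h : IsTotallySingularQuad Q W) :
    IsTotallySingularFor (polar Q) W := fun u hu v hv => by
  simp [QuadraticMap.polar, h u hu, h v hv, h _ (add_mem hu hv)]

lemma areIsometric_of_map {W W' : Submodule F (ι → F)} {g : GL ι F} (hg : g ∈ isometryGroup F Q)
    (h : W.map (Matrix.toLin' (g : Matrix ι ι F)) = W') : AreIsometricFor Q W W' :=
  ⟨(Submodule.equivMapOfInjective _ (toLin'_injective g) W).trans (LinearEquiv.ofEq _ _ h),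
    fun w => mem_isometryGroup'.mp hg w⟩

section
variable [Fintype F] (hQ : IsNondegenerateQuadraticForm Q) (hH : H ≤ isometryGroup F Q)
include hQ hH

lemma oRed (hi : ¬ Irr H) : ORed Q H := by
  have hf := hform_of_quad hQ
  rcases hf.red (hH.trans (isometryGroup_le_isoG.trans (isoG_le_sim _))) hi with
    ⟨W, h1, h2, h3⟩ | h
  swap
  · exact Or.inr (Or.inl h)
  by_cases h4 : (2 : F) = 0
  swap
  · exact Or.inl ⟨W, h1, fun w hw => quad_eq_zero_of_polar hQ h4 (h2 w hw w hw), h3⟩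
  let W₀ : Submodule F (ι → F) :=
    { carrier := {w | w ∈ W ∧ Q w = 0}
      add_mem' := fun {a b} ha hb => ⟨add_mem ha.1 hb.1, by
        rw [quad_add (Q := Q), ha.2, hb.2, h2 a ha.1 b hb.1]; simp⟩
      zero_mem' := ⟨zero_mem _, quad_zero hQ⟩
      smul_mem' := fun c v hv => ⟨W.smul_mem c hv.1, by rw [hQ.smul, hv.2, mul_zero]⟩ }
  by_cases h5 : W₀ = ⊥
  swap
  · exact Or.inl ⟨W₀, h5, fun w hw => hw.2, le_subspaceStabilizer fun g hg v hv =>
      ⟨mulVec_mem_of_le h3 hg hv.1, (mem_isometryGroup'.mp (hH hg) v).trans hv.2⟩⟩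
  obtain ⟨w, hw, hw0⟩ := (Submodule.ne_bot_iff W).mp h1
  have h6 : ∀ v ∈ W, Q v = 0 → v = 0 := fun v h6 h7 => (Submodule.eq_bot_iff _).mp h5 v ⟨h6, h7⟩
  have h7 : Q w ≠ 0 := fun h => hw0 (h6 w hw h)
  refine Or.inr (Or.inr ⟨h4, w, h7, (show W = Submodule.span F {w} from le_antisymm (fun v hv => ?_)
    ((Submodule.span_singleton_le_iff_mem _ _).mpr hw)) ▸ h3⟩)
  obtain ⟨a, ha⟩ := H13.exists_sq_eq_of_two_eq_zero h4 (Q v / Q w)
  have := h6 _ (sub_mem hv (W.smul_mem a hw)) (by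
    rw [sub_eq_add_neg, ← neg_smul, quad_add (Q := Q), h2 v hv _ (W.smul_mem _ hw), hQ.smul,
      neg_sq, ha, div_mul_cancel₀ _ h7]
    linear_combination Q v * h4)
  exact Submodule.mem_span_singleton.mpr ⟨a, (sub_eq_zero.mp this).symm⟩

lemma quad_eq_half (hn : 2 ≤ Fintype.card ι) (hi : Irr H) {k : Matrix ι ι F}
    (hk : k + adj (RingHom.id F) (polar Q) k = 1)
    (h : ∀ g ∈ H, ∀ v, polar Q ((cj g k - k) *ᵥ v) v = 0) (v : ι → F) :
    Q v = polar Q (k *ᵥ v) v := by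
  have hf := hform_of_quad hQ
  refine ((quad_eq_of_irr hn hQ (hf.quad_of_half hk).1 (c := 1)
    (fun u v => by rw [(hf.quad_of_half hk).2, one_mul]) hi hH
    (fun g hg => mem_isometryGroup'.mpr fun v => ?_) v).trans (one_mul _)).symm
  have := h g hg ((g : Matrix ι ι F) *ᵥ v)
  rw [Matrix.sub_mulVec, hf.sub_left, cj_mulVec,
    mem_isoG.mp (isometryGroup_le_isoG (hH hg)), sub_eq_zero] at this
  exact this.symm

lemma oComm (hn : 2 ≤ Fintype.card ι) (hi : Irr H) (C : Subalgebra F (Matrix ι ι F))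
    (hc : ∀ x ∈ C, ∀ y ∈ C, x * y = y * x) (hN : ∀ h ∈ H, ∀ x ∈ C, cj h x ∈ C)
    (ha : ∀ x ∈ C, adj (RingHom.id F) (polar Q) x ∈ C) (hne : C ≠ ⊥)
    (hC : ∀ K ≤ C, (Fintype.card ι).Prime → IsFieldSubalgebra (Fintype.card ι) K →
      ¬ ∀ x ∈ K, adj (RingHom.id F) (polar Q) x = x) : OComm Q H := by
  have : Nonempty ι := Fintype.card_pos_iff.mp (by omega)
  have hf := hform_of_quad hQ
  have hs := hH.trans (isometryGroup_le_isoG.trans (isoG_le_sim _))
  rcases hf.comm_cases hs hi C hc hN ha hne with ⟨t, m, D, h1, h2, h3⟩ |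
    ⟨m, e, h1, h2, h3, h4, h5, h6, h7, -⟩ | ⟨r, K, h1, h2, h0, h3, h4, -⟩
  · refine Or.inl ⟨t, m, D, ⟨h1, fun i j => ?_⟩, h2⟩
    obtain ⟨g, hg, h4⟩ := h3 i j
    exact areIsometric_of_map (hH hg) h4
  · have h8 := quad_eq_half hQ hH hn hi (k := e 0) (by rw [h3, h2]; simp) fun g hg v => by
      rcases h7 g hg with h9 | h9 <;> rw [h9]
      · rw [sub_self, Matrix.zero_mulVec, hf.zero_left]
      · rw [← h3, Matrix.sub_mulVec, hf.sub_left, ← hf.adj_spec', hf.symm, sub_self]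
    refine Or.inr (Or.inl ⟨m, _, h4, fun i v hv => ?_, h6⟩)
    rw [h8]
    fin_cases i
    · exact h5 0 _ (mulVec_mem_rng _ _) v hv
    · obtain ⟨w, rfl⟩ := mem_rng.mp hv
      simp [h2, Matrix.mul_sub, h1, hf.zero_left]
  by_cases h5 : ∀ x ∈ K, adj (RingHom.id F) (polar Q) x = x
  · refine Or.inr (Or.inr (Or.inl ⟨r, K, h1, ?_, h2, hf.selfAdj_iff.mpr h5, h4⟩))
    rintro rfl
    exact hC K h0 h1 h2 h5
  obtain rfl : r = 2 := by
    by_contra h0
    exact h5 (hf.selfAdj_of_odd h2 h3 (h1.odd_of_ne_two h0))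
  refine Or.inr (Or.inr (Or.inr ⟨K, h2, hf.adjClosed_iff.mpr h3,
    fun h0 => h5 (hf.selfAdj_iff.mp h0), fun l hl => ?_, h4⟩))
  push Not at h5
  obtain ⟨x₀, hx₀, h5⟩ := h5
  obtain ⟨x, hx, h6⟩ : ∃ x ∈ K, x + adj (RingHom.id F) (polar Q) x ≠ 0 := by
    by_contra! h6
    have h7 := h6 1 (one_mem K)
    rw [hf.adj_one] at h7
    refine h5 (eq_of_sub_eq_zero ?_)
    have := h6 x₀ hx₀
    linear_combination (norm := noncomm_ring) this - x₀ * h7
  obtain ⟨y, hy, h6⟩ := h2.inv _ (add_mem hx (h3 x hx)) h6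
  have h7 : adj (RingHom.id F) (polar Q) y = y := by
    have := congrArg (adj (RingHom.id F) (polar Q)) h6
    rw [hf.adj_mul, hf.adj_add, hf.adj_adj, hf.adj_one, add_comm] at this
    rw [← mul_one (adj _ _ y), ← h6, ← mul_assoc, this, one_mul]
  have h10 : x * y + adj (RingHom.id F) (polar Q) (x * y) = 1 := by
    rw [hf.adj_mul, h7, h2.comm y hy _ (h3 x hx), ← add_mul, h6]
  have h8 := quad_eq_half hQ hH hn hi h10 fun g hg v => by
    have h9 : adj (RingHom.id F) (polar Q) (cj g (x * y) - x * y) = -(cj g (x * y) - x * y) := by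
      rw [hf.adj_sub, hf.adj_cj (hs hg), eq_sub_of_add_eq' h10, map_sub, map_one]; abel
    by_cases h11 : (2 : F) = 0
    · refine hf.alt_of_selfAdj (polar_self_two hQ h11) h2 h3 (sub_mem
        ((mem_subalgebraNormalizer.mp (h4 hg) _).mp (mul_mem hx hy)) (mul_mem hx hy)) ?_ v
      rw [h9, neg_eq_iff_add_eq_zero, ← two_smul F, h11, zero_smul]
    · have := hf.adj_spec (cj g (x * y) - x * y) v v
      rw [h9, Matrix.neg_mulVec, hf.neg_right, hf.symm v] at this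
      exact (mul_eq_zero.mp (by linear_combination this : (2 : F) * _ = 0)).resolve_left h11
  obtain ⟨c, hc⟩ : ∃ c : F, adj (RingHom.id F) (polar Q) l * l = c • 1 := by
    have h11 : LinearIndependent F ![(1 : K), ⟨x₀, hx₀⟩] := by
      refine LinearIndependent.pair_iff' one_ne_zero |>.mpr fun a h => h5 ?_
      rw [← show a • 1 = x₀ from congrArg Subtype.val h, hf.adj_smul, hf.adj_one]; rfl
    obtain ⟨c, d, h12⟩ := Submodule.mem_span_pair.mp (show (⟨_, mul_mem (h3 l hl) hl⟩ : K) ∈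
      Submodule.span F {1, ⟨x₀, hx₀⟩} by
        have := h11.span_eq_top_of_card_eq_finrank (by simp [h2.finrank_eq])
        simp only [Matrix.range_cons, Matrix.range_empty, Set.union_empty, Set.union_singleton,
          Set.pair_comm] at this
        rw [Set.pair_comm, this]; trivial)
    replace h12 : c • 1 + d • x₀ = adj (RingHom.id F) (polar Q) l * l := congrArg Subtype.val h12
    have h13 := congrArg (adj (RingHom.id F) (polar Q)) h12
    rw [hf.adj_mul, hf.adj_adj, ← h12, hf.adj_add, hf.adj_smul, hf.adj_smul, hf.adj_one,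
      RingHom.id_apply, RingHom.id_apply, add_right_inj, ← sub_eq_zero, ← smul_sub,
      smul_eq_zero, sub_eq_zero] at h13
    exact ⟨c, by rw [← h12, h13.resolve_right h5, zero_smul, add_zero]⟩
  refine ⟨c, fun v => ?_⟩
  rw [h8, h8, hf.adj_spec', Matrix.mulVec_mulVec, Matrix.mulVec_mulVec,
    h2.comm _ (h3 l hl) _ (mul_mem hx hy), mul_assoc, hc, Matrix.mul_smul, mul_one,
    Matrix.smul_mulVec, hf.smul_left]

lemma oComm_of_commD (hn : 2 ≤ Fintype.card ι) (hp : ¬ (Fintype.card ι).Prime) (hi : Irr H)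
    (h : CommD (RingHom.id F) (polar Q) H) : OComm Q H := by
  obtain ⟨C, h1, h2, h3, h4⟩ := h
  exact oComm hQ hH hn hi C h1 h2 h3 h4 fun _ _ h => absurd h hp

lemma oSub (hn : 2 ≤ Fintype.card ι) (hi : Irr H) (h : FC5 (polar Q) H) : OSub Q H := by
  have : Nonempty ι := Fintype.card_pos_iff.mp (by omega)
  have hf := hform_of_quad hQ
  obtain ⟨F₀, r, P, ζ, h1, h2, h3, h4, h5⟩ := h
  refine ⟨F₀, r, P, ζ, h1, h2, h3, fun u hu => ?_, h5⟩
  by_cases h6 : (2 : F) = 0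
  swap
  · have := F₀.div_mem (h4 u u hu hu) (ofNat_mem F₀ 2)
    rwa [polar_self_of_quad hQ, mul_left_comm, mul_div_cancel_left₀ _ h6] at this
  let φ := RingEquiv.ofBijective (frobOf F₀)
    (Finite.injective_iff_bijective.mp (frobOf F₀).injective)
  have hφ : ∀ x, φ x = x ↔ x ∈ F₀ := frobOf_eq_iff F₀
  have h7 : (ζ • grm (polar Q) P).map (φ : F →+* F) = ζ • grm (polar Q) P :=
    Matrix.ext fun i j => (hφ _).mpr (hf.rational_iff.mp h4 i j)
  let T : (ι → F) → ι → F := fun v => (P : Matrix ι ι F) *ᵥ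
    ((φ : F →+* F) ∘ (((P⁻¹ : GL ι F) : Matrix ι ι F) *ᵥ v))
  have h8 : ∀ u v, ζ * polar Q (T u) (T v) = φ (ζ * polar Q u v) := fun u v => by
    rw [hf.eq_grm, ← mulVec_inv_mulVec P u, ← mulVec_inv_mulVec P v, hf.eq_grm, ← frm_smul,
      ← frm_smul, inv_mulVec_mulVec, inv_mulVec_mulVec]
    conv_lhs => rw [← h7]
    simp [frm_eq_sum]
  have h9 : ∀ u v, polar (fun v => ζ⁻¹ * φ.symm (ζ * Q (T v))) u v = 1 * polar Q u v := fun u v => by
    have : T (u + v) = T u + T v := by simp only [T, Matrix.mulVec_add, comp_add']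
    rw [one_mul, ← inv_mul_cancel_left₀ h3 (polar Q u v), ← φ.symm_apply_apply (ζ * polar Q u v),
      ← h8]
    simp only [QuadraticMap.polar, this, mul_sub, map_sub]
  have h10 : polar (fun v => ζ⁻¹ * φ.symm (ζ * Q (T v))) = polar Q := by
    funext u v; rw [h9, one_mul]
  have h11 := quad_eq_of_irr hn hQ ⟨fun c v => ?_, h10 ▸ hQ.polar_bilinear, h10 ▸ hQ.nondegenerate⟩
    h9 hi hH (fun g hg => mem_isometryGroup'.mpr fun v => ?_) ((P : Matrix ι ι F) *ᵥ u)
  · have h12 : T ((P : Matrix ι ι F) *ᵥ u) = (P : Matrix ι ι F) *ᵥ u := by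
      simp only [T, inv_mulVec_mulVec]
      congr 1; funext i; exact (hφ _).mpr (hu i)
    rw [h12, one_mul, inv_mul_eq_iff_eq_mul₀ h3, RingEquiv.symm_apply_eq] at h11
    exact (hφ _).mp h11.symm
  · simp only [T, Matrix.mulVec_smul, comp_smul', hQ.smul]
    rw [mul_left_comm ζ, map_mul, RingHom.coe_coe, ← map_pow, φ.symm_apply_apply]; ring
  · obtain ⟨c, hc, h12⟩ := mem_subfieldSubgroup_iff.mp (h5 hg)
    have h13 : (c • cj P⁻¹ (g : Matrix ι ι F)).map (φ : F →+* F) = c • cj P⁻¹ (g : Matrix ι ι F) :=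
      Matrix.ext fun i j => (hφ _).mpr (h12 i j)
    have h14 := congrArg (fun X => (c * c * ζ) • X) (hf.grm_inv P (isometryGroup_le_isoG (hH hg)))
    have h15 : (c • cj P⁻¹ (g : Matrix ι ι F))ᵀ * (ζ • grm (polar Q) P) *
        (c • cj P⁻¹ (g : Matrix ι ι F)) = (c * c) • (ζ • grm (polar Q) P) := by
      simpa [smul_smul, mul_comm, mul_left_comm, mul_assoc] using h14
    have h16 := congrArg (fun X => X.map (φ : F →+* F)) h15
    rw [Matrix.map_mul, Matrix.map_mul, Matrix.transpose_map, h13, h7, h15] at h16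
    have h17 : φ c = c := by
      obtain ⟨i, j, hij⟩ : ∃ i j, (ζ • grm (polar Q) P) i j ≠ 0 := by
        by_contra! h
        exact hf.grm_ne_zero P ((smul_eq_zero.mp (Matrix.ext h)).resolve_left h3)
      have h18 := congrFun (congrFun h16 i) j
      rw [Matrix.map_apply, Matrix.smul_apply (c * c), smul_eq_mul, map_mul,
        show (φ : F →+* F) _ = _ from congrFun (congrFun h7 i) j, mul_left_inj' hij,
        map_mul, RingHom.coe_coe] at h18
      exact sub_eq_zero.mp (pow_eq_zero_iff two_ne_zero |>.mp (by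
        linear_combination -h18 + (c * c - c * φ c) * h6))
    have h18 : (cj P⁻¹ (g : Matrix ι ι F)).map (φ : F →+* F) = cj P⁻¹ (g : Matrix ι ι F) :=
      Matrix.ext fun i j => mul_left_cancel₀ hc (by
        simpa [h17] using congrFun (congrFun h13 i) j)
    have h19 : T ((g : Matrix ι ι F) *ᵥ v) = (g : Matrix ι ι F) *ᵥ T v := by
      simp only [T]
      rw [← cj_mulVec, comp_mulVec, h18, ← cj_mulVec, cj_cj_inv]
    rw [h19, mem_isometryGroup'.mp (hH hg)]

end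

lemma HForm.exists_sim_odd [Finite F] {f f' : (ι → F) → (ι → F) → F}
    (hf : HForm (RingHom.id F) 1 f) (hf' : HForm (RingHom.id F) 1 f') (h2 : (2 : F) ≠ 0)
    (hn : Odd (Fintype.card ι)) : ∃ (B : GL ι F) (c : F), c ≠ 0 ∧
      ∀ u v, f' ((B : Matrix ι ι F) *ᵥ u) ((B : Matrix ι ι F) *ᵥ v) = c * f u v := by
  obtain ⟨m, hm⟩ := hn
  obtain ⟨e, c, hc, h⟩ := (nd_mkQ (hf.quad h2)).equiv_QOdd (m := m) (by simpa using hm)
  obtain ⟨e', c', hc', h'⟩ := (nd_mkQ (hf'.quad h2)).equiv_QOdd (m := m) (by simpa using hm)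
  have h3 : ∀ v, f' (e'.symm (e v)) (e'.symm (e v)) = c / c' * f v v := fun v => by
    have := (h' (e'.symm (e v))).symm.trans ((congrArg _ (e'.apply_symm_apply _)).trans (h v))
    rw [div_mul_eq_mul_div, eq_div_iff hc', mul_comm]; exact this
  refine ⟨glOfLinearEquiv (e.trans e'.symm), c / c', div_ne_zero hc hc', fun u v => ?_⟩
  have h4 := h3 (u + v)
  simp only [map_add, hf.add_left, hf.add_right, hf'.add_left, hf'.add_right, h3, hf.symm v u,
    hf'.symm (e'.symm (e v))] at h4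
  rw [glOfLinearEquiv_mulVec, glOfLinearEquiv_mulVec, e.trans_apply, e.trans_apply]
  exact mul_left_cancel₀ h2 (by linear_combination h4)

/-- the remaining cases of the structure theorem -/
def OTen [Fintype F] (Q : (ι → F) → F) (H : Subgroup (GL ι F)) : Prop :=
  ((2 : F) ≠ 0 ∧ (∃ k, Fintype.card ι = 2 ^ k) ∧ ∃ x ∈ isometryGroup F Q, ∃ y ∈ isometryGroup F Q,
    x * x = 1 ∧ (y : Matrix ι ι F) * x = -(x * y)) ∨
  (∃ (a b : ℕ) (e : ι ≃ Fin a × Fin b) (P : GL ι F) (f₁ : _) (f₂ : _), (2 : F) ≠ 0 ∧ 3 ≤ a ∧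
    a ≤ b ∧ ¬ (Fintype.card F = 3 ∧ a = 3) ∧ KronD (RingHom.id F) (polar Q) e P 1 f₁ 1 f₂ ∧
    H ≤ tensorProductSubgroup a b e P) ∨
  (∃ (a b : ℕ) (e : ι ≃ Fin a × Fin b) (P : GL ι F) (ε₁ ε₂ : F) (f₁ : _) (f₂ : _), a ≤ b ∧
    KronD (RingHom.id F) (polar Q) e P ε₁ f₁ ε₂ f₂ ∧ IsSymplecticForm f₁ ∧ IsSymplecticForm f₂ ∧
    (∀ x z, Q ((P : Matrix ι ι F) *ᵥ (kronV x z ∘ e)) = 0) ∧ H ≤ tensorProductSubgroup a b e P) ∨
  (∃ (k t : ℕ) (e : ι ≃ (Fin t → Fin k)) (P : GL ι F) (ε₁ : F) (f₁ : _),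
    PowD (RingHom.id F) (polar Q) e P ε₁ f₁ ∧ ¬ Group.IsSolvable (isoG f₁) ∧
    (((2 : F) ≠ 0 ∧ ε₁ = 1) ∨ (IsSymplecticForm f₁ ∧ ((2 : F) = 0 ∨ Even t) ∧
      ∀ x, Q ((P : Matrix ι ι F) *ᵥ (pureV x ∘ e)) = 0)) ∧ H ≤ tensorWreathSubgroup k t e P) ∨
  InOrthogonalResidualClass H

section
variable [Fintype F] (hQ : IsNondegenerateQuadraticForm Q) (hH : H ≤ isometryGroup F Q)
include hQ hH

lemma oCase_kron (hi : Irr H) {a b : ℕ} {e : ι ≃ Fin a × Fin b} {P : GL ι F} {ε₁ ε₂ : F} {f₁ : _}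
    {f₂ : _} (hab : a ≤ b) (h1 : KronD (RingHom.id F) (polar Q) e P ε₁ f₁ ε₂ f₂)
    (h2 : H ≤ tensorProductSubgroup a b e P) : OComm Q H ∨ OTen Q H := by
  have hf := hform_of_quad hQ
  have hs := hH.trans (isometryGroup_le_isoG.trans (isoG_le_sim _))
  have ha := h1.two_le₁
  have hb := h1.two_le₂
  have hn : 2 ≤ Fintype.card ι := h1.card ▸ (by nlinarith)
  have : Nonempty ι := Fintype.card_pos_iff.mp (by omega)
  have hp : ¬ (Fintype.card ι).Prime := h1.card ▸ Nat.not_prime_mul (by omega) (by omega)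
  by_cases h8 : (2 : F) = 0
  · have a1 := (h1.hf₂.one_of_two h8).alt_of_irr h8 (by simpa using hb) (h1.irr₂ hf hi h2 hs) le_rfl
    have a2 := (h1.hf₁.one_of_two h8).alt_of_irr h8 (by simpa using ha)
      (h1.swap.irr₂ hf hi (by rwa [tensorProductSubgroup_swap]) hs) le_rfl
    obtain ⟨Q', a3, a4, a5⟩ := KronD.exists_quad hf
      ⟨h1.1, h1.2, h1.hf₁.one_of_two h8, h1.4, h1.5, h1.6⟩ a2 a1
    refine Or.inr (Or.inr (Or.inr (Or.inl ⟨a, b, e, P, _, _, f₁, f₂, hab, h1, h1.hf₁.symplectic a2,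
      h1.hf₂.symplectic a1, fun x z => ?_, h2⟩)))
    rw [← a5 x z, quad_eq_of_irr hn hQ a3 (c := 1) (by simp [a4]) hi hH ((le_inf h2
      (a4 ▸ hH.trans isometryGroup_le_isoG)).trans (tensor_le_isometryGroup a3 a5)), one_mul]
  obtain ⟨c, h3, h4, h5⟩ := h1.form hf
  have h6 : (1 : F) ≠ -1 := fun h => h8 (by linear_combination h)
  rw [RingHom.id_apply, mul_comm, mul_right_inj' h3] at h4
  rcases h1.hf₁.eps_id with rfl | rfl <;> rcases h1.hf₂.eps_id with rfl | rfl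
  · rcases ha.lt_or_eq with h7 | rfl
    · by_cases h9 : Fintype.card F = 3 ∧ a = 3
      · obtain ⟨h9, rfl⟩ := h9
        exact Or.inl (oComm_of_commD hQ hH hn hp hi (h1.commD hf h2 hs (h1.hf₁.commD_three h9)))
      · exact Or.inr (Or.inr (Or.inl ⟨a, b, e, P, f₁, f₂, h8, h7, hab, h9, h1, h2⟩))
    · obtain ⟨Ω, h3, h4, h5⟩ := h1.swap.exists_comm hf h8
      exact Or.inl (oComm_of_commD hQ hH hn hp hi (hf.comm_of_skew h8 h3 h4
        fun g hg => h5 g ⟨by rw [tensorProductSubgroup_swap]; exact h2 hg, hs hg⟩))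
  · exact absurd (by simpa using h4) h6
  · exact absurd (by simpa using h4) h6
  · have a1 := h1.hf₁.alt_of_two_ne_zero h8
    refine Or.inr (Or.inr (Or.inr (Or.inl ⟨a, b, e, P, _, _, f₁, f₂, hab, h1, h1.hf₁.symplectic a1,
      h1.hf₂.symplectic (h1.hf₂.alt_of_two_ne_zero h8), fun x z =>
        quad_eq_zero_of_polar hQ h8 ((h5 _ _).trans ?_), h2⟩)))
    rw [h1.form_kronV, a1, zero_mul, mul_zero]

theorem oCase (hn : 3 ≤ Fintype.card ι) (hi : Irr H) : OComm Q H ∨ OSub Q H ∨ OTen Q H := by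
  have : Nonempty ι := Fintype.card_pos_iff.mp (by omega)
  have hn2 : 2 ≤ Fintype.card ι := by omega
  have hf := hform_of_quad hQ
  have hH' := hH.trans isometryGroup_le_isoG
  have hs : H ⊔ scalars ι F ≤ similarityGroup (polar Q) :=
    sup_le (hH'.trans (isoG_le_sim _)) (scalars_le_similarityGroup hf.toSesq)
  rcases hf.master hn2 hH' hi with ⟨N, h0, h1, h2, h3⟩ | ⟨a, b, e, P, ε₁, ε₂, f₁, f₂, h1, h2⟩ |
    ⟨N, r, h⟩ | ⟨k, t, e, P, ε₁, f₁, h1, h2, h3⟩ | ⟨P, h⟩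
  · refine Or.inl (oComm hQ hH hn2 hi _ (ctr_comm N) (cj_mem_ctr h2) (hf.adj_mem_ctr (h1.trans hs))
      h3 fun K h4 h5 h6 h7 => h0.not_ge fun x hx => ?_)
    have h8 := mem_of_commute_field h6 (x := x) fun k hk =>
      (mem_ctr.mp (h4 hk)).2 _ (coe_mem_spanAlg hx)
    obtain ⟨c, hc⟩ := hs (h1 hx)
    obtain ⟨d, hd⟩ := scalar_of_sq_of_odd h6 (h5.odd_of_ne_two (by omega)) h8 (c := c) (by
      nth_rw 1 [← h7 _ h8]
      rw [hf.adj_coe hc, Matrix.smul_mul, Units.inv_mul]; rfl)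
    exact mem_scalars_of_eq_smul hd
  · rcases le_total a b with hab | hab
    · exact (oCase_kron hQ hH hi hab h1 h2).imp_right Or.inr
    · exact (oCase_kron hQ hH hi hab h1.swap (by rwa [tensorProductSubgroup_swap])).imp_right Or.inr
  · obtain rfl := h.eq_two hf hs
    have hR := h.extraR_iso hf hs
    obtain ⟨k, hk, h1⟩ := hR.exists_card_eq_pow h
    have h2 : (2 : F) ≠ 0 := by
      have := h.card_ne_zero
      rw [h1, Nat.cast_pow] at this
      exact fun h0 => this (by rw [Nat.cast_ofNat, h0, zero_pow (by omega)])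
    have h3 : ∀ c : Fˣ, c ^ 2 = 1 → c = 1 ∨ c = -1 := fun c hc => by
      rcases mul_self_eq_one_iff.mp (show (c : F) * c = 1 by
        rw [← Units.val_mul, ← pow_two, hc, Units.val_one]) with h | h
      exacts [Or.inl (Units.ext h), Or.inr (Units.ext h)]
    obtain ⟨x, hx, h4, h5⟩ : ∃ x ∈ h.core ⊓ isoG (polar Q), x * x = 1 ∧ x ∉ scalars ι F := by
      by_contra! h4
      have h5 : ∀ X : Matrix ι ι F, ∃ c : F, X + adj (RingHom.id F) (polar Q) X = c • 1 := fun X => by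
        refine spanAlg_induction (p := fun X => ∃ c : F, X + adj (RingHom.id F) (polar Q) X = c • 1)
          (fun x hx => ?_) ⟨0, by simp [hf.adj_zero]⟩ ?_ ?_ ((hR.span h).ge Algebra.mem_top)
        · obtain ⟨c, hc⟩ := mem_scalars_sc.mp (h.pow x (hR.le hx))
          have h5 := hf.sc_mem_isoG.mp (hc ▸ pow_mem hx.2 2)
          rcases h3 c (Units.ext (by simpa [pow_two] using h5)) with rfl | rfl
          · obtain ⟨d, rfl⟩ := mem_scalars_sc.mp (h4 x hx (by rw [← pow_two, ← hc, map_one]))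
            exact ⟨d + d, by rw [sc_coe, hf.adj_smul, hf.adj_one, add_smul]; rfl⟩
          · refine ⟨0, ?_⟩
            rw [hf.adj_of_isoG hx.2, zero_smul, ← (Units.isUnit x).mul_right_inj, mul_add,
              Units.mul_inv, ← Units.val_mul, ← pow_two, ← hc, sc_coe]
            simp
        · rintro X Y ⟨c, hc⟩ ⟨d, hd⟩
          exact ⟨c + d, by rw [hf.adj_add, add_add_add_comm, hc, hd, add_smul]⟩
        · rintro c X ⟨d, hd⟩
          exact ⟨c * d, by rw [hf.adj_smul, RingHom.id_apply, ← smul_add, hd, smul_smul]⟩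
      obtain ⟨u, w, huw⟩ := hf.exists_ne
      have h6 : ∀ v, Matrix.vecMulVec w (fun i => 1 * polar Q (Pi.single i 1) w) *ᵥ v =
          polar Q v w • w := fun v => by
        rw [Matrix.vecMulVec_mulVec, hf.dot, one_mul, op_smul_eq_smul]
      obtain ⟨c, hc⟩ := h5 (Matrix.vecMulVec w fun i => 1 * polar Q (Pi.single i 1) w)
      rw [hf.adj_eq (Y := Matrix.vecMulVec w fun i => 1 * polar Q (Pi.single i 1) w) fun u v => by
        rw [h6, h6, hf.smul_left, hf.smul_right, hf.symm w, mul_comm]; rfl] at hc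
      have h7 : ∀ v, (2 * polar Q v w) • w = c • v := fun v => by
        have := congrArg (· *ᵥ v) hc
        simp only [Matrix.add_mulVec, h6, Matrix.smul_mulVec, Matrix.one_mulVec] at this
        rw [two_mul, add_smul, this]
      have := finrank_span_singleton_le w
      obtain ⟨v, hv⟩ := exists_notMem_of_finrank_lt (W := Submodule.span F {w}) (by omega)
      by_cases h8 : c = 0
      · have := h7 u
        rw [h8, zero_smul, smul_eq_zero] at this
        exact this.elim (mul_ne_zero h2 huw) fun h => huw (by rw [h, hf.zero_right])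
      · exact hv ((Submodule.smul_mem_iff _ h8).mp (h7 v ▸ Submodule.smul_mem _ _
          (Submodule.mem_span_singleton_self w)))
    obtain ⟨y, hy, h6⟩ : ∃ y ∈ h.core ⊓ isoG (polar Q), x * y ≠ y * x := by
      by_contra! h6
      exact h5 (mem_scalars_of_commute (hR.span h) h6)
    obtain ⟨c, h7, h8⟩ := h.exists_comm (hR.le hx) (hR.le hy)
    rcases h3 c h7 with rfl | rfl
    · exact absurd (by rw [h8, map_one, one_mul]) h6
    exact Or.inr (Or.inr (Or.inl ⟨h2, ⟨k, h1⟩, x, isoG_le_isometryGroup hQ h2 hx.2, y,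
      isoG_le_isometryGroup hQ h2 hy.2, h4, by rw [← Units.val_mul, h8, sc_mul_coe]; simp⟩))
  · iterate 5 right
    refine Or.inl ⟨k, t, e, P, ε₁, f₁, h1, h2, ?_, h3⟩
    by_cases h8 : (2 : F) = 0
    · have a1 := h1.alt hf (polar_self_two hQ h8)
      obtain ⟨Q', a3, a4, a5⟩ := PowD.exists_quad hf ⟨h1.1, h1.2, h1.hf₁.one_of_two h8, h1.4⟩ a1
      refine Or.inr ⟨h1.hf₁.symplectic a1, Or.inl h8, fun x => ?_⟩
      rw [← a5 x, quad_eq_of_irr hn2 hQ a3 (c := 1) (by simp [a4]) hi hH ((le_inf h3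
        (a4 ▸ hH')).trans (wreath_le_isometryGroup a3 a5)), one_mul]
    · obtain ⟨c, h4, h6, h5⟩ := h1.form hf
      rw [RingHom.id_apply, mul_comm, mul_right_inj' h4] at h6
      rcases h1.hf₁.eps_id with rfl | rfl
      · exact Or.inl ⟨h8, rfl⟩
      have a1 := h1.hf₁.alt_of_two_ne_zero h8
      refine Or.inr ⟨h1.hf₁.symplectic a1, Or.inr (Nat.not_odd_iff_even.mp fun h0 => h8 ?_),
        fun x => quad_eq_zero_of_polar hQ h8 ((h5 _ _).trans ?_)⟩
      · rw [h0.neg_one_pow] at h6; linear_combination h6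
      · have := h1.two_le_t
        rw [h1.form_pureV, Finset.prod_eq_zero (Finset.mem_univ (⟨0, by omega⟩ : Fin t)) (a1 _), mul_zero]
  · by_cases h1 : ∃ F₀ : Subfield F, F₀ ≠ ⊤ ∧ RealisableOver F₀ (matrixSet P)
    · obtain ⟨F₀, h1, h2⟩ := h1
      exact Or.inr (Or.inl (oSub hQ hH hn2 hi
        (hf.fc5_of_realisable h.span (h.le_iso.trans hH') h.normal' h1 h2)))
    iterate 6 right
    refine ⟨P, h.core fun F₀ h3 h4 => h1 ⟨F₀, h3, h4⟩, ?_⟩
    rintro ⟨σ, f', h3, h4⟩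
    exact h1 (realisable_of_two_forms (hform_of_unitary h3) (coe_ne_id h3.ne_refl) hf h.span
      (fixes_of_fixesForm h4) (h.le_iso.trans hH'))

end

end Cfsg.Agent.H18
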