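import Cfsg.Agent.H18.O4

/-! Maximal subgroups of the even-dimensional orthogonal groups. -/

set_option autoImplicit false

namespace Cfsg.Agent.H18

open Cfsg.Geo QuadraticMap Module
open scoped MatrixGroups Matrix Kronecker commutatorElement

variable {ι : Type} [Fintype ι] [DecidableEq ι] {F : Type*} [Field F] [Fintype F]
  {Q : (ι → F) → F} {H : Subgroup (GL ι F)}

/-- the reducible cases -/
def EvR (Q : (ι → F) → F) (H : Subgroup (GL ι F)) : Prop :=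
  (∃ W, W ≠ ⊥ ∧ IsTotallySingularQuad Q W ∧
    (IsPlusTypeOn Q ⊤ → 2 * (finrank F W + 1) ≠ Fintype.card ι) ∧
    H = subspaceStabilizer W ⊓ omegaGL Q) ∨
  (Odd (Fintype.card F) ∧ ∃ W : Submodule F (ι → F), W ≠ ⊥ ∧ W ≠ ⊤ ∧ Odd (finrank F W) ∧
    2 * finrank F W ≠ Fintype.card ι ∧ IsNondegenerateOn (polar Q) W ∧
    H = subspaceStabilizer W ⊓ omegaGL Q) ∨
  (∃ (W : Submodule F (ι → F)) (k : ℕ), 0 < k ∧ finrank F W = 2 * k ∧ 4 * k ≤ Fintype.card ι ∧
    (4 * k = Fintype.card ι → ¬ IsPlusTypeOn Q ⊤) ∧ (k = 1 → IsPlusTypeOn Q W → 4 ≤ Fintype.card F) ∧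
    IsNondegenerateOn (polar Q) W ∧ H = subspaceStabilizer W ⊓ omegaGL Q) ∨
  (¬ Odd (Fintype.card F) ∧ ∃ v, Q v ≠ 0 ∧
    H = subspaceStabilizer (Submodule.span F {v}) ⊓ omegaGL Q)

/-- the imprimitive cases -/
def EvD (Q : (ι → F) → F) (H : Subgroup (GL ι F)) : Prop :=
  (∃ (t m : ℕ) (D : Fin t → Submodule F (ι → F)), Fintype.card ι = t * m ∧ 2 ≤ t ∧
    (m = 1 → (Fintype.card F).Prime) ∧ (Odd m → Odd (Fintype.card F)) ∧
    (m = 2 → 7 ≤ Fintype.card F ∧ (∀ i, IsPlusTypeOn Q (D i)) ∨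
      Fintype.card F ≠ 3 ∧ ∀ i, ¬ IsPlusTypeOn Q (D i)) ∧
    (m = 3 → 5 ≤ Fintype.card F) ∧ (m = 4 → ∀ i, IsPlusTypeOn Q (D i) → 3 ≤ Fintype.card F) ∧
    IsOrthogonalMDecomposition Q m D ∧ H = decompositionStabilizer D ⊓ omegaGL Q) ∨
  (∃ (m : ℕ) (D : Fin 2 → Submodule F (ι → F)), Fintype.card ι = 2 * m ∧ Odd m ∧
    Odd (Fintype.card F) ∧ IsNondegenerateMDecomposition (polar Q) m D ∧
    ¬ AreIsometricFor Q (D 0) (D 1) ∧ H = decompositionStabilizer D ⊓ omegaGL Q) ∨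
  (∃ (m : ℕ) (D : Fin 2 → Submodule F (ι → F)), Fintype.card ι = 2 * m ∧ Even m ∧
    IsPlusTypeOn Q ⊤ ∧ IsMDecomposition m D ∧ (∀ i, IsTotallySingularQuad Q (D i)) ∧
    H = decompositionStabilizer D ⊓ omegaGL Q)

/-- the subfield case -/
def EvS (Q : (ι → F) → F) (H : Subgroup (GL ι F)) : Prop :=
  ∃ (F₀ : Subfield F) (r : ℕ) (P : GL ι F) (ζ : F), r.Prime ∧ (¬ IsPlusTypeOn Q ⊤ → Odd r) ∧
    Fintype.card F = Nat.card F₀ ^ r ∧ ζ ≠ 0 ∧
    IsQuadFormRationalStructure (fun v => ζ * Q v) F₀ P ∧ H = subfieldSubgroup F₀ P ⊓ omegaGL Q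

/-- the extension field cases -/
def EvF (Q : (ι → F) → F) (H : Subgroup (GL ι F)) : Prop :=
  (∃ (r : ℕ) (K : Subalgebra F (Matrix ι ι F)), r.Prime ∧ r ∣ Fintype.card ι ∧
    (Fintype.card ι = 2 * r → r = 2) ∧ (¬ Odd (Fintype.card F) → 2 * r ∣ Fintype.card ι) ∧
    IsFieldSubalgebra r K ∧ IsSelfAdjointFor (polar Q) K ∧ H = subalgebraNormalizer K ⊓ omegaGL Q) ∨
  (∃ K : Subalgebra F (Matrix ι ι F), (IsPlusTypeOn Q ⊤ → 4 ∣ Fintype.card ι) ∧
    IsFieldSubalgebra 2 K ∧ IsAdjointClosedFor (polar Q) K ∧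
    ¬ IsSelfAdjointFor (polar Q) K ∧ (∀ k ∈ K, ∃ c : F, ∀ v, Q (k *ᵥ v) = c * Q v) ∧
    H = subalgebraNormalizer K ⊓ omegaGL Q)

/-- a maximal subgroup of an even-dimensional orthogonal group -/
structure EvH (Q : (ι → F) → F) (H : Subgroup (GL ι F)) : Prop where
  nd : IsNondegenerateQuadraticForm Q
  even : Even (Fintype.card ι)
  le : 8 ≤ Fintype.card ι
  eight : Fintype.card ι = 8 → ¬ IsPlusTypeOn Q ⊤
  max : IsMaximalIn (omegaGL Q) H

namespace EvH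

variable (h : EvH Q H)
include h

lemma five : 5 ≤ Fintype.card ι := by have := h.le; omega

lemma iso : H ≤ isometryGroup F Q := h.max.1.le.trans omegaGL_le

lemma stab {W : Submodule F (ι → F)} (h1 : W ≠ ⊥) (h2 : finrank F W < Fintype.card ι)
    (h3 : H ≤ subspaceStabilizer W) : H = subspaceStabilizer W ⊓ omegaGL Q :=
  eq_of_maximal h.max h3 (omega_not_le_stab h.nd h.five h1 (by rintro rfl; simp at h2))

lemma dec {t m : ℕ} {D : Fin t → Submodule F (ι → F)}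
    (h1 : IsNondegenerateMDecomposition (polar Q) m D) (h3 : H ≤ decompositionStabilizer D) :
    H = decompositionStabilizer D ⊓ omegaGL Q :=
  eq_of_maximal h.max h3 (omega_not_le_ndDecomp h.nd h.five h1)

lemma odd {W : Submodule F (ι → F)} (h1 : IsNondegenerateOn (polar Q) W) (h2 : Odd (finrank F W)) :
    Odd (Fintype.card F) := two_ne_zero_iff_odd.mp fun h3 => Nat.not_even_iff_odd.mpr h2
      ((hform_of_quad h.nd).even_of_nondegOn (fun v _ => polar_self_two h.nd h3 v) h1)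

lemma sub (h1 : OSub Q H) : EvS Q H := by
  obtain ⟨F₀, r, P, ζ, a1, a2, a3, a4, a5⟩ := h1
  exact ⟨F₀, r, P, ζ, a1, fun h2 => a1.odd_of_ne_two fun h3 => h2
    (plus_of_subfield h.nd h.even (h3 ▸ a2) a3 a4), a2, a3, a4,
    eq_of_maximal h.max a5 (omega_not_le_subfield h.nd h.five (ne_top_of_card_eq_pow a1 a2) P)⟩

lemma frame {t : ℕ} {D : Fin t → Submodule F (ι → F)} (hD : IsOrthogonalMDecomposition Q 1 D)
    (h1 : H ≤ decompositionStabilizer D) : EvD Q H ∨ EvS Q H := by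
  have h2 := hD.decomp.decomp.two_le
  have h3 := h.odd (hD.decomp.nondegenerate ⟨0, by omega⟩) (hD.decomp.decomp.finrank_eq _ ▸ odd_one)
  by_cases hp : (Fintype.card F).Prime
  · exact Or.inl (Or.inl ⟨t, 1, D, card_eq_of_isMDecomposition hD.decomp.decomp, h2, fun _ => hp,
      fun _ => h3, by simp, by simp, by simp, hD, h.dec hD.decomp h1⟩)
  · obtain ⟨F₀, r, P, ζ, b1, b2, b3, b4, b5⟩ :=
      oSub_of_frame h.nd (two_ne_zero_iff_odd.mpr h3) hp hD
    exact Or.inr (h.sub ⟨F₀, r, P, ζ, b1, b2, b3, b4, (le_inf h1 h.iso).trans b5⟩)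

lemma ts {W : Submodule F (ι → F)} (h1 : W ≠ ⊥) (h2 : IsTotallySingularQuad Q W)
    (h3 : H ≤ subspaceStabilizer W) : EvR Q H := by
  have := h.le
  by_cases h4 : IsPlusTypeOn Q ⊤ ∧ 2 * (finrank F W + 1) = Fintype.card ι
  · obtain ⟨M, a1, a2, a3⟩ := le_stab_max h.nd h.five h4.1 h2 h4.2
    have a4 : M ≠ ⊥ := by rintro rfl; rw [finrank_bot] at a2; omega
    exact Or.inl ⟨M, a4, a1, fun _ => by omega,
      h.stab a4 (by omega) ((le_inf h3 h.max.1.le).trans a3)⟩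
  · have := two_mul_le_of_ts h.nd (hform_of_quad h.nd).nondegOn_top le_top h2
    rw [finrank_top, finrank_fintype_fun_eq_card] at this
    exact Or.inl ⟨W, h1, h2, not_and.mp h4, h.stab h1 (by omega) h3⟩

lemma vec {v : ι → F} (h1 : Q v ≠ 0) (h2 : H ≤ subspaceStabilizer (Submodule.span F {v})) :
    EvR Q H := by
  have := h.le
  have h3 := finrank_span_of_quad h.nd h1
  have h4 : Submodule.span F {v} ≠ ⊥ := fun h => by rw [h, finrank_bot] at h3; omega
  have h5 := h.stab h4 (by omega) h2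
  by_cases h6 : Odd (Fintype.card F)
  · exact Or.inr (Or.inl ⟨h6, _, h4, fun h => by
      rw [h, finrank_top, finrank_fintype_fun_eq_card] at h3; omega, h3 ▸ odd_one, by omega,
      nondegOn_span h.nd (two_ne_zero_iff_odd.mpr h6) h1, h5⟩)
  · exact Or.inr (Or.inr (Or.inr ⟨h6, v, h1, h5⟩))

lemma red (hi : ¬ Irr H) : EvR Q H ∨ EvD Q H := by
  have hf := hform_of_quad h.nd
  have := h.le
  rcases oRed h.nd h.iso hi with ⟨W, a1, a2, a3⟩ | ⟨W, a1, a2, a3, a4⟩ | ⟨-, v, a1, a2⟩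
  · exact Or.inl (h.ts a1 a2 a3)
  swap
  · exact Or.inl (h.vec a1 a2)
  have a5 := h.stab a1 (by omega) a4
  have a6 := Submodule.one_le_finrank_iff.mpr a1
  have key : 2 * finrank F W = Fintype.card ι → finrank F W ≠ 4 →
      (¬ Odd (finrank F W) → AreIsometricFor Q W (hf.perp W)) → EvD Q H := fun b1 b2 b3 => by
    obtain ⟨c1, c2⟩ := hf.pair_decomp a1 a2 b1
    have c3 := h.dec c1 ((le_inf (h.iso.trans (isometryGroup_le_isoG.trans (isoG_le_sim _))) a4).trans c2)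
    by_cases c4 : AreIsometricFor Q W (hf.perp W)
    · exact Or.inl ⟨2, _, _, b1.symm, le_rfl, by omega, h.odd a2, by omega, by omega, by omega,
        ⟨c1, fun i j => by
          fin_cases i <;> fin_cases j
          exacts [⟨.refl _ _, fun _ => rfl⟩, c4, AreIsometricFor.symm c4, ⟨.refl _ _, fun _ => rfl⟩]⟩,
        c3⟩
    · have c5 := not_imp_comm.mp b3 c4
      exact Or.inr (Or.inl ⟨_, _, b1.symm, c5, h.odd a2 c5, c1, c4, c3⟩)
  rcases Nat.even_or_odd (finrank F W) with ⟨k, hk⟩ | hk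
  · by_cases b1 : k = 1 ∧ IsPlusTypeOn Q W ∧ Fintype.card F ≤ 3
    · obtain ⟨v, b2, b3⟩ := le_stab_of_plus h.nd b1.2.2 a2 (by omega) b1.2.1
      exact Or.inl (h.vec b2 ((le_inf a4 h.iso).trans b3))
    by_cases b2 : 4 * k = Fintype.card ι ∧ IsPlusTypeOn Q ⊤
    · have := mt h.eight (not_not.mpr b2.2)
      have b3 := hf.nondegOn_perp a2
      have b4 := (hf.finrank_perp a2).1
      exact Or.inr (key (by omega) (by omega) fun _ => isometric_of_type h.nd a2 b3 (m := k - 1)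
        (by omega) (by omega) ⟨fun b5 => plus_of_top h.nd b3 b2.2 (by rwa [hf.perp_perp a2]),
          plus_of_top h.nd a2 b2.2⟩)
    · exact Or.inl (Or.inr (Or.inr (Or.inl ⟨W, k, by omega, by omega, by omega, not_and.mp b2,
        fun b3 b4 => by have := not_and.mp (not_and.mp b1 b3) b4; omega, a2, a5⟩)))
  · by_cases b1 : 2 * finrank F W = Fintype.card ι
    · exact Or.inr (key b1 (by rintro b2; rw [b2] at hk; exact absurd hk (by decide)) (absurd hk))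
    · exact Or.inl (Or.inr (Or.inl ⟨h.odd a2 hk, W, a1, by rintro rfl; simp at a3; omega, hk, b1, a2,
        a5⟩))

lemma odec {t m : ℕ} {D : Fin t → Submodule F (ι → F)} (hD : IsOrthogonalMDecomposition Q m D)
    (h1 : H ≤ decompositionStabilizer D) : EvR Q H ∨ EvD Q H ∨ EvS Q H := by
  have h2 := hD.decomp.decomp.two_le
  have h3 := le_inf h1 h.iso
  have h4 := two_le_card (F := F)
  let i₀ : Fin t := ⟨0, by omega⟩
  have h5 : Odd m → Odd (Fintype.card F) := fun hm =>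
    h.odd (hD.decomp.nondegenerate i₀) (hD.decomp.decomp.finrank_eq _ ▸ hm)
  have h6 : IsPlusTypeOn Q (D i₀) → ∀ i, IsPlusTypeOn Q (D i) := fun hp i =>
    plus_of_isometric h.nd (hD.isometric _ _) hp
  have h7 : ¬ IsPlusTypeOn Q (D i₀) → ∀ i, ¬ IsPlusTypeOn Q (D i) := fun hp i =>
    mt (plus_of_isometric h.nd (hD.isometric _ _)) hp
  by_cases a1 : m = 1
  · exact Or.inr (h.frame (a1 ▸ hD) h1)
  by_cases a2 : m = 2 ∧ IsPlusTypeOn Q (D i₀) ∧ Fintype.card F ≤ 6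
  · obtain ⟨rfl, a2, a3⟩ := a2
    have : Fintype.card F ≠ 6 := fun h => absurd (h ▸ FiniteField.isPrimePow_card F) (by decide)
    obtain a3 | a3 | a3 : Fintype.card F ≤ 3 ∨ Fintype.card F = 4 ∨ Fintype.card F = 5 := by omega
    · exact (h.red (not_irr_of_plus h.nd a3 hD (h6 a2) h3)).imp_right Or.inl
    · obtain ⟨F₀, r, P, ζ, b1, b2, b3, b4, b5⟩ := oSub_of_four h.nd a3 hD (h6 a2)
      exact Or.inr (Or.inr (h.sub ⟨F₀, r, P, ζ, b1, b2, b3, b4, h3.trans b5⟩))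
    · obtain ⟨D', b1, b2⟩ := oframe_five h.nd a3 hD (h6 a2)
      exact Or.inr (h.frame b1 (h3.trans b2))
  by_cases a3 : m = 2 ∧ ¬ IsPlusTypeOn Q (D i₀) ∧ Fintype.card F = 3
  · obtain ⟨rfl, a3, a4⟩ := a3
    obtain ⟨D', b1, b2⟩ := oframe_minus_three h.nd a4 hD a3
    exact Or.inr (h.frame b1 (h3.trans b2))
  by_cases a4 : m = 3 ∧ Fintype.card F = 3
  · obtain ⟨rfl, a4⟩ := a4
    obtain ⟨D', b1, b2⟩ := oframe_three h.nd a4 hD
    exact Or.inr (h.frame b1 (h3.trans b2))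
  by_cases a5 : m = 4 ∧ IsPlusTypeOn Q (D i₀) ∧ Fintype.card F = 2
  · obtain ⟨rfl, a5, a6⟩ := a5
    obtain ⟨D', b1, b2, b3⟩ := refine_two h.nd a6 hD (h6 a5)
    exact Or.inr (Or.inl (Or.inl ⟨_, 2, D', card_eq_of_isMDecomposition b1.decomp.decomp, by omega,
      by simp, by simp, fun _ => Or.inr ⟨by omega, b2⟩, by simp, by simp, b1,
      h.dec b1.decomp (h3.trans b3)⟩))
  refine Or.inr (Or.inl (Or.inl ⟨t, m, D, card_eq_of_isMDecomposition hD.decomp.decomp, h2,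
    fun b => absurd b a1, h5, fun b => ?_, fun b => ?_, fun b i b' => ?_, hD, h.dec hD.decomp h1⟩))
  · by_cases hp : IsPlusTypeOn Q (D i₀)
    · exact Or.inl ⟨by have := not_and.mp (not_and.mp a2 b) hp; omega, h6 hp⟩
    · exact Or.inr ⟨not_and.mp (not_and.mp a3 b) hp, h7 hp⟩
  · obtain ⟨k, hk⟩ := h5 (b ▸ by decide)
    have := not_and.mp a4 b
    omega
  · have := not_and.mp (not_and.mp a5 b) (by_contra fun hp => h7 hp i b')
    omega

lemma comm (hi : Irr H) (h1 : OComm Q H) : EvR Q H ∨ EvD Q H ∨ EvS Q H ∨ EvF Q H := by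
  have := h.le
  have : Nonempty ι := Fintype.card_pos_iff.mp (by omega)
  have hf := hform_of_quad h.nd
  rcases OComm.half h.nd h.iso (by omega) hi h1 with ⟨t, m, D, a1, a2⟩ | ⟨m, D, a1, a2, a3⟩ |
    ⟨r, K, a1, -, a2, a3, a4, a5⟩ | ⟨K, a1, a2, a3, a4, a5⟩
  · exact (h.odec a1 a2).imp_right (Or.imp_right Or.inl)
  · have b1 := card_eq_of_isMDecomposition a1
    rcases Nat.even_or_odd m with hm | hm
    · exact Or.inr (Or.inl (Or.inr (Or.inr ⟨m, D, b1, hm, ⟨D 0, le_top, a2 0, by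
        simp [a1.finrank_eq, b1]⟩, a1, a2,
        eq_of_maximal h.max a3 (omega_not_le_pair h.nd h.five a1 a2)⟩)))
    · exact Or.inl (h.ts (fun h => by have := a1.finrank_eq 0; rw [h, finrank_bot] at this; omega)
        (a2 0) ((le_inf a3 h.max.1.le).trans (pair_le_stab h.nd h.five hm a1 a2)))
  · refine Or.inr (Or.inr (Or.inr (Or.inl ⟨r, K, a1, dvd_card_of_isFieldSubalgebra a3, a2, fun b => ?_,
      a3, a4, eq_of_maximal h.max a5 (omega_not_le_field h.nd h.five a1.two_le a3)⟩)))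
    exact hf.two_mul_dvd a3 a4 fun k hk => hf.alt_of_selfAdj (polar_self_two h.nd
      (not_not.mp (mt two_ne_zero_iff_odd.mp b))) a3
      (fun x hx => (hf.selfAdj_iff.mp a4 x hx).symm ▸ hx) hk (hf.selfAdj_iff.mp a4 k hk)
  · exact Or.inr (Or.inr (Or.inr (Or.inr ⟨K, fun b => four_dvd_of_unitary h.nd b a1 a2 a4, a1, a2, a3,
      a4, eq_of_maximal h.max a5 (omega_not_le_field h.nd h.five le_rfl a1)⟩)))

end EvH

/-- a tensor decomposition with a symplectic plane -/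
def EvT (Q : (ι → F) → F) (H : Subgroup (GL ι F)) (b : ℕ) : Prop :=
  IsPlusTypeOn Q ⊤ ∧ 3 ≤ Fintype.card F ∧ ∃ (e : ι ≃ Fin 2 × Fin b) (P : GL ι F) (f₁ : _) (f₂ : _),
    IsSymplecticForm f₁ ∧ IsSymplecticForm f₂ ∧ IsTensorFormStructure id (polar Q) f₁ f₂ e P ∧
    (∀ x z, Q ((P : Matrix ι ι F) *ᵥ (kronV x z ∘ e)) = 0) ∧
    H = tensorProductSubgroup 2 b e P ⊓ omegaGL Q

lemma EvH.two (h : EvH Q H) (hi : Irr H) {b : ℕ} {e : ι ≃ Fin 2 × Fin b} {P : GL ι F} {ε₁ ε₂ : F}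
    {f₁ : _} {f₂ : _} (h1 : KronD (RingHom.id F) (polar Q) e P ε₁ f₁ ε₂ f₂) (h2 : IsSymplecticForm f₁)
    (h3 : IsSymplecticForm f₂) (h4 : ∀ x z, Q ((P : Matrix ι ι F) *ᵥ (kronV x z ∘ e)) = 0)
    (h5 : H ≤ tensorProductSubgroup 2 b e P) : OComm Q H ∨ EvT Q H b := by
  have := h.le
  have h6 := h1.card
  have hf := hform_of_quad h.nd
  rcases (two_le_card (F := F)).lt_or_eq with h7 | h7
  · exact Or.inr ⟨plus_of_kron_two h.nd h4, h7, e, P, f₁, f₂, h2, h3, h1.struct hf, h4,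
      eq_of_maximal h.max h5 (omega_not_le_tensor h.nd h.five le_rfl (by omega) e P)⟩
  · exact Or.inl (oComm_of_commD h.nd h.iso (by omega) (h6 ▸ Nat.not_prime_mul (by omega) (by omega)) hi
      (h1.commD hf h5 (h.iso.trans (isometryGroup_le_isoG.trans (isoG_le_sim _)))
        (commD_F2 h7.symm h2 _)))

omit [Fintype F] in
lemma omegaGL_le_SL : omegaGL Q ≤ specialLinear ι F :=
  Subgroup.map_le_iff_le_comap.mpr (Abelianization.commutator_subset_ker
    (Matrix.GeneralLinearGroup.det.comp (isometryGroup F Q).subtype))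

theorem EvH.cases (h : EvH Q H) (hn : Fintype.card ι ≤ 12) :
    EvR Q H ∨ EvD Q H ∨ EvS Q H ∨ EvF Q H ∨ (Fintype.card ι = 12 ∧ EvT Q H 6) ∨
    (Fintype.card ι = 12 ∧ ¬ IsPlusTypeOn Q ⊤ ∧ Odd (Fintype.card F) ∧ 5 ≤ Fintype.card F ∧
      ∃ (e : ι ≃ Fin 3 × Fin 4) (P : GL ι F) (f₁ : _) (f₂ : _), IsSymmetricForm f₁ ∧
        IsSymmetricForm f₂ ∧ ¬ IsPlusTypeOn (fun v => f₂ v v) ⊤ ∧
        IsTensorFormStructure id (polar Q) f₁ f₂ e P ∧
        H = tensorProductSubgroup 3 4 e P ⊓ omegaGL Q) ∨ InOrthogonalResidualClass H := by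
  have h8 := h.le
  have : Nonempty ι := Fintype.card_pos_iff.mp (by omega)
  have hf := hform_of_quad h.nd
  have hs := h.iso.trans (isometryGroup_le_isoG.trans (isoG_le_sim _))
  obtain ⟨n, hn'⟩ := h.even
  by_cases hi : Irr H
  swap
  · exact (h.red hi).imp_right Or.inl
  have h1 := fun h' => (h.comm hi h').imp_right (Or.imp_right (Or.imp_right (Or.inl (b :=
    (Fintype.card ι = 12 ∧ EvT Q H 6) ∨
    (Fintype.card ι = 12 ∧ ¬ IsPlusTypeOn Q ⊤ ∧ Odd (Fintype.card F) ∧ 5 ≤ Fintype.card F ∧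
      ∃ (e : ι ≃ Fin 3 × Fin 4) (P : GL ι F) (f₁ : _) (f₂ : _), IsSymmetricForm f₁ ∧
        IsSymmetricForm f₂ ∧ ¬ IsPlusTypeOn (fun v => f₂ v v) ⊤ ∧
        IsTensorFormStructure id (polar Q) f₁ f₂ e P ∧
        H = tensorProductSubgroup 3 4 e P ⊓ omegaGL Q) ∨ InOrthogonalResidualClass H))))
  rcases oCase h.nd h.iso (by omega) hi with h2 | h2 | ⟨a1, ⟨k, hk⟩, x, a2, y, a3, a4, a5⟩ |
    ⟨a, b, e, P, f₁, f₂, a1, a2, a3, a4, a5, a6⟩ | ⟨a, b, e, P, ε₁, ε₂, f₁, f₂, a1, a2, a3, a4, a5, a6⟩ |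
    ⟨k, t, e, P, ε₁, f₁, a1, a2, a3, a4⟩ | h2
  · exact h1 h2
  · exact Or.inr (Or.inr (Or.inl (h.sub h2)))
  · have : k < 4 := (Nat.pow_lt_pow_iff_right one_lt_two).mp (by omega)
    have h3 : Fintype.card ι = 8 := by interval_cases k <;> omega
    exact absurd (plus_of_extra h.nd a1 ⟨2, h3⟩ a2 a3 a4 a5) (h.eight h3)
  · have h3 := a5.card
    obtain rfl : a = 3 := by nlinarith
    obtain rfl : b = 4 := by omega
    have h4 := two_ne_zero_iff_odd.mp a1
    by_cases hp : IsPlusTypeOn Q ⊤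
    swap
    · have := two_le_card (F := F)
      iterate 5 right
      exact Or.inl ⟨h3, hp, h4, by obtain ⟨k, hk⟩ := h4; omega, e, P, f₁, f₂, a5.hf₁.symmetric,
        a5.hf₂.symmetric, mt (plus_iff_kron h.nd a1 a5).mpr hp, a5.struct hf,
        eq_of_maximal h.max a6 (omega_not_le_tensor h.nd h.five (by omega) (by omega) e P)⟩
    obtain ⟨b, e', P', ε₁, ε₂, g₁, g₂, b1, b2⟩ := a5.two_of_plus hf a1 (by decide)
      ((plus_iff_kron h.nd a1 a5).mp hp)
    replace b2 := (le_inf (le_inf a6 (h.iso.trans isometryGroup_le_isoG))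
      (h.max.1.le.trans omegaGL_le_SL)).trans b2
    obtain rfl : b = 6 := by have := b1.card; omega
    obtain ⟨c, b3, b4, b5⟩ := b1.form hf
    have b6 : (1 : F) ≠ -1 := fun h => a1 (by linear_combination h)
    rw [RingHom.id_apply, mul_comm, mul_right_inj' b3] at b4
    rcases b1.hf₁.eps_id with rfl | rfl <;> rcases b1.hf₂.eps_id with rfl | rfl
    · obtain ⟨Ω, c1, c2, c3⟩ := b1.swap.exists_comm hf a1
      exact h1 (oComm_of_commD h.nd h.iso (by omega) (h3 ▸ by decide) hi (hf.comm_of_skew a1 c1 c2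
        fun g hg => c3 g ⟨by rw [tensorProductSubgroup_swap]; exact b2 hg, hs hg⟩))
    · exact absurd (by simpa using b4) b6
    · exact absurd (by simpa using b4) b6
    · have c1 := b1.hf₁.alt_of_two_ne_zero a1
      exact (h.two hi b1 (b1.hf₁.symplectic c1) (b1.hf₂.symplectic (b1.hf₂.alt_of_two_ne_zero a1))
        (fun x z => quad_eq_zero_of_polar h.nd a1 ((b5 _ _).trans (by
          rw [b1.form_kronV, c1, zero_mul, mul_zero]))) b2).elim h1
        fun c2 => Or.inr (Or.inr (Or.inr (Or.inr (Or.inl ⟨h3, c2⟩))))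
  · have h3 := a2.card
    have := a2.two_le₁
    obtain ⟨a', ha⟩ : Even a := by simpa using even_card_of_symplectic a3
    obtain ⟨b', hb⟩ : Even b := by simpa using even_card_of_symplectic a4
    obtain rfl : a = 2 := by
      by_contra h4
      have : 4 ≤ a := by omega
      nlinarith
    refine (h.two hi a2 a3 a4 a5 a6).elim h1 fun c2 => ?_
    have := mt h.eight (not_not.mpr c2.1)
    obtain rfl : b = 6 := by omega
    exact Or.inr (Or.inr (Or.inr (Or.inr (Or.inl ⟨h3, c2⟩))))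
  · have h3 := a1.card
    have h4 := a1.two_le_k
    have h5 := a1.two_le_t
    obtain ⟨h6, h7⟩ := le_of_pow_eq h4 h5 h3
    have : k ≤ 3 := by nlinarith
    have : t < 4 := (Nat.pow_lt_pow_iff_right one_lt_two).mp (by
      have := Nat.pow_le_pow_left h4 t; omega)
    obtain ⟨rfl, rfl⟩ : k = 2 ∧ t = 3 := by interval_cases k <;> interval_cases t <;> omega
    rcases a3 with ⟨b1, rfl⟩ | ⟨b1, -, b2⟩
    · exact absurd (a1.hf₁.solvable_O2 b1) a2
    · exact absurd (plus_of_pow_two h.nd a1 b1.alternating b2) (h.eight h3)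
  · iterate 6 right
    exact h2

end Cfsg.Agent.H18
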