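import Cfsg.Agent.H18.OmType

/-! Extension fields in orthogonal groups. -/

set_option autoImplicit false

namespace Cfsg.Agent.H18

open Cfsg.Geo QuadraticMap Module
open scoped MatrixGroups Matrix Kronecker commutatorElement

variable {ι : Type} [Fintype ι] [DecidableEq ι] {F : Type*} [Field F] {Q : (ι → F) → F}
  {H : Subgroup (GL ι F)} {r : ℕ} {K : Subalgebra F (Matrix ι ι F)}

lemma dvd_finrank_of_inv [Nonempty ι] (hK : IsFieldSubalgebra r K) {U : Submodule F (ι → F)}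
    (h : ∀ k ∈ K, ∀ u ∈ U, k *ᵥ u ∈ U) : r ∣ finrank F U := by
  let := (isField_of_inv K hK.comm hK.inv).toField
  have : IsScalarTower F K (ι → F) := ⟨fun c k v => Matrix.smul_mulVec c (k : Matrix ι ι F) v⟩
  let U' : Submodule K (ι → F) := { U with smul_mem' := fun k u hu => h k k.2 u hu }
  have h1 := finrank_mul_finrank F K U'
  rw [hK.finrank_eq] at h1
  exact ⟨_, h1.symm⟩

lemma four_dvd_of_unitary [Nonempty ι] (hQ : IsNondegenerateQuadraticForm Q)
    (hp : IsPlusTypeOn Q ⊤) (hK : IsFieldSubalgebra 2 K) (h1 : IsAdjointClosedFor (polar Q) K)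
    (h2 : ∀ k ∈ K, ∃ c : F, ∀ v, Q (k *ᵥ v) = c * Q v) : 4 ∣ Fintype.card ι := by
  obtain ⟨U, ⟨h3, h4⟩, h5⟩ := set_has_maximal_iff_noetherian.mpr
    (inferInstance : IsNoetherian F (ι → F))
    {U | IsTotallySingularQuad Q U ∧ ∀ k ∈ K, ∀ u ∈ U, k *ᵥ u ∈ U}
    ⟨⊥, fun w hw => by rw [hw, quad_zero hQ], fun k _ u hu => by rw [hu]; simp⟩
  obtain ⟨M, a1, a2, a3⟩ := exists_ts_ge hQ hp h3
  rcases a1.lt_or_eq with a4 | rfl
  swap
  · obtain ⟨c, hc⟩ := dvd_finrank_of_inv hK h4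
    exact ⟨c, by omega⟩
  obtain ⟨v, hv, hv'⟩ := SetLike.exists_of_lt a4
  let W : Submodule F (ι → F) := K.toSubmodule.map ((Matrix.mulVecBilin F F).flip v)
  refine absurd (le_sup_right.lt_of_ne fun h => hv' ?_) (h5 (W ⊔ U) ⟨ts_sup ?_ h3 ?_, ?_⟩)
  · rw [h]; exact Submodule.mem_sup_left ⟨1, one_mem K, by simp⟩
  · rintro _ ⟨k, hk, rfl⟩
    obtain ⟨c, hc⟩ := h2 k hk
    exact (hc v).trans (by rw [a2 v hv, mul_zero])
  · rintro _ ⟨k, hk, rfl⟩ u hu
    obtain ⟨k', hk', h⟩ := h1 k hk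
    exact (h v u).trans (IsTotallySingularQuad.polar a2 v hv _ (a1 (h4 k' hk' u hu)))
  · intro k hk w hw
    obtain ⟨_, ⟨l, hl, rfl⟩, u, hu, rfl⟩ := Submodule.mem_sup.mp hw
    rw [Matrix.mulVec_add]
    exact add_mem (Submodule.mem_sup_left ⟨k * l, K.mul_mem hk hl, by simp⟩)
      (Submodule.mem_sup_right (h4 k hk u hu))

variable [Fintype F] (hQ : IsNondegenerateQuadraticForm Q)
include hQ

lemma exists_quad_ext [Nonempty ι] (hK : IsFieldSubalgebra r K) (hs : IsSelfAdjointFor (polar Q) K)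
    (hn : Fintype.card ι = 2 * r) : ∃ s, s ∉ K ∧ (∀ k ∈ K, s * k = k * s) ∧
      (∃ a : F, adj (RingHom.id F) (polar Q) s = a • 1 - s) ∧
      ∀ g ∈ isometryGroup F Q ⊓ subalgebraNormalizer K, ∃ a ∈ K, ∃ c ∈ K, cj g s = a + c * s := by
  have hf := hform_of_quad hQ
  let := (isField_of_inv K hK.comm hK.inv).toField
  have : IsScalarTower F K (ι → F) := ⟨fun c k v => Matrix.smul_mulVec c (k : Matrix ι ι F) v⟩
  have h1 := finrank_mul_finrank F K (ι → F)
  rw [hK.finrank_eq, finrank_fintype_fun_eq_card, hn, mul_comm 2] at h1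
  have hr : 0 < r := hK.finrank_eq ▸ finrank_pos
  have : Module.Finite K (ι → F) := .of_restrictScalars_finite F K _
  let b := finBasisOfFinrankEq K (ι → F) (Nat.eq_of_mul_eq_mul_left hr h1)
  have hb : ∀ v, v = b.repr v 0 • b 0 + b.repr v 1 • b 1 := fun v =>
    (b.sum_repr v).symm.trans (Fin.sum_univ_two _)
  have hs' : ∀ (k : K) u v, polar Q (k • u) v = polar Q u (k • v) := fun k => hs k k.2
  -- balanced forms
  have h2 : ∀ l₀ l₁ l₂ l₃ : K →ₗ[F] F, ∃ s : Matrix ι ι F, (∀ k ∈ K, s * k = k * s) ∧ ∀ u v,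
      polar Q (s *ᵥ u) v = l₀ (b.repr u 0 * b.repr v 0) + l₁ (b.repr u 0 * b.repr v 1) +
        l₂ (b.repr u 1 * b.repr v 0) + l₃ (b.repr u 1 * b.repr v 1) := fun l₀ l₁ l₂ l₃ => by
    have h3 : ∀ (c : F) v i, b.repr (c • v) i = c • b.repr v i := fun c v i => by
      rw [← algebraMap_smul K, map_smul, Finsupp.smul_apply, algebraMap_smul]
    obtain ⟨s, h4⟩ := hf.exists_repr (f' := fun u v => l₀ (b.repr u 0 * b.repr v 0) +
      l₁ (b.repr u 0 * b.repr v 1) + l₂ (b.repr u 1 * b.repr v 0) + l₃ (b.repr u 1 * b.repr v 1))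
      ⟨fun x y v => by simp [add_mul]; ring, fun c x v => by simp [h3]; ring,
        fun x y v => by simp [mul_add]; ring, fun c x v => by simp [h3]; ring⟩
    refine ⟨s, fun k hk => hf.mat_eq_of_left fun u v => ?_, fun u v => (h4 u v).symm⟩
    rw [← Matrix.mulVec_mulVec, ← Matrix.mulVec_mulVec, hs k hk, ← h4, ← h4]
    change _ + l₁ (b.repr ((⟨k, hk⟩ : K) • u) 0 * _) + l₂ (b.repr ((⟨k, hk⟩ : K) • u) 1 * _) + _ =
      l₀ (_ * b.repr ((⟨k, hk⟩ : K) • v) 0) + l₁ (_ * b.repr ((⟨k, hk⟩ : K) • v) 1) + _ + _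
    simp only [show k *ᵥ u = (⟨k, hk⟩ : K) • u from rfl, show k *ᵥ v = (⟨k, hk⟩ : K) • v from rfl,
      map_smul, Finsupp.smul_apply, smul_eq_mul, mul_left_comm, mul_assoc]
  -- alternating elements
  have h3 : ∀ X : Matrix ι ι F, (∀ k ∈ K, X * k = k * X) →
      (∀ (k : K) v, polar Q (X *ᵥ k • v) v = 0) → ∀ u v, polar Q (X *ᵥ u) v =
        polar Q (X *ᵥ (b.repr u 0 * b.repr v 1 - b.repr u 1 * b.repr v 0) • b 0) (b 1) :=
    fun X h3 h4 u v => by
      have h5 : ∀ (k l : K) u v, polar Q (X *ᵥ k • u) (l • v) = polar Q (X *ᵥ (k * l) • u) v :=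
        fun k l u v => by
          rw [← hs', mul_comm, mul_smul]
          change polar Q (l.1 *ᵥ _) _ = polar Q (X *ᵥ l.1 *ᵥ _) _
          rw [Matrix.mulVec_mulVec, Matrix.mulVec_mulVec, ← h3 l l.2]
      have h6 : ∀ k : K, polar Q (X *ᵥ k • b 1) (b 0) = -polar Q (X *ᵥ k • b 0) (b 1) := fun k => by
        have := h4 k (b 0 + b 1)
        rw [smul_add, Matrix.mulVec_add, hf.add_left, hf.add_right, hf.add_right, h4, h4] at this
        linear_combination this
      conv_lhs => rw [hb u, hb v]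
      rw [Matrix.mulVec_add, hf.add_left, hf.add_right, hf.add_right, h5, h5, h5, h5, h4, h4, h6,
        sub_smul, Matrix.mulVec_sub, hf.sub_left]
      ring
  have h4 : ∀ X Y : Matrix ι ι F, (∀ k ∈ K, X * k = k * X) → (∀ k ∈ K, Y * k = k * Y) →
      (∀ (k : K) v, polar Q (X *ᵥ k • v) v = 0) → (∀ (k : K) v, polar Q (Y *ᵥ k • v) v = 0) →
      Y ≠ 0 → ∃ c ∈ K, X = c * Y := fun X Y a1 a2 a3 a4 a5 => by
    let l : Matrix ι ι F → K →ₗ[F] F := fun X =>
      { toFun := fun k => polar Q (X *ᵥ k • b 0) (b 1)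
        map_add' := fun k l => by rw [add_smul, Matrix.mulVec_add, hf.add_left]
        map_smul' := fun c k => by rw [smul_assoc, Matrix.mulVec_smul, hf.smul_left]; rfl }
    have h5 : Function.Injective ((LinearMap.mul F K).compr₂ (l Y)) :=
      (injective_iff_map_eq_zero _).mpr fun c hc => by
        by_contra h0
        refine a5 (hf.mat_eq_of_left fun u v => ?_)
        rw [h3 Y a2 a4, Matrix.zero_mulVec, hf.zero_left, ← mul_inv_cancel_left₀ h0 (_ - _)]
        exact LinearMap.congr_fun hc _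
    obtain ⟨c, hc⟩ := (LinearMap.injective_iff_surjective_of_finrank_eq_finrank
      (Subspace.dual_finrank_eq).symm).mp h5 (l X)
    refine ⟨c, c.2, hf.mat_eq_of_left fun u v => ?_⟩
    rw [h3 X a1 a3, ← a2 c c.2, ← Matrix.mulVec_mulVec, show c.1 *ᵥ u = c • u from rfl, h3 Y a2 a4]
    refine (LinearMap.congr_fun hc _).symm.trans ?_
    simp [l, mul_sub, mul_assoc]
  have h5 : ∀ g ∈ subalgebraNormalizer K, ∀ s : Matrix ι ι F, (∀ k ∈ K, s * k = k * s) →
      ∀ k ∈ K, cj g s * k = k * cj g s := fun g hg s h k hk => by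
    rw [← cj_cj_inv g k, ← map_mul, ← map_mul,
      h _ ((mem_subalgebraNormalizer.mp (inv_mem hg) k).mp hk)]
  by_cases h6 : (2 : F) = 0
  · have h7 : ∀ (k : K) v, polar Q (k • v) v = 0 := fun k => hf.alt_of_selfAdj
      (polar_self_two hQ h6) hK (fun x hx => (hf.selfAdj_iff.mp hs x hx).symm ▸ hx) k.2
      (hf.selfAdj_iff.mp hs k k.2)
    have : CharP F 2 := CharTwo.of_one_ne_zero_of_two_eq_zero one_ne_zero h6
    have : CharP K 2 := charP_of_injective_algebraMap (algebraMap F K).injective 2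
    have : Finite K := Module.finite_of_finite F
    let ρ := (frobeniusEquiv K 2).symm
    have h8 : ∀ k : K, ρ (k * k) = k := fun k =>
      (frobeniusEquiv K 2).symm_apply_eq.mpr (by simp [frobenius_def, pow_two])
    let l : (ι → F) → K →ₗ[F] F := fun v =>
      { toFun := fun k => Q (ρ k • v)
        map_add' := fun k l => by
          rw [map_add, add_smul, quad_add (Q := Q), ← hs', smul_smul, h7, add_zero]
        map_smul' := fun c k => by
          obtain ⟨d, rfl⟩ := H13.exists_sq_eq_of_two_eq_zero h6 c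
          rw [Algebra.smul_def, map_mul, pow_two, map_mul, h8, mul_smul, algebraMap_smul, hQ.smul,
            pow_two]; rfl }
    obtain ⟨s, a1, a2⟩ := h2 (l (b 0))
      { toFun := fun k => polar Q (k • b 0) (b 1)
        map_add' := fun k l => by rw [add_smul, hf.add_left]
        map_smul' := fun c k => by rw [smul_assoc, hf.smul_left]; rfl } 0 (l (b 1))
    have a3 : ∀ v, polar Q (s *ᵥ v) v = Q v := fun v => by
      rw [a2]
      conv_rhs => rw [hb v, quad_add (Q := Q), ← hs', smul_smul]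
      simp [l, h8, mul_comm]; ring
    refine ⟨s, fun h => ?_, a1, ⟨1, hf.adj_eq fun u v => ?_⟩, fun g hg => ?_⟩
    · obtain ⟨u, v, huv⟩ := hf.exists_ne
      have : ∀ v, Q v = 0 := fun v => (a3 v).symm.trans (h7 ⟨s, h⟩ v)
      simp [polar, this] at huv
    · have := a3 (u + v)
      rw [Matrix.mulVec_add, hf.add_left, hf.add_right, hf.add_right, a3, a3, quad_add (Q := Q)] at this
      rw [one_smul, Matrix.sub_mulVec, Matrix.one_mulVec, hf.sub_right, hf.symm u (_ *ᵥ _)]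
      linear_combination this
    · have a4 : ∀ k ∈ K, (cj g s - s) * k = k * (cj g s - s) := fun k hk => by
        rw [sub_mul, mul_sub, h5 g hg.2 s a1 k hk, a1 k hk]
      obtain ⟨c, hc, a5⟩ := h4 _ 1 a4 (by simp) (fun k v => by
        have a5 : ∀ v, polar Q ((cj g s - s) *ᵥ v) v = 0 := fun v => by
          rw [← mulVec_inv_mulVec g v, Matrix.sub_mulVec, hf.sub_left, cj_mulVec, a3,
            mem_isoG.mp (isometryGroup_le_isoG hg.1), a3, mem_isometryGroup'.mp hg.1, sub_self]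
        rw [← a5 (ρ k • v), ← hs', show k = ρ k * ρ k from (ρ.injective (h8 _)).symm ▸ rfl]
        change polar Q (_ *ᵥ (_ * _) *ᵥ v) v = polar Q ((ρ _).1 *ᵥ _ *ᵥ (ρ _).1 *ᵥ v) v
        simp only [Matrix.mulVec_mulVec, h8, ← mul_assoc, a4 _ (ρ k).2]
        rw [mul_assoc, a4 _ (ρ k).2, ← mul_assoc]) (by simpa using h7)
        one_ne_zero
      exact ⟨c, hc, 1, one_mem _, by rw [one_mul, ← sub_eq_iff_eq_add, a5, mul_one]⟩
  · obtain ⟨τ, hτ⟩ := Module.Projective.exists_dual_ne_zero F (one_ne_zero (α := K))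
    obtain ⟨s, a1, a2⟩ := h2 0 τ (-τ) 0
    have a3 : adj (RingHom.id F) (polar Q) s = -s := hf.adj_eq fun u v => by
      rw [Matrix.neg_mulVec, hf.neg_right, hf.symm u, a2, a2]; simp [mul_comm]
    have a4 : s ≠ 0 := fun h => hτ (by simpa [h, hf.zero_left] using (a2 (b 0) (b 1)).symm)
    have a5 : ∀ X : Matrix ι ι F, (∀ k ∈ K, X * k = k * X) → adj (RingHom.id F) (polar Q) X = -X →
        ∀ (k : K) v, polar Q (X *ᵥ k • v) v = 0 := fun X h h' k v => by
      have := hf.adj_spec X (k • v) v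
      rw [h', Matrix.neg_mulVec, hf.neg_right, hs', hf.symm v] at this
      change _ = -polar Q (k.1 *ᵥ _) _ at this
      rw [Matrix.mulVec_mulVec, ← h k k.2, ← Matrix.mulVec_mulVec] at this
      exact (mul_eq_zero.mp (by linear_combination this : (2 : F) * _ = 0)).resolve_left h6
    refine ⟨s, fun h => a4 ?_, a1, ⟨0, by simpa using a3⟩, fun g hg => ?_⟩
    · rw [hf.selfAdj_iff.mp hs s h, eq_neg_iff_add_eq_zero, ← two_smul F, smul_eq_zero] at a3
      exact a3.resolve_left h6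
    · obtain ⟨c, hc, a6⟩ := h4 _ s (h5 g hg.2 s a1) a1 (a5 _ (h5 g hg.2 s a1) (by
        rw [hf.adj_cj (isoG_le_sim _ (isometryGroup_le_isoG hg.1)), a3, map_neg])) (a5 s a1 a3) a4
      exact ⟨0, zero_mem _, c, hc, by rw [a6, zero_add]⟩

variable (hH : H ≤ isometryGroup F Q)
include hH

lemma quad_mul_of_unitary (hn : 2 ≤ Fintype.card ι) (hi : Irr H) (h2 : IsFieldSubalgebra 2 K)
    (h3 : ∀ x ∈ K, adj (RingHom.id F) (polar Q) x ∈ K)
    (h5 : ¬ ∀ x ∈ K, adj (RingHom.id F) (polar Q) x = x) (h4 : H ≤ subalgebraNormalizer K) :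
    ∀ l ∈ K, ∃ c : F, ∀ v, Q (l *ᵥ v) = c * Q v := fun l hl => by
  have : Nonempty ι := Fintype.card_pos_iff.mp (by omega)
  have hf := hform_of_quad hQ
  have hs := hH.trans (isometryGroup_le_isoG.trans (isoG_le_sim _))
  push Not at h5
  obtain ⟨x₀, hx₀, h5⟩ := h5
  obtain ⟨x, hx, h6⟩ : ∃ x ∈ K, x + adj (RingHom.id F) (polar Q) x ≠ 0 := by
    by_contra! h6
    have h7 := h6 1 (one_mem K)
    rw [hf.adj_one] at h7
    refine h5 (eq_of_sub_eq_zero ?_)
    have := h6 x₀ hx₀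
    linear_combination (norm := noncomm_ring) this - x₀ * h7
  obtain ⟨y, hy, h6⟩ := h2.inv _ (add_mem hx (h3 x hx)) h6
  have h7 : adj (RingHom.id F) (polar Q) y = y := by
    have := congrArg (adj (RingHom.id F) (polar Q)) h6
    rw [hf.adj_mul, hf.adj_add, hf.adj_adj, hf.adj_one, add_comm] at this
    rw [← mul_one (adj _ _ y), ← h6, ← mul_assoc, this, one_mul]
  have h10 : x * y + adj (RingHom.id F) (polar Q) (x * y) = 1 := by
    rw [hf.adj_mul, h7, h2.comm y hy _ (h3 x hx), ← add_mul, h6]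
  have h8 := quad_eq_half hQ hH hn hi h10 fun g hg v => by
    have h9 : adj (RingHom.id F) (polar Q) (cj g (x * y) - x * y) = -(cj g (x * y) - x * y) := by
      rw [hf.adj_sub, hf.adj_cj (hs hg), eq_sub_of_add_eq' h10, map_sub, map_one]; abel
    by_cases h11 : (2 : F) = 0
    · refine hf.alt_of_selfAdj (polar_self_two hQ h11) h2 h3 (sub_mem
        ((mem_subalgebraNormalizer.mp (h4 hg) _).mp (mul_mem hx hy)) (mul_mem hx hy)) ?_ v
      rw [h9, neg_eq_iff_add_eq_zero, ← two_smul F, h11, zero_smul]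
    · have := hf.adj_spec (cj g (x * y) - x * y) v v
      rw [h9, Matrix.neg_mulVec, hf.neg_right, hf.symm v] at this
      exact (mul_eq_zero.mp (by linear_combination this : (2 : F) * _ = 0)).resolve_left h11
  obtain ⟨c, hc⟩ : ∃ c : F, adj (RingHom.id F) (polar Q) l * l = c • 1 := by
    have h11 : LinearIndependent F ![(1 : K), ⟨x₀, hx₀⟩] := by
      refine LinearIndependent.pair_iff' one_ne_zero |>.mpr fun a h => h5 ?_
      rw [← show a • 1 = x₀ from congrArg Subtype.val h, hf.adj_smul, hf.adj_one]; rfl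
    obtain ⟨c, d, h12⟩ := Submodule.mem_span_pair.mp (show (⟨_, mul_mem (h3 l hl) hl⟩ : K) ∈
      Submodule.span F {1, ⟨x₀, hx₀⟩} by
        have := h11.span_eq_top_of_card_eq_finrank (by simp [h2.finrank_eq])
        simp only [Matrix.range_cons, Matrix.range_empty, Set.union_empty, Set.union_singleton,
          Set.pair_comm] at this
        rw [Set.pair_comm, this]; trivial)
    replace h12 : c • 1 + d • x₀ = adj (RingHom.id F) (polar Q) l * l := congrArg Subtype.val h12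
    have h13 := congrArg (adj (RingHom.id F) (polar Q)) h12
    rw [hf.adj_mul, hf.adj_adj, ← h12, hf.adj_add, hf.adj_smul, hf.adj_smul, hf.adj_one,
      RingHom.id_apply, RingHom.id_apply, add_right_inj, ← sub_eq_zero, ← smul_sub,
      smul_eq_zero, sub_eq_zero] at h13
    exact ⟨c, by rw [← h12, h13.resolve_right h5, zero_smul, add_zero]⟩
  refine ⟨c, fun v => ?_⟩
  rw [h8, h8, hf.adj_spec', Matrix.mulVec_mulVec, Matrix.mulVec_mulVec,
    h2.comm _ (h3 l hl) _ (mul_mem hx hy), mul_assoc, hc, Matrix.mul_smul, mul_one,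
    Matrix.smul_mulVec, hf.smul_left]

/-- a self-adjoint field of half the dimension is never needed -/
lemma OComm.half (hn : 3 ≤ Fintype.card ι) (hi : Irr H) (h : OComm Q H) :
    (∃ (t m : ℕ) (D : Fin t → Submodule F (ι → F)), IsOrthogonalMDecomposition Q m D ∧
      H ≤ decompositionStabilizer D) ∨
    (∃ (m : ℕ) (D : Fin 2 → Submodule F (ι → F)), IsMDecomposition m D ∧
      (∀ i, IsTotallySingularQuad Q (D i)) ∧ H ≤ decompositionStabilizer D) ∨
    (∃ (r : ℕ) (K : Subalgebra F (Matrix ι ι F)), r.Prime ∧ r ≠ Fintype.card ι ∧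
      (Fintype.card ι = 2 * r → r = 2) ∧ IsFieldSubalgebra r K ∧ IsSelfAdjointFor (polar Q) K ∧
      H ≤ subalgebraNormalizer K) ∨
    (∃ K : Subalgebra F (Matrix ι ι F), IsFieldSubalgebra 2 K ∧ IsAdjointClosedFor (polar Q) K ∧
      ¬ IsSelfAdjointFor (polar Q) K ∧ (∀ k ∈ K, ∃ c : F, ∀ v, Q (k *ᵥ v) = c * Q v) ∧
      H ≤ subalgebraNormalizer K) := by
  have : Nonempty ι := Fintype.card_pos_iff.mp (by omega)
  have hf := hform_of_quad hQ
  have hs := hH.trans (isometryGroup_le_isoG.trans (isoG_le_sim _))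
  rcases h with h | h | ⟨r, K, a1, a2, a3, a4, a5⟩ | h
  · exact Or.inl h
  · exact Or.inr (Or.inl h)
  swap
  · exact Or.inr (Or.inr (Or.inr h))
  by_cases h0 : Fintype.card ι = 2 * r
  swap
  · exact Or.inr (Or.inr (Or.inl ⟨r, K, a1, a2, fun h => absurd h h0, a3, a4, a5⟩))
  obtain ⟨s, b1, b2, ⟨a, b3⟩, b4⟩ := exists_quad_ext hQ a3 a4 h0
  let C := Algebra.adjoin F (insert s (K : Set (Matrix ι ι F)))
  have c1 : s ∈ C := Algebra.subset_adjoin (Set.mem_insert _ _)
  have c2 : K ≤ C := fun k hk => Algebra.subset_adjoin (Set.mem_insert_of_mem _ hk)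
  have hc : ∀ x ∈ C, ∀ y ∈ C, x * y = y * x := fun x hx y hy =>
    Algebra.commute_of_mem_adjoin_of_forall_mem_commute hy fun z hz =>
      (Algebra.commute_of_mem_adjoin_of_forall_mem_commute hx fun w hw => by
        rcases hw with hw | hw <;> rcases hz with hz | hz
        · rw [hw, hz]; exact Commute.refl _
        · rw [hw]; exact (b2 z hz).symm
        · rw [hz]; exact b2 w hw
        · exact a3.comm z hz w hw).symm
  have hN : ∀ g ∈ H, ∀ x ∈ C, cj g x ∈ C := fun g hg x hx =>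
    (Algebra.adjoin_le (S := C.comap (cj g).toAlgHom) (by
      rintro x (rfl | hx)
      · obtain ⟨a, ha, c, hc, h⟩ := b4 g ⟨hH hg, a5 hg⟩
        exact show cj g x ∈ C from h ▸ add_mem (c2 ha) (mul_mem (c2 hc) c1)
      · exact c2 ((mem_subalgebraNormalizer.mp (a5 hg) x).mp hx))) hx
  have ha : ∀ x ∈ C, adj (RingHom.id F) (polar Q) x ∈ C := fun x hx => by
    induction hx using Algebra.adjoin_induction with
    | mem x hx =>
      rcases hx with rfl | hx
      · exact b3 ▸ sub_mem (C.smul_mem (one_mem _) a) c1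
      · rw [hf.selfAdj_iff.mp a4 x hx]; exact c2 hx
    | algebraMap c =>
      rw [Algebra.algebraMap_eq_smul_one, hf.adj_smul, hf.adj_one]
      exact Subalgebra.smul_mem _ (one_mem _) _
    | add x y _ _ hx hy => rw [hf.adj_add]; exact add_mem hx hy
    | mul x y _ _ hx hy => rw [hf.adj_mul]; exact mul_mem hy hx
  rcases hf.comm_cases hs hi C hc hN ha (fun h => b1 (bot_le (a := K) (h ▸ c1))) with
    ⟨t, m, D, h1, h2, h3⟩ | ⟨m, e, h1, h2, h3, h4, h5, h6, h7, -⟩ | ⟨-, -, -, -, -, -, -, hinv⟩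
  · refine Or.inl ⟨t, m, D, ⟨h1, fun i j => ?_⟩, h2⟩
    obtain ⟨g, hg, h4⟩ := h3 i j
    exact areIsometric_of_map (hH hg) h4
  · have h8 := quad_eq_half hQ hH (by omega) hi (k := e 0) (by rw [h3, h2]; simp) fun g hg v => by
      rcases h7 g hg with h9 | h9 <;> rw [h9]
      · rw [sub_self, Matrix.zero_mulVec, hf.zero_left]
      · rw [← h3, Matrix.sub_mulVec, hf.sub_left, ← hf.adj_spec', hf.symm, sub_self]
    refine Or.inr (Or.inl ⟨m, _, h4, fun i v hv => ?_, h6⟩)
    rw [h8]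
    fin_cases i
    · exact h5 0 _ (mulVec_mem_rng _ _) v hv
    · obtain ⟨w, rfl⟩ := mem_rng.mp hv
      simp [h2, Matrix.mul_sub, h1, hf.zero_left]
  have h1 : finrank F K < finrank F C := Submodule.finrank_lt_finrank_of_lt
    (s := K.toSubmodule) (t := C.toSubmodule) (lt_of_le_not_ge c2 fun h => b1 (h c1))
  obtain ⟨d, hd⟩ := dvd_card_of_isFieldSubalgebra ⟨hc, hinv, rfl⟩
  rw [a3.finrank_eq] at h1
  obtain rfl : d = 1 := by
    by_contra h
    rcases d with _ | _ | d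
    · omega
    · omega
    · nlinarith
  obtain ⟨K', h2, h3⟩ := exists_subfield_of_dvd C hc hinv (r := 2) ⟨r, by omega⟩
  have h4 : H ≤ subalgebraNormalizer K' := le_subalgebraNormalizer fun g hg k hk =>
    (h3 _).mpr ⟨hN g hg k ((h3 k).mp hk).1, by rw [← map_pow, ((h3 k).mp hk).2]⟩
  have h5 : ∀ x ∈ K', adj (RingHom.id F) (polar Q) x ∈ K' := fun x hx =>
    (h3 _).mpr ⟨ha x ((h3 x).mp hx).1, by rw [← hf.adj_pow, ((h3 x).mp hx).2]⟩
  by_cases h6 : ∀ x ∈ K', adj (RingHom.id F) (polar Q) x = x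
  · exact Or.inr (Or.inr (Or.inl ⟨2, K', Nat.prime_two, by omega, fun _ => rfl, h2,
      hf.selfAdj_iff.mpr h6, h4⟩))
  · exact Or.inr (Or.inr (Or.inr ⟨K', h2, hf.adjClosed_iff.mpr h5, fun h => h6 (hf.selfAdj_iff.mp h),
      quad_mul_of_unitary hQ hH (by omega) hi h2 h5 h6 h4, h4⟩))

end Cfsg.Agent.H18
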