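import Cfsg.Agent.H18.OmCase

/-! Frames, and the odd-dimensional orthogonal groups. -/

set_option autoImplicit false

namespace Cfsg.Agent.H18

open Cfsg.Geo QuadraticMap
open scoped MatrixGroups Matrix Kronecker commutatorElement

variable {ι : Type} [Fintype ι] [DecidableEq ι] {F : Type*} [Field F] {Q : (ι → F) → F}
  {H : Subgroup (GL ι F)}

omit [Fintype ι] [DecidableEq ι] in
lemma polar_of_isometric {W W' : Submodule F (ι → F)} {e : W ≃ₗ[F] W'}
    (he : ∀ w : W, Q (e w : W') = Q w) (u v : W) : polar Q (e u : W') (e v : W') = polar Q u v := by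
  simp only [polar, ← Submodule.coe_add, ← map_add, he]

omit [Fintype ι] [DecidableEq ι] in
lemma areIsometric_span (hQ : IsNondegenerateQuadraticForm Q) {x y : ι → F} (hx : Q x ≠ 0)
    (h : Q y = Q x) : AreIsometricFor Q (Submodule.span F {x}) (Submodule.span F {y}) := by
  have hx0 : x ≠ 0 := by rintro rfl; exact hx (quad_zero hQ)
  have hy0 : y ≠ 0 := by rintro rfl; exact hx (h ▸ quad_zero hQ)
  refine ⟨(LinearEquiv.toSpanNonzeroSingleton F _ x hx0).symm.trans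
    (LinearEquiv.toSpanNonzeroSingleton F _ y hy0), fun w => ?_⟩
  obtain ⟨c, rfl⟩ := (LinearEquiv.toSpanNonzeroSingleton F _ x hx0).surjective w
  rw [LinearEquiv.trans_apply, LinearEquiv.symm_apply_apply]
  simp [hQ.smul, h]

omit [Fintype ι] [DecidableEq ι] in
lemma HForm.exists_coord {σ : F →+* F} {ε : F} {f : (ι → F) → (ι → F) → F} (hf : HForm σ ε f)
    {m : ℕ} {v : Fin m → ι → F} (h0 : ∀ i, f (v i) (v i) ≠ 0)
    (h1 : ∀ i j, i ≠ j → f (v i) (v j) = 0) {W : Submodule F (ι → F)} [FiniteDimensional F W]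
    (hW : Module.finrank F W = m) (hv : ∀ i, v i ∈ W) {w : ι → F} (hw : w ∈ W) :
    ∃ a : Fin m → F, ∑ i, a i • v i = w := by
  have h2 : LinearIndependent F v := Fintype.linearIndependent_iff.mpr fun a ha i => by
    have := congrArg (f · (v i)) ha
    simp only [hf.sum_left, hf.smul_left, hf.zero_left] at this
    rw [Finset.sum_eq_single i (fun j _ hj => by rw [h1 j i hj, mul_zero]) (by simp)] at this
    exact (mul_eq_zero.mp this).resolve_right (h0 i)
  rw [← Submodule.eq_of_le_of_finrank_eq (S₁ := Submodule.span F (Set.range v))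
    (Submodule.span_le.mpr (Set.range_subset_iff.mpr hv))
    (by rw [finrank_span_eq_card h2, hW, Fintype.card_fin])] at hw
  exact Submodule.mem_span_range_iff_exists_fun F |>.mp hw

omit [Fintype ι] [DecidableEq ι] in
lemma quad_sum_orth (hQ : IsNondegenerateQuadraticForm Q) {κ : Type*} (s : Finset κ)
    {v : κ → ι → F} (h1 : ∀ i j, i ≠ j → polar Q (v i) (v j) = 0) :
    Q (∑ i ∈ s, v i) = ∑ i ∈ s, Q (v i) := by
  classical
  induction s using Finset.induction_on with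
  | empty => simpa using quad_zero hQ
  | insert i s hi ih =>
    rw [Finset.sum_insert hi, Finset.sum_insert hi, quad_add (Q := Q), ih,
      (hform_of_quad hQ).sum_right, Finset.sum_eq_zero (f := fun k => polar Q (v i) (v k))
        fun j hj => h1 i j (by rintro rfl; exact hi hj), add_zero]

section
variable (hQ : IsNondegenerateQuadraticForm Q)
include hQ

lemma exists_oframe (h2 : (2 : F) ≠ 0) {t m : ℕ} {D : Fin t → Submodule F (ι → F)}
    (hD : IsOrthogonalMDecomposition Q m D) {i₀ : Fin t} {v : Fin m → ι → F} (hv : ∀ k, v k ∈ D i₀)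
    {c : F} (hc : c ≠ 0) (h3 : ∀ k, Q (v k) = c) (h4 : ∀ k l, k ≠ l → polar Q (v k) (v l) = 0)
    (h5 : ∀ a : Fin m → F, ∑ k, a k ^ 2 = 1 → ∃ k, ∀ l, l ≠ k → a l = 0) :
    ∃ D' : Fin (Fintype.card ι) → Submodule F (ι → F), IsOrthogonalMDecomposition Q 1 D' ∧
      decompositionStabilizer D ⊓ isometryGroup F Q ≤ decompositionStabilizer D' := by
  have hf := hform_of_quad hQ
  choose e he using hD.isometric i₀
  have h6 := card_eq_of_isMDecomposition hD.decomp.decomp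
  have h7 : ∀ p : Fin t × Fin m, Q (e p.1 ⟨v p.2, hv p.2⟩) = c := fun p => (he _ _).trans (h3 _)
  have := hD.decomp.decomp.two_le
  have := hD.decomp.decomp.pos
  obtain ⟨D', a1, a2, a3⟩ := hf.exists_frame_of_orth
    (v := fun p : Fin t × Fin m => (e p.1 ⟨v p.2, hv p.2⟩ : ι → F))
    (fun p => by rw [polar_self_of_quad hQ, h7]; exact mul_ne_zero h2 hc)
    (fun ⟨i, k⟩ ⟨j, l⟩ h => by
      by_cases hij : i = j
      · subst hij
        exact (polar_of_isometric (he i) _ _).trans (h4 k l fun h' => h (by rw [h']))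
      · exact hD.decomp.orthogonal i j hij _ (e i _).2 _ (e j _).2) (by simp [h6])
    (by nlinarith)
  refine ⟨D', ⟨a1, fun i j => ?_⟩, fun g hg => a3 g fun p => ?_⟩
  · obtain ⟨k, hk⟩ := a2 i
    obtain ⟨l, hl⟩ := a2 j
    rw [hk, hl]
    exact areIsometric_span hQ (by rwa [h7]) (by rw [h7, h7])
  · obtain ⟨j, hj⟩ := exists_mem_of_stab hg.1 (e p.1 ⟨v p.2, hv p.2⟩).2
    obtain ⟨a, ha⟩ := hf.exists_coord (fun k => by
      rw [polar_self_of_quad hQ, h3]; exact mul_ne_zero h2 hc) h4 (hD.decomp.decomp.finrank_eq i₀)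
      hv ((e j).symm ⟨_, hj⟩).2
    have h8 := he j ((e j).symm ⟨_, hj⟩)
    rw [LinearEquiv.apply_symm_apply, mem_isometryGroup'.mp hg.2, h7, ← ha,
      quad_sum_orth hQ _ fun k l h => by simp [hf.smul_left, hf.smul_right, h4 k l h]] at h8
    obtain ⟨k, hk⟩ := h5 a (mul_right_cancel₀ hc (by
      simpa [hQ.smul, h3, Finset.sum_mul] using h8.symm))
    rw [Finset.sum_eq_single k (fun l _ h => by rw [hk l h, zero_smul]) (by simp)] at ha
    refine ⟨(j, k), Submodule.mem_span_singleton.mpr ⟨a k, ?_⟩⟩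
    rw [← Submodule.coe_smul, ← map_smul, show a k • (⟨v k, hv k⟩ : D i₀) = (e j).symm ⟨_, hj⟩ from
      Subtype.ext ha, LinearEquiv.apply_symm_apply]

lemma oframe_three [Fintype F] (h : Fintype.card F = 3) {t : ℕ} {D : Fin t → Submodule F (ι → F)}
    (hD : IsOrthogonalMDecomposition Q 3 D) :
    ∃ D' : Fin (Fintype.card ι) → Submodule F (ι → F), IsOrthogonalMDecomposition Q 1 D' ∧
      decompositionStabilizer D ⊓ isometryGroup F Q ≤ decompositionStabilizer D' := by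
  have h3 := three_eq_zero h
  have h2 : (2 : F) ≠ 0 := fun h2 => one_ne_zero (by linear_combination h3 - h2 : (1 : F) = 0)
  have := hD.decomp.decomp.two_le
  obtain ⟨c, v, a1, a2, a3, -⟩ := (hform_of_quad hQ).frame3 h
    (hD.decomp.nondegenerate ⟨0, by omega⟩) (hD.decomp.decomp.finrank_eq _)
  refine exists_oframe hQ h2 hD a2 (div_ne_zero a1 h2) (fun k => ?_) (fun k l h => by simp [a3, h])
    fun a ha => ?_
  · rw [eq_div_iff h2, mul_comm, ← polar_self_of_quad hQ, a3, if_pos rfl]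
  · let φ := ZMod.ringEquivOfPrime F (by decide) h
    obtain ⟨a, rfl⟩ : ∃ b : Fin 3 → ZMod 3, φ ∘ b = a := ⟨φ.symm ∘ a, by ext; simp⟩
    have h4 : ∑ k, a k ^ 2 = 1 := φ.injective (by simpa using ha)
    simp only [Function.comp, map_eq_zero]
    clear ha; revert a; decide

lemma oSub_of_frame [Fintype F] (h2 : (2 : F) ≠ 0) (hp : ¬ (Fintype.card F).Prime) {t : ℕ}
    {D : Fin t → Submodule F (ι → F)} (hD : IsOrthogonalMDecomposition Q 1 D) :
    OSub Q (decompositionStabilizer D ⊓ isometryGroup F Q) := by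
  have hf := hform_of_quad hQ
  obtain ⟨F₀, h0⟩ := exists_prime_subfield hp
  obtain ⟨F₁, r, -, h1, h3⟩ := exists_prime_index_subfield F₀ h0
  have := hD.decomp.decomp.two_le
  obtain ⟨v, hv, hv0⟩ := exists_ne_zero_of_decomp hD.decomp.decomp ⟨0, by omega⟩
  choose ε he using hD.isometric ⟨0, by omega⟩
  have h4 : Q v ≠ 0 := fun h => by
    obtain ⟨x, hx, h5⟩ := (hD.decomp.nondegenerate _ v hv hv0).1
    obtain ⟨c, hc⟩ := (finrank_eq_one_iff_of_nonzero' (⟨v, hv⟩ : D _) (by simpa using hv0)).mp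
      (hD.decomp.decomp.finrank_eq _) ⟨x, hx⟩
    rw [← show c • v = x from congrArg Subtype.val hc, hf.smul_left, polar_self_of_quad hQ, h] at h5
    simp at h5
  obtain ⟨e, P, a1, -, a2⟩ := exists_frame hD.decomp.decomp (fun i => ε i ⟨v, hv⟩)
    (fun i => (ε i _).2) fun i h => h4 (by rw [← he i ⟨v, hv⟩, h, quad_zero hQ])
  have h5 : ∀ c : Fin t → F, Q ((P : Matrix ι ι F) *ᵥ (c ∘ e)) = (∑ i, c i ^ 2) * Q v := fun c => by
    rw [a1, quad_sum_orth hQ _ fun i j h => hD.decomp.orthogonal i j h _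
      (Submodule.smul_mem _ _ (ε i _).2) _ (Submodule.smul_mem _ _ (ε j _).2)]
    simp [hQ.smul, he, Finset.sum_mul]
  refine ⟨F₁, r, P, (Q v)⁻¹, h1, h3, inv_ne_zero h4, fun u hu => ?_, fun g hg => ?_⟩
  · beta_reduce
    rw [show u = (u ∘ e.symm) ∘ e by ext; simp, h5, mul_comm, mul_inv_cancel_right₀ h4]
    exact sum_mem fun i _ => pow_mem (hu _) 2
  · obtain ⟨ρ, d, -, h6⟩ := a2 g hg.1
    refine mem_subfieldSubgroup_iff.mpr ⟨1, one_ne_zero, fun i j => ?_⟩
    have h7 := mem_isometryGroup'.mp hg.2 ((P : Matrix ι ι F) *ᵥ (Pi.single (e j) 1 ∘ e))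
    rw [h6, trans_mulVec, h5, h5, mul_left_inj' h4, ← ρ.symm.sum_comp] at h7
    simp only [monMat_mulVec, Equiv.apply_symm_apply, Pi.single_apply, mul_ite, mul_one, mul_zero,
      ite_pow, ne_eq, OfNat.ofNat_ne_zero, not_false_eq_true, zero_pow, Finset.sum_ite_eq',
      Finset.mem_univ, if_true, one_pow] at h7
    rw [h6, trans_apply, cj_inv_cj, one_mul, Matrix.submatrix_apply, monMat, Matrix.of_apply]
    split_ifs
    · rcases sq_eq_one_iff.mp h7 with h | h <;> rw [h]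
      exacts [one_mem _, neg_mem (one_mem _)]
    · exact zero_mem _

omit [DecidableEq ι] in
lemma exists_hyp_of_plus {W : Submodule F (ι → F)} (h1 : IsNondegenerateOn (polar Q) W)
    (h2 : Module.finrank F W = 2) (h3 : IsPlusTypeOn Q W) : ∃ x ∈ W, ∃ y ∈ W, Q x = 0 ∧ Q y = 0 ∧
      polar Q x y = 1 ∧ ∀ w ∈ W, ∃ a b : F, a • x + b • y = w := by
  have hf := hform_of_quad hQ
  obtain ⟨U, h4, h5, h6⟩ := h3
  obtain ⟨x, hx, hx0⟩ := (Submodule.ne_bot_iff U).mp fun h => by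
    rw [h, finrank_bot] at h6; omega
  obtain ⟨z, hz, h7⟩ := (h1 x (h4 hx) hx0).2
  have h8 := h5 x hx
  have h9 : polar Q x x = 0 := by rw [polar_self_of_quad hQ, h8, mul_zero]
  have h10 : polar Q x ((polar Q x z)⁻¹ • z + (-(Q z / polar Q x z ^ 2)) • x) = 1 := by
    simp [hf.add_right, hf.smul_right, hf.neg_right, h9, h7]
  refine ⟨x, h4 hx, _, add_mem (W.smul_mem _ hz) (W.smul_mem _ (h4 hx)), h8, ?_, h10,
    fun w hw => Submodule.mem_span_pair.mp ?_⟩
  · rw [quad_add (Q := Q), hQ.smul, hQ.smul, h8, hf.smul_left, hf.smul_right, hf.symm z]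
    simp only [RingHom.id_apply]
    field_simp; ring
  · rwa [Submodule.eq_of_le_of_finrank_eq (S₂ := W) (Submodule.span_le.mpr (Set.pair_subset (h4 hx)
      (add_mem (W.smul_mem _ hz) (W.smul_mem _ (h4 hx))))) (by
        rw [H13.finrank_span_pair_eq (H13.linearIndependent_pair_of_notMem hx0 fun h => ?_), h2]
        obtain ⟨c, hc⟩ := Submodule.mem_span_singleton.mp h
        rw [← hc, hf.smul_right, h9, mul_zero] at h10
        exact zero_ne_one h10)]

omit [Fintype ι] [DecidableEq ι] in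
lemma quad_hyp {x y : ι → F} (hx : Q x = 0) (hy : Q y = 0) (h : polar Q x y = 1) (a b : F) :
    Q (a • x + b • y) = a * b := by
  have hf := hform_of_quad hQ
  simp [quad_add (Q := Q), hQ.smul, hx, hy, h, hf.smul_left, hf.smul_right]

omit [DecidableEq ι] in
lemma exists_one_of_plus [Fintype F] (h : Fintype.card F ≤ 3) {W : Submodule F (ι → F)}
    (h1 : IsNondegenerateOn (polar Q) W) (h2 : Module.finrank F W = 2) (h3 : IsPlusTypeOn Q W) :
    ∃ v ∈ W, Q v = 1 ∧ ∀ w ∈ W, Q w = 1 → w ∈ Submodule.span F {v} := by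
  obtain ⟨x, hx, y, hy, a1, a2, a3, a4⟩ := exists_hyp_of_plus hQ h1 h2 h3
  refine ⟨x + y, add_mem hx hy, by simpa using quad_hyp hQ a1 a2 a3 1 1, fun w hw h4 => ?_⟩
  obtain ⟨a, b, rfl⟩ := a4 w hw
  rw [quad_hyp hQ a1 a2 a3] at h4
  have h5 : a ^ 2 = 1 := by
    have := two_le_card (F := F)
    have h6 := left_ne_zero_of_mul_eq_one h4
    obtain h | h : Fintype.card F = 1 + 1 ∨ Fintype.card F = 2 + 1 := by omega
    · rw [pow_two, ← pow_one a, pow_pred_card h h6, one_mul]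
    · exact pow_pred_card h h6
  exact Submodule.mem_span_singleton.mpr ⟨a, by
    rw [smul_add, show b = a by linear_combination a * h4 - b * h5]⟩

lemma le_stab_of_plus [Fintype F] (h : Fintype.card F ≤ 3) {W : Submodule F (ι → F)}
    (h1 : IsNondegenerateOn (polar Q) W) (h2 : Module.finrank F W = 2) (h3 : IsPlusTypeOn Q W) :
    ∃ v, Q v ≠ 0 ∧ subspaceStabilizer W ⊓ isometryGroup F Q ≤
      subspaceStabilizer (Submodule.span F {v}) := by
  obtain ⟨v, hv, h4, h5⟩ := exists_one_of_plus hQ h h1 h2 h3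
  refine ⟨v, by simp [h4], le_subspaceStabilizer fun g hg w hw => ?_⟩
  obtain ⟨c, rfl⟩ := Submodule.mem_span_singleton.mp hw
  rw [Matrix.mulVec_smul]
  exact Submodule.smul_mem _ _ (h5 _ (mulVec_mem_of_le inf_le_left hg hv)
    ((mem_isometryGroup'.mp hg.2 v).trans h4))

omit [Fintype ι] [DecidableEq ι] in
lemma nondegOn_span (h2 : (2 : F) ≠ 0) {v : ι → F} (hv : Q v ≠ 0) :
    IsNondegenerateOn (polar Q) (Submodule.span F {v}) := fun w hw h0 => by
  obtain ⟨c, rfl⟩ := Submodule.mem_span_singleton.mp hw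
  have : polar Q (c • v) (c • v) ≠ 0 := by
    rw [polar_self_of_quad hQ, hQ.smul]
    exact mul_ne_zero h2 (mul_ne_zero (pow_ne_zero _ (left_ne_zero_of_smul h0)) hv)
  exact ⟨⟨_, hw, this⟩, _, hw, this⟩

omit [Fintype ι] [DecidableEq ι] in
lemma finrank_span_of_quad {v : ι → F} (hv : Q v ≠ 0) :
    Module.finrank F (Submodule.span F {v}) = 1 :=
  finrank_span_singleton (by rintro rfl; exact hv (quad_zero hQ))

lemma IsTotallySingularQuad.ne_top [Nonempty ι] {W : Submodule F (ι → F)}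
    (h : IsTotallySingularQuad Q W) : W ≠ ⊤ := by
  rintro rfl
  obtain ⟨u, v, huv⟩ := (hform_of_quad hQ).exists_ne
  exact huv (IsTotallySingularQuad.polar h u trivial v trivial)

end

/-- the classes for odd-dimensional orthogonal groups -/
def OddCls [Fintype F] (Q : (ι → F) → F) (H : Subgroup (GL ι F)) : Prop :=
  (∃ W, W ≠ ⊥ ∧ IsTotallySingularQuad Q W ∧ H ≤ subspaceStabilizer W) ∨
  (∃ W, W ≠ ⊥ ∧ W ≠ ⊤ ∧ IsNondegenerateOn (polar Q) W ∧ H ≤ subspaceStabilizer W) ∨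
  (∃ (t k : ℕ) (D : Fin t → Submodule F (ι → F)), 1 < k ∧ IsOrthogonalMDecomposition Q k D ∧
    H ≤ decompositionStabilizer D) ∨
  (∃ (t : ℕ) (D : Fin t → Submodule F (ι → F)), (Fintype.card F).Prime ∧
    IsOrthogonalMDecomposition Q 1 D ∧ H ≤ decompositionStabilizer D) ∨
  (∃ (r : ℕ) (K : Subalgebra F (Matrix ι ι F)), r.Prime ∧ r ≠ Fintype.card ι ∧
    IsFieldSubalgebra r K ∧ IsSelfAdjointFor (polar Q) K ∧ H ≤ subalgebraNormalizer K) ∨
  (∃ (a b : ℕ) (e : ι ≃ Fin a × Fin b) (P : GL ι F) (f₁ : _) (f₂ : _), 3 ≤ a ∧ a < b ∧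
    KronD (RingHom.id F) (polar Q) e P 1 f₁ 1 f₂ ∧ H ≤ tensorProductSubgroup a b e P) ∨
  (∃ (F₀ : Subfield F) (r : ℕ) (P : GL ι F), r.Prime ∧ Fintype.card F = Nat.card F₀ ^ r ∧
    IsQuadFormRationalStructure Q F₀ P ∧ H ≤ subfieldSubgroup F₀ P) ∨
  (∃ (k t : ℕ) (e : ι ≃ (Fin t → Fin k)) (P : GL ι F) (f₁ : _), 3 ≤ k ∧
    ¬ (Fintype.card F = 3 ∧ k = 3) ∧ PowD (RingHom.id F) (polar Q) e P 1 f₁ ∧
    H ≤ tensorWreathSubgroup k t e P) ∨
  InOrthogonalResidualClass H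

theorem oddCls [Fintype F] (hQ : IsNondegenerateQuadraticForm Q) (hH : H ≤ isometryGroup F Q)
    (h2 : (2 : F) ≠ 0) (hn : 3 ≤ Fintype.card ι) (ho : Odd (Fintype.card ι))
    (hd : ∀ F₀ : Subfield F, (gramMatrix (polar Q)).det ∈ F₀) : OddCls Q H := by
  have : Nonempty ι := Fintype.card_pos_iff.mp (by omega)
  have hf := hform_of_quad hQ
  by_cases hi : Irr H
  swap
  · rcases oRed hQ hH hi with h | ⟨W, h3, h4, h5, h6⟩ | ⟨h, -⟩
    · exact Or.inl h
    · refine Or.inr (Or.inl ⟨W, h3, ?_, h4, h6⟩)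
      rintro rfl
      rw [finrank_top, Module.finrank_fintype_fun_eq_card] at h5; omega
    · exact absurd h h2
  have h3 : OSub Q H → OddCls Q H := fun ⟨F₀, r, P, ζ, a1, a2, a3, a4, a5⟩ => by
    obtain ⟨c, hc⟩ := hf.exists_rational_odd ho (hd F₀) a3 (P := P) fun u v hu hv => by
      have := sub_mem (sub_mem (a4 (u + v) fun i => add_mem (hu i) (hv i)) (a4 u hu)) (a4 v hv)
      simp only [Matrix.mulVec_add] at this
      rwa [polar, mul_sub, mul_sub]
    iterate 6 right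
    refine Or.inl ⟨F₀, r, P * sc ι c, a1, a2, fun u hu => ?_, by rwa [subfieldSubgroup_mul_sc]⟩
    have := F₀.div_mem (hc u u hu hu) (ofNat_mem F₀ 2)
    rwa [polar_self_of_quad hQ, one_mul, mul_div_cancel_left₀ _ h2] at this
  have h4 := Nat.not_even_iff_odd.mpr ho
  rcases oCase hQ hH hn hi with (⟨t, m, D, a1, a2⟩ | ⟨m, D, a1, -⟩ | h | ⟨K, a1, -⟩) | h |
    ⟨-, ⟨k, hk⟩, -⟩ | ⟨a, b, e, P, f₁, f₂, -, a1, a2, a3, a4, a5⟩ |
    ⟨a, b, e, P, ε₁, ε₂, f₁, f₂, -, a1, a2, -⟩ | ⟨k, t, e, P, ε₁, f₁, a1, a2, a3, a4⟩ | h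
  · rcases (show 1 ≤ m from a1.decomp.decomp.pos).lt_or_eq with h5 | rfl
    · exact Or.inr (Or.inr (Or.inl ⟨t, m, D, h5, a1, a2⟩))
    by_cases hp : (Fintype.card F).Prime
    · exact Or.inr (Or.inr (Or.inr (Or.inl ⟨t, D, hp, a1, a2⟩)))
    · obtain ⟨F₀, r, P, ζ, b1, b2, b3, b4, b5⟩ := oSub_of_frame hQ h2 hp a1
      exact h3 ⟨F₀, r, P, ζ, b1, b2, b3, b4, (le_inf a2 hH).trans b5⟩
  · exact absurd (card_eq_of_isMDecomposition a1 ▸ even_two_mul m) h4
  · exact Or.inr (Or.inr (Or.inr (Or.inr (Or.inl h))))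
  · exact absurd (even_iff_two_dvd.mpr (dvd_card_of_isFieldSubalgebra a1)) h4
  · exact h3 h
  · exact absurd (hk ▸ (Nat.even_pow.mpr ⟨even_two, by rintro rfl; omega⟩)) h4
  · rcases a2.lt_or_eq with h5 | rfl
    · iterate 5 right
      exact Or.inl ⟨a, b, e, P, f₁, f₂, a1, h5, a4, a5⟩
    · obtain ⟨B, c, b1, b2⟩ := a4.hf₁.exists_sim_odd a4.hf₂ h2
        (by simpa using (Nat.odd_mul.mp (a4.card ▸ ho)).1)
      obtain ⟨e', P', b3, b4, -⟩ := a4.pow b1 b2
      iterate 7 right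
      exact Or.inl ⟨a, 2, e', P', f₁, a1, a3, b3, a5.trans b4⟩
  · exact absurd (a1.card ▸ (show Even a by simpa using even_card_of_symplectic a2).mul_right b) h4
  · have h5 : ¬ Even k := fun h => h4 (a1.card ▸ Nat.even_pow.mpr ⟨h, by have := a1.two_le_t; omega⟩)
    rcases a3 with ⟨-, rfl⟩ | ⟨a3, -⟩
    swap
    · exact absurd (by simpa using even_card_of_symplectic a3) h5
    iterate 7 right
    refine Or.inl ⟨k, t, e, P, f₁, a1.two_le_k.lt_of_ne (by rintro rfl; exact h5 even_two), ?_, a1, a4⟩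
    rintro ⟨h6, rfl⟩
    exact a2 (a1.hf₁.solvable_O3 h6)
  · iterate 8 right
    exact h

lemma quad_odd (m : ℕ) (h2 : (2 : F) ≠ 0) : IsNondegenerateQuadraticForm (quadFormOdd m F) :=
  quad_of_nd (H13.nd_QOdd h2)

lemma oddCls_std [Fintype F] (ho : Odd (Fintype.card F)) {m : ℕ} (hm : 1 ≤ m)
    {H : Subgroup (GL (Unit ⊕ (Fin m ⊕ Fin m)) F)} (hH : H ≤ isometryGroup F (quadFormOdd m F)) :
    OddCls (quadFormOdd m F) H :=
  oddCls (quad_odd m (two_ne_zero_iff_odd.mpr ho)) hH (two_ne_zero_iff_odd.mpr ho) (by simp; omega)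
    (by simp [Nat.odd_add]) fun F₀ => det_mem_subfield fun i j => by
      have h : ∀ i j : Unit ⊕ (Fin m ⊕ Fin m), (Pi.single i 1 : _ → F) j ∈ F₀ := fun i j => by
        rw [Pi.single_apply]; split_ifs; exacts [one_mem _, zero_mem _]
      change polar (H13.QOdd m F) _ _ ∈ F₀
      rw [H13.polar_QOdd]
      exact add_mem (mul_mem (mul_mem (ofNat_mem _ 2) (h _ _)) (h _ _))
        (sum_mem fun k _ => add_mem (mul_mem (h _ _) (h _ _)) (mul_mem (h _ _) (h _ _)))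

theorem oddMax [Fintype F] (hQ : IsNondegenerateQuadraticForm Q) (h2 : (2 : F) ≠ 0)
    (hn : 5 ≤ Fintype.card ι) (ho : Odd (Fintype.card ι)) (hH : IsMaximalIn (omegaGL Q) H)
    (h : OddCls Q H) :
    (∃ W, W ≠ ⊥ ∧ IsTotallySingularQuad Q W ∧ H = subspaceStabilizer W ⊓ omegaGL Q) ∨
    (∃ W : Submodule F (ι → F), W ≠ ⊥ ∧ Even (Module.finrank F W) ∧ IsNondegenerateOn (polar Q) W ∧
      ¬ (Fintype.card F = 3 ∧ Module.finrank F W = 2 ∧ IsPlusTypeOn Q W) ∧
      H = subspaceStabilizer W ⊓ omegaGL Q) ∨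
    (∃ (t k : ℕ) (D : Fin t → Submodule F (ι → F)), Fintype.card ι = t * k ∧ 2 ≤ t ∧ 1 < k ∧
      (k = 3 → 5 ≤ Fintype.card F) ∧ IsOrthogonalMDecomposition Q k D ∧
      H = decompositionStabilizer D ⊓ omegaGL Q) ∨
    (∃ (t : ℕ) (D : Fin t → Submodule F (ι → F)), Fintype.card ι = t ∧ (Fintype.card F).Prime ∧
      IsOrthogonalMDecomposition Q 1 D ∧ H = decompositionStabilizer D ⊓ omegaGL Q) ∨
    (∃ (r : ℕ) (K : Subalgebra F (Matrix ι ι F)), r.Prime ∧ r ≠ Fintype.card ι ∧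
      r ∣ Fintype.card ι ∧ IsFieldSubalgebra r K ∧ IsSelfAdjointFor (polar Q) K ∧
      H = subalgebraNormalizer K ⊓ omegaGL Q) ∨
    (∃ a b : ℕ, 3 ≤ a ∧ a < b ∧ Fintype.card ι = a * b) ∨
    (∃ (F₀ : Subfield F) (r : ℕ) (P : GL ι F), r.Prime ∧ Fintype.card F = Nat.card F₀ ^ r ∧
      IsQuadFormRationalStructure Q F₀ P ∧ H = subfieldSubgroup F₀ P ⊓ omegaGL Q) ∨
    (∃ (k t : ℕ) (e : ι ≃ (Fin t → Fin k)) (P : GL ι F) (f₁ : _), 3 ≤ k ∧ 2 ≤ t ∧
      Fintype.card ι = k ^ t ∧ (k = 3 → 5 ≤ Fintype.card F) ∧ IsSymmetricForm f₁ ∧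
      IsTensorPowerFormStructure id (polar Q) f₁ e P ∧ H ≤ tensorWreathSubgroup k t e P) ∨
    InOrthogonalResidualClass H := by
  have : Nonempty ι := Fintype.card_pos_iff.mp (by omega)
  have hf := hform_of_quad hQ
  have hle := hH.1.le.trans omegaGL_le
  have hs := hle.trans (isometryGroup_le_isoG.trans (isoG_le_sim _))
  have h5 : Fintype.card F ≠ 3 → 5 ≤ Fintype.card F := fun h => by
    have := two_le_card (F := F)
    obtain ⟨k, hk⟩ := two_ne_zero_iff_odd.mp h2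
    omega
  rcases h with ⟨W, a1, a2, a3⟩ | ⟨W, a1, a2, a3, a4⟩ | ⟨t, k, D, a1, a2, a3⟩ | ⟨t, D, a1, a2, a3⟩ |
    ⟨r, K, a1, a2, a3, a4, a5⟩ | ⟨a, b, e, P, f₁, f₂, a1, a2, a3, -⟩ | ⟨F₀, r, P, a1, a2, a3, a4⟩ |
    ⟨k, t, e, P, f₁, a1, a2, a3, a4⟩ | h
  · exact Or.inl ⟨W, a1, a2, eq_of_maximal hH a3
      (omega_not_le_stab hQ hn a1 (IsTotallySingularQuad.ne_top hQ a2))⟩
  · have key : ∀ W, W ≠ ⊥ → W ≠ ⊤ → IsNondegenerateOn (polar Q) W → H ≤ subspaceStabilizer W →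
        ∃ W' : Submodule F (ι → F), W' ≠ ⊥ ∧ Even (Module.finrank F W') ∧ IsNondegenerateOn (polar Q) W' ∧
          (W' = W ∨ Module.finrank F W + Module.finrank F W' = Fintype.card ι) ∧
          H = subspaceStabilizer W' ⊓ omegaGL Q := fun W a1 a2 a3 a4 => by
      by_cases h : Even (Module.finrank F W)
      · exact ⟨W, a1, h, a3, Or.inl rfl, eq_of_maximal hH a4 (omega_not_le_stab hQ hn a1 a2)⟩
      obtain ⟨b1, b2⟩ := hf.finrank_perp a3
      have b3 : hf.perp W ≠ ⊥ := fun h => a2 (by rwa [h, sup_bot_eq] at b2)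
      refine ⟨_, b3, ?_, hf.nondegOn_perp a3, Or.inr b1, eq_of_maximal hH (hf.le_stab_perp hs a4)
        (omega_not_le_stab hQ hn b3 fun h => a1 ?_)⟩
      · rw [← b1, Nat.odd_add] at ho; exact ho.mp (Nat.not_even_iff_odd.mp h)
      · rw [← hf.nondegOn_iff.mp a3, h, inf_top_eq]
    obtain ⟨W', b1, b2, b3, -, b4⟩ := key W a1 a2 a3 a4
    by_cases h : Fintype.card F = 3 ∧ Module.finrank F W' = 2 ∧ IsPlusTypeOn Q W'
    swap
    · exact Or.inr (Or.inl ⟨W', b1, b2, b3, h, b4⟩)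
    obtain ⟨v, hv, b5⟩ := le_stab_of_plus hQ h.1.le b3 h.2.1 h.2.2
    have b6 := finrank_span_of_quad hQ hv
    obtain ⟨W'', c1, c2, c3, c4, c5⟩ := key _ (fun h => by rw [h, finrank_bot] at b6; omega) (fun h => by
      rw [h, finrank_top, Module.finrank_fintype_fun_eq_card] at b6; omega) (nondegOn_span hQ h2 hv)
      ((le_inf (b4.le.trans inf_le_left) hle).trans b5)
    refine Or.inr (Or.inl ⟨W'', c1, c2, c3, fun h => ?_, c5⟩)
    rcases c4 with rfl | c4 <;> omega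
  · by_cases h : Fintype.card F = 3 ∧ k = 3
    · obtain ⟨h, rfl⟩ := h
      obtain ⟨D', b1, b2⟩ := oframe_three hQ h a2
      exact Or.inr (Or.inr (Or.inr (Or.inl ⟨_, D', rfl, h ▸ Nat.prime_three, b1, eq_of_maximal hH
        ((le_inf a3 hle).trans b2) (omega_not_le_ndDecomp hQ hn b1.decomp)⟩)))
    · exact Or.inr (Or.inr (Or.inl ⟨t, k, D, card_eq_of_isMDecomposition a2.decomp.decomp,
        a2.decomp.decomp.two_le, a1, fun h' => h5 fun h'' => h ⟨h'', h'⟩, a2,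
        eq_of_maximal hH a3 (omega_not_le_ndDecomp hQ hn a2.decomp)⟩))
  · exact Or.inr (Or.inr (Or.inr (Or.inl ⟨t, D, by
      simpa using card_eq_of_isMDecomposition a2.decomp.decomp, a1, a2,
      eq_of_maximal hH a3 (omega_not_le_ndDecomp hQ hn a2.decomp)⟩)))
  · iterate 4 right
    exact Or.inl ⟨r, K, a1, a2, dvd_card_of_isFieldSubalgebra a3, a3, a4,
      eq_of_maximal hH a5 (omega_not_le_field hQ hn a1.two_le a3)⟩
  · iterate 5 right
    exact Or.inl ⟨a, b, a1, a2, a3.card⟩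
  · iterate 6 right
    exact Or.inl ⟨F₀, r, P, a1, a2, a3,
      eq_of_maximal hH a4 (omega_not_le_subfield hQ hn (ne_top_of_card_eq_pow a1 a2) P)⟩
  · iterate 7 right
    exact Or.inl ⟨k, t, e, P, f₁, a1, a3.two_le_t, a3.card, fun h' => h5 fun h'' => a2 ⟨h'', h'⟩,
      a3.hf₁.symmetric, a3.struct hf, a4⟩
  · iterate 8 right
    exact h

end Cfsg.Agent.H18
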