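import Cfsg.Agent.H18.OmOdd

/-! Plus and minus type of quadratic forms. -/

set_option autoImplicit false

namespace Cfsg.Agent.H18

open Cfsg.Geo QuadraticMap Module
open scoped MatrixGroups Matrix Kronecker commutatorElement

variable {ι : Type} [Fintype ι] [DecidableEq ι] {F : Type*} [Field F] {Q : (ι → F) → F}
  {H : Subgroup (GL ι F)} (hQ : IsNondegenerateQuadraticForm Q) {W W' U : Submodule F (ι → F)}
include hQ

omit [Fintype ι] [DecidableEq ι] in
lemma nd_restrict (h : IsNondegenerateOn (polar Q) W) : H13.ND ((mkQ hQ).restrict W) :=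
  fun x hx => by
    by_contra h0
    obtain ⟨y, hy, h1⟩ := (h x x.2 fun h => h0 (Subtype.ext h)).2
    exact h1 (hx ⟨y, hy⟩)

omit [Fintype ι] [DecidableEq ι] in
lemma plus_iff_restrict : IsPlusTypeOn Q W ↔ H13.IsPlus ((mkQ hQ).restrict W) :=
  ⟨fun ⟨U, h1, h2, h3⟩ => ⟨U.comap W.subtype, by
    rw [(Submodule.comapSubtypeEquivOfLe h1).finrank_eq, h3], fun w hw => h2 _ hw⟩,
   fun ⟨U, h1, h2⟩ => ⟨U.map W.subtype, W.map_subtype_le U,
    by rintro _ ⟨w, hw, rfl⟩; exact h2 w hw, by rw [Submodule.finrank_map_subtype_eq, h1]⟩⟩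

omit [Fintype ι] [DecidableEq ι] in
lemma plus_top_iff : IsPlusTypeOn Q ⊤ ↔ H13.IsPlus (mkQ hQ) :=
  ⟨fun ⟨U, _, h2, h3⟩ => ⟨U, by rwa [finrank_top] at h3, h2⟩,
   fun ⟨U, h1, h2⟩ => ⟨U, le_top, h2, by rwa [finrank_top]⟩⟩

omit [Fintype ι] [DecidableEq ι] in
lemma plus_of_isometric (h : AreIsometricFor Q W W') (h1 : IsPlusTypeOn Q W) :
    IsPlusTypeOn Q W' := by
  obtain ⟨e, he⟩ := h
  exact (plus_iff_restrict hQ).mpr (((plus_iff_restrict hQ).mp h1).of_semiSim 
    (.ofIsometry (Q := (mkQ hQ).restrict W) e he))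

omit [Fintype ι] [DecidableEq ι] hQ in
lemma AreIsometricFor.symm (h : AreIsometricFor Q W W') : AreIsometricFor Q W' W := by
  obtain ⟨e, he⟩ := h
  exact ⟨e.symm, fun w => by rw [← he, e.apply_symm_apply]⟩

omit [DecidableEq ι] in
lemma isometric_of_type [Finite F] (h1 : IsNondegenerateOn (polar Q) W)
    (h2 : IsNondegenerateOn (polar Q) W') {m : ℕ} (h3 : finrank F W = 2 * m + 2)
    (h4 : finrank F W' = 2 * m + 2) (h : IsPlusTypeOn Q W ↔ IsPlusTypeOn Q W') :
    AreIsometricFor Q W W' := by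
  rw [plus_iff_restrict hQ, plus_iff_restrict hQ] at h
  by_cases h5 : H13.IsPlus ((mkQ hQ).restrict W)
  · obtain ⟨e, he⟩ := (nd_restrict hQ h1).equiv_QPlus h5 (m := m + 1) h3
    obtain ⟨e', he'⟩ := (nd_restrict hQ h2).equiv_QPlus (h.mp h5) (m := m + 1) h4
    exact ⟨e.trans e'.symm, fun w => (he' _).symm.trans
      ((congrArg _ (e'.apply_symm_apply _)).trans (he w))⟩
  · obtain ⟨a, b, hab⟩ := H13.exists_anisotropic_binary F
    obtain ⟨e, he⟩ := (nd_restrict hQ h1).equiv_QMinus h5 h3 hab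
    obtain ⟨e', he'⟩ := (nd_restrict hQ h2).equiv_QMinus (mt h.mpr h5) h4 hab
    exact ⟨e.trans e'.symm, fun w => (he' _).symm.trans
      ((congrArg _ (e'.apply_symm_apply _)).trans (he w))⟩

omit [DecidableEq ι] in
lemma plus_of_family {κ : Type} [Fintype κ] {v : κ → ι → F} (h1 : LinearIndependent F v)
    (h2 : ∀ k, Q (v k) = 0) (h3 : ∀ k l, polar Q (v k) (v l) = 0)
    (h4 : 2 * Fintype.card κ = Fintype.card ι) : IsPlusTypeOn Q ⊤ :=
  ⟨Submodule.span F (Set.range v), le_top, fun _ hw => H13.Q_eq_zero_of_mem_span (Q := mkQ hQ)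
    (by rintro _ ⟨k, rfl⟩; exact h2 k) (by rintro _ ⟨k, rfl⟩ _ ⟨l, rfl⟩; exact h3 k l) hw,
    by rw [finrank_span_eq_card h1, h4, finrank_top, finrank_fintype_fun_eq_card]⟩

omit [Fintype ι] [DecidableEq ι] hQ in
lemma ts_sup (h1 : IsTotallySingularQuad Q W) (h2 : IsTotallySingularQuad Q W')
    (h : ∀ u ∈ W, ∀ v ∈ W', polar Q u v = 0) : IsTotallySingularQuad Q (W ⊔ W') := fun w hw => by
  obtain ⟨u, hu, v, hv, rfl⟩ := Submodule.mem_sup.mp hw
  rw [quad_add (Q := Q), h1 u hu, h2 v hv, h u hu v hv]; simp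

omit [DecidableEq ι] in
lemma finrank_sup_perp (h : IsNondegenerateOn (polar Q) W) {M : Submodule F (ι → F)} (h1 : M ≤ W)
    (h2 : U ≤ (hform_of_quad hQ).perp W) : finrank F ↥(M ⊔ U) = finrank F M + finrank F U := by
  have := Submodule.finrank_sup_add_finrank_inf_eq M U
  rwa [eq_bot_iff.mpr ((inf_le_inf h1 h2).trans ((hform_of_quad hQ).nondegOn_iff.mp h).le),
    finrank_bot, add_zero] at this

omit [DecidableEq ι] in
lemma plus_top_of (h : IsNondegenerateOn (polar Q) W) (h1 : IsPlusTypeOn Q W)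
    (h2 : IsPlusTypeOn Q ((hform_of_quad hQ).perp W)) : IsPlusTypeOn Q ⊤ := by
  have hf := hform_of_quad hQ
  obtain ⟨M, a1, a2, a3⟩ := h1
  obtain ⟨U, b1, b2, b3⟩ := h2
  refine ⟨M ⊔ U, le_top, ts_sup a2 b2 fun u hu v hv => hf.eq_zero_comm (b1 hv u (a1 hu)), ?_⟩
  rw [finrank_sup_perp hQ h a1 b1, finrank_top, finrank_fintype_fun_eq_card, mul_add, a3, b3,
    (hf.finrank_perp h).1]

omit [DecidableEq ι] hQ in
lemma exists_max_ts (h1 : U ≤ W) (h2 : IsTotallySingularQuad Q U) :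
    ∃ M, U ≤ M ∧ M ≤ W ∧ IsTotallySingularQuad Q M ∧
      ∀ M', M ≤ M' → M' ≤ W → IsTotallySingularQuad Q M' → M' = M := by
  obtain ⟨M, h3, h4⟩ := set_has_maximal_iff_noetherian.mpr (inferInstance : IsNoetherian F (ι → F))
    {M | U ≤ M ∧ M ≤ W ∧ IsTotallySingularQuad Q M} ⟨U, le_rfl, h1, h2⟩
  exact ⟨M, h3.1, h3.2.1, h3.2.2, fun M' a b c => by
    by_contra h; exact h4 M' ⟨h3.1.trans a, b, c⟩ (a.lt_of_ne' h)⟩

omit [DecidableEq ι] in
lemma two_mul_le_of_ts (h : IsNondegenerateOn (polar Q) W) (h1 : U ≤ W)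
    (h2 : IsTotallySingularQuad Q U) : 2 * finrank F U ≤ finrank F W := by
  rw [← (Submodule.comapSubtypeEquivOfLe h1).finrank_eq]
  exact (nd_restrict hQ h).two_mul_finrank_le fun w hw => h2 _ hw

omit [DecidableEq ι] in
lemma exists_ts_ge (h : IsPlusTypeOn Q ⊤) (h2 : IsTotallySingularQuad Q U) :
    ∃ M, U ≤ M ∧ IsTotallySingularQuad Q M ∧ 2 * finrank F M = Fintype.card ι := by
  obtain ⟨M, a1, -, a2, a3⟩ := exists_max_ts le_top h2
  obtain ⟨M', -, b1, b2⟩ := h
  have h3 := (nd_mkQ hQ).finrank_le_of_maximal a2 b1 fun M' h => a3 M' h le_top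
  have h4 := (nd_mkQ hQ).two_mul_finrank_le a2
  rw [finrank_top] at b2
  exact ⟨M, a1, a2, by rw [← finrank_fintype_fun_eq_card F]; omega⟩

omit [DecidableEq ι] in
lemma plus_of_top (h : IsNondegenerateOn (polar Q) W) (h1 : IsPlusTypeOn Q ⊤)
    (h2 : IsPlusTypeOn Q ((hform_of_quad hQ).perp W)) : IsPlusTypeOn Q W := by
  have hf := hform_of_quad hQ
  obtain ⟨U, b1, b2, b3⟩ := h2
  obtain ⟨M, a1, a2, a3⟩ := exists_ts_ge hQ h1 b2
  obtain ⟨h3, h4⟩ := hf.finrank_perp h
  have h5 : M ⊓ W ⊔ U = M := le_antisymm (sup_le inf_le_left a1) fun v hv => by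
    obtain ⟨w, hw, w', hw', rfl⟩ := Submodule.mem_sup.mp (h4.ge (Submodule.mem_top (x := v)))
    have h6 : w' ∈ U := by
      have := (nd_restrict hQ (hf.nondegOn_perp h)).perp_eq_self (W := U.comap (hf.perp W).subtype)
        b3.symm (Submodule.comapSubtypeEquivOfLe b1).finrank_eq fun w hw => b2 _ hw
      refine this.le (x := ⟨w', hw'⟩) (H13.mem_perp.mpr fun u hu => ?_)
      have h7 := IsTotallySingularQuad.polar a2 u (a1 hu) _ hv
      rwa [hf.add_right, show polar Q u w = 0 from b1 hu w hw, zero_add] at h7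
    exact add_mem (Submodule.mem_sup_left ⟨by simpa using sub_mem hv (a1 h6), hw⟩)
      (Submodule.mem_sup_right h6)
  refine ⟨M ⊓ W, inf_le_right, fun w hw => a2 w hw.1, ?_⟩
  rw [← h5, finrank_sup_perp hQ h inf_le_right b1] at a3
  omega

section decomp
variable {t m : ℕ} {D : Fin t → Submodule F (ι → F)}

lemma exists_ts_of_pairs (h2 : (2 : F) = 0) (hD : IsOrthogonalMDecomposition Q m D) {s : ℕ}
    (α β : Fin s → Fin t) (hα : α.Injective) (hβ : β.Injective) (h : ∀ j k, α j ≠ β k) :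
    ∃ U, IsTotallySingularQuad Q U ∧ finrank F U = s * m ∧
      ∀ i, (∀ j, α j ≠ i ∧ β j ≠ i) → U ≤ (hform_of_quad hQ).perp (D i) := by
  have hf := hform_of_quad hQ
  have := hD.decomp.decomp.two_le
  choose e he using hD.isometric ⟨0, by omega⟩
  let L : (Fin s → D ⟨0, by omega⟩) →ₗ[F] (ι → F) := ∑ j, ((D _).subtype ∘ₗ (e (α j)).toLinearMap +
    (D _).subtype ∘ₗ (e (β j)).toLinearMap) ∘ₗ LinearMap.proj j
  have h3 : ∀ x, L x = ∑ j, ((e (α j) (x j) : ι → F) + e (β j) (x j)) := fun x => by simp [L]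
  have h4 : ∀ i j, i ≠ j → ∀ x y, polar Q (e i x) (e j y) = 0 := fun i j h x y =>
    hD.decomp.orthogonal i j h _ (e i x).2 _ (e j y).2
  refine ⟨LinearMap.range L, ?_, ?_, fun i hi => ?_⟩
  · rintro _ ⟨x, rfl⟩
    rw [h3, quad_sum_orth hQ _ fun j k hjk => by
      simp [hf.add_left, hf.add_right, h4 _ _ (hα.ne hjk), h4 _ _ (hβ.ne hjk), h4 _ _ (h j k),
        h4 _ _ (h k j).symm]]
    exact Finset.sum_eq_zero fun j _ => by
      rw [quad_add (Q := Q), he, he, h4 _ _ (h j j), add_zero, ← two_mul, h2, zero_mul]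
  · rw [LinearMap.finrank_range_of_inj, Module.finrank_pi_fintype, hD.decomp.decomp.finrank_eq]
    · simp
    refine (injective_iff_map_eq_zero L).mpr fun x hx => funext fun j => nd_restrict hQ
      (hD.decomp.nondegenerate _) _ fun y => ?_
    have h5 := congrArg (polar Q · (e (α j) y)) hx
    simp only [h3, hf.sum_left, hf.add_left, hf.zero_left, h4 _ _ (h j _).symm, add_zero] at h5
    rwa [Finset.sum_eq_single j (fun k _ hk => h4 _ _ (hα.ne hk) _ _) (by simp),
      polar_of_isometric (he _)] at h5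
  · rintro _ ⟨x, rfl⟩ w hw
    rw [h3, hf.sum_left]
    exact Finset.sum_eq_zero fun j _ => by
      rw [hf.add_left, hD.decomp.orthogonal _ _ (hi j).1 _ (e _ _).2 w hw,
        hD.decomp.orthogonal _ _ (hi j).2 _ (e _ _).2 w hw, add_zero]

variable [Finite F]

/-- the discriminant of a subspace -/
noncomputable def dsc (W : Submodule F (ι → F)) : ℤˣ := H13.disc ((mkQ hQ).restrict W)

omit [DecidableEq ι] in
lemma dsc_eq (h : IsNondegenerateOn (polar Q) W) (h1 : AreIsometricFor Q W W') :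
    dsc hQ W' = dsc hQ W := by
  obtain ⟨e, he⟩ := h1
  exact (nd_restrict hQ h).disc_of_isometry e he

omit [DecidableEq ι] in
lemma isometric_of_dsc (h2 : (2 : F) ≠ 0) (h : IsNondegenerateOn (polar Q) W)
    (h' : IsNondegenerateOn (polar Q) W') (h3 : finrank F W = finrank F W')
    (h4 : dsc hQ W = dsc hQ W') : AreIsometricFor Q W W' :=
  (nd_restrict hQ h).exists_isometry_of_disc_eq h2 (nd_restrict hQ h') h3 h4

omit [DecidableEq ι] in
lemma plus_iff_dsc (h2 : (2 : F) ≠ 0) (h : IsNondegenerateOn (polar Q) W) {k : ℕ}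
    (hk : finrank F W = 2 * k) : IsPlusTypeOn Q W ↔ dsc hQ W = H13.sgn (-1 : F) ^ k :=
  (plus_iff_restrict hQ).trans ((nd_restrict hQ h).isPlus_iff_disc h2 hk)

omit [DecidableEq ι] in
lemma plus_iff_disc (h2 : (2 : F) ≠ 0) {k : ℕ} (hk : Fintype.card ι = 2 * k) :
    IsPlusTypeOn Q ⊤ ↔ H13.disc (mkQ hQ) = H13.sgn (-1 : F) ^ k :=
  (plus_top_iff hQ).trans ((nd_mkQ hQ).isPlus_iff_disc h2 (by simpa using hk))

omit [DecidableEq ι] in
lemma disc_decomp (h2 : (2 : F) ≠ 0) (hD : IsNondegenerateMDecomposition (polar Q) m D) :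
    H13.disc (mkQ hQ) = ∏ i, dsc hQ (D i) := by
  classical
  have hf := hform_of_quad hQ
  choose b h3 h4 using fun i => hf.exists_orth_basis h2 (hD.nondegenerate i) (hD.decomp.finrank_eq i)
  have h5 : ∀ p q : Fin t × Fin m, p ≠ q → polar Q (b p.1 p.2) (b q.1 q.2) = 0 :=
    fun ⟨i, k⟩ ⟨j, l⟩ h => by
      by_cases hij : i = j
      · subst hij; exact h3 i k l fun h' => h (by rw [h'])
      · exact hD.orthogonal i j hij _ (b i k).2 _ (b j l).2
  obtain ⟨c, hc⟩ := hf.exists_basis_of_orth (v := fun p : Fin t × Fin m => (b p.1 p.2 : ι → F))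
    (fun p => h4 _ _) h5 (by simp [card_eq_of_isMDecomposition hD.decomp])
  rw [(nd_mkQ hQ).disc_eq c, H13.gdet_of_orthogonal _ _ fun p q h => by
    rw [hc, hc]; exact h5 p q h, Fintype.prod_prod_type, H13.sgn_prod _ _ fun i _ =>
      Finset.prod_ne_zero_iff.mpr fun k _ => by rw [hc]; exact h4 i k]
  refine Finset.prod_congr rfl fun i _ => ?_
  rw [dsc, (nd_restrict hQ (hD.nondegenerate i)).disc_eq (b i), H13.gdet_of_orthogonal _ _ (h3 i)]
  simp only [hc]; rfl

lemma disc_odecomp (h2 : (2 : F) ≠ 0) (hD : IsOrthogonalMDecomposition Q m D) (i : Fin t) :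
    H13.disc (mkQ hQ) = dsc hQ (D i) ^ t := by
  rw [disc_decomp hQ h2 hD.decomp, Finset.prod_congr rfl fun j _ =>
    dsc_eq hQ (hD.decomp.nondegenerate i) (hD.isometric i j)]
  simp

lemma plus_iff_of_even (h2 : (2 : F) ≠ 0) (hD : IsOrthogonalMDecomposition Q m D) (ht : Even t)
    {k : ℕ} (hk : Fintype.card ι = 2 * k) : IsPlusTypeOn Q ⊤ ↔ H13.sgn (-1 : F) ^ k = 1 := by
  have := hD.decomp.decomp.two_le
  rw [plus_iff_disc hQ h2 hk, disc_odecomp hQ h2 hD ⟨0, by omega⟩, Int.units_pow_eq_pow_mod_two,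
    Nat.even_iff.mp ht, pow_zero, eq_comm]

lemma plus_of_even (hD : IsOrthogonalMDecomposition Q m D) (ht : Even t)
    (h4 : 4 ∣ Fintype.card ι) : IsPlusTypeOn Q ⊤ := by
  by_cases h2 : (2 : F) = 0
  · obtain ⟨s, rfl⟩ := ht
    obtain ⟨U, h1, h3, -⟩ := exists_ts_of_pairs hQ h2 hD (Fin.castAdd s) (Fin.natAdd s)
      (Fin.castAdd_injective _ _) (Fin.natAdd_injective _ _) fun j k h => by
        have := congrArg Fin.val h; simp at this; omega
    refine ⟨U, le_top, h1, ?_⟩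
    rw [h3, finrank_top, finrank_fintype_fun_eq_card, card_eq_of_isMDecomposition hD.decomp.decomp]
    ring
  · obtain ⟨k, hk⟩ := h4
    exact (plus_iff_of_even hQ h2 hD ht (k := 2 * k) (by omega)).mpr (by simp [pow_mul])

lemma plus_iff_of_odd (hD : IsOrthogonalMDecomposition Q m D) (ht : Odd t) (hm : Even m) (i : Fin t) :
    IsPlusTypeOn Q ⊤ ↔ IsPlusTypeOn Q (D i) := by
  have hn := card_eq_of_isMDecomposition hD.decomp.decomp
  by_cases h2 : (2 : F) = 0
  · obtain ⟨s, rfl⟩ := ht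
    obtain ⟨U, h1, h3, h4⟩ := exists_ts_of_pairs hQ h2 hD (s := s) (fun j => ⟨j, by omega⟩)
      (fun j => ⟨s + j, by omega⟩) (fun j k h => by simpa [Fin.ext_iff] using h)
      (fun j k h => by simpa [Fin.ext_iff] using h) fun j k h => by
        have := congrArg Fin.val h; simp at this; omega
    have h5 := hD.decomp.nondegenerate (Fin.last _)
    have h6 : IsPlusTypeOn Q ((hform_of_quad hQ).perp (D (Fin.last _))) := ⟨U, h4 _ fun j => by
      simp [Fin.ext_iff]; omega, h1, by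
        have := ((hform_of_quad hQ).finrank_perp h5).1
        rw [hD.decomp.decomp.finrank_eq, hn] at this
        rw [h3]; linarith⟩
    exact ⟨fun h => plus_of_isometric hQ (hD.isometric _ i) (plus_of_top hQ h5 h h6),
      fun h => plus_top_of hQ h5 (plus_of_isometric hQ (hD.isometric i _) h) h6⟩
  · obtain ⟨k, rfl⟩ := hm
    rw [plus_iff_disc hQ h2 (k := k * t) (by rw [hn]; ring), plus_iff_dsc hQ h2
      (hD.decomp.nondegenerate i) (k := k) (by rw [hD.decomp.decomp.finrank_eq]; ring),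
      disc_odecomp hQ h2 hD i, pow_mul, Int.units_pow_eq_pow_mod_two,
      Int.units_pow_eq_pow_mod_two (_ ^ k), Nat.odd_iff.mp ht, pow_one, pow_one]

end decomp

omit hQ in
lemma li_single {κ κ' : Type} [Fintype κ] [DecidableEq κ] (e : ι ≃ κ) (P : GL ι F) {g : κ' → κ}
    (hg : g.Injective) :
    LinearIndependent F fun k => (P : Matrix ι ι F) *ᵥ ((Pi.single (g k) 1 : κ → F) ∘ e) :=
  ((Pi.linearIndependent_single_one κ F).comp g hg).map' (Matrix.toLin' (P : Matrix ι ι F) ∘ₗ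
    LinearMap.funLeft F F e) (LinearMap.ker_eq_bot'.mpr fun _ h => mulVec_comp_eq_zero h)

lemma plus_of_kron_two {b : ℕ} {e : ι ≃ Fin 2 × Fin b} {P : GL ι F}
    (h : ∀ x z, Q ((P : Matrix ι ι F) *ᵥ (kronV x z ∘ e)) = 0) : IsPlusTypeOn Q ⊤ := by
  refine plus_of_family hQ (li_single e P (g := fun k : Fin b => (0, k)) fun _ _ h => by
    simpa using h) (fun k => by rw [← kronV_single, h]) (fun k l => ?_)
    (by simp [Fintype.card_congr e])
  rw [← kronV_single, ← kronV_single, polar, h, h, ← Matrix.mulVec_add, sub_zero, sub_zero,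
    ← h (Pi.single 0 1) (Pi.single k 1 + Pi.single l 1)]
  congr 2; funext i; simp [kronV, mul_add]

lemma plus_of_pow_two {t : ℕ} {e : ι ≃ (Fin (t + 1) → Fin 2)} {P : GL ι F} {ε₁ : F} {f₁ : _}
    (h1 : PowD (RingHom.id F) (polar Q) e P ε₁ f₁) (h2 : ∀ v, f₁ v v = 0)
    (h : ∀ x, Q ((P : Matrix ι ι F) *ᵥ (pureV x ∘ e)) = 0) : IsPlusTypeOn Q ⊤ := by
  obtain ⟨c, -, -, hc⟩ := h1.form (hform_of_quad hQ)
  refine plus_of_family hQ (li_single e P (g := fun k : Fin t → Fin 2 => Fin.cons 0 k)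
    (Fin.cons_right_injective (α := fun _ => Fin 2) _)) (fun k => by rw [← pureV_single, h]) (fun k l => ?_)
    (by simp [Fintype.card_congr e, pow_succ'])
  rw [← pureV_single, ← pureV_single]
  refine (hc _ _).trans ?_
  rw [h1.form_pureV, Fin.prod_univ_succ, Fin.cons_zero, Fin.cons_zero, h2, zero_mul, mul_zero]

lemma plus_iff_kron [Finite F] (h2 : (2 : F) ≠ 0) {e : ι ≃ Fin 3 × Fin 4} {P : GL ι F} {f₁ : _}
    {f₂ : _} (h : KronD (RingHom.id F) (polar Q) e P 1 f₁ 1 f₂) :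
    IsPlusTypeOn Q ⊤ ↔ IsPlusTypeOn (fun v => f₂ v v) ⊤ := by
  obtain ⟨c, hc, -, h1⟩ := h.form (hform_of_quad hQ)
  let L : (Fin 3 × Fin 4 → F) ≃ₗ[F] (ι → F) := (LinearEquiv.funCongrLeft F F e).trans
    (H13.glEquiv ι F P)
  have h3 : H13.gdet (polarBilin (mkQ hQ)) ((Pi.basisFun F _).map L) =
      (c • gramMatrix f₁ ⊗ₖ gramMatrix f₂).det := congrArg Matrix.det (Matrix.ext fun p q => by
    refine Eq.trans ?_ ((h1 (Pi.single p 1) (Pi.single q 1)).trans
      (congrArg (c * ·) (congrFun (congrFun (gram_frm _ _) p) q)))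
    simp [L, H13.glEquiv_apply, trF]; rfl)
  have h4 : H13.gdet (polarBilin (mkQ (h.hf₂.quad h2))) (Pi.basisFun F _) =
      ((2 : F) • gramMatrix f₂).det := congrArg Matrix.det (Matrix.ext fun p q => by
    simp only [Pi.basisFun_apply]
    exact h.hf₂.polar_self (Pi.single p 1) (Pi.single q 1))
  have h5 := h.hf₁.isUnit_det.ne_zero
  have h6 := h.hf₂.isUnit_det.ne_zero
  rw [plus_iff_disc hQ h2 (k := 6) (by simp [h.card]), plus_iff_disc (h.hf₂.quad h2) h2 (k := 2)
    (by simp), (nd_mkQ hQ).disc_eq ((Pi.basisFun F _).map L), (nd_mkQ _).disc_eq (Pi.basisFun F _),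
    h3, h4, Matrix.det_smul, Matrix.det_smul, Matrix.det_kronecker,
    show c ^ _ * _ = (c ^ 6 * (gramMatrix f₁).det ^ 2 * (gramMatrix f₂).det) ^ 2 *
      (gramMatrix f₂).det by simp only [Fintype.card_prod, Fintype.card_fin]; ring,
    show (2 : F) ^ _ * _ = (2 ^ 2) ^ 2 * (gramMatrix f₂).det by rw [Fintype.card_fin]; ring,
    H13.sgn_sq_mul (by positivity) h6, H13.sgn_sq_mul (by positivity) h6,
    show 6 = 2 * 3 from rfl, pow_mul, Int.units_sq, one_pow]

lemma plus_of_extra [Finite F] (h2 : (2 : F) ≠ 0) (h4 : 4 ∣ Fintype.card ι) {x y : GL ι F}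
    (hx : x ∈ isometryGroup F Q) (hy : y ∈ isometryGroup F Q) (h1 : x * x = 1)
    (h3 : (y : Matrix ι ι F) * x = -(x * y)) : IsPlusTypeOn Q ⊤ := by
  have hf := hform_of_quad hQ
  by_cases h0 : Fintype.card ι = 0
  · exact ⟨⊥, bot_le, fun w hw => by rw [hw, quad_zero hQ], by simp [h0]⟩
  let e : Matrix ι ι F := (2 : F)⁻¹ • (1 + x)
  have h5 : (x : Matrix ι ι F) * x = 1 := congrArg Units.val h1
  have h6 : e * e = e := by
    simp only [e, Matrix.smul_mul, Matrix.mul_smul, add_mul, mul_add, h5, one_mul, mul_one]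
    rw [add_comm (x : Matrix ι ι F), ← two_smul F, smul_smul, smul_smul, inv_mul_cancel₀ h2, one_mul]
  have h7 : adj (RingHom.id F) (polar Q) e = e := by
    rw [hf.adj_smul, hf.adj_add, hf.adj_one, hf.adj_of_isoG (isometryGroup_le_isoG hx),
      inv_eq_of_mul_eq_one_right h1]; rfl
  have h8 : cj y e = 1 - e := (cj_eq_iff _ _ _).mpr (by
    simp only [e, Matrix.smul_mul, Matrix.mul_smul, add_mul, mul_add, sub_mul, h3, one_mul, mul_one]
    rw [eq_sub_iff_add_eq, ← smul_add, add_add_add_comm, neg_add_cancel, add_zero, ← two_smul F,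
      smul_smul, inv_mul_cancel₀ h2, one_smul])
  have h9 := hf.nondegOn_rng h6 h7
  have h10 : rng (1 - e) = hf.perp (rng e) := le_antisymm
    (fun v hv w hw => hf.orth_rng (e := 1 - e) (e' := e) (by rw [h7, mul_sub, h6]; simp) v hv w hw)
    fun v hv => mem_rng.mpr ⟨v, by
      rw [Matrix.sub_mulVec, Matrix.one_mulVec, hf.nondeg' (e *ᵥ v) fun w => by
        rw [hf.adj_spec, h7]; exact hv _ (mulVec_mem_rng _ _), sub_zero]⟩
  have h11 := areIsometric_of_map hy ((map_rng y e).trans (h8 ▸ h10))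
  have h12 := (hf.finrank_perp h9).1
  rw [← h10, ← h8, finrank_rng_cj, ← two_mul] at h12
  refine plus_of_even hQ ⟨(hf.pair_decomp (fun h => h0 (by rw [← h12, h, finrank_bot, mul_zero])) h9 h12).1,
    fun i j => ?_⟩ even_two h4
  fin_cases i <;> fin_cases j
  exacts [⟨.refl _ _, fun _ => rfl⟩, h11, AreIsometricFor.symm h11, ⟨.refl _ _, fun _ => rfl⟩]

omit [Fintype ι] [DecidableEq ι] hQ in
lemma exists_root_quad [Fintype F] {F₀ : Subfield F} (h : Fintype.card F = Nat.card F₀ ^ 2)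
    (a b : F₀) : ∃ x : F, x ^ 2 + a * x + b = 0 := by
  by_cases h1 : ∃ x : F₀, x ^ 2 = -b + -a * x
  · obtain ⟨x, hx⟩ := h1
    exact ⟨x, by have := congrArg Subtype.val hx; push_cast at this; linear_combination this⟩
  have : Fact (∀ r : F₀, r ^ 2 ≠ -b + -a * r) := ⟨by simpa using h1⟩
  have h2 : finrank F₀ F = 2 := by
    have := Fintype.ofFinite F₀
    rw [Module.card_eq_pow_finrank (K := F₀), Nat.card_eq_fintype_card] at h
    exact Nat.pow_right_injective (two_le_card (F := F₀)) h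
  obtain ⟨φ⟩ := FiniteField.nonempty_algHom_of_finrank_dvd (F := F₀)
    (K := QuadraticAlgebra F₀ (-b) (-a)) (L := F) (by rw [h2, QuadraticAlgebra.finrank_eq_two])
  refine ⟨φ QuadraticAlgebra.omega, ?_⟩
  have := congrArg φ (QuadraticAlgebra.omega_mul_omega_eq_add (a := -b) (b := -a))
  simp only [map_mul, map_add, map_smul, map_one, map_neg, neg_smul, Subfield.smul_def,
    smul_eq_mul, mul_one] at this
  linear_combination this

lemma plus_of_subfield [Fintype F] (hn : Even (Fintype.card ι)) {F₀ : Subfield F}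
    (h : Fintype.card F = Nat.card F₀ ^ 2) {P : GL ι F} {ζ : F} (hζ : ζ ≠ 0)
    (h1 : IsQuadFormRationalStructure (fun v => ζ * Q v) F₀ P) : IsPlusTypeOn Q ⊤ := by
  have hf := hform_of_quad hQ
  let T : (ι → F₀) → ι → F := fun u => (P : Matrix ι ι F) *ᵥ fun i => (u i : F)
  have a1 : ∀ u v, T (u + v) = T u + T v := fun u v => by rw [← Matrix.mulVec_add]; rfl
  have a2 : ∀ (c : F₀) u, T (c • u) = (c : F) • T u := fun c u => by rw [← Matrix.mulVec_smul]; rfl
  let Q₀ : (ι → F₀) → F₀ := fun u => ⟨ζ * Q (T u), h1 _ fun i => (u i).2⟩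
  have a3 : ∀ u v, ((polar Q₀ u v : F₀) : F) = ζ * polar Q (T u) (T v) := fun u v => by
    simp [polar, Q₀, a1, mul_sub]
  have a4 : ∀ u, (∀ v, polar Q (T v) (T u) = 0) → u = 0 := fun u hu => by
    have := hf.nondeg (T u) fun x => by
      have h3 : x ∈ hf.perp (Submodule.span F {T u}) := by
        refine (span_eq_top_of_single (Equiv.refl ι) P (S := hf.perp (Submodule.span F {T u}))
          fun k w hw => ?_).ge.trans (Submodule.span_eq _).le trivial
        obtain ⟨c, rfl⟩ := Submodule.mem_span_singleton.mp hw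
        have := hu (Pi.single k 1)
        rw [hf.smul_right]
        refine mul_eq_zero_of_right _ (Eq.trans ?_ this)
        congr 2; funext i; simp [Pi.single_apply, apply_ite]
      exact h3 _ (Submodule.mem_span_singleton_self _)
    exact funext fun i => Subtype.ext (congrFun ((mulVec_eq_zero_iff P _).mp this) i)
  have hQ₀ : IsNondegenerateQuadraticForm Q₀ := by
    refine ⟨fun c v => Subtype.ext (by simp [Q₀, a2, hQ.smul]; ring), ⟨fun x y v => Subtype.ext ?_,
      fun c x v => Subtype.ext ?_, fun x y v => Subtype.ext ?_, fun c x v => Subtype.ext ?_⟩,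
      fun v hv => ?_⟩
    · simp [a3, a1, hf.add_left, mul_add]
    · simp [a3, a2, hf.smul_left]; ring
    · simp [a3, a1, hf.add_right, mul_add]
    · simp [a3, a2, hf.smul_right]; ring
    · obtain ⟨x, hx⟩ : ∃ x, polar Q₀ x v ≠ 0 := by
        by_contra! h3
        exact hv (a4 v fun x => (mul_eq_zero.mp ((a3 x v).symm.trans
          (congrArg Subtype.val (h3 x)))).resolve_left hζ)
      exact ⟨⟨x, hx⟩, x, by rwa [polar_comm]⟩
  obtain ⟨m, e, f, b1, b2⟩ := (nd_mkQ hQ₀).exists_hypFam_anisotropic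
  have b3 := b1.finrank_eq
  have b4 := H13.finrank_le_two_of_anisotropic b2
  rw [finrank_fintype_fun_eq_card, Fintype.card_fin] at b3
  have c1 : ∀ u v, polar Q₀ u v = 0 → polar Q (T u) (T v) = 0 := fun u v h =>
    (mul_eq_zero.mp ((a3 u v).symm.trans (congrArg Subtype.val h))).resolve_left hζ
  have c2 : ∀ i, Q (T (e i)) = 0 := fun i =>
    (mul_eq_zero.mp (congrArg Subtype.val (b1.Qe i))).resolve_left hζ
  have c3 : ∀ (c : Fin m → F) (w : ι → F), (∀ i, polar Q w (T (f i)) = 0) →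
      ∑ i, c i • T (e i) + w = 0 → ∀ i, c i = 0 := fun c w hw h i => by
    have := congrArg (ζ * polar Q · (T (f i))) h
    simp only [hf.add_left, hf.sum_left, hf.smul_left, hw, hf.zero_left, add_zero, Finset.mul_sum,
      mul_left_comm ζ, ← a3, show ∀ j, polar Q₀ (e j) (f i) = _ from fun j => b1.ef j i] at this
    simpa [apply_ite] using this
  obtain h2 | h2 : finrank F₀ (H13.hypPerp (mkQ hQ₀) e f) = 0 ∨
      finrank F₀ (H13.hypPerp (mkQ hQ₀) e f) = 2 := by obtain ⟨k, hk⟩ := hn; omega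
  · exact plus_of_family hQ (Fintype.linearIndependent_iff.mpr fun c hc =>
      c3 c 0 (fun _ => hf.zero_left _) (by rw [hc, add_zero])) c2 (fun i j => c1 _ _ (b1.ee i j))
      (by simp; omega)
  let b := finBasisOfFinrankEq _ _ h2
  have d1 : Q₀ (b 0) ≠ 0 := fun h => b.ne_zero 0 (Subtype.ext (b2 _ (b 0).2 h))
  have d2 : (Q₀ (b 0) : F) ≠ 0 := by simpa using d1
  obtain ⟨x, hx⟩ := exists_root_quad h (polar Q₀ (b 0) (b 1) / Q₀ (b 0)) (Q₀ (b 1) / Q₀ (b 0))
  have d3 : ∀ u, (∀ i, polar Q₀ u (b i) = 0) → polar Q (T u) (x • T (b 0) + T (b 1)) = 0 :=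
    fun u hu => by rw [hf.add_right, hf.smul_right, c1 _ _ (hu 0), c1 _ _ (hu 1)]; simp
  have d4 : Q (x • T (b 0) + T (b 1)) = 0 := mul_left_cancel₀ hζ (by
    rw [quad_add (Q := Q), hQ.smul, hf.smul_left]
    push_cast at hx
    field_simp at hx
    rw [a3] at hx
    linear_combination hx)
  have d5 : ∀ i, polar Q (T (e i)) (x • T (b 0) + T (b 1)) = 0 := fun i =>
    d3 _ fun j => (H13.mem_hypPerp.mp (b j).2).1 i
  refine plus_of_family hQ (κ := Option (Fin m))
    (v := fun o => o.elim (x • T (b 0) + T (b 1)) fun i => T (e i))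
    (Fintype.linearIndependent_iff.mpr fun c hc => ?_) (fun o => by cases o; exacts [d4, c2 _])
    (fun o o' => ?_) (by simp; omega)
  · rw [Fintype.sum_option, add_comm] at hc
    have d6 := c3 (fun i => c (some i)) _ (fun i => by
      rw [hf.smul_left, hf.symm]
      exact mul_eq_zero_of_right _ (d3 _ fun j => (H13.mem_hypPerp.mp (b j).2).2 i)) hc
    rintro (_ | i)
    swap
    · exact d6 i
    simp only [d6, zero_smul, Finset.sum_const_zero, zero_add, smul_eq_zero, Option.elim] at hc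
    refine hc.resolve_right fun h3 => ?_
    obtain ⟨y, hy⟩ := (nd_mkQ hQ₀).exists_polar_eq (b.linearIndependent.map' (Submodule.subtype _)
      (Submodule.ker_subtype _)) ![0, 1]
    have := congrArg (ζ * polar Q (T y) ·) h3
    simp only [hf.add_right, hf.smul_right, show polar Q (T y) (T (b 0)) = 0 from c1 _ _ (hy 0),
      mul_zero, zero_add, ← a3, hf.zero_right, show polar Q₀ y (b 1) = 1 from hy 1] at this
    exact one_ne_zero this
  · cases o <;> cases o'
    exacts [by rw [polar_self_of_quad hQ]; exact mul_eq_zero_of_right _ d4,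
      hf.eq_zero_comm (d5 _), d5 _, c1 _ _ (b1.ee _ _)]

end Cfsg.Agent.H18
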