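import Mathlib
import Cfsg.Agent.H18.Av
import Cfsg.Agent.H18.FxE
import Cfsg.Agent.H12.UtC

/-!
Tensor decompositions of orthogonal spaces: basic isometries.
-/

set_option autoImplicit false

namespace Cfsg.Agent.H18

open Module QuadraticMap H13 H12

variable {F V : Type*} [Field F] [AddCommGroup V] [Module F V] {Q : QuadraticForm F V}
  {M : Subgroup (OG Q)}

theorem OG_inv_eq {g : OG Q} {x y : V} (h : g.1 x = y) : (g⁻¹).1 y = x := by
  rw [← h, OG_inv_apply_apply]

theorem rad_mem_Om [FiniteDimensional F V] [Finite F] (hQ : ND Q) (hn : 5 ≤ finrank F V) (n : ℕ) :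
    ∀ L : Submodule F V, finrank F L = n → (∀ x ∈ L, Q x = 0) → ∀ k : OG Q, (∀ x ∈ L, k.1 x = x) →
      (∀ x ∈ perp Q L, k.1 x - x ∈ L) → k ∈ Om Q := by
  induction n with
  | zero =>
    intro L h1 _ k _ h4
    obtain rfl := Submodule.finrank_eq_zero.mp h1
    rw [show k = 1 from OG_ext fun x => sub_eq_zero.mp (h4 x (mem_perp.mpr (by simp)))]
    exact one_mem _
  | succ n ih =>
    intro L h1 h2 k h3 h4
    obtain ⟨e, a1, a2⟩ := Submodule.exists_mem_ne_zero_of_ne_bot (p := L) (by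
      rintro rfl; simp at h1)
    obtain ⟨f, hp⟩ := hQ.exists_hp (h2 e a1) a2
    have a3 := le_perp_of_singular h2
    have a4 : k.1 f - f ∈ perp Q L := mem_perp.mpr fun w hw => by
      rw [polar_sub_right, ← h3 w hw, OG_polar, h3 w hw, sub_self]
    have a5 := mem_perp.mp a4 e a1
    have a6 : ∀ x ∈ perp Q L, (sieg Q e (k.1 f - f)).1 x = x + polar Q (k.1 f - f) x • e :=
      fun x hx => sieg_apply_of_perp hp.Qu a5 (mem_perp.mp hx e a1)
    refine (mul_mem_cancel_left (sieg_mem_Om hQ hn e (k.1 f - f))).mp (ih (L ⊓ perp Q (F ∙ f)) ?_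
      (fun x hx => h2 x hx.1) _ (fun x hx => ?_) fun x hx => ?_)
    · have b1 := le_finrank_inf_perp hQ L f
      have b2 := Submodule.finrank_lt_finrank_of_lt (show L ⊓ perp Q (F ∙ f) < L from
        lt_of_le_of_ne inf_le_left fun h => by simpa [hp.vu] using mem_perp_singleton.mp (h.ge a1).2)
      omega
    · rw [OG_mul_apply, h3 x hx.1, a6 x (a3 hx.1), polar_comm, mem_perp.mp a4 x hx.1]; simp
    have b1 : (sieg Q e (k.1 f - f) * k).1 f = f := by
      have := OG_map k f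
      rw [OG_mul_apply, sieg_apply hp.Qu a5, ← h3 e a1, OG_polar, h3 e a1, hp.uv]
      simp [Q_sub, hp.Qv, polar_comm Q f]
    have b2 : x - polar Q e x • f ∈ perp Q L := mem_perp.mpr fun w hw => by
      have := mem_perp.mp hx (w - polar Q f w • e) ⟨sub_mem hw (L.smul_mem _ a1),
        mem_perp_singleton.mpr (by simp [hp.vu])⟩
      simp [polar_comm Q w f] at this ⊢
      linear_combination this
    refine Submodule.mem_inf.mpr ⟨?_, mem_perp_singleton.mpr (by
      rw [polar_sub_right, OG_polar_right, OG_inv_eq b1, sub_self])⟩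
    have b3 := h4 _ b2
    have b4 : k.1 (x - polar Q e x • f) ∈ perp Q L := by simpa using add_mem (a3 b3) b2
    convert add_mem b3 (L.smul_mem (polar Q (k.1 f - f) (k.1 (x - polar Q e x • f))) a1) using 1
    rw [sub_add_eq_add_sub, ← a6 _ b4, ← OG_mul_apply, map_sub, map_smul, b1]; abel

/-- A non-degenerate `ε`-symmetric form. -/
structure EF (β : V →ₗ[F] V →ₗ[F] F) (ε : F) : Prop where
  symm : ∀ x y, β x y = ε * β y x
  sep : ∀ x, (∀ y, β x y = 0) → x = 0
  ee : ε * ε = 1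
  adm : ∀ s, ∃ c, β s s = (1 + ε) * c

/-- Admissible data for an Eichler transformation. -/
structure AD (β : V →ₗ[F] V →ₗ[F] F) (ε : F) (z s : V) (c : F) : Prop where
  zz : β z z = 0
  zs : β z s = 0
  ss : β s s = (1 + ε) * c

/-- The Eichler transformation. -/
def eich (β : V →ₗ[F] V →ₗ[F] F) (ε : F) (z s : V) (c : F) : End F V :=
  1 + (β s).smulRight z - (ε • β z).smulRight (s + c • z)

namespace EF
variable {β : V →ₗ[F] V →ₗ[F] F} {ε c : F} (E : EF β ε) {x y z s : V}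
include E

theorem comm0 (h : β x y = 0) : β y x = 0 := by rw [E.symm, h, mul_zero]

theorem ne0 (h : β x y ≠ 0) : β y x ≠ 0 := fun e => h (E.comm0 e)

theorem ε0 : ε ≠ 0 := left_ne_zero_of_mul_eq_one E.ee

theorem exists_one (h : x ≠ 0) : ∃ y, β x y = 1 := by
  obtain ⟨y, hy⟩ : ∃ y, β x y ≠ 0 := by by_contra! H; exact h (E.sep x H)
  exact ⟨(β x y)⁻¹ • y, by simp [hy]⟩

theorem ext (h : ∀ z, β z x = β z y) : x = y :=
  sub_eq_zero.mp (E.sep _ fun z => E.comm0 (by rw [map_sub, h, sub_self]))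

theorem partner (h : β z z = 0) (h0 : z ≠ 0) : ∃ y, β z y = 1 ∧ β y y = 0 := by
  obtain ⟨y, hy⟩ := E.exists_one h0
  obtain ⟨c, hc⟩ := E.adm y
  exact ⟨y - c • z, by simp [hy, h], by simp [hy, h, hc, E.symm y z]; ring⟩

theorem exists_ad (h : β z z = 0) (hs : β z s = 0) : ∃ c, AD β ε z s c :=
  (E.adm s).imp fun _ hc => ⟨h, hs, hc⟩

theorem eich_map (h : AD β ε z s c) (x y : V) : β (eich β ε z s c x) (eich β ε z s c y) = β x y := by
  simp [eich, h.zz, h.zs, h.ss, E.comm0 h.zs, E.symm x z, E.symm x s]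
  linear_combination (β z x * β z y * c * ε) * E.ee + (β z x * β z y * c - β z y * (β s x + c * β z x)) * E.ee

theorem exists_repr [FiniteDimensional F V] (φ : Dual F V) : ∃ x, ∀ y, β x y = φ y := by
  obtain ⟨x, hx⟩ := (LinearMap.injective_iff_surjective_of_finrank_eq_finrank (f := β) (by simp)).mp
    ((injective_iff_map_eq_zero _).mpr fun x hx => E.sep x fun y => by simp [hx]) φ
  exact ⟨x, fun y => by rw [hx]⟩

theorem exists_perp [FiniteDimensional F V] (h : x ∉ F ∙ y) : ∃ z, β z x = 1 ∧ β z y = 0 := by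
  obtain ⟨φ, h1, h2⟩ := exists_dual_one_zero h
  obtain ⟨z, hz⟩ := E.exists_repr φ
  exact ⟨z, by rw [hz, h1], by rw [hz, h2]⟩

end EF

variable {U W : Type*} [AddCommGroup U] [Module F U] [AddCommGroup W] [Module F W]
  {β₁ : U →ₗ[F] U →ₗ[F] F} {β₂ : W →ₗ[F] W →ₗ[F] F} {τ : U →ₗ[F] W →ₗ[F] V} {ε : F}

/-- The orthogonal space `V` is the tensor product of `U` and `W`. -/
structure TT (Q : QuadraticForm F V) (β₁ : U →ₗ[F] U →ₗ[F] F) (β₂ : W →ₗ[F] W →ₗ[F] F)
    (τ : U →ₗ[F] W →ₗ[F] V) (ε : F) : Prop where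
  ten : IsTensorProduct τ
  nd : ND Q
  f₁ : EF β₁ ε
  f₂ : EF β₂ ε
  map : ∀ u w u' w', polar Q (τ u w) (τ u' w') = β₁ u u' * β₂ w w'
  q : (2 : F) ≠ 0 ∨ ∀ u w, Q (τ u w) = 0

namespace TT
variable (h : TT Q β₁ β₂ τ ε) {z s s' : W} {c c' : F} {k : OG Q}

/-- Contraction with a vector of `W`. -/
noncomputable def cw : W →ₗ[F] V →ₗ[F] U := cR h.ten ∘ₗ β₂

@[simp] theorem cw_ten (r : W) (u : U) (w : W) : h.cw r (τ u w) = β₂ r w • u := cR_ten ..

theorem p_cw (x : U) (w : W) (v : V) : polar Q (τ x w) v = β₁ x (h.cw w v) :=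
  LinearMap.congr_fun (ten_ext h.ten (f := polarBilin Q (τ x w)) (g := β₁ x ∘ₗ h.cw w) fun u w' => by
    simp [h.map, mul_comm]) v

include h

theorem flip : TT Q β₂ β₁ τ.flip ε :=
  ⟨by simpa [IsTensorProduct, ← TensorProduct.lift_comp_comm_eq] using h.ten, h.nd, h.f₂, h.f₁,
    fun w u w' u' => by simp [h.map, mul_comm], h.q.imp_right fun H w u => H u w⟩

theorem Q0 (u : U) (w : W) (H : β₁ u u * β₂ w w = 0) : Q (τ u w) = 0 :=
  h.q.elim (fun h2 => (mul_eq_zero.mp ((polar_self' Q _).symm.trans ((h.map ..).trans H))).resolve_left h2)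
    fun H => H u w

theorem Qz (hz : β₂ z z = 0) (u : U) : Q (τ u z) = 0 := h.Q0 u z (by simp [hz])

theorem ext_p {v v' : V} (H : ∀ u w, polar Q (τ u w) v = polar Q (τ u w) v') : v = v' :=
  sub_eq_zero.mp (h.nd _ fun z => h.ten.inductionOn z (by simp)
    (fun u w => by rw [polar_comm, polar_sub_right, H, sub_self]) fun _ _ a b => by
      rw [polar_add_right, a, b, add_zero])

theorem ext {g g' : OG Q} (H : ∀ u w, g.1 (τ u w) = g'.1 (τ u w)) : g = g' :=
  OG_ext fun v => LinearMap.congr_fun (ten_ext h.ten (f := g.1.toLinearMap) (g := g'.1.toLinearMap) H) v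

theorem ind_cw {r s : W} (hs : β₂ r s = 1) {p : V → Prop} (h0 : p 0)
    (h1 : ∀ u w, β₂ r w = 0 → p (τ u w)) (h2 : ∀ v v', p v → p v' → p (v + v')) {v : V}
    (hv : h.cw r v = 0) : p v := by
  have : p (v - τ (h.cw r v) s) := h.ten.inductionOn v (by simpa) (fun u w => by
    convert h1 u (w - β₂ r w • s) (by simp [hs]) using 1; simp) fun v v' a b => by
      convert h2 _ _ a b using 1; simp; abel
  simpa [hv] using this

theorem eq_right {r s : W} (hs : β₂ r s = 1) {v : V} (H : ∀ w, β₂ r w = 0 → h.cw w v = 0) :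
    v = τ (ε • h.cw s v) r := h.ext_p fun u w => by
  have := H (w - β₂ r w • s) (by simp [hs])
  rw [map_sub, map_smul, LinearMap.sub_apply, sub_eq_zero] at this
  simp [h.p_cw, this, h.f₂.symm w r]
  linear_combination -(β₂ r w * β₁ u (h.cw s v)) * h.f₂.ee

theorem cw_map {a : U → U} (hk : ∀ u, k.1 (τ u z) = τ (a u) z) (u : U) (v : V) :
    β₁ (a u) (h.cw z (k.1 v)) = β₁ u (h.cw z v) := by rw [← h.p_cw, ← h.p_cw, ← hk, OG_polar]

theorem cw_fix (hk : ∀ u, k.1 (τ u z) = τ u z) (v : V) : h.cw z (k.1 v) = h.cw z v :=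
  h.f₁.ext fun u => h.cw_map hk u v

theorem mem_perp_L {v : V} : v ∈ perp Q (LinearMap.range (τ.flip z)) ↔ h.cw z v = 0 :=
  ⟨fun H => h.f₁.ext fun u => by simpa [h.p_cw] using mem_perp.mp H _ ⟨u, rfl⟩,
    fun H => mem_perp.mpr (by rintro _ ⟨u, rfl⟩; simp [h.p_cw, H])⟩

variable [FiniteDimensional F U] [FiniteDimensional F W]

theorem fin : FiniteDimensional F V := ten_fin h.ten

theorem finrank_eq : finrank F V = finrank F U * finrank F W := by
  rw [← h.ten.equiv.finrank_eq, finrank_tensorProduct]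

/-- The isometry `a ⊗ b`. -/
noncomputable def tt (a : End F U) (b : End F W)
    (H : ∀ u u' w w', β₁ (a u) (a u') * β₂ (b w) (b w') = β₁ u u' * β₂ w w') : OG Q :=
  haveI := h.fin
  have a1 : ∀ x y, polar Q (h.ten.map h.ten a b x) (h.ten.map h.ten a b y) = polar Q x y := fun x y =>
    h.ten.inductionOn x (by simp) (fun _ _ => h.ten.inductionOn y (by simp)
      (fun _ _ => by simp [h.ten.map_eq, h.map, H]) fun _ _ a b => by
        simp only [map_add, polar_add_right, a, b]) fun _ _ a b => by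
      simp only [map_add, polar_add_left, a, b]
  ⟨LinearEquiv.ofInjectiveEndo (h.ten.map h.ten a b) ((injective_iff_map_eq_zero _).mpr fun x hx =>
    h.nd x fun y => by rw [← a1, hx]; simp), fun x => h.q.elim
      (fun h2 => mul_left_cancel₀ h2 (by rw [← polar_self', ← polar_self']; exact a1 x x))
      fun H => h.ten.inductionOn x (by simp) (fun u w => by simp [h.ten.map_eq, H]) fun x y a b => by
        simp only [map_add, Q_add, a, b]; exact congrArg _ (a1 x y)⟩

@[simp] theorem tt_ten (a : End F U) (b : End F W) (H) (u : U) (w : W) :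
    (h.tt a b H).1 (τ u w) = τ (a u) (b w) := h.ten.map_eq h.ten ..

theorem tn_tt (a : End F U) (b : End F W) (H) : TN τ (h.tt a b H).1 := ⟨_, _, h.tt_ten a b H⟩

open Classical in
/-- The isometry `1 ⊗ E` for an Eichler transformation `E`. -/
noncomputable def eE (z s : W) (c : F) : OG Q :=
  if H : AD β₂ ε z s c then h.tt 1 (eich β₂ ε z s c) (by simp [h.f₂.eich_map H]) else 1

theorem tn_eE (z s : W) (c : F) : TN τ (h.eE z s c).1 := by
  unfold eE; split_ifs
  exacts [h.tn_tt .., ⟨1, 1, fun _ _ => rfl⟩]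

theorem eE_apply (H : AD β₂ ε z s c) (v : V) :
    (h.eE z s c).1 v = v + τ (h.cw s v) z - ε • τ (h.cw z v) (s + c • z) := by
  rw [eE, dif_pos H]
  exact h.ten.inductionOn v (by simp) (fun _ _ => by simp [eich, mul_smul]) fun _ _ a b => by
    simp only [map_add, a, b, smul_add, LinearMap.add_apply]; abel

theorem eE_L (H : AD β₂ ε z s c) (u : U) : (h.eE z s c).1 (τ u z) = τ u z := by
  simp [h.eE_apply H, H.zz, h.f₂.comm0 H.zs]

theorem ad_add (H : AD β₂ ε z s c) (H' : AD β₂ ε z s' c') :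
    AD β₂ ε z (s + s') (c + c' + β₂ s s') :=
  ⟨H.zz, by simp [H.zs, H'.zs], by simp [H.ss, H'.ss, h.f₂.symm s' s]; ring⟩

theorem eE_mul (H : AD β₂ ε z s c) (H' : AD β₂ ε z s' c') :
    h.eE z s c * h.eE z s' c' = h.eE z (s + s') (c + c' + β₂ s s') := OG_ext fun v => by
  simp [OG_mul_apply, h.eE_apply H, h.eE_apply H', h.eE_apply (h.ad_add H H'), H.zz, H'.zs,
    h.f₂.comm0 H.zs]
  module

theorem rad_mem [Finite F] (hn : 5 ≤ finrank F V) (hz : β₂ z z = 0) (h1 : ∀ u, k.1 (τ u z) = τ u z)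
    (h2 : ∀ v, h.cw z v = 0 → ∃ y, k.1 v = v + τ y z) : k ∈ Om Q :=
  haveI := h.fin
  rad_mem_Om h.nd hn _ (LinearMap.range (τ.flip z)) rfl (by rintro _ ⟨u, rfl⟩; exact h.Qz hz u) k
    (by rintro _ ⟨u, rfl⟩; exact h1 u) fun x hx => (h2 x (h.mem_perp_L.mp hx)).imp fun y e => by
      simp [e]

theorem eE_Om [Finite F] (hn : 5 ≤ finrank F V) (z s : W) (c : F) : h.eE z s c ∈ Om Q := by
  by_cases H : AD β₂ ε z s c
  · exact h.rad_mem hn H.zz (h.eE_L H) fun v hv => ⟨h.cw s v, by simp [h.eE_apply H, hv]⟩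
  · rw [eE, dif_neg H]; exact one_mem _

/-- The stabiliser of the tensor decomposition. -/
def HT : Subgroup (OG Q) where
  carrier := {g | TN τ g.1}
  mul_mem' := TN.mul
  one_mem' := ⟨1, 1, fun _ _ => rfl⟩
  inv_mem' := TN.inv h.ten

end TT

end Cfsg.Agent.H18
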