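import Mathlib
import Cfsg.Agent.H18.TtA

/-!
Tensor decompositions of orthogonal spaces: stabilisers of `U ⊗ z`, and averaging.
-/

set_option autoImplicit false

namespace Cfsg.Agent.H18

open Module QuadraticMap H13 H12

variable {F V : Type*} [Field F] [AddCommGroup V] [Module F V] {Q : QuadraticForm F V}
  {M : Subgroup (OG Q)} {U W : Type*} [AddCommGroup U] [Module F U] [AddCommGroup W] [Module F W]
  {β₁ : U →ₗ[F] U →ₗ[F] F} {β₂ : W →ₗ[F] W →ₗ[F] F} {τ : U →ₗ[F] W →ₗ[F] V} {ε : F}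

namespace TT
variable (h : TT Q β₁ β₂ τ ε) {y z s s' : W} {c c' : F} {k g : OG Q}

/-- The unipotent radical of the stabiliser of `U ⊗ z`. -/
def RL (z : W) (k : OG Q) : Prop :=
  (∀ u, k.1 (τ u z) = τ u z) ∧ ∀ v, h.cw z v = 0 → ∃ y, k.1 v = v + τ y z

/-- The action of an element of `M` in the centre of the radical. -/
def ZL (M : Subgroup (OG Q)) (z : W) (η : End F U) : Prop :=
  ∃ k ∈ M, ∀ v, k.1 v = v + τ (η (h.cw z v)) z

/-- The action of an element of `M` in the radical. -/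
def JL (M : Subgroup (OG Q)) (z : W) (θ : W →ₗ[F] End F U) : Prop :=
  ∃ k ∈ M, (∀ u, k.1 (τ u z) = τ u z) ∧ ∀ u w, β₂ z w = 0 → k.1 (τ u w) = τ u w + τ (θ w u) z

theorem exists_theta (hz : β₂ z z = 0) (h0 : z ≠ 0) (H : h.RL z k) : ∃ θ : W →ₗ[F] End F U,
    ∀ u w, β₂ z w = 0 → k.1 (τ u w) = τ u w + τ (θ w u) z := by
  obtain ⟨z', a1, -⟩ := h.f₂.partner hz h0
  refine ⟨LinearMap.llcomp F U V U ((ε • h.cw z') ∘ₗ (k.1.toLinearMap - 1)) ∘ₗ τ.flip, fun u w hw => ?_⟩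
  obtain ⟨y, hy⟩ := H.2 (τ u w) (by simp [hw])
  simp [hy, h.f₂.symm z' z, a1, smul_smul, h.f₂.ee]

theorem rl_of (h0 : z ≠ 0) (h1 : ∀ u, k.1 (τ u z) = τ u z)
    (h2 : ∀ u w, β₂ z w = 0 → ∃ y, k.1 (τ u w) = τ u w + τ y z) : h.RL z k := by
  obtain ⟨z', a1⟩ := h.f₂.exists_one h0
  exact ⟨h1, fun v hv => h.ind_cw a1 (p := fun v => ∃ y, k.1 v = v + τ y z) ⟨0, by simp⟩ h2
    (fun _ _ ⟨y, a⟩ ⟨y', a'⟩ => ⟨y + y', by simp [a, a']; abel⟩) hv⟩

theorem exists_eta (h0 : z ≠ 0) (H : ∀ u w, β₂ z w = 0 → k.1 (τ u w) = τ u w) :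
    ∃ η : End F U, ∀ v, k.1 v = v + τ (η (h.cw z v)) z := by
  obtain ⟨z', a1⟩ := h.f₂.exists_one h0
  refine ⟨(ε • h.cw z') ∘ₗ (k.1.toLinearMap - 1) ∘ₗ τ.flip z', fun v => ?_⟩
  have a2 := h.ind_cw a1 (p := fun v => k.1 v = v) (by simp) H (fun _ _ a b => by simp [a, b])
    (v := v - τ (h.cw z v) z') (by simp [a1])
  have a3 := h.eq_right a1 (v := k.1 (τ (h.cw z v) z') - τ (h.cw z v) z') fun w hw => by
    rw [map_sub, h.cw_fix fun u => H u w hw, sub_self]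
  rw [map_sub, sub_eq_iff_eq_add] at a2
  simp only [LinearMap.comp_apply, LinearMap.sub_apply, LinearMap.flip_apply, LinearEquiv.coe_coe,
    End.one_apply, LinearMap.smul_apply, ← a3, a2]
  abel

theorem ZL.alt (hz : β₂ z z = 0) (h0 : z ≠ 0) {η : End F U} (H : h.ZL M z η) (x : U) :
    β₁ (η x) x = 0 := by
  obtain ⟨k, -, a2⟩ := H
  obtain ⟨z', a1⟩ := h.f₂.exists_one h0
  have := OG_map k (τ x z')
  rw [a2, Q_add, h.Qz hz, polar_comm, h.p_cw] at this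
  simpa [a1] using this

theorem ZL.skew (hz : β₂ z z = 0) (h0 : z ≠ 0) {η : End F U} (H : h.ZL M z η) (x y : U) :
    β₁ (η x) y = -β₁ (η y) x := by
  have := ZL.alt h hz h0 H (x + y)
  simp [ZL.alt h hz h0 H] at this
  linear_combination this

variable [FiniteDimensional F U] [FiniteDimensional F W] [Finite F] [Nontrivial U]
  (hn : 5 ≤ finrank F V) (hM : ∀ g ∈ Om Q, TN τ g.1 → g ∈ M)
include hn hM

omit [Nontrivial U] in
theorem eE_mem (z s : W) (c : F) : h.eE z s c ∈ M := hM _ (h.eE_Om hn z s c) (h.tn_eE z s c)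

theorem eq_eE (hz : β₂ z z = 0) (h0 : z ≠ 0) (h1 : ∀ η, h.ZL M z η → ∃ c : F, ∀ u, η u = c • u)
    (h2 : ∀ θ, JL (τ := τ) (β₂ := β₂) M z θ → ∀ w, β₂ z w = 0 → ∃ c : F, ∀ u, θ w u = c • u)
    (hk : k ∈ M) (H : h.RL z k) : ∃ s c, AD β₂ ε z s c ∧ k = h.eE z s c := by
  obtain ⟨θ, a1⟩ := h.exists_theta hz h0 H
  obtain ⟨u₀, a2⟩ := exists_ne (0 : U)
  obtain ⟨l, hl⟩ := Module.Projective.exists_dual_eq_one F a2
  obtain ⟨s, hs⟩ := h.f₂.exists_repr (l ∘ₗ θ.flip u₀)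
  have a4 : ∀ w, β₂ z w = 0 → ∀ u, θ w u = β₂ s w • u := fun w hw u => by
    obtain ⟨c, hc⟩ := h2 θ ⟨k, hk, H.1, a1⟩ w hw
    simp [hs, hc, hl]
  have a5 : β₂ z s = 0 := h.f₂.comm0 (by
    have := ten_left_inj h.ten h0 (show τ (θ z u₀) z = τ 0 z by simpa [H.1] using a1 u₀ z hz)
    simp [hs, this])
  obtain ⟨d, hd⟩ := h.f₂.exists_ad hz a5
  obtain ⟨η, a6⟩ := h.exists_eta (k := (h.eE z s d)⁻¹ * k) h0 fun u w hw => OG_inv_eq (by
    simp [h.eE_apply hd, hw, a1 u w hw, a4 w hw])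
  have a7 : h.ZL M z η := ⟨_, mul_mem (inv_mem (h.eE_mem hn hM ..)) hk, a6⟩
  obtain ⟨c, hc⟩ := h1 η a7
  obtain ⟨x, hx⟩ := h.f₁.exists_one a2
  have a8 : AD β₂ ε z 0 (-(ε * c)) := ⟨hz, by simp, by
    have := ZL.skew h hz h0 a7 u₀ x
    simp [hc, hx, h.f₁.symm x u₀] at this
    simp only [map_zero]
    linear_combination ε * this⟩
  refine ⟨_, _, h.ad_add hd a8, ?_⟩
  rw [← h.eE_mul hd a8, ← inv_mul_eq_iff_eq_mul]
  exact OG_ext fun v => by rw [a6]; simp [hc, h.eE_apply a8, smul_smul, ← mul_assoc, h.f₁.ee]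

theorem tn_of_stab (h3 : 3 ≤ finrank F W) (hz : β₂ z z = 0) (h0 : z ≠ 0)
    (A2 : ∀ k ∈ M, h.RL z k → ∃ s c, AD β₂ ε z s c ∧ k = h.eE z s c) (hk : k ∈ M) (hk' : k ∈ Om Q)
    (h1 : ∀ u, ∃ u', k.1 (τ u z) = τ u' z) : TN τ k.1 := by
  obtain ⟨z', hf, hf'⟩ := h.f₂.partner hz h0
  have he := h.f₂.ee
  have hf2 : β₂ z' z = ε := by rw [h.f₂.symm, hf, mul_one]
  let A : End F U := (ε • h.cw z') ∘ₗ k.1.toLinearMap ∘ₗ τ.flip z
  have a1 : ∀ u, k.1 (τ u z) = τ (A u) z := fun u => by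
    obtain ⟨y, hy⟩ := h1 u
    simp [A, hy, hf2, smul_smul, he]
  have a2 : Function.Surjective A := LinearMap.injective_iff_surjective.mp fun u u' e =>
    ten_left_inj h.ten h0 (k.1.injective (by rw [a1, a1, e]))
  let A' : End F U := h.cw z ∘ₗ k.1.toLinearMap ∘ₗ τ.flip z'
  have a3 : ∀ u x, β₁ (A u) (A' x) = β₁ u x := fun u x => by simp [A', h.cw_map a1, hf]
  have a4 : ∀ v, h.cw z (k.1 v) = A' (h.cw z v) := fun v => h.f₁.ext fun u => by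
    obtain ⟨u, rfl⟩ := a2 u; rw [h.cw_map a1, a3]
  have a5 : Function.Injective A' := fun x x' e => h.f₁.ext fun u => by rw [← a3, e, a3]
  have c2 : ∀ s, β₂ z s = 0 → ∃ s', β₂ z s' = 0 ∧ ∀ x, ∃ y, k.1 (τ x s) = τ (A' x) s' + τ y z :=
    fun s hs => by
      obtain ⟨d, hd⟩ := h.f₂.exists_ad hz hs
      obtain ⟨s', d', d1, d2⟩ := A2 _ (mul_mem (mul_mem hk (h.eE_mem hn hM z s d)) (inv_mem hk))
        ⟨fun u => by
          obtain ⟨u, rfl⟩ := a2 u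
          rw [← a1, OG_mul_apply, OG_inv_apply_apply, OG_mul_apply, h.eE_L hd], fun v hv => by
          obtain ⟨v, rfl⟩ := k.1.surjective v
          rw [a4, map_eq_zero_iff _ a5] at hv
          exact ⟨A (h.cw s v), by
            rw [OG_mul_apply, OG_inv_apply_apply, OG_mul_apply]; simp [h.eE_apply hd, hv, a1]⟩⟩
      refine ⟨s', d1.zs, fun x => ?_⟩
      have d3 := congrArg (fun g : OG Q => g.1 (k.1 (τ x z'))) d2
      simp only [OG_mul_apply, OG_inv_apply_apply, h.eE_apply hd, h.eE_apply d1, map_add, map_sub,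
        map_smul, a1, a4, h.cw_ten, hf, one_smul] at d3
      exact ⟨d' • A' x - d • A x + ε • (β₂ s z' • A x - h.cw s' (k.1 (τ x z'))), by
        simp only [map_add, map_sub, map_smul, LinearMap.add_apply, LinearMap.sub_apply,
          LinearMap.smul_apply, a1] at d3 ⊢
        linear_combination (norm := module) -ε • d3 -
          he • (k.1 (τ x s) + d • τ (A x) z - τ (A' x) s' - d' • τ (A' x) z)⟩
  obtain ⟨x₀, b1⟩ := exists_ne (0 : U)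
  obtain ⟨l, hl⟩ := Module.Projective.exists_dual_eq_one F ((map_ne_zero_iff _ a5).mpr b1)
  let b₁ : End F W := (1 - (ε • β₂ z').smulRight z) ∘ₗ cL h.ten l ∘ₗ k.1.toLinearMap ∘ₗ τ x₀
  have c3 : ∀ s, β₂ z' (b₁ s) = 0 := fun s => by
    simp [b₁, hf2]; linear_combination -(β₂ z' (cL h.ten l (k.1 (τ x₀ s)))) * he
  have c4 : ∀ s, β₂ z s = 0 → β₂ z (b₁ s) = 0 ∧ ∀ x, ∃ y, k.1 (τ x s) = τ (A' x) (b₁ s) + τ y z :=
    fun s hs => by
      obtain ⟨s', d1, d2⟩ := c2 s hs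
      obtain ⟨y, hy⟩ := d2 x₀
      obtain ⟨t, ht⟩ : ∃ t : F, b₁ s = s' + t • z :=
        ⟨l y - ε * β₂ z' (s' + l y • z), by simp [b₁, hy, hl]; module⟩
      refine ⟨by simp [ht, d1, hz], fun x => ?_⟩
      obtain ⟨y', hy'⟩ := d2 x
      exact ⟨y' - t • A' x, by simp [ht, hy']⟩
  have c5 : ∀ s t, β₂ z s = 0 → β₂ z t = 0 → ∀ x y,
      β₁ (A' x) (A' y) * β₂ (b₁ s) (b₁ t) = β₁ x y * β₂ s t := fun s t hs ht x y => by
    obtain ⟨d1, d2⟩ := c4 s hs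
    obtain ⟨d3, d4⟩ := c4 t ht
    obtain ⟨_, hy⟩ := d2 x
    obtain ⟨_, hy'⟩ := d4 y
    simpa [hy, hy', h.map, hz, d3, h.f₂.comm0 d1] using OG_polar k (τ x s) (τ y t)
  obtain ⟨s₀, d1, d2, d3⟩ := exists_mem_ker₂ h3 (β₂ z) (β₂ z')
  obtain ⟨t₀, d4⟩ := h.f₂.exists_one d1
  obtain ⟨ν, hν⟩ : ∃ ν, ∀ x y, β₁ (A' x) (A' y) * ν = β₁ x y := ⟨_, fun x y => by
    simpa [d4, h.f₂.comm0 d3] using c5 s₀ (t₀ - β₂ z t₀ • z') d2 (by simp [hf]) x y⟩
  obtain ⟨x₁, d5⟩ := h.f₁.exists_one b1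
  have c6 : ∀ s t, β₂ z s = 0 → β₂ z t = 0 → β₂ (b₁ s) (b₁ t) = ν * β₂ s t := fun s t hs ht => by
    linear_combination ν * c5 s t hs ht x₀ x₁ - β₂ (b₁ s) (b₁ t) * hν x₀ x₁ +
      (ν * β₂ s t - β₂ (b₁ s) (b₁ t)) * d5
  have c7 : ∀ x, A x = ν • A' x := fun x => h.f₁.ext fun u => by
    obtain ⟨u, rfl⟩ := LinearMap.injective_iff_surjective.mp a5 u
    rw [h.f₁.symm, a3, map_smul, smul_eq_mul, mul_comm ν, hν, ← h.f₁.symm]
  let b : End F W := b₁ ∘ₗ (1 - (β₂ z).smulRight z') + ((ε * ν) • β₂ z').smulRight z +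
    (β₂ z).smulRight z'
  have c8 : ∀ w w', β₂ (b w) (b w') = ν * β₂ w w' := fun w w' => by
    have e1 := c6 (w - β₂ z w • z') (w' - β₂ z w' • z') (by simp [hf]) (by simp [hf])
    have e2 := (c4 (w - β₂ z w • z') (by simp [hf])).1
    have e3 := (c4 (w' - β₂ z w' • z') (by simp [hf])).1
    simp only [b, LinearMap.add_apply, LinearMap.comp_apply, LinearMap.sub_apply, End.one_apply,
      LinearMap.smulRight_apply, LinearMap.smul_apply]
    simp only [map_add, LinearMap.add_apply, map_smul, LinearMap.smul_apply, e1, e3, c3,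
      h.f₂.comm0 e2, h.f₂.comm0 (c3 _), hz, hf, hf', hf2]
    simp [hf', h.f₂.symm w z']
    linear_combination (β₂ z w * ν * β₂ z' w') * he
  let g := h.tt A' b fun u u' w w' => by rw [c8, ← mul_assoc, hν]
  have c9 : b₁ z = 0 := by simp [b₁, a1, hf2, mul_left_comm ε, he]
  have e1 : ∀ u, g.1 (τ u z) = τ (A u) z := fun u => by
    simp [g, b, hz, c9, hf2, c7, mul_right_comm ε ν, he]
  have e2 : h.RL z (g⁻¹ * k) := h.rl_of h0 (fun u => OG_inv_eq ((e1 u).trans (a1 u).symm)) fun u s hs => by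
    obtain ⟨y, hy⟩ := (c4 s hs).2 u
    obtain ⟨y', hy'⟩ := a2 (y - (ε * ν * β₂ z' s) • A' u)
    exact ⟨y', OG_inv_eq (by rw [map_add, e1, hy']; simp [g, b, hs, hy])⟩
  obtain ⟨s, c, -, e⟩ := A2 _ (mul_mem (inv_mem (hM _ (by
    simpa using mul_mem hk' (inv_mem (h.rad_mem hn hz e2.1 e2.2))) (h.tn_tt ..))) hk) e2
  rw [inv_mul_eq_iff_eq_mul] at e
  exact e ▸ TN.mul (h.tn_tt ..) (h.tn_eE ..)

omit [Finite F] hn hM in
theorem tn_of_conj (hy : β₂ y y = 0) (h0 : y ≠ 0)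
    (H : ∀ z, β₂ z z = 0 → z ≠ 0 → (∀ u, ∃ u', k.1 (τ u y) = τ u' z) → TN τ k.1) (c0 : c ≠ 0)
    {N : W → W} (h1 : ∀ u w, τ u (N w) = k.1 (τ (c • h.cw y ((k⁻¹).1 (τ u w))) y)) : TN τ k.1 := by
  obtain ⟨e, a0⟩ := exists_ne (0 : U)
  obtain ⟨f, hf⟩ := h.f₁.exists_one a0
  obtain ⟨w, hw⟩ : ∃ w, N w ≠ 0 := by
    by_contra! e'
    obtain ⟨y', hf⟩ := h.f₂.exists_one h0
    have : h.cw y ∘ₗ (k⁻¹).1.toLinearMap = 0 := ten_ext h.ten fun u w => by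
      simpa [c0] using ten_left_inj h.ten h0 (k.1.injective ((h1 u w).symm.trans
        (show _ = k.1 (τ 0 y) by simp [e'])))
    simpa [hf, a0] using LinearMap.congr_fun this (k.1 (τ e y'))
  refine H _ ?_ hw fun u => ?_
  · have := h.map e (N w) f (N w)
    rw [h1, h1, OG_polar, h.map, hy, hf] at this
    simpa using this.symm
  · obtain ⟨u, rfl⟩ := (LinearMap.injective_iff_surjective (f := c • h.cw y ∘ₗ (k⁻¹).1.toLinearMap ∘ₗ
      τ.flip w)).mp (fun u u' e => ten_left_inj h.ten hw (by rw [h1, h1]; exact congrArg (k.1 <| τ · y) e)) u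
    exact ⟨u, (h1 u w).symm⟩

omit hn hM [Finite F] [Nontrivial U] [FiniteDimensional F U]

/-- The triple product. -/
noncomputable def t3 : V →ₗ[F] V →ₗ[F] V →ₗ[F] V :=
  ∑ j, (LinearMap.llcomp F V W V ∘ₗ τ ∘ₗ cR h.ten ((finBasis F W).coord j)).compl₂
    (cL h.ten ∘ₗ β₁ ∘ₗ h.cw (finBasis F W j))

theorem t3_ten (u u' : U) (w w' : W) (v : V) :
    h.t3 (τ u w) (τ u' w') v = β₂ w w' • τ u (cL h.ten (β₁ u') v) := by
  conv_rhs => rw [← (finBasis F W).sum_repr w, map_sum, LinearMap.sum_apply, Finset.sum_smul]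
  simp [t3, LinearMap.sum_apply, smul_smul, mul_comm]

theorem tn_of_avg [FiniteDimensional F U] [Nontrivial U] [Nontrivial W] [Fintype F]
    (H0 : ∀ δ : V →ₗ[F] V →ₗ[F] V →ₗ[F] V →ₗ[F] F, (∀ (k : ℕ) (a : (Fin k → F) → OG Q),
      (∀ c c', a (c + c') = a c * a c') → (∀ c, a c ∈ M) → (∀ c, a c ∈ h.HT) →
      (∀ c ≠ 0, ∀ g ∈ M, g * a c * g⁻¹ ∈ h.HT → g ∈ h.HT) → ∀ x y z w d₁ d₂ d₃ d₄,
      PD d₁ (fun c => (a c).1 x) → PD d₂ (fun c => (a c).1 y) →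
      PD d₃ (fun c => (a c).1 z) → PD d₄ (fun c => (a c).1 w) →
      d₁ + d₂ + d₃ + d₄ < (Fintype.card F - 1) * k → δ x y z w = 0) → δ = 0)
    (hg : g ∈ M) (H : AD β₂ ε z s c) : g * h.eE z s c * g⁻¹ ∈ h.HT := by
  haveI := h.fin
  haveI : Finite V := Module.finite_of_finite F
  haveI : Finite (OG Q) := Finite.of_injective (fun g : OG Q => (g.1 : V → V)) fun _ _ e =>
    OG_ext (congrFun e)
  have a1 : ∀ x y v, (g⁻¹).1 (h.t3 x y v) = h.t3 ((g⁻¹).1 x) ((g⁻¹).1 y) ((g⁻¹).1 v) := fun x y v =>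
    sub_eq_zero.mp (h.nd _ fun w => by
      have := avg4 (OG Q).subtype (H := h.HT)
        (h.t3.compr₂ (LinearMap.llcomp F V V (V →ₗ[F] F) (polarBilin Q))) (fun k _ ⟨a, b, hk⟩ x y z w => ?_) H0
        (inv_mem hg) x y v (g.1 w)
      · simp at this
        rw [polar_sub_left, OG_polar_left, inv_inv, ← this]; simp
      have b1 : ∀ u u' w w', β₁ (a u) (a u') * β₂ (b w) (b w') = β₁ u u' * β₂ w w' :=
        fun u u' w w' => by rw [← h.map, ← hk, ← hk, OG_polar, h.map]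
      simp only [LinearMap.compr₂_apply, LinearMap.llcomp_apply, polarBilin_apply_apply,
        Subgroup.subtype_apply]
      refine h.ten.inductionOn x (by simp) (fun u₁ w₁ => h.ten.inductionOn y (by simp)
        (fun u₂ w₂ => h.ten.inductionOn z (by simp) (fun u₃ w₃ => h.ten.inductionOn w (by simp)
          (fun u₄ w₄ => ?p) ?_) ?_) ?_) ?_
      case p =>
        simp only [hk, h.t3_ten, cL_ten, map_smul, polar_smul_left, h.map, smul_eq_mul]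
        linear_combination β₁ (a u₂) (a u₃) * β₂ (b w₁) (b w₂) * b1 u₁ u₄ w₃ w₄ +
          β₁ u₁ u₄ * β₂ w₃ w₄ * b1 u₂ u₃ w₁ w₂
      all_goals
        intro _ _ a b
        simp only [map_add, LinearMap.add_apply, polar_add_left, polar_add_right, a, b])
  have a2 : ∀ x y v, (h.eE z s c).1 (h.t3 x y v) = h.t3 x y ((h.eE z s c).1 v) := fun x y v => by
    refine h.ten.inductionOn x (by simp) (fun u₁ w₁ => h.ten.inductionOn y (by simp)
      (fun u₂ w₂ => h.ten.inductionOn v (by simp) (fun u₃ w₃ => ?p) ?_) ?_) ?_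
    case p => simp [h.t3_ten, eE, dif_pos H]
    all_goals
      intro _ _ a b
      simp only [map_add, LinearMap.add_apply, a, b]
  obtain ⟨u₀, b1⟩ := exists_ne (0 : U)
  obtain ⟨u₁, b2⟩ := h.f₁.exists_one b1
  obtain ⟨w₀, b3⟩ := exists_ne (0 : W)
  obtain ⟨w₁, b4⟩ := h.f₂.exists_one b3
  refine ⟨1, cL h.ten (β₁ u₀) ∘ₗ (g * h.eE z s c * g⁻¹).1.toLinearMap ∘ₗ τ u₁, fun u w => ?_⟩
  have := a1 (τ u w₀) (τ u₀ w₁) (g.1 ((h.eE z s c).1 ((g⁻¹).1 (τ u₁ w))))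
  rw [OG_inv_apply_apply, ← a2, ← a1, h.t3_ten, h.t3_ten] at this
  simpa [b2, b4, OG_mul_apply] using OG_inv_eq this

end TT

end Cfsg.Agent.H18
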