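import Mathlib
import Cfsg.Agent.H18.TtB

/-!
Tensor products of two symplectic spaces: generation from one Siegel transformation.
-/

set_option autoImplicit false

namespace Cfsg.Agent.H18

open Module QuadraticMap H13 H12

variable {F V : Type*} [Field F] [AddCommGroup V] [Module F V] {Q : QuadraticForm F V}
  {M : Subgroup (OG Q)} {U W : Type*} [AddCommGroup U] [Module F U] [AddCommGroup W] [Module F W]
  {β₁ : U →ₗ[F] U →ₗ[F] F} {β₂ : W →ₗ[F] W →ₗ[F] F} {τ : U →ₗ[F] W →ₗ[F] V} {ε : F}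

theorem AS.zero_left (a : V) : AS M 0 a := ⟨by simp, by simp, by simp [sieg_zero_left]⟩

theorem TT.le_of_all (h : TT Q β₁ β₂ τ ε) [FiniteDimensional F U] [FiniteDimensional F W] [Finite F]
    (hn : 5 ≤ finrank F V) (h3 : 3 ≤ finrank F W) {e : U} {z : W} (he : β₁ e e = 0) (e0 : e ≠ 0)
    (hz : β₂ z z = 0) (z0 : z ≠ 0) (H : ∀ e z, β₁ e e = 0 → e ≠ 0 → β₂ z z = 0 → z ≠ 0 →
      ∀ u w, β₂ z w = 0 → AS M (τ e z) (τ u w)) : Om Q ≤ M := by
  haveI := h.fin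
  have key : ∀ e z, β₁ e e = 0 → e ≠ 0 → β₂ z z = 0 → z ≠ 0 → EO M (τ e z) := fun e z he e0 hz z0 => by
    obtain ⟨e', a1, a2⟩ := h.f₁.partner he e0
    obtain ⟨z', a3, a4⟩ := h.f₂.partner hz z0
    have a5 : z' ≠ 0 := by rintro rfl; simp at a3
    obtain ⟨s, b1, b2, b3⟩ := exists_mem_ker₂ h3 (β₂ z) (β₂ z')
    obtain ⟨t, b4⟩ := h.f₂.exists_one b1
    have b5 : ∀ c : F, AS M (τ e z) (c • τ e z') := fun c => by
      simpa [h.map, he, h.f₁.symm e' e, a1, b4, h.f₂.comm0 b3, mul_right_comm ε c, h.f₁.ee] using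
        (H e z he e0 hz z0 e ((ε * c) • (t - β₂ z t • z')) (by simp [a3])).act
          (H e z' he e0 a4 a5 e' s b3) (by simp [h.map, he]) (by simp [h.map, h.f₂.comm0 b2])
    refine ⟨h.Qz hz e, fun v hv => ?_⟩
    rw [h.p_cw] at hv
    have c1 := h.ind_cw a3 (p := AS M (τ e z)) (AS.zero (h.Qz hz e)) (H e z he e0 hz z0)
      (fun _ _ => AS.add) (v := v - τ (h.cw z v) z') (by simp [a3])
    have c2 := (H e z he e0 hz z0 (ε • e') z hz).act (H e z' he e0 a4 a5 (h.cw z v) z' a4)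
      (by simp [h.map, he]) (by simp [h.map, h.f₁.comm0 hv])
    simpa [h.map, a1, h.f₂.symm z' z, a3, h.Qz a4, h.f₁.ee] using
      c1.add ((b5 (ε * (β₁ (h.cw z v) e' * ε))).sub c2)
  obtain ⟨e', a1, a2⟩ := h.f₁.partner he e0
  obtain ⟨z', a3, a4⟩ := h.f₂.partner hz z0
  exact Om_le_of_EO h.nd hn (key e z he e0 hz z0) (key e' z' a2 (by rintro rfl; simp at a1) a4
    (by rintro rfl; simp at a3)) (by simp [h.map, a1, a3])

namespace EF
variable (E : EF β₂ (-1)) {x y z s : W}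
include E

theorem alt (x : W) : β₂ x x = 0 := by obtain ⟨c, hc⟩ := E.adm x; simpa using hc

theorem sd : SD (σ := RingHom.id F) β₂ :=
  ⟨fun _ => rfl, fun x y => by simp [E.symm y x], E.sep, fun x => ⟨0, by simp [E.alt]⟩⟩

variable [FiniteDimensional F W]

theorem witt₂ {z' s' : W} (h0 : z ≠ 0) (h1 : s ∉ F ∙ z) (h0' : z' ≠ 0) (h1' : s' ∉ F ∙ z')
    (h : β₂ z' s' = β₂ z s) : ∃ b : UG β₂, b.1 z = z' ∧ b.1 s = s' := by
  obtain ⟨b, hb⟩ := E.sd.witt (linearIndependent_pair_of_notMem h0 h1)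
    (linearIndependent_pair_of_notMem h0' h1') fun i j => by
      fin_cases i <;> fin_cases j <;> simp [E.alt, h, E.symm s' z', E.symm s z]
  exact ⟨b, hb 0, hb 1⟩

theorem exists_pair (h5 : 5 ≤ finrank F W) (z w : W) :
    ∃ s t, β₂ z s = 0 ∧ β₂ w s = 0 ∧ β₂ z t = 0 ∧ β₂ w t = 0 ∧ β₂ s t = 1 := by
  obtain ⟨s, a1, t, a2, a3⟩ : ∃ s ∈ spp β₂ z w, ∃ t ∈ spp β₂ z w, β₂ s t ≠ 0 := by
    by_contra! H
    have b1 := E.sd.finrank_sperp (Submodule.span F {z, w})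
    have b2 := Submodule.finrank_mono (show spp β₂ z w ≤ _ from fun x hx =>
      (E.sd.sperp_sperp (Submodule.span F {z, w})).le fun y hy => H y hy x hx)
    have b3 := H13.finrank_span_pair_le (F := F) z w
    unfold spp at b2; omega
  rw [mem_sperp_pair] at a1 a2
  exact ⟨s, (β₂ s t)⁻¹ • t, a1.1, a1.2, by simp [a2.1], by simp [a2.2], by simp [a3]⟩

end EF

namespace TT
variable (h : TT Q β₁ β₂ τ (-1)) [FiniteDimensional F U] [FiniteDimensional F W]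
  {e f : U} {y z s : W} {c : F} {k g : OG Q}

/-- The isometry `1 ⊗ b`. -/
noncomputable def tR : UG β₂ →* OG Q := MonoidHom.mk' (fun b => h.tt 1 b.1 (by simp [UG_map]))
  fun _ _ => h.ext fun _ _ => by simp [OG_mul_apply]

@[simp] theorem tR_ten (b : UG β₂) (u : U) (w : W) : (h.tR b).1 (τ u w) = τ u (b.1 w) := by
  simp [tR]

/-- The isometry `a ⊗ 1`. -/
noncomputable def tL : UG β₁ →* OG Q := h.flip.tR

@[simp] theorem tL_ten (a : UG β₁) (u : U) (w : W) : (h.tL a).1 (τ u w) = τ (a.1 u) w :=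
  h.flip.tR_ten a w u

theorem cw_tR (b : UG β₂) (r : W) (v : V) : h.cw (b.1 r) ((h.tR b).1 v) = h.cw r v :=
  h.ten.inductionOn v (by simp) (fun _ _ => by simp [UG_map]) fun _ _ a b => by simp [a, b]

theorem cw_tL (a : UG β₁) (r : W) (v : V) : h.cw r ((h.tL a).1 v) = a.1 (h.cw r v) :=
  h.ten.inductionOn v (by simp) (fun _ _ => by simp) fun _ _ a b => by simp [a, b]

omit [FiniteDimensional F U] [FiniteDimensional F W] in
include h in
theorem ad0 (z : W) (c : F) : AD β₂ (-1) z 0 c := ⟨h.f₂.alt z, by simp, by simp⟩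

variable [Finite F] (hn : 5 ≤ finrank F V) (hM : ∀ g ∈ Om Q, TN τ g.1 → g ∈ M)
include hn

theorem tR_Om (b : UG β₂) : h.tR b ∈ Om Q := by
  refine (show TG β₂ ≤ (Om Q).comap h.tR from (Subgroup.closure_le _).mpr ?_)
    ((h.f₂.sd.TG_eq_top rfl).ge trivial)
  rintro _ ⟨z, c, rfl⟩
  convert h.eE_Om hn z 0 c using 1
  refine iff_of_eq (congrArg (· ∈ Om Q) (h.ext fun u w => ?_))
  simp [h.eE_apply (h.ad0 z c), H12.tv_apply h.f₂.sd (h.f₂.alt z), smul_smul, mul_comm]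

include hM

theorem tR_mem (b : UG β₂) : h.tR b ∈ M := hM _ (h.tR_Om hn b) ⟨1, b.1, h.tR_ten b⟩

theorem tL_mem (a : UG β₁) : h.tL a ∈ M := hM _ (h.flip.tR_Om hn a) ⟨a.1, 1, h.tL_ten a⟩

variable (h5 : 5 ≤ finrank F W)
include h h5

theorem le_of_right (H : AS M (τ e z) (τ e s)) (e0 : e ≠ 0) (z0 : z ≠ 0) (h1 : s ∉ F ∙ z)
    (h2 : β₂ z s = 0) : Om Q ≤ M := by
  have a1 : ∀ x w w', β₂ w w' = 0 → AS M (τ x w) (τ x w') := fun x w w' hw => by
    by_cases b1 : x = 0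
    · simpa [b1] using AS.zero_left 0
    by_cases b2 : w = 0
    · simpa [b2] using AS.zero_left _
    by_cases b3 : w' ∈ F ∙ w
    · obtain ⟨c, rfl⟩ := Submodule.mem_span_singleton.mp b3
      simpa using AS.self (h.Qz (h.f₂.alt w) x) c
    obtain ⟨b, b4, b5⟩ := h.f₂.witt₂ z0 h1 b2 b3 (hw.trans h2.symm)
    obtain ⟨a, b6⟩ := h.f₁.sd.witt_one e0 b1 (by simp [h.f₁.alt])
    simpa [b4, b5, b6] using (H.map (h.tR_mem hn hM b)).map (h.tL_mem hn hM a)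
  refine h.le_of_all hn (by omega) (h.f₁.alt e) e0 (h.f₂.alt z) z0 fun x z _ x0 _ _ u w hw => ?_
  obtain ⟨s, t, b1, b2, b3, b4, b5⟩ := h.f₂.exists_pair h5 z w
  have b6 : ∀ u, β₁ u x ≠ 0 → AS M (τ x z) (τ u w) := fun u hu => by
    simpa [h.map, b4, b5, hu] using (a1 x z ((β₁ u x)⁻¹ • t) (by simp [b3])).act (a1 u w s b2)
      (by simp [h.map, h.f₂.comm0 hw]) (by simp [h.map, h.f₂.comm0 b1])
  obtain ⟨f, hf⟩ := h.f₁.exists_one x0
  by_cases b7 : β₁ u x = 0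
  · simpa using (b6 (u + f) (by simp [b7, h.f₁.symm f x, hf])).sub (b6 f (by simp [h.f₁.symm f x, hf]))
  · exact b6 u b7

theorem le_of_left (H : AS M (τ e z) (τ f z)) (e0 : e ≠ 0) (z0 : z ≠ 0) (h1 : f ∉ F ∙ e)
    (h2 : β₁ e f = 0) : Om Q ≤ M := by
  obtain ⟨f', a1, a2⟩ := h.f₁.exists_perp h1
  obtain ⟨a, a3, a4⟩ := h.f₁.witt₂ e0 h1 e0 (s' := f') (fun H => by
    obtain ⟨c, rfl⟩ := Submodule.mem_span_singleton.mp H; simp [h2] at a1) ((h.f₁.comm0 a2).trans h2.symm)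
  have a5 : ∀ z', β₂ z' z = 1 → AS M (τ e z) (τ e z') := fun z' hz => by
    obtain ⟨b, hb⟩ := h.f₂.sd.witt_one z0 (y := z') (by rintro rfl; simp at hz) (by simp [h.f₂.alt])
    simpa [h.map, a1, hz, h2] using H.act (x := τ e z') (y := τ f' z')
      (by simpa [a3, a4, hb] using (H.map (h.tR_mem hn hM b)).map (h.tL_mem hn hM a))
      (by simp [h.map, h.f₁.alt]) (by simp [h.map, a2])
  obtain ⟨s, t, b1, -, b3, -, b5⟩ := h.f₂.exists_pair h5 z z
  obtain ⟨z', hz⟩ := h.f₂.exists_one z0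
  refine h.le_of_right hn hM h5 (s := s) ?_ e0 z0 (fun H => ?_) b1
  · simpa using (a5 (s - z') (by simp [h.f₂.comm0 b1, h.f₂.symm z' z, hz])).sub
      (a5 (-z') (by simp [h.f₂.symm z' z, hz]))
  · obtain ⟨c, rfl⟩ := Submodule.mem_span_singleton.mp H; simp [b3] at b5

theorem zl_scalar (H : ¬ Om Q ≤ M) (z0 : z ≠ 0) {η : End F U} (hη : h.ZL M z η) :
    ∃ c : F, ∀ u, η u = c • u := by
  refine exists_smul_of_mem_span fun e => by_contra fun he => H ?_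
  have hz := h.f₂.alt z
  have a1 := h.f₁.comm0 (ZL.alt h hz z0 hη e)
  refine h.le_of_left hn hM h5 ⟨h.Qz hz e, by simp [h.map, hz], ?_⟩ (by rintro rfl; simp at he) z0 he a1
  have a2 := ZL.skew h hz z0 hη
  obtain ⟨k, a3, a4⟩ := hη
  have a5 := h.tL_mem hn hM (H12.tv β₁ e 1)
  convert mul_mem (mul_mem (mul_mem a5 a3) (inv_mem a5)) (inv_mem a3) using 1
  rw [eq_mul_inv_iff_mul_eq, eq_mul_inv_iff_mul_eq]
  refine OG_ext fun v => ?_
  simp [OG_mul_apply, a4, sieg_apply (h.Qz hz e) (show polar Q (τ e z) (τ (η e) z) = 0 by simp [h.map, hz]),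
    h.p_cw, h.cw_tL, H12.tv_apply h.f₁.sd (h.f₁.alt e), hz, h.Qz hz, h.f₁.alt, a1, h.f₁.comm0 a1,
    h.f₁.symm e (η _), a2 _ e]
  module

end TT

end Cfsg.Agent.H18
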