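import Mathlib
import Cfsg.Agent.H18.TsA
import Cfsg.Agent.H12.TfI

/-!
Stabilisers of tensor products of two symplectic spaces are maximal in orthogonal groups.
-/

set_option autoImplicit false

namespace Cfsg.Agent.H18

open Module QuadraticMap H13 H12

variable {F V : Type*} [Field F] [AddCommGroup V] [Module F V] {Q : QuadraticForm F V}
  {M : Subgroup (OG Q)} {U W : Type*} [AddCommGroup U] [Module F U] [AddCommGroup W] [Module F W]
  {β₁ : U →ₗ[F] U →ₗ[F] F} {β₂ : W →ₗ[F] W →ₗ[F] F} {τ : U →ₗ[F] W →ₗ[F] V} {ε : F}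

theorem mem_mapO {k : OG Q} (hk : k ∈ M) : k.1 ∈ M.map (OG Q).subtype := ⟨k, hk, rfl⟩

theorem mem_of_en {N : End F V} (h : EN (M.map (OG Q).subtype) N) {g : OG Q}
    (H : ∀ v, g.1 v = v + N v) : g ∈ M := by
  obtain ⟨_, ⟨k, hk, rfl⟩, h⟩ := h
  rwa [show g = k from OG_ext fun v => (H v).trans (h v).symm]

theorem JL.sub {z : W} {θ θ' : W →ₗ[F] End F U} (H : TT.JL (τ := τ) (β₂ := β₂) M z θ)
    (H' : TT.JL (τ := τ) (β₂ := β₂) M z θ') : TT.JL (τ := τ) (β₂ := β₂) M z (θ - θ') := by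
  obtain ⟨k, a1, a2, a3⟩ := H
  obtain ⟨k', b1, b2, b3⟩ := H'
  exact ⟨k'⁻¹ * k, mul_mem (inv_mem b1) a1, fun u => OG_inv_eq ((b2 u).trans (a2 u).symm),
    fun u w hw => OG_inv_eq (by
      rw [map_add, b2, b3 u w hw]; exact .trans (by simp) (a3 u w hw).symm)⟩

namespace TT
variable (h : TT Q β₁ β₂ τ (-1)) {e f : U} {y z s : W} {c : F} {k g : OG Q} {θ θ' : End F U}

/-- A root element with coefficient `θ`. -/
noncomputable def NP (θ θ' : End F U) (z s : W) : End F V :=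
  τ.flip z ∘ₗ θ ∘ₗ h.cw s + τ.flip s ∘ₗ θ' ∘ₗ h.cw z

theorem NP_apply (θ θ' : End F U) (z s : W) (v : V) :
    h.NP θ θ' z s v = τ (θ (h.cw s v)) z + τ (θ' (h.cw z v)) s := rfl

/-- The coefficients of root elements in `M`. -/
def RR (M : Subgroup (OG Q)) : Submodule F (End F U) where
  carrier := {θ | ∃ θ' : End F U, (∀ x u, β₁ (θ' x) u = β₁ x (θ u)) ∧ ∀ z s, z ≠ 0 → s ∉ F ∙ z →
    β₂ z s = 0 → EN (M.map (OG Q).subtype) (h.NP θ θ' z s)}
  zero_mem' := ⟨0, by simp, fun z s _ _ _ => by simpa [NP] using EN.zero⟩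
  add_mem' := fun ⟨a, a1, a2⟩ ⟨b, b1, b2⟩ => ⟨a + b, by simp [a1, b1], fun z s c1 c2 c3 => by
    convert (a2 z s c1 c2 c3).add (b2 z s c1 c2 c3) (by
      simp [NP_apply, h.f₂.alt, c3, h.f₂.comm0 c3]) using 1
    ext v; simp [NP_apply]; abel⟩
  smul_mem' := fun c _ ⟨a, a1, a2⟩ => ⟨c • a, by simp [a1], fun z s c1 c2 c3 => by
    by_cases c0 : c = 0
    · simpa [NP, c0] using EN.zero
    convert a2 z (c • s) c1 (by rwa [Submodule.smul_mem_iff _ c0]) (by simp [c3]) using 1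
    ext v; simp [NP_apply]⟩

variable [FiniteDimensional F U] [FiniteDimensional F W] [Finite F] (hn : 5 ≤ finrank F V)
  (hM : ∀ g ∈ Om Q, TN τ g.1 → g ∈ M) (h5 : 5 ≤ finrank F W)

omit [FiniteDimensional F U] [Finite F] in
include h5 in
theorem RR_mul (H : θ ∈ h.RR M) (H' : θ' ∈ h.RR M) : θ * θ' ∈ h.RR M := by
  obtain ⟨a, a1, a2⟩ := H
  obtain ⟨b, b1, b2⟩ := H'
  refine ⟨b * a, by simp [a1, b1], fun z s c1 c2 c3 => ?_⟩
  obtain ⟨x, y, d1, d2, d3, d4, d5⟩ := h.f₂.exists_pair h5 z s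
  have d6 := b2 y s (by rintro rfl; simp at d5) (fun e => by
    obtain ⟨t, rfl⟩ := Submodule.mem_span_singleton.mp e
    simp [show t = 0 by simpa [d5] using h.f₂.comm0 d2] at c2) (h.f₂.comm0 d4)
  have d7 := a2 z x c1 (fun e => by
    obtain ⟨t, rfl⟩ := Submodule.mem_span_singleton.mp e; simp [d3] at d5) d1
  have d8 := h.f₂.symm y x
  convert (d6.conj_en d7 (by simp [NP_apply, h.f₂.alt, d1, h.f₂.comm0 d1])).mul
    (d6.neg (by simp [NP_apply, h.f₂.alt, d4, h.f₂.comm0 d4])) using 1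
  ext v
  simp [NP_apply, h.f₂.alt, d1, d2, d3, d4, d5, d8, c3, h.f₂.comm0 d1, h.f₂.comm0 d2, h.f₂.comm0 d3,
    h.f₂.comm0 d4, h.f₂.comm0 c3]

include hn hM

theorem RR_conj (H : θ ∈ h.RR M) (a : UG β₁) (e : ∀ u, θ' (a.1 u) = a.1 (θ u)) : θ' ∈ h.RR M := by
  obtain ⟨b, b1, b2⟩ := H
  refine ⟨a.1 ∘ₗ b ∘ₗ (a⁻¹).1, fun x u => ?_, fun z s c1 c2 c3 =>
    (b2 z s c1 c2 c3).conj (mem_mapO (h.tL_mem hn hM a)) fun v => by simp [NP_apply, h.cw_tL, e]⟩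
  obtain ⟨x, rfl⟩ := a.1.surjective x
  obtain ⟨u, rfl⟩ := a.1.surjective u
  simp [e, UG_map, b1]

include h5

theorem RR_of_JL (z0 : z ≠ 0) (h1 : s ∉ F ∙ z) (h2 : β₂ z s = 0)
    (H : JL (τ := τ) (β₂ := β₂) M z ((β₂ s).smulRight θ)) : θ ∈ h.RR M := by
  obtain ⟨k, a1, a2, a3⟩ := H
  have hz := h.f₂.alt z
  obtain ⟨θ', a4⟩ : ∃ θ' : End F U, ∀ x u, β₁ (θ' x) u = β₁ x (θ u) := by
    choose f hf using fun x => h.f₁.exists_repr (β₁ x ∘ₗ θ)
    have b1 : ∀ x y, (∀ u, β₁ x u = β₁ y u) → x = y := fun x y e => h.f₁.sd.ext_left e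
    exact ⟨⟨⟨f, fun x y => b1 _ _ (by simp [hf])⟩, fun c x => b1 _ _ (by simp [hf])⟩, hf⟩
  obtain ⟨z', a5⟩ := h.f₂.exists_one z0
  let η : End F U := -h.cw z' ∘ₗ (k.1.toLinearMap - 1 - h.NP θ θ' z s) ∘ₗ τ.flip z'
  let Z : End F V := τ.flip z ∘ₗ η ∘ₗ h.cw z
  have a6 : EN (M.map (OG Q).subtype) (h.NP θ θ' z s + Z) := ⟨_, mem_mapO a1, fun v => by
    have b1 := h.ind_cw a5 (p := fun v => k.1 v = v + h.NP θ θ' z s v) (by simp)
      (fun u w hw => by simp [a3 u w hw, NP_apply, hw]) (fun _ _ a b => by simp [a, b]; abel)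
      (v := v - τ (h.cw z v) z') (by simp [a5])
    have b2 := h.eq_right a5 (v := (k.1.toLinearMap - 1 - h.NP θ θ' z s) (τ (h.cw z v) z'))
      fun w hw => h.f₁.ext fun u => by
        have c1 := OG_polar k (τ u w) (τ (h.cw z v) z')
        simp [a3 u w hw, h.p_cw, h.cw_fix a2, a5] at c1
        simp [NP_apply, a5, h.f₂.comm0 hw, h.f₁.symm u (θ' _), a4, h.f₂.symm w s,
          h.f₁.symm (h.cw z v)]
        linear_combination c1
    rw [map_sub, map_sub, sub_eq_iff_eq_add] at b1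
    rw [b1]; simp [Z, η] at b2 ⊢
    linear_combination (norm := abel) b2⟩
  have a7 : ∀ s', s' ∉ F ∙ z → β₂ z s' = 0 → EN (M.map (OG Q).subtype) (h.NP θ θ' z s' + Z) :=
    fun s' b1 b2 => by
      obtain ⟨b, b3, b4⟩ := h.f₂.witt₂ z0 h1 z0 b1 (b2.trans h2.symm)
      have b5 : ∀ v, h.cw z ((h.tR b).1 v) = h.cw z v := fun v => by simpa [b3] using h.cw_tR b z v
      exact a6.conj (mem_mapO (h.tR_mem hn hM b)) fun v => by
        simp [NP_apply, Z, b5, ← b4, h.cw_tR, b3]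
  obtain ⟨t, t', b1, b2, b3, b4, b5⟩ := h.f₂.exists_pair h5 z s
  have b6 : ∀ c : F, c • s + t ∉ F ∙ z := fun c e => by
    obtain ⟨d, hd⟩ := Submodule.mem_span_singleton.mp e
    simpa [b3, b4, b5] using congrArg (β₂ · t') hd
  have b7 : EN (M.map (OG Q).subtype) Z := by
    convert (a6.add (a7 t (by simpa using b6 0) b1) (by
      simp [NP_apply, Z, h.f₂.alt, h2, h.f₂.comm0 h2, b1, b2])).add
      ((a7 (s + t) (by simpa using b6 1) (by simp [h2, b1])).neg (by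
        simp [NP_apply, Z, h.f₂.alt, h2, h.f₂.comm0 h2, b1, b2, h.f₂.comm0 b1, h.f₂.comm0 b2])) (by
        simp [NP_apply, Z, h.f₂.alt, h2, h.f₂.comm0 h2, b1, b2, h.f₂.comm0 b1, h.f₂.comm0 b2]) using 1
    ext v; simp [NP_apply]; abel
  have b8 : EN (M.map (OG Q).subtype) (h.NP θ θ' z s) := by
    simpa using a6.add (b7.neg (by simp [Z, hz])) (by simp [NP_apply, Z, hz, h.f₂.comm0 h2])
  refine ⟨θ', a4, fun y r c1 c2 c3 => ?_⟩
  obtain ⟨b, rfl, rfl⟩ := h.f₂.witt₂ z0 h1 c1 c2 (c3.trans h2.symm)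
  exact b8.conj (mem_mapO (h.tR_mem hn hM b)) fun v => by simp [NP_apply, h.cw_tR]

variable (H : ¬ Om Q ≤ M) (hq : (∃ c : F, c ≠ 0 ∧ c ≠ 1) ∨ 3 ≤ finrank F U)
include H hq

theorem RR_scalar (hθ : θ ∈ h.RR M) : ∃ c : F, ∀ u, θ u = c • u := by
  have key : ∀ e, e ≠ 0 → (β₁ e).smulRight e ∉ h.RR M := fun e e0 ⟨θ', a1, a2⟩ => by
    obtain ⟨z, t, -, -, -, -, b1⟩ := h.f₂.exists_pair h5 0 0
    obtain ⟨s, t', b2, -, b3, -, b4⟩ := h.f₂.exists_pair h5 z z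
    have b5 : z ≠ 0 := by rintro rfl; simp at b1
    have b6 : s ∉ F ∙ z := fun e => by
      obtain ⟨d, rfl⟩ := Submodule.mem_span_singleton.mp e; simp [b3] at b4
    have b7 : polar Q (τ e z) (τ e s) = 0 := by simp [h.map, b2]
    have b8 : ∀ x, θ' x = -β₁ e x • e := fun x => h.f₁.sd.ext_left fun u => by
      simp [a1, h.f₁.symm x e, mul_comm]
    refine H (h.le_of_right hn hM h5 ⟨h.Qz (h.f₂.alt z) e, b7, mem_of_en (a2 z s b5 b6 b2) fun v => ?_⟩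
      e0 b5 b6 b2)
    simp [sieg_apply (h.Qz (h.f₂.alt z) e) b7, NP_apply, b8, h.Qz (h.f₂.alt s), h.p_cw]
    abel
  refine exists_smul_of_mem_span fun e => by_contra fun he => ?_
  have e0 : e ≠ 0 := by rintro rfl; simp at he
  have a1 : ∀ c : F, c • ((β₁ e ∘ₗ θ).smulRight e - (β₁ e).smulRight (θ e)) -
      (c * c * β₁ e (θ e)) • (β₁ e).smulRight e ∈ h.RR M := fun c =>
    (Submodule.add_mem_iff_right _ hθ).mp (h.RR_conj hn hM hθ (H12.tv β₁ e c) fun u => by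
      simp [H12.tv_apply h.f₁.sd (h.f₁.alt e), h.f₁.alt]; module)
  obtain ⟨y, b1, b2, b3⟩ : ∃ y, β₁ y e = 0 ∧ β₁ y (θ e) ≠ 0 ∧ y ∉ F ∙ e := by
    by_cases b0 : β₁ e (θ e) = 0
    · obtain ⟨y, b1, b2⟩ := h.f₁.exists_perp he
      exact ⟨y, b2, by simp [b1], fun e' => by
        obtain ⟨d, rfl⟩ := Submodule.mem_span_singleton.mp e'; simp [b0] at b1⟩
    rcases hq with ⟨c, c0, c1⟩ | hq
    · refine (key e e0 ((Submodule.smul_mem_iff _ (mul_ne_zero (mul_ne_zero c0 (sub_ne_zero.mpr c1))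
        b0)).mp ?_)).elim
      convert sub_mem (Submodule.smul_mem _ c (a1 1)) (a1 c) using 1
      module
    obtain ⟨u, c1, c2, c3⟩ := exists_mem_ker₂ hq (β₁ e) (β₁ (θ e))
    refine ⟨e + u, by simp [h.f₁.alt, h.f₁.comm0 c2], by simpa [h.f₁.comm0 c3], fun e' => ?_⟩
    obtain ⟨d, rfl⟩ := Submodule.mem_span_singleton.mp ((Submodule.add_mem_iff_right _
      (Submodule.mem_span_singleton_self e)).mp e')
    simp [show d = 0 by simpa [b0] using h.f₁.comm0 c3] at c1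
  have y0 : y ≠ 0 := by rintro rfl; simp at b3
  obtain ⟨γ, a2⟩ : ∃ γ : F, -β₁ y (θ e) • (β₁ e).smulRight y + γ • (β₁ y).smulRight e ∈ h.RR M :=
    ⟨-β₁ e (θ y), (Submodule.add_mem_iff_right _ (a1 1)).mp (h.RR_conj hn hM (a1 1) (H12.tv β₁ y 1)
      fun u => by
        simp [H12.tv_apply h.f₁.sd (h.f₁.alt y), h.f₁.alt, b1, h.f₁.comm0 b1]; module)⟩
  obtain ⟨e', c1, c2⟩ := h.f₁.exists_perp (notMem_span_symm b3 e0)
  obtain ⟨a, c3, c4⟩ := h.f₁.witt₂ e0 b3 y0 (s' := e') (fun e'' => by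
    obtain ⟨d, rfl⟩ := Submodule.mem_span_singleton.mp e''; simp [b1] at c1)
    ((h.f₁.comm0 c2).trans (h.f₁.comm0 b1).symm)
  refine key y y0 ((Submodule.smul_mem_iff _ (neg_ne_zero.mpr (mul_ne_zero b2 b2))).mp ?_)
  convert h.RR_mul h5 a2 (h.RR_conj hn hM a2 a
    (θ' := -β₁ y (θ e) • (β₁ y).smulRight e' + γ • (β₁ e').smulRight y) fun u => by
      simp [← c3, ← c4, UG_map]) using 1
  ext u
  simp [h.f₁.alt, h.f₁.comm0 b1, h.f₁.comm0 c2, h.f₁.symm e e', c1, smul_smul]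
  ring_nf

variable [Nontrivial U]

theorem sp_eq_eE (z0 : z ≠ 0) (k : OG Q) (hk : k ∈ M) (h1 : h.RL z k) :
    ∃ s c, AD β₂ (-1) z s c ∧ k = h.eE z s c := by
  refine h.eq_eE hn hM (h.f₂.alt z) z0 (fun η => h.zl_scalar hn hM h5 H z0) (fun θ a1 w hw => ?_) hk h1
  by_cases a2 : w ∈ F ∙ z
  · obtain ⟨c, rfl⟩ := Submodule.mem_span_singleton.mp a2
    obtain ⟨k, -, a3, a4⟩ := a1
    exact ⟨0, fun u => ten_left_inj h.ten z0 (by simpa [a3] using a4 u _ hw)⟩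
  refine h.RR_scalar hn hM h5 H hq (h.RR_of_JL hn hM h5 z0 a2 hw ?_)
  convert JL.sub a1 (θ' := θ - (β₂ w).smulRight (θ w)) ?_ using 1
  · simp
  obtain ⟨k, a3, a4, a5⟩ := a1
  have a6 := h.tR_mem hn hM (H12.tv β₂ w 1)
  have a7 : (H12.tv β₂ w 1).1 z = z := tv_apply_of_perp h.f₂.sd 1 (h.f₂.comm0 hw)
  refine ⟨_, mul_mem (mul_mem a6 a3) (inv_mem a6), fun u => ?_, fun u x hx => ?_⟩
  · rw [OG_mul_apply, OG_inv_eq (show _ = τ u z by rw [h.tR_ten, a7]), OG_mul_apply, a4, h.tR_ten, a7]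
  · rw [OG_mul_apply, OG_inv_eq (x := τ u (x - β₂ w x • w)) (by
      simp [H12.tv_apply h.f₂.sd (h.f₂.alt w), h.f₂.alt]), OG_mul_apply, a5 _ _ (by simp [hx, hw])]
    simp [a7, H12.tv_apply h.f₂.sd (h.f₂.alt w), h.f₂.alt]

variable (hS : M ≤ Om Q) (hlt : finrank F U < finrank F W)
include hS hlt

theorem sp_good (z0 : z ≠ 0) (c0 : c ≠ 0) (hg : g ∈ M) (h1 : g * h.eE z 0 c * g⁻¹ ∈ h.HT) :
    g ∈ h.HT := by
  obtain ⟨b, hb⟩ := right_of_small h.ten hlt h1 (A := h.cw z ∘ₗ (g⁻¹).1.toLinearMap) fun v hv => by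
    simp at hv; simp [OG_mul_apply, h.eE_apply (h.ad0 z c), hv]
  refine h.tn_of_conj (h.f₂.alt z) z0 (fun y _ y0 a1 => ?_) c0 (N := fun w => b w - w) fun u w => by
    simp [← hb, OG_mul_apply, h.eE_apply (h.ad0 z c)]
  obtain ⟨t, ht⟩ := h.f₂.sd.witt_one y0 z0 (by simp [h.f₂.alt])
  have a2 := mul_mem (h.tR_mem hn hM t) hg
  exact (mul_mem_cancel_left (show h.tR t ∈ h.HT from ⟨1, t.1, h.tR_ten t⟩)).mp
    (h.tn_of_stab hn hM (by omega) (h.f₂.alt z) z0 (h.sp_eq_eE hn hM h5 H hq z0) a2 (hS a2) fun u =>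
      (a1 u).imp fun u' e => by rw [OG_mul_apply, e, h.tR_ten, ht])

theorem sp_tn (hg : g ∈ M) : g ∈ h.HT := by
  haveI := Fintype.ofFinite F
  haveI : Nontrivial W := Module.nontrivial_of_finrank_pos (R := F) (by omega)
  obtain ⟨z, z0⟩ := exists_ne (0 : W)
  refine h.sp_good hn hM h5 H hq hS hlt z0 one_ne_zero hg (h.tn_of_avg (fun δ a1 => ?_) hg (h.ad0 z 1))
  refine ten_ext h.ten fun u₁ w₁ => ten_ext h.ten fun u₂ w₂ => ten_ext h.ten fun u₃ w₃ =>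
    ten_ext h.ten fun u₄ w₄ => ?_
  obtain ⟨y, a2, y0⟩ := (Submodule.ne_bot_iff _).mp (LinearMap.ker_ne_bot_of_finrank_lt
    (f := ((β₂ w₁).prod (β₂ w₂)).prod ((β₂ w₃).prod (β₂ w₄))) (by simp; omega))
  replace a2 : (β₂ w₁ y = 0 ∧ β₂ w₂ y = 0) ∧ β₂ w₃ y = 0 ∧ β₂ w₄ y = 0 := by
    simpa [Prod.ext_iff] using a2
  have a3 : ∀ u w, β₂ w y = 0 → PD 0 fun c : Fin 1 → F => (h.eE y 0 (c 0)).1 (τ u w) :=
    fun u w hw => by simpa [h.eE_apply (h.ad0 y _), h.f₂.comm0 hw] using PD.const _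
  exact a1 1 (fun c => h.eE y 0 (c 0)) (fun c c' => by simp [h.eE_mul (h.ad0 y _) (h.ad0 y _)])
    (fun c => h.eE_mem hn hM _ _ _) (fun c => h.tn_eE _ _ _) (fun c c0 g hg =>
      h.sp_good hn hM h5 H hq hS hlt y0 (fun e => c0 (funext fun i => Subsingleton.elim 0 i ▸ e)) hg)
    _ _ _ _ _ _ _ _ (a3 _ _ a2.1.1) (a3 _ _ a2.1.2) (a3 _ _ a2.2.1) (a3 _ _ a2.2.2)
    (by have := Fintype.one_lt_card (α := F); omega)

end TT

open Cfsg.Geo in
theorem max_sptensor {ι : Type} [Fintype ι] [DecidableEq ι] [Fintype F] {Q : (ι → F) → F}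
    (hQ : IsNondegenerateQuadraticForm Q) {a b : ℕ} (hab : a < b) (hb : 5 ≤ b)
    (hq : ¬ (Fintype.card F = 2 ∧ a = 2)) {e : ι ≃ Fin a × Fin b} {P : GL ι F}
    {f₁ : (Fin a → F) → (Fin a → F) → F} {f₂ : (Fin b → F) → (Fin b → F) → F}
    (hf₁ : IsSymplecticForm f₁) (hf₂ : IsSymplecticForm f₂) (hn : 5 ≤ Fintype.card ι)
    (hT : IsTensorFormStructure id (polar Q) f₁ f₂ e P)
    (h0 : ∀ (x₁ : Fin a → F) (x₂ : Fin b → F), Q (Matrix.mulVec (P : Matrix ι ι F)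
      ((fun i : Fin a × Fin b => x₁ i.1 * x₂ i.2) ∘ e)) = 0) :
    IsMaximalIn (omegaGL Q) (tensorProductSubgroup a b e P ⊓ omegaGL Q) := by
  have a1 := Fintype.card_congr e
  have a2 := even_card_of_symplectic hf₁
  simp only [Fintype.card_prod, Fintype.card_fin] at a1 a2
  have a3 : 2 ≤ a := by
    obtain ⟨r, rfl⟩ := a2
    by_contra h; obtain rfl : r = 0 := by omega
    omega
  have g1 := hform_of_symplectic hf₁
  have g2 := hform_of_symplectic hf₂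
  obtain ⟨c, hc, h⟩ := tensor_form_apply (σ := RingHom.id F) g1.toSesq g2.toSesq hT
  have T : TT (mkQ hQ) g1.toSesq.toMap (c • g2.toSesq.toMap) (tP e P) (-1) :=
    ⟨isTen_tP e P, nd_mkQ hQ, ⟨fun x y => g1.herm y x, g1.nondeg, by simp, fun s => ⟨0,
      (hf₁.alternating s).trans (by simp)⟩⟩, ⟨fun x y => (congrArg (c * ·) (g2.herm y x)).trans
        (mul_left_comm ..), fun x hx => g2.nondeg x fun y => (mul_eq_zero.mp (hx y)).resolve_left hc,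
      by simp, fun s => ⟨0, (congrArg (c * ·) (hf₂.alternating s)).trans (by simp)⟩⟩, fun u w u' w' => by
        rw [polar_comm]; exact (h ..).trans (mul_left_comm ..), Or.inr h0⟩
  haveI : Nontrivial (Fin a → F) := Module.nontrivial_of_finrank_pos (R := F) (by simp; omega)
  refine max_omega hQ T.HT (fun g => (mem_tensor_iff (by omega) (by omega)).trans ?_)
    (omega_not_le_tensor hQ hn a3 (by omega) e P) fun M c1 c2 g c3 c4 => by_contra fun H =>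
      c4 (T.sp_tn (by simp; omega) c1 (by simpa) H ?_ c2 (by simpa) c3)
  · exact iff_of_eq (congrArg _ (LinearEquiv.ext fun v => by rw [glEq_apply, ofOG_mulVec]))
  · by_cases h2 : a = 2
    · have := Fintype.one_lt_card (α := F)
      classical
      obtain ⟨c, hc⟩ := Finset.exists_mem_notMem_of_card_lt_card (s := ({0, 1} : Finset F))
        (t := Finset.univ) (by rw [Finset.card_pair zero_ne_one, Finset.card_univ]; omega)
      exact Or.inl ⟨c, by simpa using hc⟩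
    · exact Or.inr (by simp; omega)

end Cfsg.Agent.H18
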