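import Mathlib
import Cfsg.Agent.H18.TsB

/-!
Tensor products of two orthogonal spaces: the centre of the radical.
-/

set_option autoImplicit false

namespace Cfsg.Agent.H18

open Module QuadraticMap H13 H12

variable {F V : Type*} [Field F] [AddCommGroup V] [Module F V] {Q : QuadraticForm F V}
  {M : Subgroup (OG Q)}

/-- A totally singular line only exists in dimension at least five. -/
def NL (Q : QuadraticForm F V) : Prop :=
  ∀ e f, Q e = 0 → Q f = 0 → polar Q e f = 0 → e ≠ 0 → f ∉ F ∙ e → 5 ≤ finrank F V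

section aux
variable [FiniteDimensional F V] (hQ : ND Q) (h2 : (2 : F) ≠ 0) {e f x y : V}
include hQ h2

theorem NL.mv (h : NL Q) (he : Q e = 0) (hf : Q f = 0) (hef : polar Q e f = 0) (e0 : e ≠ 0)
    (h1 : f ∉ F ∙ e) : ∃ g ∈ Om Q, g.1 e = e ∧ polar Q f (g.1 f) ≠ 0 := by
  have a0 := h e f he hf hef e0 h1
  obtain ⟨f', a1, a2, a3⟩ := hQ.exists_partner (F ∙ e) hf h1 fun x hx => by
    obtain ⟨c, rfl⟩ := Submodule.mem_span_singleton.mp hx; simp [polar_comm Q f, hef]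
  have hp : HP Q f f' := ⟨hf, a1, a2⟩
  have a4 := a3 e (Submodule.mem_span_singleton_self e)
  obtain ⟨u, b1, b2⟩ := (hp.nd_pp hQ).exists_nonsingular_perp
    (F ∙ (⟨e, mem_perp_pair.mpr ⟨by rwa [polar_comm], a4⟩⟩ : pp Q f f')) (by
      have := hp.finrank_pp
      rw [finrank_span_singleton (by simpa using e0)]; omega)
  refine ⟨_, hQ.sieg_mem_commutator (good_of_two_ne_zero h2) f' u, sieg_apply_of_perp_perp a4
    ((polar_comm ..).trans ((polar_restrict ..).symm.trans (mem_perp_singleton.mp b1))), ?_⟩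
  simpa [sieg_apply a1 (pp_right u), hp.uu, hp.uv, hp.vu, pp_left, pp_left'] using b2

theorem sing_ne_ind (h3 : 3 ≤ finrank F V) (he : Q e = 0) (e0 : e ≠ 0) {p : V → Prop}
    (h1 : ∀ x, Q x = 0 → polar Q e x ≠ 0 → p x) (hs : ∀ x y, p x → p y → p (x - y)) (x : V) : p x := by
  obtain ⟨e', hp⟩ := hQ.exists_hp he e0
  have a1 : ∀ (c d : F) (w : pp Q e e'), c ≠ 0 → d * c + Q w = 0 → p (d • e + c • e' + w) :=
    fun c d w c0 hd => h1 _ (by rw [hp.Q_comb, hd]) (by simpa [hp.uu, hp.uv, pp_left])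
  have a2 : ∀ c : F, p (c • e') := fun c => by
    by_cases c0 : c = 0
    · simpa [c0] using hs _ _ (a1 1 0 0 one_ne_zero (by simp)) (a1 1 0 0 one_ne_zero (by simp))
    · simpa using a1 c 0 0 c0 (by simp)
  obtain ⟨u, b1, b2⟩ := hQ.exists_nonsingular_perp (F ∙ e) (by rw [finrank_span_singleton e0]; omega)
  obtain ⟨t, u, rfl⟩ := hp.exists_eq_of_perp (mem_perp_singleton.mp b1)
  replace b2 : Q u ≠ 0 := by simpa using (hp.Q_comb t 0 u).symm.trans_ne (by simpa using b2)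
  have a3 : ∀ d : F, p (d • e) := fun d => by
    by_cases d0 : d = 0
    · simpa [d0] using a2 0
    convert hs _ _ (hs _ _ (a1 (-2 * Q u / d) (d / 2) u (by simp [*]) (by field_simp; ring))
      (a1 (2 * Q u / d) (-d / 2) u (by simp [*]) (by field_simp; ring))) (a2 (-4 * Q u / d)) using 1
    match_scalars <;> field_simp <;> ring
  obtain ⟨a, b, w, rfl⟩ := hp.exists_eq x
  convert hs _ _ (hs _ _ (a1 1 (-Q w) w one_ne_zero (by simp)) (a2 (1 - b))) (a3 (-a - Q w)) using 1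
  module

variable [Finite F]

theorem exists_Om_pt (h3 : 3 ≤ finrank F V) (hx : Q x = 0) (x0 : x ≠ 0) (hy : Q y = 0) (y0 : y ≠ 0) :
    ∃ g ∈ Om Q, ∃ c : F, c ≠ 0 ∧ g.1 x = c • y := by
  obtain ⟨g, a1, a2⟩ := hQ.exists_Om_map_singular (good_of_two_ne_zero h2) (U := F ∙ x) (W := F ∙ y)
    (by rw [finrank_span_singleton x0, finrank_span_singleton y0])
    (fun _ => Q_eq_zero_of_mem_span (by simpa) (by simp [hx]))
    (fun _ => Q_eq_zero_of_mem_span (by simpa) (by simp [hy]))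
    (by rw [finrank_span_singleton x0]; omega)
  obtain ⟨c, hc⟩ := Submodule.mem_span_singleton.mp (a2.le ⟨x, Submodule.mem_span_singleton_self x, rfl⟩)
  exact ⟨g, a1, c, by rintro rfl; exact x0 (by simpa using hc.symm), hc.symm⟩

theorem torus_sq_Om (h : HP Q e f) (c : Fˣ) : h.torus (c ^ 2) ∈ Om Q :=
  (hQ.mem_commutator_iff (good_of_two_ne_zero h2) _).mpr ⟨h.dickson_torus hQ _ _, by
    rw [h.spinor_torus, sgn_eq_one_iff]; exact ⟨c, by simp [_root_.sq]⟩⟩

end aux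

variable {U W : Type*} [AddCommGroup U] [Module F U] [AddCommGroup W] [Module F W]
  {Q₁ : QuadraticForm F U} {Q₂ : QuadraticForm F W} {τ : U →ₗ[F] W →ₗ[F] V}

theorem EF.nd (E : EF (polarBilin Q) 1) : ND Q := E.sep

namespace TT
variable (h : TT Q (polarBilin Q₁) (polarBilin Q₂) τ 1) [FiniteDimensional F U] [FiniteDimensional F W]
  {e f : U} {y z s : W} {c : F} {k g : OG Q}

/-- The isometry `1 ⊗ b`. -/
noncomputable def oR : OG Q₂ →* OG Q := MonoidHom.mk' (fun b => h.tt 1 b.1 (by simp))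
  fun _ _ => h.ext fun _ _ => by simp [OG_mul_apply]

@[simp] theorem oR_ten (b : OG Q₂) (u : U) (w : W) : (h.oR b).1 (τ u w) = τ u (b.1 w) := by
  simp [oR]

/-- The isometry `a ⊗ 1`. -/
noncomputable def oL : OG Q₁ →* OG Q := h.flip.oR

@[simp] theorem oL_ten (a : OG Q₁) (u : U) (w : W) : (h.oL a).1 (τ u w) = τ (a.1 u) w :=
  h.flip.oR_ten a w u

theorem cw_oL (a : OG Q₁) (r : W) (v : V) : h.cw r ((h.oL a).1 v) = a.1 (h.cw r v) :=
  h.ten.inductionOn v (by simp) (fun _ _ => by simp) fun _ _ a b => by simp [a, b]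

theorem oR_Om {b : OG Q₂} (hb : b ∈ Om Q₂) : h.oR b ∈ Om Q := by
  have := Subgroup.mem_map_of_mem h.oR hb
  rw [H13.Om, commutator_def, Subgroup.map_commutator] at this
  exact Subgroup.commutator_mono le_top le_top this

variable (hM : ∀ g ∈ Om Q, TN τ g.1 → g ∈ M)
include hM

theorem oR_mem {b : OG Q₂} (hb : b ∈ Om Q₂) : h.oR b ∈ M := hM _ (h.oR_Om hb) ⟨1, b.1, h.oR_ten b⟩

theorem oL_mem {a : OG Q₁} (ha : a ∈ Om Q₁) : h.oL a ∈ M :=
  hM _ (h.flip.oR_Om ha) ⟨a.1, 1, h.oL_ten a⟩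

variable [Finite F] (h2 : (2 : F) ≠ 0) (h3 : 3 ≤ finrank F U) (h4 : 4 ≤ finrank F W) (h5 : NL Q₁)
include h h2 h3 h4 h5

theorem o_le (H : AS M (τ e z) (τ f z)) (he : Q₁ e = 0) (e0 : e ≠ 0) (hz : Q₂ z = 0) (z0 : z ≠ 0)
    (h1 : f ∉ F ∙ e) (hef : polar Q₁ e f = 0) : Om Q ≤ M := by
  have n1 := h.f₁.nd
  have n2 := h.f₂.nd
  wlog hf : Q₁ f ≠ 0 generalizing f
  · obtain ⟨g, a1, a2, a3⟩ := h5.mv n1 h2 he (not_not.mp hf) hef e0 h1
    have a4 : Q₁ (g.1 f - f) ≠ 0 := by simpa [Q_sub, not_not.mp hf, polar_comm Q₁ (g.1 f)]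
    refine this (by simpa using H.fix (h.oL_mem hM a1) (by simp [a2])) (fun a5 => ?_)
      (by rw [polar_sub_right, ← a2, OG_polar, a2, sub_self]) a4
    obtain ⟨c, hc⟩ := Submodule.mem_span_singleton.mp a5
    simp [← hc, Q_smul, he] at a4
  have a1 : ∀ e f z, AS M (τ e z) (τ f z) → Q₁ e = 0 → e ≠ 0 → polar Q₁ e f = 0 → ∀ c : F,
      AS M (τ e z) (c • τ f z) := fun e f z H he e0 hef c => by
    obtain ⟨e', hp⟩ := n1.exists_hp he e0
    obtain ⟨d, w, rfl⟩ := hp.exists_eq_of_perp hef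
    have b1 : AS M (τ e z) (τ w z) := by simpa using H.sub (AS.self H.Qu d)
    have b2 : ∀ s : F, AS M (τ e z) (s ^ 2 • τ w z) := fun s => by
      by_cases hs : s = 0
      · simpa [hs] using AS.zero (M := M) H.Qu
      · have := b1.map (h.oL_mem hM (torus_sq_Om n1 h2 hp (Units.mk0 s hs)))
        rw [h.oL_ten, h.oL_ten, hp.torus_left, hp.torus_pp] at this
        exact AS.of_smul_left (by simpa using this) (by simpa)
    obtain ⟨s, t, b3⟩ := exists_mul_sq_add_mul_sq_eq (one_ne_zero (α := F)) one_ne_zero c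
    simpa [← b3, add_smul, smul_smul] using (AS.self H.Qu (c * d)).add ((b2 s).add (b2 t))
  have a2 : ∀ y, Q₂ y = 0 → y ≠ 0 → ∀ c : F, AS M (τ e y) (c • τ f y) := fun y hy y0 c => by
    obtain ⟨b, b1, d, d0, b2⟩ := exists_Om_pt n2 h2 (by omega) hz z0 hy y0
    have := (a1 e f z H he e0 hef (c / d ^ 2)).map (h.oR_mem hM b1)
    simp only [map_smul, h.oR_ten, b2] at this
    convert this.of_smul_left d0 using 1
    match_scalars; field_simp
  have a3 : ∀ y, Q₂ y = 0 → y ≠ 0 → ∀ w, AS M (τ e y) (τ e w) := fun y hy y0 =>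
    sing_ne_ind n2 h2 (by omega) hy y0 (fun w b1 b2 => by
      convert (a2 y hy y0 1).act
        (a2 w b1 (by rintro rfl; simp at b2) (2 * Q₁ f * polar Q₂ y w)⁻¹) (by simp [h.map, he])
        (by simp [h.map, polar_comm Q₁ f, hef]) using 1
      simp [h.map, hef, polar_comm Q₂ w]
      match_scalars; field_simp) fun _ _ a b => by simpa using a.sub b
  have a4 : ∀ x y, Q₁ x = 0 → x ≠ 0 → Q₂ y = 0 → y ≠ 0 → ∀ w, AS M (τ x y) (τ x w) :=
    fun x y hx x0 hy y0 w => by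
      obtain ⟨a, b1, d, d0, b2⟩ := exists_Om_pt n1 h2 h3 he e0 hx x0
      have := (a3 y hy y0 ((d ^ 2)⁻¹ • w)).map (h.oL_mem hM b1)
      simp only [map_smul, h.oL_ten, b2, LinearMap.smul_apply] at this
      convert this.of_smul_left d0 using 1
      match_scalars; field_simp
  refine h.le_of_all (by rw [h.finrank_eq]; nlinarith) (by omega) (e := e) (z := z) (by simp [he]) e0
    (by simp [hz]) z0 fun x y hx x0 hy y0 u w hw => ?_
  replace hx : Q₁ x = 0 := by simpa [h2] using hx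
  replace hy : Q₂ y = 0 := by simpa [h2] using hy
  obtain ⟨y', hp⟩ := n2.exists_hp hy y0
  obtain ⟨r, b1, b2⟩ := n2.exists_nonsingular_perp (F ∙ y) (by rw [finrank_span_singleton y0]; omega)
  replace b1 := mem_perp_singleton.mp b1
  refine sing_ne_ind n1 h2 h3 hx x0 (p := fun u => AS M (τ x y) (τ u w)) (fun u c1 c2 => ?_)
    (fun _ _ a b => by simpa using a.sub b) u
  have c3 := fun r s (hs : polar Q₂ y s = 0) => (a4 x y hx x0 hy y0 ((polar Q₁ x u)⁻¹ • r)).act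
    (a4 u y c1 (by rintro rfl; simp at c2) hy y0 s) (by simp [h.map, hy])
    (by simp [h.map, polar_comm Q₂ s, hs])
  have c4 := (c3 ((polar Q₂ w y' / (2 * Q₂ r)) • r) r b1).sub (c3 y' w hw)
  have c5 : ∀ s, Q (τ u s) = 0 := fun s => h.Q0 u s (by simp [c1])
  convert c4 using 1
  simp [h.map, polar_comm Q₁ u, c2, c5, b1, hp.uv]
  match_scalars <;> field_simp
  ring

theorem zl_zero (H : ¬ Om Q ≤ M) (hz : Q₂ z = 0) (z0 : z ≠ 0) {η : End F U} (hη : h.ZL M z η) :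
    η = 0 := by
  have n1 := h.f₁.nd
  have hz' : polarBilin Q₂ z z = 0 := by simp [hz]
  have a1 : ∀ x, polar Q₁ x (η x) = 0 := fun x => (polar_comm ..).trans (ZL.alt h hz' z0 hη x)
  have a2 : ∀ x y, polar Q₁ x (η y) = -polar Q₁ y (η x) := fun x y => by
    simpa [polar_comm Q₁ (η _)] using ZL.skew h hz' z0 hη y x
  have a3 : ∀ e, Q₁ e = 0 → e ≠ 0 → ∃ c : F, c • e = η e := fun e he e0 => by
    by_contra b0
    obtain ⟨f, b1, b2⟩ := n1.exists_nonsingular_perp (F ∙ e) (by rw [finrank_span_singleton e0]; omega)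
    replace b1 := mem_perp_singleton.mp b1
    have b3 : polar Q₁ e ((2 * Q₁ f) • η e - (2 * polar Q₁ f (η e)) • f) = 0 := by simp [a1, b1]
    refine H (h.o_le hM h2 h3 h4 h5 ⟨h.Qz hz' e, by simp [h.map, hz], ?_⟩ he e0 hz z0 (fun b4 => ?_) b3)
    · obtain ⟨k, c1, c2⟩ := hη
      have c3 := fun f => h.oL_mem hM (n1.sieg_mem_commutator (good_of_two_ne_zero h2) e f)
      have c4 : ∀ k : OG Q, k ∈ M → ∀ a ∈ M, a * k * a⁻¹ * k⁻¹ ∈ M := fun k b a c =>
        mul_mem (mul_mem (mul_mem c b) (inv_mem c)) (inv_mem b)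
      have c5 : ∀ f, polar Q₁ e f = 0 → ∀ v, (h.oL (sieg Q₁ e f) * k * (h.oL (sieg Q₁ e f))⁻¹ * k⁻¹).1 v =
          v + τ ((sieg Q₁ e f).1 (η ((sieg Q₁ e (-f)).1 (h.cw z v))) - η (h.cw z v)) z := fun f hf v => by
        obtain ⟨v, rfl⟩ := k.1.surjective v
        rw [OG_mul_apply, OG_inv_apply_apply, ← map_inv, ← sieg_neg he hf, OG_mul_apply, OG_mul_apply, c2,
          map_add, ← OG_mul_apply, ← map_mul, ← sieg_add he hf (by simp [hf])]
        simp [c2, hz, h.cw_oL, sieg_zero]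
      convert mul_mem (c4 k c1 _ (c3 f)) (c4 k c1 _ (c3 (-f))) using 1
      refine OG_ext fun v => ?_
      rw [OG_mul_apply, c5 f b1, c5 (-f) (by simp [b1]), sieg_apply (h.Qz hz' e) (by simp [h.map, hz]),
        h.Qz hz' (_ - _)]
      simp [h.p_cw, hz, h.Qz hz', sieg_apply he b1, sieg_apply he (show polar Q₁ e (-f) = 0 by simp [b1]),
        a1, a2 e, a2 f (h.cw z v), he, b1, polar_comm Q₁ (η _)]
      module
    · obtain ⟨c, hc⟩ := Submodule.mem_span_singleton.mp b4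
      have c1 : polar Q₁ f (η e) = 0 := by
        have := congrArg (polar Q₁ f) hc
        simp [polar_comm Q₁ f e, b1] at this
        exact (mul_eq_zero.mp (by linear_combination this)).resolve_left (mul_ne_zero h2 b2)
      exact b0 ⟨(2 * Q₁ f)⁻¹ * c, by
        rw [mul_smul, hc, c1, mul_zero, zero_smul, sub_zero, inv_smul_smul₀ (mul_ne_zero h2 b2)]⟩
  have a4 : ∀ e, Q₁ e = 0 → η e = 0 := fun e he => by_contra fun b0 => by
    have e0 : e ≠ 0 := by rintro rfl; simp at b0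
    obtain ⟨e', hp⟩ := n1.exists_hp he e0
    obtain ⟨u, b1, b2⟩ := n1.exists_nonsingular_perp (F ∙ e) (by rw [finrank_span_singleton e0]; omega)
    obtain ⟨t, u, rfl⟩ := hp.exists_eq_of_perp (mem_perp_singleton.mp b1)
    replace b2 : Q₁ u ≠ 0 := by simpa using (hp.Q_comb t 0 u).symm.trans_ne (by simpa using b2)
    obtain ⟨c, hc⟩ := a3 e he e0
    obtain ⟨c', hc'⟩ := a3 e' hp.Qv hp.ne_right
    obtain ⟨d, hd⟩ := a3 (-Q₁ u • e + (1 : F) • e' + u) (by rw [hp.Q_comb]; simp) fun b3 => by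
      simpa [hp.uu, hp.uv, pp_left] using congrArg (polar Q₁ e) b3
    have b3 := a2 e e'
    have b4 := a2 e (-Q₁ u • e + (1 : F) • e' + u)
    have b5 := a2 e' (-Q₁ u • e + (1 : F) • e' + u)
    rw [← hd, ← hc] at b4
    rw [← hd, ← hc'] at b5
    simp [← hc, ← hc', hp.uu, hp.uv, hp.vu, hp.vv, pp_left, pp_right, pp_left', pp_right', b2] at b3 b4 b5
    exact b0 (by rw [← hc, show c = 0 from (mul_eq_zero.mp (by
      linear_combination Q₁ u * b3 + Q₁ u * b4 + b5)).resolve_left (mul_ne_zero h2 b2), zero_smul])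
  obtain ⟨e, e0, he⟩ := exists_singular Q₁ h3
  exact LinearMap.ext (sing_ne_ind n1 h2 h3 he e0 (fun x hx _ => a4 x hx) fun _ _ a b => by
    simp at a b; simp [a, b])

end TT

end Cfsg.Agent.H18
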