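import Mathlib
import Cfsg.Agent.H18.ToA

/-!
Tensor products of two orthogonal spaces: the radical.
-/

set_option autoImplicit false

namespace Cfsg.Agent.H18

open Module QuadraticMap H13 H12

variable {F V : Type*} [Field F] [AddCommGroup V] [Module F V] {Q : QuadraticForm F V}
  {M : Subgroup (OG Q)}

theorem exists_orth [FiniteDimensional F V] (h2 : (2 : F) ≠ 0) {X : Submodule F V}
    (hX : ND (Q.restrict X)) (hd : 2 ≤ finrank F X) {u : V} (hu : u ∈ X) (h0 : Q u ≠ 0) :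
    ∃ v ∈ X, polar Q u v = 0 ∧ Q v ≠ 0 := by
  have a1 := finrank_inf_perp hX hu (by rintro rfl; simp at h0)
  haveI : Nontrivial ↥(X ⊓ perp Q (F ∙ u)) := Module.nontrivial_of_finrank_pos (R := F) (by omega)
  obtain ⟨⟨v, a2, a3⟩, a4⟩ := (nd_inf_perp hX hu (by simp [h2, h0])).exists_ne_zero
  exact ⟨v, a2, mem_perp_singleton.mp a3, a4⟩

theorem scalar_of_sing [FiniteDimensional F V] [Finite F] (hQ : ND Q) (h2 : (2 : F) ≠ 0)
    (h3 : 3 ≤ finrank F V) (hq : (∃ c : F, c ≠ 0 ∧ c ^ 2 ≠ 1) ∨ 4 ≤ finrank F V) {θ : End F V}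
    (h1 : ∀ x y, polar Q x (θ y) = polar Q y (θ x)) (h0 : ∀ e, Q e = 0 → polar Q e (θ e) = 0) :
    ∃ c : F, ∀ u, θ u = c • u := by
  obtain ⟨e, e0, he⟩ := exists_singular Q h3
  obtain ⟨f, hp⟩ := hQ.exists_hp he e0
  wlog hc : polar Q e (θ f) = 0 generalizing θ
  · obtain ⟨c, hc⟩ := this (θ := θ - polar Q e (θ f) • 1) (fun x y => by
      simp [h1 x y, polar_comm Q x y]) (fun x hx => by simp [h0 x hx, hx]) (by simp [hp.uv])
    exact ⟨c + polar Q e (θ f), fun u => by simpa [sub_eq_iff_eq_add, add_smul] using hc u⟩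
  have a1 : ∀ e f, HP Q e f → polar Q e (θ f) = 0 → ∀ u ∈ pp Q e f,
      2 * polar Q f (θ u) - 2 * Q u * polar Q e (θ u) + polar Q u (θ u) = 0 := fun e f hp hc u hu => by
    have := h0 _ ((hp.Q_comb (-Q u) 1 ⟨u, hu⟩).trans (by simp))
    simp [h0 e hp.Qu, h0 f hp.Qv, hc, h1 f e, h1 u e, h1 u f] at this
    linear_combination this
  have a2 : ∀ e f, HP Q e f → polar Q e (θ f) = 0 → ∀ u ∈ pp Q e f,
      polar Q f (θ u) = Q u * polar Q e (θ u) ∧ polar Q u (θ u) = 0 := fun e f hp hc u hu => by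
    have b1 := a1 e f hp hc u hu
    have b2 := a1 e f hp hc (-u) (neg_mem hu)
    simp at b2
    exact ⟨mul_left_cancel₀ (mul_ne_zero h2 h2) (by linear_combination b1 - b2),
      mul_left_cancel₀ h2 (by linear_combination b1 + b2)⟩
  have a3 := fun u hu => (a2 e f hp hc u hu).1
  have a4 : ∀ u ∈ pp Q e f, polar Q e (θ u) = 0 := fun u hu => by
    by_cases b0 : Q u = 0
    · simpa [b0] using (a2 f e hp.symm (by rw [h1, hc]) u (by rwa [pp_comm])).1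
    rcases hq with ⟨c, c0, c1⟩ | hq
    · have b1 := a3 _ (Submodule.smul_mem _ c hu)
      simp [Q_smul, a3 u hu] at b1
      exact (mul_eq_zero.mp (by linear_combination -b1)).resolve_left
        (mul_ne_zero (mul_ne_zero c0 (sub_ne_zero.mpr c1)) b0)
    · obtain ⟨v, b1, b2, b3⟩ := exists_orth h2 (hp.nd_pp hQ) (by have := hp.finrank_pp; omega) hu b0
      have b4 := a3 _ (add_mem hu b1)
      have b5 := a3 _ (sub_mem hu b1)
      simp [Q_add, Q_sub, b2, a3 u hu, a3 v b1] at b4 b5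
      exact (mul_eq_zero.mp (by linear_combination -b4 - b5)).resolve_left (mul_ne_zero h2 b3)
  have a5 : ∀ x, polar Q x (θ x) = 0 := fun x => by
    obtain ⟨a, b, u, rfl⟩ := hp.exists_eq x
    simp [h0 e hp.Qu, h0 f hp.Qv, hc, h1 f e, h1 u e, h1 u f, a4 u u.2, a3 u u.2, (a2 e f hp hc u u.2).2]
  exact ⟨0, fun u => by
    rw [zero_smul]
    refine hQ _ fun y => mul_left_cancel₀ h2 ?_
    have := a5 (u + y)
    simp [a5, h1 u y] at this
    rw [polar_comm]; linear_combination this⟩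

variable {U W : Type*} [AddCommGroup U] [Module F U] [AddCommGroup W] [Module F W]
  {Q₁ : QuadraticForm F U} {Q₂ : QuadraticForm F W} {τ : U →ₗ[F] W →ₗ[F] V}

/-- The actions of elements of `M` in the radical. -/
def JS (τ : U →ₗ[F] W →ₗ[F] V) (Q₂ : QuadraticForm F W) (M : Subgroup (OG Q)) (z : W) :
    AddSubgroup (W →ₗ[F] End F U) :=
  AddSubgroup.ofSub {θ | TT.JL (τ := τ) (β₂ := polarBilin Q₂) M z θ}
    ⟨0, 1, one_mem _, fun _ => rfl, fun _ _ _ => by simp⟩ fun _ a _ b => by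
      rw [← sub_eq_add_neg]; exact JL.sub a b

theorem JS.congr {z : W} {θ θ' : W →ₗ[F] End F U} (H : θ ∈ JS τ Q₂ M z)
    (e : ∀ w, polar Q₂ z w = 0 → ∀ u, θ' w u = θ w u) : θ' ∈ JS τ Q₂ M z := by
  obtain ⟨k, a1, a2, a3⟩ := H
  exact ⟨k, a1, a2, fun u w hw => by rw [a3 u w hw, e w hw]⟩

namespace TT
variable (h : TT Q (polarBilin Q₁) (polarBilin Q₂) τ 1) [FiniteDimensional F U] [FiniteDimensional F W]
  {e f : U} {y z s : W} {c : F} {k g : OG Q} {θ θ' : W →ₗ[F] End F U}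
  (hM : ∀ g ∈ Om Q, TN τ g.1 → g ∈ M)
include h

omit [FiniteDimensional F U] [FiniteDimensional F W] in
theorem js_z (hz : Q₂ z = 0) (z0 : z ≠ 0) (H : θ ∈ JS τ Q₂ M z) (u : U) : θ z u = 0 := by
  obtain ⟨k, -, a2, a3⟩ := H
  exact ten_left_inj h.ten z0 (by simpa [a2] using a3 u z (by simp [hz]))

include hM

theorem js_L (H : θ ∈ JS τ Q₂ M z) {a : OG Q₁} (ha : a ∈ Om Q₁) :
    (LinearEquiv.conj a.1).toLinearMap ∘ₗ θ ∈ JS τ Q₂ M z := by
  obtain ⟨k, a1, a2, a3⟩ := H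
  have a4 := h.oL_mem hM ha
  refine ⟨_, mul_mem (mul_mem a4 a1) (inv_mem a4), fun u => ?_, fun u w hw => ?_⟩ <;>
    obtain ⟨u, rfl⟩ := a.1.surjective u <;>
    rw [OG_mul_apply, OG_inv_eq (h.oL_ten a u _), OG_mul_apply]
  · rw [a2, h.oL_ten]
  · simp [a3 u w hw]

theorem js_R (H : θ ∈ JS τ Q₂ M z) {b : OG Q₂} (hb : b ∈ Om Q₂) (c0 : c ≠ 0) (h1 : b.1 z = c • z)
    (e : ∀ w, polar Q₂ z w = 0 → ∀ u, θ' (b.1 w) u = c • θ w u) : θ' ∈ JS τ Q₂ M z := by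
  obtain ⟨k, a1, a2, a3⟩ := H
  have a4 := h.oR_mem hM hb
  refine ⟨_, mul_mem (mul_mem a4 a1) (inv_mem a4), fun u => ?_, fun u w hw => ?_⟩
  · rw [OG_mul_apply, OG_inv_eq (x := τ (c⁻¹ • u) z) (by simp [h1, smul_smul, c0]), OG_mul_apply, a2]
    simp [h1, smul_smul, c0]
  · obtain ⟨w, rfl⟩ := b.1.surjective w
    have a5 : polar Q₂ z w = 0 := by rw [← OG_polar b, h1]; simpa [c0] using hw
    rw [OG_mul_apply, OG_inv_eq (h.oR_ten b u _), OG_mul_apply, a3 u w a5]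
    simp [h1, e w a5]

variable [Finite F] (h2 : (2 : F) ≠ 0) (h3 : 3 ≤ finrank F U) (h4 : 4 ≤ finrank F W) (h5 : NL Q₁)
  (H : ¬ Om Q ≤ M) (hz : Q₂ z = 0) (z0 : z ≠ 0)
include h2 h3 h4 h5 H hz z0

theorem js_symm (h1 : θ ∈ JS τ Q₂ M z) {θ₀ : End F U} (hs : polar Q₂ z s = 0)
    (h1' : (polarBilin Q₂ s).smulRight θ₀ ∈ JS τ Q₂ M z)
    (h0 : ∀ x y, polar Q₁ x (θ₀ y) = polar Q₁ y (θ₀ x)) (x y : U) :
    polar Q₁ x (θ s (θ₀ y)) = polar Q₁ y (θ s (θ₀ x)) := by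
  obtain ⟨k, a1, a2, a3⟩ := h1
  obtain ⟨k', b1, b2, b3⟩ := h1'
  obtain ⟨z', hp⟩ := h.f₂.nd.exists_hp hz z0
  obtain ⟨η, c1⟩ := h.exists_eta (k := (k' * k)⁻¹ * (k * k')) z0 fun u w hw => OG_inv_eq (by
    simp [OG_mul_apply, a3 u w hw, b3 u w hw, a2, b2]; abel)
  obtain rfl := h.zl_zero hM h2 h3 h4 h5 H hz z0 ⟨_, mul_mem (inv_mem (mul_mem b1 a1)) (mul_mem a1 b1), c1⟩
  have c2 : ∀ v, k.1 (k'.1 v) = k'.1 (k.1 v) := fun v => by
    simpa [OG_mul_apply] using congrArg (k' * k).1 ((c1 v).trans (by simp : _ = v))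
  have c3 : ∀ v, h.cw z v = 0 → k'.1 v = v + τ (θ₀ (h.cw s v)) z := fun v hv =>
    h.ind_cw (s := z') (by simp [hp.uv]) (p := fun v => k'.1 v = v + τ (θ₀ (h.cw s v)) z) (by simp)
      (fun u w hw => by simp [b3 u w hw]) (fun _ _ a b => by simp [a, b]; abel) hv
  have c4 := h.eq_right (r := z) (s := z') (by simp [hp.uv]) (v := k'.1 (τ x z') - τ x z' + τ (θ₀ x) s)
    fun w hw => h.f₁.ext fun u => by
      have := OG_polar k' (τ u w) (τ x z')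
      simp [b3 u w hw, h.p_cw, h.cw_fix b2, hp.uv, polar_comm Q₁ (θ₀ u)] at this
      simp [h0 u x, polar_comm Q₂ w s]
      linear_combination this
  generalize (1 : F) • h.cw z' _ = l at c4
  have c5 := c2 (τ x z')
  have c6 := c3 (k.1 (τ x z') - τ x z') (by simp [h.cw_fix a2])
  replace c4 : k'.1 (τ x z') = τ x z' - τ (θ₀ x) s + τ l z := by rw [← c4]; abel
  rw [map_sub, ← c5, c4, map_add, map_sub, a2, a3 _ s hs] at c6
  have c7 : τ (θ₀ (h.cw s (k.1 (τ x z') - τ x z'))) z = τ (-θ s (θ₀ x)) z := by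
    rw [map_neg, LinearMap.neg_apply]; linear_combination (norm := abel) -c6
  have c8 := OG_polar k (τ (θ₀ y) s) (τ x z')
  rw [a3 _ s hs, polar_add_left, h.p_cw, h.p_cw, h.cw_fix a2] at c8
  have c9 := congrArg (polar Q₁ y) (ten_left_inj h.ten z0 c7)
  rw [h0] at c9
  simp [h.map, hp.uv, polar_comm Q₁ (θ₀ y), polar_comm Q₁ _ x] at c8 c9
  linear_combination c8 - c9

variable (h6 : NL Q₂)
include h6

theorem no_rank_one (he : Q₁ e = 0) (e0 : e ≠ 0) (hs : polar Q₂ z s = 0) (h0 : s ∉ F ∙ z)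
    (h1 : (polarBilin Q₂ s).smulRight ((polarBilin Q₁ e).smulRight e) ∈ JS τ Q₂ M z) : False := by
  obtain ⟨b, a1, a2, a3⟩ : ∃ b ∈ Om Q₂, b.1 z = z ∧ polar Q₂ s (b.1 s) ≠ 0 := by
    by_cases a0 : Q₂ s = 0
    · exact h6.mv h.f₂.nd h2 hz a0 hs z0 h0
    · exact ⟨1, one_mem _, rfl, by simp [h2, a0]⟩
  obtain ⟨e', hp⟩ := h.f₁.nd.exists_hp he e0
  obtain ⟨a, b1, d, d0, b2⟩ := exists_Om_pt h.f₁.nd h2 h3 he e0 hp.Qv hp.ne_right
  have b3 := h.js_symm hM h2 h3 h4 h5 H hz z0 h1 (s := b.1 s) (by rw [← a2, OG_polar, hs])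
    (θ₀ := (polarBilin Q₁ (a.1 e)).smulRight (a.1 e)) (h.js_R hM (h.js_L hM h1 b1) a1 one_ne_zero
      (by simp [a2]) fun w _ u => by simp [OG_polar_left a, OG_inv_apply])
    (fun x y => by simp [polar_comm Q₁ x, polar_comm Q₁ y, mul_comm]) e e'
  simp [b2, hp.uu, hp.uv, hp.vu, hp.vv, a3, d0] at b3

variable (hq : (∃ c : F, c ≠ 0 ∧ c ^ 2 ≠ 1) ∨ 4 ≤ finrank F U)
include hq

theorem o_eq_eE (k : OG Q) (hk : k ∈ M) (h1 : h.RL z k) :
    ∃ s c, AD (polarBilin Q₂) 1 z s c ∧ k = h.eE z s c := by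
  have n1 := h.f₁.nd
  have hn : 5 ≤ finrank F V := by rw [h.finrank_eq]; nlinarith
  haveI : Nontrivial U := Module.nontrivial_of_finrank_pos (R := F) (by omega)
  refine h.eq_eE hn hM (by simp [hz]) z0 (fun η a => ⟨0, by simp [h.zl_zero hM h2 h3 h4 h5 H hz z0 a]⟩)
    (fun θ (a1 : θ ∈ JS τ Q₂ M z) w hw => ?_) hk h1
  have a2 : ∀ w, polar Q₂ z w = 0 → ∀ x y, polar Q₁ x (θ w y) = polar Q₁ y (θ w x) := fun w hw =>
    have b1 : AD (polarBilin Q₂) 1 z w (Q₂ w) := ⟨by simp [hz], hw, by simp [one_add_one_eq_two]⟩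
    h.js_symm hM h2 h3 h4 h5 H hz z0 a1 (θ₀ := 1) hw ⟨_, h.eE_mem hn hM z w (Q₂ w), h.eE_L b1,
      fun u w' (b2 : polar Q₂ z w' = 0) => by simp [h.eE_apply b1, b2]⟩ fun x y => polar_comm ..
  refine scalar_of_sing n1 h2 h3 hq (a2 w hw) fun e he => by_contra fun b0 => ?_
  have e0 : e ≠ 0 := by rintro rfl; simp at b0
  obtain ⟨e', hp⟩ := n1.exists_hp he e0
  have a3 : ∀ f ∈ pp Q₁ e e', ∃ X ∈ JS τ Q₂ M z, ∀ w, polar Q₂ z w = 0 → ∀ x, X w x =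
      (2 * polar Q₁ f (θ w f) * polar Q₁ e x - 2 * Q₁ f * polar Q₁ e (θ w x) -
        2 * polar Q₁ f (θ w e) * polar Q₁ f x) • e - (2 * Q₁ f * polar Q₁ e x) • θ w e +
      (2 * polar Q₁ e (θ w e) * polar Q₁ f x - 2 * polar Q₁ f (θ w e) * polar Q₁ e x) • f +
      (2 * Q₁ f ^ 2 * polar Q₁ e (θ w e) * polar Q₁ e x) • e := fun f hf => by
    have b1 := (mem_perp_pair.mp hf).1
    have b2 : polar Q₁ e (-f) = 0 := by simp [b1]
    have b3 := fun f => h.js_L hM a1 (n1.sieg_mem_commutator (good_of_two_ne_zero h2) e f)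
    refine ⟨_, sub_mem (sub_mem (add_mem (b3 f) (b3 (-f))) a1) a1, fun w hw x => ?_⟩
    simp only [LinearMap.sub_apply, LinearMap.add_apply, LinearMap.comp_apply, LinearEquiv.coe_coe,
      LinearEquiv.conj_apply_apply, ← OG_inv_apply, ← sieg_neg he b1, ← sieg_neg he b2, neg_neg]
    simp [sieg_apply he b1, sieg_apply he b2, a2 w hw e f]
    module
  obtain ⟨κ, κ0, a4⟩ : ∃ κ : F, κ ≠ 0 ∧ ∃ X ∈ JS τ Q₂ M z, ∀ w, polar Q₂ z w = 0 → ∀ x,
      X w x = (κ * polar Q₁ e (θ w e) * polar Q₁ e x) • e := by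
    haveI : Nontrivial (pp Q₁ e e') := Module.nontrivial_of_finrank_pos (R := F) (by
      have := hp.finrank_pp; omega)
    obtain ⟨⟨f, b1⟩, (b2 : Q₁ f ≠ 0)⟩ := (hp.nd_pp n1).exists_ne_zero
    obtain ⟨X, b3, b4⟩ := a3 f b1
    rcases hq with ⟨c, c0, c1⟩ | hq
    · obtain ⟨Y, b5, b6⟩ := a3 _ (Submodule.smul_mem _ c b1)
      obtain ⟨z', hp'⟩ := h.f₂.nd.exists_hp hz z0
      refine ⟨2 * Q₁ f ^ 2 * c ^ 2 * (c ^ 2 - 1), by simp [*, sub_eq_zero], _, sub_mem b5 (h.js_R hM b3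
        (θ' := c ^ 2 • X) (torus_sq_Om h.f₂.nd h2 hp' (Units.mk0 c c0)) (c := c ^ 2) (by simp [c0])
        ((hp'.torus_left _).trans (by simp)) fun w hw u => ?_), fun w hw x => ?_⟩
      · obtain ⟨d, w, rfl⟩ := hp'.exists_eq_of_perp hw
        rw [map_add, map_smul, hp'.torus_left, hp'.torus_pp]
        simp [h.js_z hz z0 b3]
      · simp [b4 w hw, b6 w hw, Q_smul]; module
    · obtain ⟨v, c1, c2, c3⟩ := exists_orth h2 (hp.nd_pp n1) (by have := hp.finrank_pp; omega) b1 b2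
      obtain ⟨Y, b5, b6⟩ := a3 _ c1
      obtain ⟨Z, b7, b8⟩ := a3 _ (add_mem b1 c1)
      obtain ⟨T, b9, b10⟩ := a3 _ (sub_mem b1 c1)
      refine ⟨2 * 2 * 2 * Q₁ f * Q₁ v, by simp [*], _,
        sub_mem (sub_mem (add_mem b7 b9) (add_mem b3 b3)) (add_mem b5 b5), fun w hw x => ?_⟩
      simp [b4 w hw, b6 w hw, b8 w hw, b10 w hw, Q_add, Q_sub, c2]; module
  obtain ⟨X, a5, a6⟩ := a4
  obtain ⟨s, a7⟩ := h.f₂.exists_repr (κ • polarBilin Q₁ e ∘ₗ θ.flip e)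
  simp at a7
  refine h.no_rank_one hM h2 h3 h4 h5 H hz z0 h6 he e0 (s := s) (by
    rw [polar_comm, a7, h.js_z hz z0 a1]; simp) (fun b1 => ?_) (JS.congr a5 fun w hw u => by
      simp [a6 w hw, a7, smul_smul])
  obtain ⟨d, rfl⟩ := Submodule.mem_span_singleton.mp b1
  simpa [show polar Q₂ z w = 0 from hw, κ0, b0] using a7 w

end TT

end Cfsg.Agent.H18
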