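import Mathlib
import Cfsg.Agent.H18.ToB
import Cfsg.Agent.H13.Refl

/-!
Stabilisers of tensor products of two orthogonal spaces are maximal in orthogonal groups.
-/

set_option autoImplicit false

namespace Cfsg.Agent.H18

open Module QuadraticMap H13 H12

variable {F V : Type*} [Field F] [AddCommGroup V] [Module F V] {Q : QuadraticForm F V}
  {M : Subgroup (OG Q)}

theorem exists_inj_pair (hQ : ND Q) (h2 : (2 : F) ≠ 0) {n : End F V} {ν : F} {x : V} (hx : n x ≠ 0)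
    (h3 : ∀ u, n (n (n u)) = 0) (h : ∀ u v, polar Q (u + n u) (v + n v) * ν = polar Q u v) :
    ∃ x y, ∀ s t : F, n (s • x + t • y) = 0 → s = 0 ∧ t = 0 := by
  by_cases a1 : ∃ y, n (n y) ≠ 0
  · obtain ⟨y, a1⟩ := a1
    refine ⟨y, n y, fun s t e => ?_⟩
    obtain rfl : s = 0 := by simpa [h3, a1] using congrArg n e
    simpa [a1] using e
  push Not at a1
  obtain ⟨y, a2⟩ := hQ.exists_ne hx
  obtain rfl : ν = 1 := by_contra fun e => by
    have b1 := h (n x) y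
    have b2 := h (n x) (n y)
    simp [a1] at b1 b2
    have b3 : polar Q (n x) (n y) = 0 :=
      (mul_eq_zero.mp (by linear_combination b2)).resolve_right (sub_ne_zero.mpr e)
    exact a2 ((mul_eq_zero.mp (by linear_combination b1 - ν * b3)).resolve_right (sub_ne_zero.mpr e))
  have a3 : ∀ u v, polar Q u (n v) = -polar Q v (n u) := fun u v => by
    have b1 := h u v
    have b2 := h (n u) v
    simp [a1, polar_comm Q (n u) v] at b1 b2
    linear_combination b1 - b2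
  have a4 : ∀ u, polar Q u (n u) = 0 := fun u => mul_left_cancel₀ h2 (by linear_combination a3 u u)
  rw [polar_comm] at a2
  exact ⟨x, y, fun s t e => ⟨by simpa [a4, a2] using congrArg (polar Q y) e,
    by simpa [a4, a2, a3 x y] using congrArg (polar Q x) e⟩⟩

theorem exists_config [FiniteDimensional F V] [Finite F] (hQ : ND Q) (h2 : (2 : F) ≠ 0)
    (h4 : 4 ≤ finrank F V) (h5 : NL Q) : ∃ z z' s₁ s₂, HP Q z z' ∧ s₁ ∈ pp Q z z' ∧ s₂ ∈ pp Q z z' ∧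
      (∀ a b : F, Q (a • s₁ + b • s₂) = 0 → a = 0 ∧ b = 0) ∧ (5 ≤ finrank F V → ∃ t ∈ pp Q z z',
        polar Q s₁ t = 0 ∧ polar Q s₂ t = 0 ∧ Q t ≠ 0) := by
  obtain ⟨z, z0, hz⟩ := exists_singular Q (by omega)
  obtain ⟨z', hp⟩ := hQ.exists_hp hz z0
  have a1 := hp.finrank_pp
  obtain ⟨s, a2, a3⟩ := exists_val_mem (hp.nd_pp hQ) (by omega) 1
  by_cases h6 : 5 ≤ finrank F V
  · have b1 := nd_inf_perp (hp.nd_pp hQ) a2 (by simp [a3, h2])
    have b2 := finrank_inf_perp (hp.nd_pp hQ) a2 (by rintro rfl; simp at a3)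
    obtain ⟨ν, b3, b4⟩ := exists_sgn_eq_neg_one h2
    obtain ⟨r, b5, b6⟩ := exists_val_mem b1 (by omega) (-ν)
    obtain ⟨t, b7, b8, b9⟩ := exists_orth h2 b1 (by omega) b5 (by simp [b6, b3])
    refine ⟨z, z', s, r, hp, a2, b5.1, fun a b e => ?_, fun _ => ⟨t, b7.1, mem_perp_singleton.mp b7.2, b8, b9⟩⟩
    simp [Q_add, Q_smul, a3, b6, mem_perp_singleton.mp b5.2] at e
    obtain rfl : b = 0 := by_contra fun b0 =>
      sgn_eq_neg_one_iff.mp b4 ⟨a / b, by field_simp; linear_combination -e⟩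
    simpa using e
  · obtain ⟨r, b1, b2, b3⟩ := exists_orth h2 (hp.nd_pp hQ) (by omega) a2 (by simp [a3])
    refine ⟨z, z', s, r, hp, a2, b1, fun a b e => ?_, fun h => (h6 h).elim⟩
    have b4 := mem_perp_pair.mp (add_mem (Submodule.smul_mem _ a a2) (Submodule.smul_mem _ b b1))
    obtain ⟨c, hc⟩ := Submodule.mem_span_singleton.mp (by_contra fun H => h6 (h5 z _ hz e b4.1 z0 H))
    obtain rfl : c = 0 := by simpa [← hc, hp.vu] using b4.2
    exact ⟨by simpa [a3, h2, b2] using congrArg (polar Q s) hc,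
      by simpa [b3, h2, b2, polar_comm Q r s] using congrArg (polar Q r) hc⟩

variable {U W : Type*} [AddCommGroup U] [Module F U] [AddCommGroup W] [Module F W]
  {Q₁ : QuadraticForm F U} {Q₂ : QuadraticForm F W} {τ : U →ₗ[F] W →ₗ[F] V}

namespace TT
variable (h : TT Q (polarBilin Q₁) (polarBilin Q₂) τ 1) [FiniteDimensional F U] [FiniteDimensional F W]
  {z s : W} {k g : OG Q} (h2 : (2 : F) ≠ 0) (hlt : finrank F U < finrank F W)
include h h2 hlt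

theorem right_of_unip (hk : TN τ k.1) {N : End F V} (hN : ∀ v, k.1 v = v + N v)
    (h3 : ∀ v, N (N (N v)) = 0) {A : V →ₗ[F] U} (hA : ∀ v, A v = 0 → N (N v) = 0)
    {B : V →ₗ[F] U × U} (hB : ∀ v, B v = 0 → N v = 0) :
    ∃ b : W → W, ∀ u w, k.1 (τ u w) = τ u (b w) := by
  obtain ⟨a, b, hk⟩ := hk
  suffices ∃ c : F, ∀ x, a x = c • x from
    this.elim fun c hc => ⟨fun w => c • b w, fun u w => by simp [hk, hc]⟩
  refine exists_smul_of_mem_span fun x => by_contra fun e => ?_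
  obtain ⟨l, a1, a2⟩ := exists_dual_one_zero e
  have x0 : x ≠ 0 := by rintro rfl; simp at a1
  have a3 : Function.Injective b := fun w w' e =>
    ten_right_inj h.ten x0 (k.1.injective (by rw [hk, hk, e]))
  have a4 : ∀ v, N v = k.1 v - v := fun v => by simp [hN]
  obtain ⟨w, b1, w0⟩ := (Submodule.ne_bot_iff _).mp (LinearMap.ker_ne_bot_of_finrank_lt (f := A ∘ₗ τ x) hlt)
  have b2 : l (a (a x)) • b w = (2 : F) • w := a3 (by
    have := congrArg (cL h.ten l) (hA _ b1)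
    simp [a4, hk, a1, a2] at this
    simp only [map_smul]; linear_combination (norm := module) this)
  have b3 : l (a (a x)) ≠ 0 := fun e => by simpa [e, h2, w0] using b2.symm
  obtain ⟨μ, μ0, b4⟩ : ∃ μ : F, μ ≠ 0 ∧ b w = μ • w :=
    ⟨_, mul_ne_zero (inv_ne_zero b3) h2, by rw [mul_smul, ← b2, inv_smul_smul₀ b3]⟩
  obtain ⟨n, hn⟩ : ∃ n : End F U, ∀ u, μ • a u = u + n u := ⟨μ • a - 1, by simp⟩
  have b5 : ∀ u, N (τ u w) = τ (n u) w := fun u => by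
    rw [a4, hk, b4, map_smul, ← LinearMap.smul_apply, ← map_smul, hn]; simp
  have b6 : ∀ u, n (n (n u)) = 0 := fun u => ten_left_inj h.ten w0 (by simpa [b5] using h3 (τ u w))
  obtain ⟨w', b7⟩ := h.f₂.exists_one w0
  obtain ⟨y, y', b8⟩ := exists_inj_pair h.f₁.nd h2 (n := n) (x := x) (ν := polar Q₂ (b w) (b w') / μ ^ 2)
    (fun e => by simpa [a1, a2, e, μ0] using congrArg l (hn x)) b6 fun u v => by
      have := OG_polar k (τ u w) (τ v w')
      rw [hk, hk, h.map, h.map, b7] at this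
      simp [← hn] at this ⊢
      field_simp; linear_combination this
  obtain ⟨⟨r, r'⟩, c1, c2⟩ := (Submodule.ne_bot_iff _).mp (LinearMap.ker_ne_bot_of_finrank_lt
    (f := B ∘ₗ (τ y).coprod (τ y')) (by simp; omega))
  have c3 : τ (a y) (b r) + τ (a y') (b r') = τ y r + τ y' r' := by
    simpa [hk, a4, sub_eq_zero] using hB _ c1
  have c4 : ∀ φ : Dual F W, ∃ ψ : Dual F W, n (φ r • y + φ r' • y') = ψ r • y + ψ r' • y' := fun φ => by
    obtain ⟨ψ, rfl⟩ : ∃ ψ : Dual F W, φ = ψ ∘ₗ b :=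
      ⟨φ ∘ₗ (LinearEquiv.ofInjectiveEndo b a3).symm, LinearMap.ext fun w => congrArg φ
        ((LinearEquiv.ofInjectiveEndo b a3).symm_apply_apply w).symm⟩
    refine ⟨μ • ψ - ψ ∘ₗ b, ?_⟩
    have := congrArg (cR h.ten ψ) c3
    simp at this ⊢
    linear_combination (norm := module) μ • this - ψ (b r) • hn y - ψ (b r') • hn y'
  have c5 : ∀ φ : Dual F W, φ r = 0 ∧ φ r' = 0 := fun φ => by
    obtain ⟨ψ, d1⟩ := c4 φ
    obtain ⟨χ, d2⟩ := c4 ψ
    have d3 := b8 _ _ (by rw [← d2, ← d1, b6])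
    have d4 := b8 _ _ (by rw [d2, d3.1, d3.2]; simp)
    exact b8 _ _ (by rw [d1, d4.1, d4.2]; simp)
  exact c2 (Prod.ext ((forall_dual_apply_eq_zero_iff F r).mp fun φ => (c5 φ).1)
    ((forall_dual_apply_eq_zero_iff F r').mp fun φ => (c5 φ).2))

omit h2 hlt [FiniteDimensional F U] [FiniteDimensional F W] in
theorem o_ad (hz : Q₂ z = 0) (hs : polar Q₂ z s = 0) : AD (polarBilin Q₂) 1 z s (Q₂ s) :=
  ⟨by simp [hz], hs, by simp [one_add_one_eq_two]⟩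

variable [Finite F] (hM : ∀ g ∈ Om Q, TN τ g.1 → g ∈ M) (h3 : 3 ≤ finrank F U) (h5 : NL Q₁)
  (h6 : NL Q₂) (H : ¬ Om Q ≤ M) (hq : (∃ c : F, c ≠ 0 ∧ c ^ 2 ≠ 1) ∨ 4 ≤ finrank F U) (hS : M ≤ Om Q)
include hM h3 h5 h6 H hq hS

theorem o_good (hz : Q₂ z = 0) (z0 : z ≠ 0) (hs : polar Q₂ z s = 0) (s0 : Q₂ s ≠ 0) (hg : g ∈ M)
    (h1 : g * h.eE z s (Q₂ s) * g⁻¹ ∈ h.HT) : g ∈ h.HT := by
  haveI : Nontrivial U := Module.nontrivial_of_finrank_pos (R := F) (by omega)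
  have a1 := h.eE_apply (h.o_ad hz hs)
  have a2 : polar Q₂ s z = 0 := by rwa [polar_comm]
  obtain ⟨b, hb⟩ := h.right_of_unip h2 hlt h1 (N := (g * h.eE z s (Q₂ s) * g⁻¹).1.toLinearMap - 1)
    (by simp) (fun v => by simp [OG_mul_apply, OG_inv_apply_apply, a1, hz, hs, a2, -OG_inv_apply])
    (A := h.cw z ∘ₗ (g⁻¹).1.toLinearMap) (fun v hv => by
      obtain ⟨v, rfl⟩ := g.1.surjective v
      simp at hv
      simp [OG_mul_apply, OG_inv_apply_apply, a1, hz, hs, a2, hv])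
    (B := (h.cw z ∘ₗ (g⁻¹).1.toLinearMap).prod (h.cw s ∘ₗ (g⁻¹).1.toLinearMap)) fun v hv => by
      obtain ⟨v, rfl⟩ := g.1.surjective v
      simp at hv
      simp [OG_mul_apply, OG_inv_apply_apply, a1, hv]
  refine h.tn_of_conj (by simp [hz]) z0 (fun y hy y0 a3 => ?_) (c := -(2 * Q₂ s)) (by simp [h2, s0])
    (N := fun w => b (b w) - b w - (b w - w)) fun u w => ?_
  · obtain ⟨t, b1, d, d0, b2⟩ := exists_Om_pt h.f₂.nd h2 (by omega) (by simpa [h2] using hy) y0 hz z0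
    have b3 := mul_mem (h.oR_mem hM b1) hg
    exact (mul_mem_cancel_left (show h.oR t ∈ h.HT from ⟨1, t.1, h.oR_ten t⟩)).mp
      (h.tn_of_stab (by rw [h.finrank_eq]; nlinarith) hM (by omega) (by simp [hz]) z0
        (h.o_eq_eE hM h2 h3 (by omega) h5 H hz z0 h6 hq) b3 (hS b3) fun u =>
          (a3 u).elim fun u' e => ⟨d • u', by simp [OG_mul_apply, e, b2]⟩)
  · simp only [map_sub, ← hb]
    generalize τ u w = v
    obtain ⟨v, rfl⟩ := g.1.surjective v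
    simp [OG_mul_apply, OG_inv_apply_apply, a1, hz, hs, a2]
    module

theorem o_tn (hg : g ∈ M) : g ∈ h.HT := by
  haveI := Fintype.ofFinite F
  haveI : Nontrivial U := Module.nontrivial_of_finrank_pos (R := F) (by omega)
  haveI : Nontrivial W := Module.nontrivial_of_finrank_pos (R := F) (by omega)
  have hn : 5 ≤ finrank F V := by rw [h.finrank_eq]; nlinarith
  obtain ⟨z, z', s₁, s₂, a1, a2, a3, a4, a5⟩ := exists_config h.f₂.nd h2 (by omega) h6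
  have a6 := (mem_perp_pair.mp a2).1
  refine h.o_good h2 hlt hM h3 h5 h6 H hq hS a1.Qu a1.ne_left a6 (fun e => by
    simpa using a4 1 0 (by simpa)) hg (h.tn_of_avg (fun δ b0 => ?_) hg (h.o_ad a1.Qu a6))
  let P : W → W → W → ℕ → W → Prop := fun s₁ s₂ z i w => ∀ u, PD i fun c : Fin 2 → F =>
    (h.eE z (c 0 • s₁ + c 1 • s₂) (Q₂ (c 0 • s₁ + c 1 • s₂))).1 (τ u w)
  have b1 : ∀ s₁ s₂ z, Q₂ z = 0 → polar Q₂ z s₁ = 0 → polar Q₂ z s₂ = 0 → ∀ w, P s₁ s₂ z 2 w ∧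
      (polar Q₂ z w = 0 → P s₁ s₂ z 1 w ∧
        (polar Q₂ s₁ w = 0 → polar Q₂ s₂ w = 0 → P s₁ s₂ z 0 w)) := fun s₁ s₂ z c1 c2 c3 w => by
    have c4 := fun c : Fin 2 → F => h.eE_apply (h.o_ad (s := c 0 • s₁ + c 1 • s₂) c1 (by simp [c2, c3]))
    have c5 := (PD.coord (F := F) (0 : Fin 2) s₁).add (PD.coord 1 s₂)
    have c6 := fun u => (PD.const (τ u w)).add ((c5.map ((polarBilin Q₂).flip w)).smul (PD.const (d := 0) (τ u z)))
    refine ⟨fun u => ?_, fun c7 => ⟨fun u => by simpa [c4, c7, add_smul, mul_smul] using c6 u,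
      fun c8 c9 u => by simpa [c4, c7, c8, c9] using PD.const _⟩⟩
    convert ((c6 u).mono one_le_two).sub ((((c5.mono one_le_two).add (((c5.map (polarBilin Q₂)).app c5).smul
      (PD.const (d := 0) ((2 : F)⁻¹ • z)))).map (τ u)).map (LinearMap.lsmul F V (polar Q₂ z w))) using 2 with c
    rw [c4, polarBilin_apply_apply Q₂ (_ + _), polar_self', smul_smul, mul_right_comm, mul_inv_cancel₀ h2]
    simp [add_smul, mul_smul]
  have b2 : ∀ s₁ s₂ z, Q₂ z = 0 → z ≠ 0 → polar Q₂ z s₁ = 0 → polar Q₂ z s₂ = 0 →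
      (∀ a b : F, Q₂ (a • s₁ + b • s₂) = 0 → a = 0 ∧ b = 0) → ∀ w₁ w₂ w₃ w₄ i₁ i₂ i₃ i₄,
      P s₁ s₂ z i₁ w₁ → P s₁ s₂ z i₂ w₂ → P s₁ s₂ z i₃ w₃ → P s₁ s₂ z i₄ w₄ →
      i₁ + i₂ + i₃ + i₄ < (Fintype.card F - 1) * 2 → ∀ u₁ u₂ u₃ u₄,
      δ (τ u₁ w₁) (τ u₂ w₂) (τ u₃ w₃) (τ u₄ w₄) = 0 :=
    fun s₁ s₂ z c1 c2 c3 c4 c5 _ _ _ _ _ _ _ _ d1 d2 d3 d4 d5 _ _ _ _ =>
      have c6 : ∀ c : Fin 2 → F, polar Q₂ z (c 0 • s₁ + c 1 • s₂) = 0 := fun c => by simp [c3, c4]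
      b0 2 _ (fun c c' => by
        rw [h.eE_mul (h.o_ad c1 (c6 c)) (h.o_ad c1 (c6 c')), polarBilin_apply_apply, ← Q_add]
        congr 1 <;> [skip; congr 1] <;> simp only [Pi.add_apply] <;> module)
        (fun c => h.eE_mem hn hM _ _ _) (fun c => h.tn_eE _ _ _) (fun c c0 g hg =>
          h.o_good h2 hlt hM h3 h5 h6 H hq hS c1 c2 (c6 c) (fun e => c0 (funext
            (Fin.forall_fin_two.mpr (c5 _ _ e)))) hg) _ _ _ _ _ _ _ _ (d1 _) (d2 _) (d3 _) (d4 _) d5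
  have b3 : ∀ s₁ s₂ z z', HP Q₂ z z' → s₁ ∈ pp Q₂ z z' → s₂ ∈ pp Q₂ z z' →
      (∀ a b : F, Q₂ (a • s₁ + b • s₂) = 0 → a = 0 ∧ b = 0) → ∀ w₁ i, P s₁ s₂ z i w₁ →
      P s₁ s₂ z' i w₁ → i + 3 < (Fintype.card F - 1) * 2 → ∀ u₁ u₂ u₃ u₄ w₂ w₃ w₄,
      δ (τ u₁ w₁) (τ u₂ w₂) (τ u₃ w₃) (τ u₄ w₄) = 0 := fun s₁ s₂ z z' hp c1 c2 c3 w₁ i c4 c5 c6 u₁ u₂ u₃ u₄ => by
    rw [mem_perp_pair] at c1 c2
    have d1 := b1 s₁ s₂ z hp.Qu c1.1 c2.1
    have d2 := b1 s₁ s₂ z' hp.Qv c1.2 c2.2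
    have d3 : ∀ p : W → Prop, (∀ x y, p x → p y → p (x + y)) → (∀ w i j, i + j ≤ 2 → P s₁ s₂ z i w →
        P s₁ s₂ z' j w → p w) → ∀ w, p w := fun p e1 e2 w => by
      obtain ⟨a, b, w, rfl⟩ := hp.exists_eq w
      exact e1 _ _ (e1 _ _ (e2 _ 0 2 le_rfl (((d1 _).2 (by simp [hp.Qu])).2
        (by simp [polar_comm Q₂ s₁, c1.1]) (by simp [polar_comm Q₂ s₂, c2.1])) (d2 _).1)
        (e2 _ 2 0 le_rfl (d1 _).1 (((d2 _).2 (by simp [hp.Qv])).2
          (by simp [polar_comm Q₂ s₁, c1.2]) (by simp [polar_comm Q₂ s₂, c2.2]))))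
        (e2 _ 1 1 le_rfl ((d1 _).2 (pp_left w)).1 ((d2 _).2 (pp_right w)).1)
    refine d3 _ (fun _ _ a b w₃ w₄ => by simp [a, b]) fun w₂ i₂ j₂ e1 e2 e3 =>
      d3 _ (fun _ _ a b w₄ => by simp [a, b]) fun w₃ i₃ j₃ e4 e5 e6 =>
        d3 _ (fun _ _ a b => by simp [a, b]) fun w₄ i₄ j₄ e7 e8 e9 => ?_
    by_cases e0 : i₂ + i₃ + i₄ ≤ 3
    · exact b2 _ _ _ hp.Qu hp.ne_left c1.1 c2.1 c3 _ _ _ _ _ _ _ _ c4 e2 e5 e8 (by omega) ..
    · exact b2 _ _ _ hp.Qv hp.ne_right c1.2 c2.2 c3 _ _ _ _ _ _ _ _ c5 e3 e6 e9 (by omega) ..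
  refine ten_ext h.ten fun u₁ w₁ => ten_ext h.ten fun u₂ w₂ => ten_ext h.ten fun u₃ w₃ =>
    ten_ext h.ten fun u₄ w₄ => ?_
  have c0 : 3 ≤ Fintype.card F := by
    have := two_ne_zero_iff_odd.mp h2
    have := Fintype.one_lt_card (α := F)
    grind
  by_cases b4 : 5 ≤ finrank F W
  · obtain ⟨t, c1, c2, c3, c4⟩ := a5 b4
    refine Submodule.span_induction (p := fun w _ => δ (τ u₁ w) (τ u₂ w₂) (τ u₃ w₃) (τ u₄ w₄) = 0)
      (fun w hw => ?_) (by simp) (fun _ _ _ _ a b => by simp [a, b]) (fun _ _ _ a => by simp [a])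
      ((h.f₂.nd.span_norm_eq_top h2 (Or.inr (by omega)) c4).ge (Submodule.mem_top (x := w₁)))
    obtain ⟨b, rfl⟩ := h.f₂.nd.witt_one (by rintro rfl; simp at c4) (y := w)
      (by rintro rfl; exact c4 (hw.symm.trans (map_zero _))) hw
    rw [mem_perp_pair] at a2 a3 c1
    exact b3 (b.1 s₁) (b.1 s₂) _ _ (a1.map b) (mem_perp_pair.mpr (by simpa))
      (mem_perp_pair.mpr (by simpa))
      (fun x y e => a4 x y (by rwa [← map_smul, ← map_smul, ← map_add, OG_map] at e)) _ 0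
      (((b1 _ _ _ (a1.map b).Qu (by simp [a2]) (by simp [a3]) _).2 (by simp [c1])).2 (by simpa) (by simpa))
      (((b1 _ _ _ (a1.map b).Qv (by simp [a2]) (by simp [a3]) _).2 (by simp [c1])).2 (by simpa) (by simpa))
      (by omega) ..
  · obtain ⟨c, c1, c2⟩ := hq.resolve_right (by omega)
    have c3 : Fintype.card F ≠ 3 := fun e => c2 (by simpa [e] using FiniteField.pow_card_sub_one_eq_one c c1)
    have := mem_perp_pair.mp a2
    have := mem_perp_pair.mp a3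
    exact b3 _ _ _ _ a1 a2 a3 a4 _ 2 (b1 _ _ _ a1.Qu (by simp [*]) (by simp [*]) _).1
      (b1 _ _ _ a1.Qv (by simp [*]) (by simp [*]) _).1 (by omega) ..

end TT

theorem nl_of [FiniteDimensional F V] (hQ : ND Q) (h : finrank F V = 4 → ¬ IsPlus Q) : NL Q :=
  fun e f he hf hef e0 h1 => by
    have a1 : ∀ w ∈ Submodule.span F {e, f}, Q w = 0 := fun w => Q_eq_zero_of_mem_sp he hf hef
    have a2 := finrank_span_pair_eq (linearIndependent_pair_of_notMem e0 h1)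
    have a3 := hQ.two_mul_finrank_le a1
    by_contra a4
    exact h (by omega) ⟨_, by omega, a1⟩

theorem TT.o_tn' {β₁ : U →ₗ[F] U →ₗ[F] F} {β₂ : W →ₗ[F] W →ₗ[F] F} (h : TT Q β₁ β₂ τ 1) [Fintype F]
    [FiniteDimensional F U] [FiniteDimensional F W] (h2 : (2 : F) ≠ 0) (h3 : 3 ≤ finrank F U)
    (hlt : finrank F U < finrank F W) (hq : ¬ (Fintype.card F = 3 ∧ finrank F U = 3))
    (h5 : finrank F U = 4 → ¬ IsPlus (LinearMap.BilinMap.toQuadraticMap β₁))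
    (h6 : finrank F W = 4 → ¬ IsPlus (LinearMap.BilinMap.toQuadraticMap β₂))
    (hM : ∀ g ∈ Om Q, TN τ g.1 → g ∈ M) (hS : M ≤ Om Q) (H : ¬ Om Q ≤ M) {g : OG Q} (hg : g ∈ M) :
    TN τ g.1 := by
  obtain ⟨Q₁, rfl⟩ : ∃ q : QuadraticForm F U, β₁ = polarBilin q :=
    ⟨LinearMap.BilinMap.toQuadraticMap ((2 : F)⁻¹ • β₁), LinearMap.ext₂ fun x y => by
      rw [polarBilin_apply_apply, polar_toQuadraticMap_symm fun x y => by simp [h.f₁.symm x y]]; simp [h2]⟩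
  obtain ⟨Q₂, rfl⟩ : ∃ q : QuadraticForm F W, β₂ = polarBilin q :=
    ⟨LinearMap.BilinMap.toQuadraticMap ((2 : F)⁻¹ • β₂), LinearMap.ext₂ fun x y => by
      rw [polarBilin_apply_apply, polar_toQuadraticMap_symm fun x y => by simp [h.f₂.symm x y]]; simp [h2]⟩
  refine h.o_tn h2 hlt hM h3 (nl_of h.f₁.nd fun e ⟨X, a, b⟩ => h5 e ⟨X, a, fun w hw => by simp [b w hw]⟩)
    (nl_of h.f₂.nd fun e ⟨X, a, b⟩ => h6 e ⟨X, a, fun w hw => by simp [b w hw]⟩) H ?_ hS hg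
  by_cases h4 : 4 ≤ finrank F U
  · exact Or.inr h4
  have a1 := two_ne_zero_iff_odd.mp h2
  have a2 := Fintype.one_lt_card (α := F)
  classical
  obtain ⟨c, hc⟩ := Finset.exists_mem_notMem_of_card_lt_card (s := ({0, 1, -1} : Finset F))
    (t := Finset.univ) (Finset.card_le_three.trans_lt (by rw [Finset.card_univ]; grind))
  exact Or.inl ⟨c, by simpa [not_or] using hc⟩

open Cfsg.Geo in
theorem max_otensor {ι : Type} [Fintype ι] [DecidableEq ι] [Fintype F] {Q : (ι → F) → F}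
    (hQ : IsNondegenerateQuadraticForm Q) (h2 : Odd (Fintype.card F)) {a b : ℕ} (ha : 3 ≤ a) (hb : 3 ≤ b)
    (hab : a ≠ b) (hq : ¬ (Fintype.card F = 3 ∧ (a = 3 ∨ b = 3))) {e : ι ≃ Fin a × Fin b} {P : GL ι F}
    {f₁ : (Fin a → F) → (Fin a → F) → F} {f₂ : (Fin b → F) → (Fin b → F) → F}
    (hf₁ : IsSymmetricForm f₁) (hf₂ : IsSymmetricForm f₂)
    (h5 : a = 4 → ¬ IsPlusTypeOn (fun v => f₁ v v) ⊤) (h6 : b = 4 → ¬ IsPlusTypeOn (fun v => f₂ v v) ⊤)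
    (hT : IsTensorFormStructure id (polar Q) f₁ f₂ e P) :
    IsMaximalIn (omegaGL Q) (tensorProductSubgroup a b e P ⊓ omegaGL Q) := by
  have a1 := Fintype.card_congr e
  simp only [Fintype.card_prod, Fintype.card_fin] at a1
  have a2 := two_ne_zero_iff_odd.mpr h2
  have g1 := hform_of_symmetric hf₁
  have g2 := hform_of_symmetric hf₂
  obtain ⟨c, hc, h⟩ := tensor_form_apply (σ := RingHom.id F) g1.toSesq g2.toSesq hT
  have a3 : ∀ x : F, ∃ c, x = (1 + 1) * c := fun x => ⟨2⁻¹ * x, by simp [one_add_one_eq_two, a2]⟩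
  have T : TT (mkQ hQ) g1.toSesq.toMap (c • g2.toSesq.toMap) (tP e P) 1 :=
    ⟨isTen_tP e P, nd_mkQ hQ, ⟨fun x y => g1.herm y x, g1.nondeg, by simp, fun s => a3 _⟩,
      ⟨fun x y => (congrArg (c * ·) (g2.herm y x)).trans (mul_left_comm ..), fun x hx => g2.nondeg x
        fun y => (mul_eq_zero.mp (hx y)).resolve_left hc, by simp, fun s => a3 _⟩, fun u w u' w' => by
        rw [polar_comm]; exact (h ..).trans (mul_left_comm ..), Or.inl a2⟩
  have a4 : finrank F (Fin a → F) = 4 → ¬ IsPlus (LinearMap.BilinMap.toQuadraticMap g1.toSesq.toMap) :=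
    fun e ⟨X, a, b⟩ => h5 (by simpa using e) ⟨X, le_top, b, by simpa using a⟩
  have a5 : finrank F (Fin b → F) = 4 →
      ¬ IsPlus (LinearMap.BilinMap.toQuadraticMap (c • g2.toSesq.toMap)) := fun e ⟨X, a, b⟩ =>
    h6 (by simpa using e) ⟨X, le_top, fun w hw => (mul_eq_zero.mp (b w hw)).resolve_left hc, by simpa using a⟩
  refine max_omega hQ T.HT (fun g => (mem_tensor_iff (by omega) (by omega)).trans ?_)
    (omega_not_le_tensor hQ (by nlinarith) (by omega) hb e P) fun M c1 c2 g c3 c4 => by_contra fun H => c4 ?_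
  · exact iff_of_eq (congrArg _ (LinearEquiv.ext fun v => by rw [glEq_apply, ofOG_mulVec]))
  rcases hab.lt_or_gt with hab | hab
  · exact T.o_tn' a2 (by simpa) (by simpa) (by simp; tauto) a4 a5 c1 c2 H c3
  · obtain ⟨x, y, e⟩ := T.flip.o_tn' a2 (by simpa) (by simpa) (by simp; tauto) a5 a4
      (fun g h1 ⟨x, y, e⟩ => c1 g h1 ⟨y, x, fun u w => e w u⟩) c2 H c3
    exact ⟨y, x, fun u w => e w u⟩

end Cfsg.Agent.H18
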