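import Mathlib
import Cfsg.Agent.H18.ToC
import Cfsg.Agent.H12.FtJ

/-!
Tensor powers of orthogonal spaces: extraction of highest weight parts.
-/

set_option autoImplicit false

namespace Cfsg.Agent.H18

open Module QuadraticMap H13 H12

variable {F V U W : Type*} [Field F] [AddCommGroup V] [Module F V] [AddCommGroup U] [Module F U]
  [AddCommGroup W] [Module F W] {q : QuadraticForm F W} {e e' f g y z : W}

/-- The rank one map `y zᵀ`. -/
def rk (q : QuadraticForm F W) (y z : W) : End F W := (polarBilin q z).smulRight y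

/-- The map `y ∧ g`. -/
def wdg (q : QuadraticForm F W) (y g : W) : End F W := rk q y g - rk q g y

@[simp] theorem rk_apply (y z w : W) : rk q y z w = polar q z w • y := rfl

@[simp] theorem wd_apply (y g w : W) : wdg q y g w = polar q g w • y - polar q y w • g := rfl

theorem rk_mul (x y z w : W) : rk q x y * rk q z w = polar q y z • rk q x w := by ext; simp [smul_smul, mul_comm]

theorem sieg_eq (he : q e = 0) (hf : polar q e f = 0) :
    (sieg q e f).1.toLinearMap = 1 + wdg q e f - q f • rk q e e := by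
  ext w; simp [sieg_apply he hf]; module

theorem refl_eq (f : W) : (refl q f).1.toLinearMap = 1 - (q f)⁻¹ • rk q f f := by
  ext w; simp [refl_apply, smul_smul, mul_comm]

theorem og_rk (b : OG q) (y z : W) :
    b.1.toLinearMap * rk q y z * (b⁻¹).1.toLinearMap = rk q (b.1 y) (b.1 z) := by
  ext w; simp [OG_polar_left, -OG_inv_apply]

theorem og_mul (b b' : OG q) : (b * b').1.toLinearMap = b.1.toLinearMap * b'.1.toLinearMap := rfl

theorem og_inv (b : OG q) : b.1.toLinearMap * (b⁻¹).1.toLinearMap = 1 := by rw [← og_mul, mul_inv_cancel]; rfl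

theorem og_inv' (b : OG q) : (b⁻¹).1.toLinearMap * b.1.toLinearMap = 1 := by simpa using og_inv b⁻¹

/-- The hypotheses on the factor. -/
structure WH (q : QuadraticForm F W) : Prop where
  nd : ND q
  two : (2 : F) ≠ 0
  h3 : 3 ≤ finrank F W
  nl : NL q
  hq : (∃ c : F, c ≠ 0 ∧ c ^ 2 ≠ 1) ∨ 4 ≤ finrank F W

namespace WH
variable [FiniteDimensional F W] (H : WH q)
include H

omit [FiniteDimensional F W] in
theorem nt : Nontrivial W := Module.nontrivial_of_finrank_pos (R := F) (by have := H.h3; omega)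

theorem ext (h : ∀ w, polar q w y = polar q w z) : y = z :=
  sub_eq_zero.mp (H.nd _ fun w => by rw [polar_comm]; simp [h w])

theorem rk_ne (hy : y ≠ 0) (hz : z ≠ 0) : rk q y z ≠ 0 := fun h =>
  hz (H.nd _ fun w => by simpa [hy] using LinearMap.congr_fun h w)

theorem exists_adj (b : W →ₗ[F] W →ₗ[F] F) : ∃ θ : End F W, ∀ x y, polar q x (θ y) = b x y := by
  have a1 : Function.Injective (polarBilin q) := (injective_iff_map_eq_zero _).mpr fun x hx =>
    H.nd x fun y => LinearMap.congr_fun hx y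
  let φ := LinearEquiv.ofBijective (polarBilin q) ⟨a1,
    (LinearMap.injective_iff_surjective_of_finrank_eq_finrank (by simp)).mp a1⟩
  exact ⟨φ.symm.toLinearMap ∘ₗ b.flip, fun x y => (polar_comm ..).trans
    (LinearMap.congr_fun (φ.apply_symm_apply (b.flip y)) x)⟩

theorem exists_repr (φ : Dual F W) : ∃ z, polarBilin q z = φ := by
  obtain ⟨e, he⟩ := @exists_ne _ H.nt (0 : W)
  obtain ⟨l, hl⟩ := Module.Projective.exists_dual_eq_one F he
  obtain ⟨θ, h⟩ := H.exists_adj (φ.smulRight l)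
  exact ⟨θ e, LinearMap.ext fun x => by simp [polar_comm q (θ e), h, hl]⟩

theorem ind (he : q e = 0) (e0 : e ≠ 0) {p : W → Prop} (h1 : ∀ x, q x = 0 → polar q e x ≠ 0 → p x)
    (hs : ∀ x y, p x → p y → p (x - y)) (x : W) : p x := sing_ne_ind H.nd H.two H.h3 he e0 h1 hs x

theorem pp_ne (hp : HP q e e') : ∃ f ∈ pp q e e', q f ≠ 0 :=
  (hp.exists_pp_ne_zero H.nd H.h3).elim fun f h => ⟨f, f.2, h⟩

theorem pp_ind (hp : HP q e e') {p : W → Prop} (h1 : ∀ x ∈ pp q e e', q x ≠ 0 → p x)
    (hs : ∀ x y, p x → p y → p (x - y)) (x : W) (hx : x ∈ pp q e e') : p x := by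
  by_cases a : q x ≠ 0
  · exact h1 x hx a
  replace a := not_not.mp a
  obtain ⟨f, a1, a2⟩ := H.pp_ne hp
  by_cases b : q (x + f) ≠ 0
  · simpa using hs _ _ (h1 _ (add_mem hx a1) b) (h1 f a1 a2)
  · refine (show x - f - -f = x by abel) ▸ hs _ _ (h1 _ (sub_mem hx a1) fun c => ?_) (h1 _ (neg_mem a1) (by simpa))
    simp [Q_add, Q_sub, a] at b c
    exact mul_ne_zero H.two a2 (by linear_combination b + c)

theorem scalar {θ : End F W} (h : ∀ e, q e = 0 → e ≠ 0 → ∃ c : F, θ e = c • e) [Finite F] :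
    ∃ c : F, ∀ x, θ x = c • x := by
  obtain ⟨e, e0, he⟩ := exists_singular q H.h3
  obtain ⟨c, hc⟩ := h e he e0
  refine ⟨c, H.ind he e0 (fun x hx a => ?_) fun _ _ a b => by simp [a, b, smul_sub]⟩
  have hp : HP q e ((polar q e x)⁻¹ • x) := ⟨he, by simp [Q_smul, hx], by simp [a]⟩
  suffices θ ((polar q e x)⁻¹ • x) = c • (polar q e x)⁻¹ • x by
    simpa [a, smul_comm c] using congrArg (polar q e x • ·) this
  generalize (polar q e x)⁻¹ • x = e' at hp
  obtain ⟨d, hd⟩ := h e' hp.Qv hp.ne_right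
  obtain ⟨f, a1, a2⟩ := H.pp_ne hp
  have a3 : ∀ f ∈ pp q e e', ∃ t : F, θ (-q f • e + (1 : F) • e' + f) = t • (-q f • e + (1 : F) • e' + f) :=
    fun f hf => h _ ((hp.Q_comb _ _ ⟨f, hf⟩).trans (by simp)) fun b => by
      simpa [hp.uu, hp.uv, (mem_perp_pair.mp hf).1] using congrArg (polar q e) b
  obtain ⟨s, hs⟩ := a3 f a1
  obtain ⟨t, ht⟩ := a3 (-f) (neg_mem a1)
  have a4 : (2 * -q f * c) • e + (2 * d) • e' = ((s + t) * -q f) • e + (s + t) • e' + (s - t) • f := by
    simp [hc, hd] at hs ht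
    linear_combination (norm := module) hs + ht
  rw [mem_perp_pair] at a1
  have b1 := congrArg (polar q e) a4
  have b2 := congrArg (polar q e') a4
  simp [hp.uu, hp.uv, hp.vu, hp.vv, a1.1, a1.2, a2] at b1 b2
  rw [hd, mul_left_cancel₀ (mul_ne_zero H.two a2) (show 2 * q f * d = 2 * q f * c by
    linear_combination q f * b1 - b2)]

variable [Finite F]

theorem mem_of_rk {A : Submodule F (End F W)} (h : ∀ a ∈ A, ∀ b ∈ A, a * b ∈ A)
    (h1 : ∀ y, q y = 0 → y ≠ 0 → rk q y y ∈ A) (a : End F W) : a ∈ A := by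
  obtain ⟨e, e0, he⟩ := exists_singular q H.h3
  have a1 : ∀ y z, rk q y z ∈ A := H.ind he e0 (fun y hy b => H.ind hy (by rintro rfl; simp at b) (fun z hz c => by
      simpa [rk_mul, smul_smul, c] using A.smul_mem (polar q y z)⁻¹ (h _ (h1 y hy (by rintro rfl; simp at b)) _
        (h1 z hz (by rintro rfl; simp at c)))) fun z z' a b => by
      convert sub_mem a b using 1; ext; simp [sub_smul]) fun y y' a b z => by
    convert sub_mem (a z) (b z) using 1; ext; simp [smul_sub]
  rw [show a = ∑ i, ((finBasis F W).coord i).smulRight (a (finBasis F W i)) from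
    (finBasis F W).ext fun i => by simp [Finsupp.single_apply]]
  refine sum_mem fun i _ => ?_
  obtain ⟨z, hz⟩ := H.exists_repr ((finBasis F W).coord i)
  exact hz ▸ a1 _ z

theorem sieg_Om (e f : W) : sieg q e f ∈ Om q := H.nd.sieg_mem_commutator (good_of_two_ne_zero H.two) e f

theorem pt (hy : q y = 0) (y0 : y ≠ 0) (hz : q z = 0) (z0 : z ≠ 0) : ∃ g ∈ Om q, ∃ c : F, c ≠ 0 ∧ g.1 y = c • z :=
  exists_Om_pt H.nd H.two H.h3 hy y0 hz z0

theorem mem_of_Om {A : Submodule F (End F W)} (h : ∀ b ∈ Om q, b.1.toLinearMap ∈ A) (a : End F W) : a ∈ A := by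
  have a1 : ∀ b ∈ Om q, b.1.toLinearMap ∈ Submodule.span F {a | ∃ b ∈ Om q, b.1.toLinearMap = a} :=
    fun b hb => Submodule.subset_span ⟨b, hb, rfl⟩
  refine (Submodule.span_le.mpr ?_ : _ ≤ A) (H.mem_of_rk (A := Submodule.span F {a | ∃ b ∈ Om q, b.1.toLinearMap = a})
    (fun a ha b hb => Submodule.span_induction₂ (p := fun a b _ _ => a * b ∈ _) ?_ (by simp) (by simp)
      (fun _ _ _ _ _ _ a b => by simpa [add_mul] using add_mem a b)
      (fun _ _ _ _ _ _ a b => by simpa [mul_add] using add_mem a b)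
      (fun _ _ _ _ _ a => by simpa using Submodule.smul_mem _ _ a)
      (fun _ _ _ _ _ a => by simpa using Submodule.smul_mem _ _ a) ha hb) (fun y hy y0 => ?_) a)
  · rintro _ ⟨b, hb, rfl⟩; exact h b hb
  · rintro _ _ ⟨b, hb, rfl⟩ ⟨b', hb', rfl⟩; exact a1 _ (mul_mem hb hb')
  obtain ⟨y', hp⟩ := H.nd.exists_hp hy y0
  obtain ⟨f, b1, b2⟩ := H.pp_ne hp
  replace b1 := (mem_perp_pair.mp b1).1
  convert Submodule.smul_mem _ (-(2 * q f)⁻¹) (sub_mem (sub_mem (add_mem (a1 _ (H.sieg_Om y f))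
    (a1 _ (H.sieg_Om y (-f)))) (a1 1 (one_mem _))) (a1 1 (one_mem _))) using 1
  have := H.two
  ext w
  simp [sieg_apply hy b1, sieg_apply hy (show polar q y (-f) = 0 by simp [b1]), OG_one_apply]
  match_scalars <;> field_simp <;> ring

end WH

variable (T : TS F U W V) {c ρ : End F V}

theorem i_rk (y z : W) (v : V) : T.i (rk q y z) v = T.t (T.r (polarBilin q z) v) y := T.i_rk ..

theorem rk_c_rk (y y' z z' : W) (c : End F V) :
    T.i (rk q y' y) * c * T.i (rk q z z') = T.co (polarBilin q) y z c * T.i (rk q y' z') := T.n_c_n ..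

/-- Invariance under the commutator subgroup of the factor. -/
def IV (q : QuadraticForm F W) (X : AddSubgroup (End F V)) : Prop :=
  ∀ b ∈ Om q, ∀ c ∈ X, T.i b.1.toLinearMap * c * T.i (b⁻¹).1.toLinearMap ∈ X

/-- A second difference. -/
noncomputable def DD (q : QuadraticForm F W) (e f : W) (c : End F V) : End F V :=
  (-2 : F) • (T.i (wdg q e f) * c * T.i (wdg q e f)) - (2 * q f) • (T.i (rk q e e) * c + c * T.i (rk q e e)) +
    (2 * q f ^ 2) • (T.i (rk q e e) * c * T.i (rk q e e))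

theorem co_smul (t : F) (y z : W) (c : End F V) :
    T.co (polarBilin q) (t • y) z c = t • T.co (polarBilin q) y z c := T.ext fun _ _ => by simp [TS.co]

theorem co_smul' (t : F) (y z : W) (c : End F V) :
    T.co (polarBilin q) y (t • z) c = t • T.co (polarBilin q) y z c := T.ext fun _ _ => by simp [TS.co]

theorem co_conj (b : OG q) (y z : W) (c : End F V) : T.co (polarBilin q) (b.1 y) (b.1 z)
    (T.i b.1.toLinearMap * c * T.i (b⁻¹).1.toLinearMap) = T.co (polarBilin q) y z c := T.ext fun u w => by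
  simp only [TS.co, TS.j_t, LinearMap.comp_apply, LinearMap.flip_apply, End.mul_apply, TS.i_t, LinearEquiv.coe_coe,
    OG_inv_apply_apply, TS.r_i]
  congr 4; ext; simp

variable {T} [FiniteDimensional F W] [Finite F] (H : WH q) {X : AddSubgroup (End F V)}
include H

theorem IV.dd (h : IV T q X) (he : q e = 0) (hf : polar q e f = 0) (hc : c ∈ X) : DD T q e f c ∈ X := by
  have a1 : polar q e (-f) = 0 := by simp [hf]
  have a2 : wdg q e (-f) = -wdg q e f := by ext; simp; abel
  convert sub_mem (sub_mem (add_mem (h _ (H.sieg_Om e f) c hc) (h _ (H.sieg_Om e (-f)) c hc)) hc) hc using 1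
  rw [← sieg_neg he hf, ← sieg_neg he a1, neg_neg, sieg_eq he hf, sieg_eq he a1, a2]
  simp only [DD, map_add, map_sub, map_smul, map_one, map_neg, QuadraticMap.map_neg, add_mul, mul_add, sub_mul, mul_sub,
    smul_mul_assoc, mul_smul_comm, one_mul, mul_one, neg_mul, mul_neg]
  module

theorem ex1 (he : q e = 0) (e0 : e ≠ 0) : ∃ k : F, k ≠ 0 ∧ ∀ (T : TS F U W V) (X : AddSubgroup (End F V)),
    IV T q X → ∀ c ∈ X, k • (T.co (polarBilin q) e e c * T.i (rk q e e)) ∈ X := by
  obtain ⟨e', hp⟩ := H.nd.exists_hp he e0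
  obtain ⟨f, b1, b2⟩ := H.pp_ne hp
  have h2 := H.two
  have b3 := (mem_perp_pair.mp b1).1
  rcases H.hq with ⟨u, u0, u1⟩ | h4
  · have a1 : ∀ t : F, wdg q e (t • f) = t • wdg q e f := fun t => by ext; simp; module
    refine ⟨-(u - u⁻¹) ^ 2 * q f ^ 2, by
      simp [b2, sub_eq_zero]; intro h; exact u1 (by rw [_root_.sq]; nth_rw 2 [h]; simp [u0]), fun T X h c hc => ?_⟩
    convert sub_mem (add_mem (h.dd H he b3 hc) (h.dd H (f := ((u - u⁻¹) / 2) • f) he (by simp [b3]) hc))
      (h.dd H (f := ((u + u⁻¹) / 2) • f) he (by simp [b3]) hc) using 1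
    simp only [DD, a1, map_smul, smul_mul_assoc, mul_smul_comm, Q_smul, rk_c_rk]
    match_scalars <;> field_simp <;> ring
  · obtain ⟨v, c1, c2, c3⟩ := exists_orth h2 (hp.nd_pp H.nd) (by have := hp.finrank_pp; omega) b1 b2
    have c4 := (mem_perp_pair.mp c1).1
    have a1 : wdg q e (f + v) = wdg q e f + wdg q e v := by ext; simp; module
    have a2 : wdg q e (f - v) = wdg q e f - wdg q e v := by ext; simp; module
    refine ⟨2 * 2 * 2 * q f * q v, by simp [*], fun T X h c hc => ?_⟩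
    convert sub_mem (sub_mem (add_mem (h.dd H (f := f + v) he (by simp [b3, c4]) hc) (h.dd H (f := f - v) he
      (by simp [b3, c4]) hc)) (add_mem (h.dd H he b3 hc) (h.dd H he b3 hc)))
        (add_mem (h.dd H he c4 hc) (h.dd H he c4 hc)) using 1
    simp only [DD, a1, a2, map_add, map_sub, add_mul, mul_add, sub_mul, mul_sub, Q_add, Q_sub, c2, rk_c_rk]
    module

theorem co_anti (h : ∀ y, q y = 0 → T.co (polarBilin q) y y c = 0) (hyz : polar q y z = 0) :
    T.co (polarBilin q) z y c = -T.co (polarBilin q) y z c := by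
  refine eq_neg_of_add_eq_zero_left (T.ext fun u w => ?_)
  suffices T.r (polarBilin q z) (c (T.t u y)) + T.r (polarBilin q y) (c (T.t u z)) = 0 by
    simpa [TS.co] using congrArg (T.t · w) this
  refine (forall_dual_apply_eq_zero_iff F _).mp fun l => ?_
  let b : W →ₗ[F] W →ₗ[F] F := ((T.r ∘ₗ polarBilin q).compl₂ (c ∘ₗ T.t u)).compr₂ l
  obtain ⟨θ, hθ⟩ := H.exists_adj (b + b.flip)
  obtain ⟨d, hd⟩ := scalar_of_sing H.nd H.two H.h3 H.hq (θ := θ) (fun x y => by simp [hθ, add_comm]) fun e he => by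
    obtain ⟨w, hw⟩ := @exists_ne _ H.nt (0 : W)
    have := ten_left_inj T.h hw (show T.t (T.r (polarBilin q e) (c (T.t u e))) w = T.t 0 w by
      simpa [TS.co] using LinearMap.congr_fun (h e he) (T.t u w))
    simp [hθ, b, this]
  simpa [hd, hyz, b, add_comm] using (hθ y z).symm

theorem cm_of_co [FiniteDimensional F U] (h : ∀ y, q y = 0 → T.co (polarBilin q) y y c = 0)
    (h' : ∀ e f, q e = 0 → polar q e f = 0 → q f ≠ 0 → T.co (polarBilin q) f e c = 0) : T.Cm c := by
  refine T.comm_of_blk fun φ y u hφ => (forall_dual_apply_eq_zero_iff F _).mp fun l => ?_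
  obtain ⟨z, rfl⟩ := H.exists_repr φ
  obtain ⟨θ, hθ⟩ := H.exists_adj (((T.r ∘ₗ polarBilin q).compl₂ (c ∘ₗ T.t u)).compr₂ l)
  obtain ⟨w, hw⟩ := @exists_ne _ H.nt (0 : W)
  have a1 : ∀ y z, T.co (polarBilin q) y z c = 0 → polar q y (θ z) = 0 := fun y z a => by
    have := ten_left_inj T.h hw (show T.t (T.r (polarBilin q y) (c (T.t u z))) w = T.t 0 w by
      simpa [TS.co] using LinearMap.congr_fun a (T.t u w))
    simp [hθ, this]
  obtain ⟨d, hd⟩ := H.scalar (θ := θ) fun e he e0 => by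
    obtain ⟨e', hp⟩ := H.nd.exists_hp he e0
    refine ⟨polar q e' (θ e), H.ext fun x => ?_⟩
    obtain ⟨a, b, x, rfl⟩ := hp.exists_eq x
    simp [a1 e e (h e he), hp.uu, hp.vu, pp_left', mul_comm, H.pp_ind hp (p := fun x => polar q x (θ e) = 0)
      (fun x a b => a1 _ _ (h' e x he (mem_perp_pair.mp a).1 b)) (fun _ _ a b => by simp [a, b]) x x.2]
  simpa [hd, show polar q z y = 0 from hφ] using (hθ z y).symm

theorem dd_refl (h : ∀ y, q y = 0 → T.co (polarBilin q) y y c = 0) (he : q e = 0) (hf : polar q e f = 0)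
    (f0 : q f ≠ 0) : DD T q e f c - T.i (refl q f).1.toLinearMap * DD T q e f c * T.i (refl q f).1.toLinearMap =
      (-2 : F) • (T.co (polarBilin q) f e c * T.i (wdg q e f)) := by
  have a1 := fun x y z w => congrArg T.i (rk_mul (q := q) x y z w)
  simp only [map_mul, map_smul] at a1
  have a2 : ∀ x y z w (c : End F V), T.i (rk q x y) * (T.i (rk q z w) * c) = polar q y z • (T.i (rk q x w) * c) :=
    fun x y z w c => by rw [← mul_assoc, a1, smul_mul_assoc]
  have a3 : ∀ x y z w, T.i (rk q x y) * (c * T.i (rk q z w)) = T.co (polarBilin q) y z c * T.i (rk q x w) :=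
    fun x y z w => by rw [← mul_assoc, rk_c_rk]
  have a4 : ∀ x y z w x' y', T.i (rk q x y) * (T.co (polarBilin q) x' y' c * T.i (rk q z w)) =
      polar q y z • (T.co (polarBilin q) x' y' c * T.i (rk q x w)) := fun x y z w x' y' => by
    rw [← mul_assoc, ← (T.co_cm x' y' c _).eq, mul_assoc, a1, mul_smul_comm]
  have := H.two
  simp only [DD, refl_eq, wdg, map_add, map_sub, map_smul, map_one, add_mul, mul_add, sub_mul, mul_sub, smul_mul_assoc,
    mul_smul_comm, one_mul, mul_one, mul_assoc, a1, a2, a3, a4, h e he, co_anti H h hf, hf, polar_comm q f e, zero_mul,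
    polar_self', he, neg_mul, mul_neg, mul_zero, smul_zero, zero_smul]
  match_scalars <;> field_simp <;> ring

end Cfsg.Agent.H18
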