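import Mathlib
import Cfsg.Agent.H18.OwA

/-!
Tensor powers of orthogonal spaces: families of factors and generation.
-/

set_option autoImplicit false

namespace Cfsg.Agent.H18

open Module QuadraticMap H13 H12 Function

variable {F V U W : Type*} [Field F] [AddCommGroup V] [Module F V] [AddCommGroup U] [Module F U]
  [AddCommGroup W] [Module F W] {q : QuadraticForm F W} {Q : QuadraticForm F V} {γ : U →ₗ[F] U →ₗ[F] F}
  {M : Subgroup (V ≃ₗ[F] V)} {e e' f g y z : W}

theorem og_of_polar (h2 : (2 : F) ≠ 0) {k : V ≃ₗ[F] V} (h : ∀ x y, polar Q (k x) (k y) = polar Q x y) : k ∈ OG Q :=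
  fun v => mul_left_cancel₀ h2 (by rw [← polar_self', ← polar_self', h])

theorem exists_i (T : TS F U W V) [Nontrivial U] {c : End F V} (h : ∀ θ, Commute c (T.j θ)) : ∃ b, c = T.i b := by
  obtain ⟨u, hu⟩ := exists_ne (0 : U)
  obtain ⟨l, hl⟩ := Module.Projective.exists_dual_eq_one F hu
  refine ⟨cL T.h l ∘ₗ c ∘ₗ T.t u, T.ext fun x z => ?_⟩
  have a1 : ∀ v, T.j (l.smulRight x) v = T.t x (cL T.h l v) := fun v =>
    T.h.inductionOn v (by simp) (by simp) fun _ _ a b => by simp [a, b]
  simpa [a1, hl] using LinearMap.congr_fun (h (l.smulRight x)).eq (T.t u z)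

/-- A factor compatible with the forms. -/
structure OT (Q : QuadraticForm F V) (γ : U →ₗ[F] U →ₗ[F] F) (q : QuadraticForm F W) (T : TS F U W V) : Prop where
  wh : WH q
  nd : ND Q
  nt : Nontrivial U
  map : ∀ u w u' w', polar Q (T.t u w) (T.t u' w') = γ u u' * polar q w w'

namespace OT
variable {T : TS F U W V} (h : OT Q γ q T)
include h

theorem B_r (x : U) (w : W) (v : V) : polar Q (T.t x w) v = γ x (T.r (polarBilin q w) v) :=
  T.h.inductionOn v (by simp) (fun _ _ => by simp [h.map, mul_comm]) fun _ _ a b => by simp [a, b]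

theorem adj {b b' : End F W} (H : ∀ w w', polar q (b w) w' = polar q w (b' w')) (v v' : V) :
    polar Q (T.i b v) v' = polar Q v (T.i b' v') :=
  T.h.inductionOn v (by simp) (fun _ _ => T.h.inductionOn v' (by simp) (fun _ _ => by simp [h.map, H])
    fun _ _ a b => by simp only [map_add, polar_add_right, a, b]) fun _ _ a b => by
      simp only [map_add, polar_add_left, a, b]

theorem act {k : V ≃ₗ[F] V} (hk : k ∈ OG Q) : OT Q γ q (T.act k) :=
  ⟨h.wh, h.nd, h.nt, fun _ _ _ _ => (OG_polar ⟨k, hk⟩ _ _).trans (h.map ..)⟩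

/-- The isometries of the factor. -/
noncomputable def oi : OG q →* OG Q := (T.ie.comp (OG q).subtype).codRestrict _ fun b =>
  og_of_polar h.wh.two fun x y => (h.adj (b' := (b⁻¹).1.toLinearMap) (OG_polar_left b) _ _).trans
    (congrArg _ (LinearMap.congr_fun (show T.i _ * T.i b.1.toLinearMap = 1 by
      rw [← map_mul, og_inv', map_one]) y))

theorem oi_coe (b : OG q) : (h.oi b).1 = T.ie b.1 := rfl

theorem oi_Om {b : OG q} (hb : b ∈ Om q) : h.oi b ∈ Om Q := map_mem_commutator _ hb

variable [FiniteDimensional F W]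

theorem exists_one : ∃ w w', polar q w w' = 1 := by
  obtain ⟨w, hw⟩ := @exists_ne _ h.wh.nt (0 : W)
  obtain ⟨l, hl⟩ := Module.Projective.exists_dual_eq_one F hw
  obtain ⟨z, rfl⟩ := h.wh.exists_repr l
  exact ⟨z, w, hl⟩

theorem symm (x y : U) : γ x y = γ y x := by
  obtain ⟨w, w', a⟩ := h.exists_one
  simpa [h.map, a, polar_comm q w'] using polar_comm Q (T.t x w) (T.t y w')

theorem ext {x x' : U} (H : ∀ y, γ y x = γ y x') : x = x' := by
  obtain ⟨w, hw⟩ := @exists_ne _ h.wh.nt (0 : W)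
  refine ten_left_inj T.h hw (sub_eq_zero.mp (h.nd _ fun v => T.h.inductionOn v (by simp) (fun u w' => ?_)
    fun _ _ a b => by simp only [polar_add_right, a, b, add_zero]))
  simp [h.map, h.symm _ u, H]

theorem i_inj {b : End F W} (H : T.i b = 0) : b = 0 := by
  obtain ⟨u, hu⟩ := @exists_ne _ h.nt (0 : U)
  exact LinearMap.ext fun w => ten_right_inj T.h hu (by simpa using LinearMap.congr_fun H (T.t u w))

theorem eq_right (h0 : z ≠ 0) {v : V} (H : ∀ w, polar q w z = 0 → T.r (polarBilin q w) v = 0) : ∃ y, v = T.t y z := by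
  obtain ⟨ψ, hψ⟩ := Module.Projective.exists_dual_eq_one F h0
  refine ⟨_, ten_eq_of_ann T.h (fun φ a => ?_) hψ⟩
  obtain ⟨w, rfl⟩ := h.wh.exists_repr φ
  exact H w a

end OT

variable {κ : Type*} [Fintype κ] [DecidableEq κ] {T : κ → TS F U W V} {pv : (κ → W) → V} {ζ : F}

section ph
variable (h : Wr T) {a : κ → End F W} {D : Finset κ} {ρ : End F V} {l : κ}

theorem ph_zero (H : a l = 0) : h.ph a = 0 := by
  rw [← update_eq_self l a, h.ph_update, H]; simp

theorem ph_comm (h1 : ∀ l ∈ D, (T l).Cm ρ) (h2 : ∀ l ∉ D, a l = 1) : Commute ρ (h.ph a) :=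
  Wr.ph_ind (p := (Submonoid.centralizer {ρ}).comap h.ph) a (fun l _ b => by
    rw [b, h.ph_single]
    by_cases c : l ∈ D
    · exact h1 l c _
    · simp [h2 l c]) ρ rfl

theorem ph_upd (H : a l = 1) (b : End F W) : h.ph (update a l b) = h.ph a * (T l).i b := by
  rw [h.ph_update, ← H, update_eq_self]

theorem ph_faith [Nontrivial W] [FiniteDimensional F W] (h1 : ∀ l ∈ D, (T l).Cm ρ ∧ a l ≠ 0) (h2 : ∀ l ∉ D, a l = 1)
    (H : ρ * h.ph a = 0) : ρ = 0 := by
  induction D using Finset.induction_on generalizing a with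
  | empty => simpa [show a = 1 from funext fun l => h2 l (by simp)] using H
  | insert l D c ih =>
    refine ih (a := update a l 1) (fun m hm => ?_) (fun m hm => ?_) (((h1 l (by simp)).1.mul (h.ph_cm (by simp))).eq_zero
      (h1 l (by simp)).2 (by rwa [mul_assoc, ← h.ph_update, update_eq_self]))
    · simpa [show m ≠ l by rintro rfl; exact c hm] using h1 m (by simp [hm])
    · by_cases d : m = l
      · simp [d]
      · simpa [d] using h2 m (by simp [d, hm])

theorem co_ph [Nontrivial W] [FiniteDimensional F W] (a : κ → End F W) (l : κ) (y z : W) :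
    (T l).co (polarBilin q) y z (h.ph a) = polar q y (a l z) • h.ph (update a l 1) := by
  conv_lhs => rw [← update_eq_self l a, h.ph_update]
  exact (T l).co_mul y z (h.ph_cm (by simp)) _

include h in
theorem exists_i_of [Nontrivial W] [FiniteDimensional F W] [Nontrivial U] {i : κ} (H : ∀ l ≠ i, (T l).Cm ρ) :
    ∃ b, ρ = (T i).i b := exists_i _ fun θ => TS.all_of_gen h i
      (B := (Subalgebra.centralizer F {ρ}).comap (T i).j) (fun l a b θ c _ d => by
        rw [d]; exact (c ▸ H l a b : Commute ρ ((T i).j θ))) θ ρ rfl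

/-- Pure tensors of isometries. -/
noncomputable def pe (q : QuadraticForm F W) : (κ → OG q) →* (V ≃ₗ[F] V) :=
  MonoidHom.noncommPiCoprod (fun l => (T l).ie.comp (OG q).subtype) fun i j e x y =>
    LinearEquiv.toLinearMap_injective (h.cm i j e x.1 y.1)

theorem pe_single (l : κ) (b : OG q) : pe h q (Pi.mulSingle l b) = (T l).ie b.1 :=
  MonoidHom.noncommPiCoprod_mulSingle (N := fun _ => OG q) _ l b

theorem pe_coe (b : κ → OG q) : (pe h q b).toLinearMap = h.ph fun l => (b l).1.toLinearMap := by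
  refine Submonoid.pi_mem_of_mulSingle_mem (H := ((LinearEquiv.automorphismGroup.toLinearMapMonoidHom.comp
    (pe h q)).eqLocusM (h.ph.comp (MonoidHom.compLeft (LinearEquiv.automorphismGroup.toLinearMapMonoidHom.comp
      (OG q).subtype) κ)))) b fun l => ?_
  change (pe h q _).toLinearMap = h.ph _
  rw [pe_single, show (T l).ie (b l).1 = ((T l).i (b l).1.toLinearMap) from rfl, ← h.ph_single]
  congr 1; ext1 m
  by_cases c : m = l
  · subst c; simp
  · simp [c]; rfl

end ph

section pv
variable (H : PV (polarBilin Q) (polarBilin q) T pv ζ)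
include H

theorem pv_map (x y : κ → W) : polar Q (pv x) (pv y) = ζ * ∏ l, polar q (x l) (y l) := H.map x y

theorem pv_upd [Nontrivial W] (x : κ → W) (l : κ) : ∃ u, ∀ w, pv (update x l w) = (T l).t u w := by
  obtain ⟨w, hw⟩ := exists_ne (0 : W)
  obtain ⟨φ, hφ⟩ := Module.Projective.exists_dual_eq_one F hw
  exact ⟨(T l).r φ (pv (update x l w)), fun w' => by rw [← TS.i_rk, H.i_pv]; simp [hφ]⟩

theorem pv_ind {p : V → Prop} (h1 : ∀ (c : F) y, p (c • pv y)) (h2 : ∀ v v', p v → p v' → p (v + v')) (v : V) : p v := by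
  simpa using Submodule.span_induction (p := fun v _ => ∀ c : F, p (c • v)) (by rintro _ ⟨y, rfl⟩ c; exact h1 c y)
    (by simpa using h1 0 0) (fun _ _ _ _ a b c => by simpa using h2 _ _ (a c) (b c))
    (fun d _ _ a c => by simpa [smul_smul] using a (c * d)) (H.span.ge (Submodule.mem_top (x := v))) 1

theorem pv_ext (hQ : ND Q) {v v' : V} (h : ∀ y, polar Q (pv y) v = polar Q (pv y) v') : v = v' :=
  sub_eq_zero.mp (hQ _ (pv_ind H (fun c y => by simp [polar_comm Q _ (pv y), h]) fun _ _ a b => by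
    simp only [polar_add_right, a, b, add_zero]))

theorem pv_upd_map (x y : κ → W) (l : κ) (w w' : W) : polar Q (pv (update x l w)) (pv (update y l w')) =
    ζ * (∏ m ∈ Finset.univ.erase l, polar q (x m) (y m)) * polar q w w' := by
  rw [pv_map H, ← Finset.prod_erase_mul _ _ (Finset.mem_univ l), mul_assoc,
    Finset.prod_congr rfl fun m hm => by rw [update_of_ne (Finset.ne_of_mem_erase hm), update_of_ne (Finset.ne_of_mem_erase hm)]]
  simp

theorem sym_of_all [Nontrivial W] {Y : Type*} [AddCommGroup Y] [Module F Y] {c : V →ₗ[F] V →ₗ[F] Y}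
    (h : ∀ l u w u' w', c ((T l).t u w) ((T l).t u' w') = c ((T l).t u w') ((T l).t u' w)) (v v' : V) :
    c v v' = c v' v := by
  have a1 : ∀ (S : Finset κ) x y, c (pv x) (pv y) = c (pv (S.piecewise y x)) (pv (S.piecewise x y)) := fun S x y => by
    induction S using Finset.induction_on with
    | empty => simp
    | insert l S a ih =>
      obtain ⟨u, hu⟩ := pv_upd H (S.piecewise y x) l
      obtain ⟨u', hu'⟩ := pv_upd H (S.piecewise x y) l
      rw [ih, Finset.piecewise_insert, Finset.piecewise_insert, hu, hu', h, ← hu, ← hu',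
        update_eq_self_iff.mpr (by simp [a]), update_eq_self_iff.mpr (by simp [a])]
  exact LinearMap.congr_fun₂ (LinearMap.ext_on_range H.span (g := c.flip) fun x => LinearMap.ext_on_range H.span fun y => by
    simpa using a1 Finset.univ x y) v v'

end pv

/-- A family of factors whose stabiliser lies in `M`. -/
structure OF (Q : QuadraticForm F V) (γ : U →ₗ[F] U →ₗ[F] F) (q : QuadraticForm F W) (M : Subgroup (V ≃ₗ[F] V))
    (T : κ → TS F U W V) (pv : (κ → W) → V) (ζ : F) : Prop where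
  wr : Wr T
  ot : ∀ l, OT Q γ q (T l)
  pv : PV (polarBilin Q) (polarBilin q) T pv ζ
  iso : M ≤ OG Q
  mem : ∀ g ∈ Om Q, PW T g.1 → g.1 ∈ M
  perm : ∃ w : Equiv.Perm κ →* OG Q, ∀ π l a, ((T l).act (w π).1).i a = (T (π l)).i a
  dim : 5 ≤ finrank F V

/-- All coordinates are singular. -/
def Sg (q : QuadraticForm F W) (x : κ → W) : Prop := ∀ l, q (x l) = 0 ∧ x l ≠ 0

namespace OF
variable (h : OF Q γ q M T pv ζ)
include h

theorem pw_pe (b : κ → OG q) : PW T (pe h.wr q b) := ⟨1, fun l a =>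
  ⟨(b l).1.toLinearMap * a * ((b l)⁻¹).1.toLinearMap, LinearMap.ext fun v => by
    have := LinearMap.congr_fun (show (pe h.wr q b).toLinearMap * (T l).i a * (pe h.wr q b⁻¹).toLinearMap =
      (T l).i ((b l).1.toLinearMap * a * ((b l)⁻¹).1.toLinearMap) by
      rw [pe_coe, pe_coe, ← h.wr.ph_single, ← h.wr.ph_single, ← map_mul, ← map_mul]
      congr 1; ext1 m
      by_cases c : m = l
      · subst c; simp only [Pi.mul_apply, Pi.mulSingle_eq_same]; rfl
      · simpa [c] using og_inv (b m)) v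
    rw [map_inv] at this
    exact (TS.act_i ..).trans this⟩⟩

theorem rt (l : κ) {b : OG q} (hb : b ∈ Om q) : (T l).ie b.1 ∈ M :=
  h.mem _ ((h.ot l).oi_Om hb) (by simpa [pe_single, OT.oi_coe] using h.pw_pe (Pi.mulSingle l b))

theorem pe_Om {b : κ → OG q} (hb : ∀ l, b l ∈ Om q) : pe h.wr q b ∈ M :=
  Subgroup.pi_mem_of_mulSingle_mem (H := M.comap (pe h.wr q)) b fun l => by simpa [pe_single] using h.rt l (hb l)

theorem two (i l : κ) (b : OG q) : (T i).ie b.1 * (T l).ie (b⁻¹).1 ∈ M := by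
  obtain ⟨w, hw⟩ := h.perm
  have a1 := h.pw_pe (Pi.mulSingle i b * Pi.mulSingle l b⁻¹)
  rw [map_mul, pe_single, pe_single] at a1
  refine h.mem ((h.ot i).oi b * (h.ot l).oi b⁻¹) ?_ a1
  have a2 := hw (Equiv.swap i l) l b.1.toLinearMap
  rw [Equiv.swap_apply_right] at a2
  rw [show (h.ot i).oi b = w (Equiv.swap i l) * (h.ot l).oi b * (w (Equiv.swap i l))⁻¹ from OG_ext fun v =>
    (LinearMap.congr_fun a2 v).symm.trans (TS.act_i ..), map_inv]
  exact Subgroup.commutator_mem_commutator (Subgroup.mem_top _) (Subgroup.mem_top _)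

theorem cyc {i j k : κ} (h1 : i ≠ j) (h2 : i ≠ k) (h3 : j ≠ k) : ∃ (π : Equiv.Perm κ) (g : V ≃ₗ[F] V), g ∈ M ∧
    (∀ l a, ((T l).act g).i a = (T (π l)).i a) ∧ π i = j ∧ π j = k ∧ π k = i ∧ ∀ l, l ≠ i → l ≠ j → l ≠ k → π l = l := by
  obtain ⟨w, hw⟩ := h.perm
  refine ⟨Equiv.swap i j * Equiv.swap i k * (Equiv.swap i j)⁻¹ * (Equiv.swap i k)⁻¹, _, h.mem _ (map_mem_commutator w
    (Subgroup.commutator_mem_commutator (Subgroup.mem_top _) (Subgroup.mem_top _))) ⟨_, fun l a => ⟨a, hw _ l a⟩⟩, hw _, ?_, ?_, ?_, fun l a b c => ?_⟩ <;>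
  simp [Equiv.swap_apply_of_ne_of_ne, *, h1.symm, h2.symm, h3.symm]

theorem act {k : V ≃ₗ[F] V} (hk : k ∈ M) : OF Q γ q M (fun l => (T l).act k) (k ∘ pv) ζ := by
  have a1 : ∀ l a, ((T l).act k).i a = k.conjAlgEquiv F ((T l).i a) := fun l a => LinearMap.ext fun v => TS.act_i ..
  refine ⟨⟨fun i j c => (h.wr.cm i j c).act, fun B hB => eq_top_iff.mpr fun x _ => ?_⟩, fun l => (h.ot l).act (h.iso hk),
    ⟨h.pv.ne, fun l a y => by simp [TS.act_i, h.pv.i_pv], fun x y => (OG_polar ⟨k, h.iso hk⟩ _ _).trans (h.pv.map x y),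
      by rw [Set.range_comp, ← LinearEquiv.coe_coe, ← Submodule.map_span, h.pv.span]; simp⟩, h.iso,
    fun g c ⟨π, d⟩ => ?_, ?_, h.dim⟩
  · obtain ⟨x, rfl⟩ := (k.conjAlgEquiv F).surjective x
    exact (h.wr.gen (B.comap (k.conjAlgEquiv F : _ →ₐ[F] _)) fun i a => by
      have := hB i a; rwa [a1] at this).ge (Algebra.mem_top (x := x))
  · have := h.mem ((⟨k, h.iso hk⟩ : OG Q)⁻¹ * g * ⟨k, h.iso hk⟩) ((inferInstance : (Om Q).Normal).conj_mem' g c _)
      ⟨π, fun i a => (d i a).imp fun a' b => LinearMap.ext fun v => by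
        simpa [TS.act_i, ← LinearEquiv.coe_inv, -EmbeddingLike.apply_eq_iff_eq, show ∀ x, k⁻¹ (k x) = x from
          k.symm_apply_apply] using congrArg k.symm (LinearMap.congr_fun b (k v))⟩
    simpa [mul_assoc] using mul_mem (mul_mem hk this) (inv_mem hk)
  · obtain ⟨w, hw⟩ := h.perm
    exact ⟨(MulAut.conj (⟨k, h.iso hk⟩ : OG Q)).toMonoidHom.comp w, fun π l a => LinearMap.ext fun v => by
      simpa [TS.act_i, ← LinearEquiv.coe_inv, show ∀ x, k⁻¹ (k x) = x from k.symm_apply_apply] using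
        LinearMap.congr_fun (hw π l a) (k.symm v)⟩

theorem mv {a : κ → End F W} {b : κ → OG q} (hb : ∀ l, b l ∈ Om q) {t : F} (H : EN M (t • h.wr.ph a)) :
    EN M (t • h.wr.ph fun l => (b l).1.toLinearMap * a l * ((b l)⁻¹).1.toLinearMap) :=
  H.conj (h.pe_Om hb) fun v => by
    rw [← LinearEquiv.coe_coe, pe_coe, ← End.mul_apply, ← End.mul_apply, smul_mul_assoc, mul_smul_comm, ← map_mul, ← map_mul]
    congr 3; ext1 l; simp only [Pi.mul_apply, mul_assoc, og_inv', mul_one]

variable [FiniteDimensional F W]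

theorem pe_pv (b : κ → OG q) (y : κ → W) : pe h.wr q b (pv y) = pv fun l => (b l).1 (y l) := by
  rw [← LinearEquiv.coe_coe, pe_coe, h.wr.ph_pv h.pv]; rfl

variable [Nonempty κ]

omit [FiniteDimensional F W] in
theorem wh : WH q := (h.ot (Classical.arbitrary κ)).wh

omit [FiniteDimensional F W] in
theorem nd : ND Q := (h.ot (Classical.arbitrary κ)).nd

omit [FiniteDimensional F W] in
theorem Q0 {x : κ → W} {l : κ} (H : q (x l) = 0) : Q (pv x) = 0 := mul_left_cancel₀ h.wh.two (by
  rw [← polar_self', pv_map h.pv, Finset.prod_eq_zero (Finset.mem_univ l) (by simp [H])]; simp)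

theorem pv_smul (c : κ → F) (x : κ → W) : pv (fun l => c l • x l) = (∏ l, c l) • pv x :=
  pv_ext h.pv h.nd fun y => by simp [pv_map h.pv, Finset.prod_mul_distrib, mul_left_comm]

theorem mind {x : κ → W} (hx : Sg q x) {p : V → Prop} (hs : ∀ v v', p v → p v' → p (v - v')) (A : Finset κ) (z : κ → W)
    (H : ∀ y, (∀ l ∈ A, q (y l) = 0 ∧ polar q (x l) (y l) ≠ 0) → (∀ l ∉ A, y l = z l) → p (pv y)) (y : κ → W)
    (hy : ∀ l ∉ A, y l = z l) : p (pv y) := by
  induction A using Finset.induction_on generalizing z y with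
  | empty => exact H y (by simp) hy
  | insert l A a ih =>
    obtain ⟨u, hu⟩ := @pv_upd _ _ _ _ _ _ _ _ _ _ _ _ _ _ _ _ _ _ _ h.pv h.wh.nt y l
    rw [← update_eq_self l y]
    refine h.wh.ind (hx l).1 (hx l).2 (p := fun w => p (pv (update y l w))) (fun w b c => ih (update z l w)
      (fun y' d d' => H y' (by simpa [d' l a, b, c] using d) fun m hm => ?_) _ fun m hm => ?_)
      (fun _ _ b c => by simpa [hu] using hs _ _ b c) _
    · simp at hm; simpa [hm.1] using d' m hm.2
    · by_cases d : m = l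
      · simp [d]
      · simpa [d] using hy m (by simp [d, hm])

theorem as_step {m l : κ} (hl : l ≠ m)
    (H : ∀ x, Sg q x → ∀ y, y m = x m → AS (M.comap (OG Q).subtype) (pv x) (pv y)) {x : κ → W} (hx : Sg q x)
    (y : κ → W) (hy : polar q (x l) (y l) = 0) : AS (M.comap (OG Q).subtype) (pv x) (pv y) := by
  refine h.mind hx (fun _ _ => AS.sub) (Finset.univ.erase l) y (fun y' a b => ?_) y fun _ _ => rfl
  rw [← b l (by simp)] at hy
  have a0 := h.pv.ne
  have a1 : ∏ m ∈ Finset.univ.erase l, polar q (y' m) (x m) ≠ 0 :=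
    Finset.prod_ne_zero_iff.mpr fun m hm => by rw [polar_comm]; exact (a m hm).2
  have a2 : Sg q (update y' l (x l)) := fun n => by
    by_cases c : n = l
    · simpa [c] using hx l
    · simpa [c] using (a n (by simpa)).imp_right fun d e => d (by simp [e])
  have a3 := fun r s (hs : polar q s (x l) = 0) => (H x hx (update x l r) (by simp [hl.symm])).act
    (H _ a2 (update y' l s) (by simp [hl.symm])) (by rw [← update_eq_self l x, pv_upd_map h.pv]; simp [(hx l).1])
    (by rw [← update_eq_self l x, pv_upd_map h.pv]; simp [hs])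
  have a4 : ∀ s, Q (pv (update y' l s)) = 0 := fun s => h.Q0 (l := m) (by simpa [hl.symm] using (a m (by simp [hl.symm])).1)
  simp only [pv_upd_map h.pv, a4] at a3
  generalize ∏ m ∈ Finset.univ.erase l, polar q (y' m) (x m) = t at a1 a3
  obtain ⟨x', hp⟩ := h.wh.nd.exists_hp (hx l).1 (hx l).2
  obtain ⟨r, b1, b2⟩ := h.wh.pp_ne hp
  replace b1 := (mem_perp_pair.mp b1).1
  have := h.wh.two
  convert (a3 ((polar q (y' l) x' / (ζ * t * 2 * q r)) • r) r (by rwa [polar_comm])).add
    (a3 ((-(ζ * t)⁻¹) • x') (y' l) (by rwa [polar_comm])) using 1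
  simp [b1, hp.uv]
  match_scalars <;> field_simp
  ring

theorem Om_le [Finite F] [FiniteDimensional F V] [Nontrivial κ] {m : κ} (he : q e = 0) (e0 : e ≠ 0) (hg : polar q e g = 0)
    (g0 : q g ≠ 0) {a : κ → End F W} (h1 : ∀ l ≠ m, a l = rk q e e) (h2 : a m = wdg q e g) {t : F} (ht : t ≠ 0)
    (H : EN M (t • h.wr.ph a)) : Om Q ≤ M.comap (OG Q).subtype := by
  have hW := h.wh
  have := hW.nt
  have a0 := h.pv.ne
  obtain ⟨m', hm⟩ := exists_ne m
  have a1 : AS (M.comap (OG Q).subtype) (pv fun _ => e) ((t / ζ) • pv (update (fun _ => e) m g)) := by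
    have b0 : (fun _ => e) = update (fun _ : κ => e) m e := by simp
    have b1 : Q (pv fun _ => e) = 0 := h.Q0 (l := m) he
    have b2 : polar Q (pv fun _ => e) ((t / ζ) • pv (update (fun _ => e) m g)) = 0 := by
      rw [b0, polar_smul_right, pv_upd_map h.pv]; simp [hg]
    obtain ⟨k, c1, c2⟩ := H
    refine ⟨b1, b2, Subgroup.mem_comap.mpr ?_⟩
    convert c1
    refine (LinearEquiv.toLinearMap_injective (LinearMap.ext_on_range h.pv.span fun y => ?_) : k = (sieg Q _ _).1).symm
    obtain ⟨u, hu⟩ := pv_upd h.pv (fun _ => e) m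
    have b3 : (fun l => a l (y l)) = fun l => (update (fun l => polar q e (y l)) m 1) l •
        (update (fun _ => e) m (wdg q e g (y m))) l := funext fun l => by
      by_cases c : l = m
      · simp [c, h2]
      · simp [c, h1 l c]
    have b4 : ∀ w, polar Q (T m |>.t u w) (pv y) = ζ * (∏ l ∈ Finset.univ.erase m, polar q e (y l)) * polar q w (y m) :=
      fun w => by rw [← hu, ← pv_upd_map h.pv (fun _ => e), update_eq_self]
    rw [LinearEquiv.coe_coe, LinearEquiv.coe_coe, c2, sieg_apply b1 b2, LinearMap.smul_apply, h.wr.ph_pv h.pv, b3,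
      h.pv_smul, Finset.prod_update_of_mem (Finset.mem_univ m), Q_smul, h.Q0 (l := m') (by simpa [hm]),
      show (pv fun _ => e) = (T m).t u e by rw [← hu, ← b0]]
    simp [hu, b4, Finset.sdiff_singleton_eq_erase]
    match_scalars <;> field_simp
  have a2 : ∀ w, q w = 0 → w ≠ 0 → ∃ f, polar q w f = 0 ∧ q f ≠ 0 ∧ ∀ x, Sg q x → x m = w → ∀ c : F,
      AS (M.comap (OG Q).subtype) (pv x) (c • pv (update x m f)) := fun w hw w0 => by
    obtain ⟨b, b1, d, d0, b2⟩ := hW.pt he e0 hw w0
    obtain ⟨w', hp⟩ := hW.nd.exists_hp hw w0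
    obtain ⟨s₀, f, b3⟩ := hp.exists_eq_of_perp (x := b.1 g) (by simpa [b2, d0, hg] using OG_polar b e g)
    refine ⟨f, pp_left f, by simpa [← b3] using (hp.Q_comb s₀ 0 f).symm.trans_ne (by simpa [← b3]), fun x hx hxm c => ?_⟩
    choose b' c1 d' c2 c3 using fun l => hW.pt he e0 (hx l).1 (hx l).2
    obtain ⟨u, hu⟩ := pv_upd h.pv x m
    have c4 : ∀ (b'' : OG q) (s : F), b'' ∈ Om q → b''.1 w = s • w → b''.1 f = f → s ≠ 0 →
        AS (M.comap (OG Q).subtype) (pv x) ((s * (d * (∏ l ∈ Finset.univ.erase m, d' l) ^ 2 * (t / ζ))) • (T m).t u f) :=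
      fun b'' s e1 e2 e3 e4 => by
        have c5 : ∀ r, pe h.wr q (update b' m (b'' * b)) (pv (update (fun _ => e) m r)) =
            (∏ l ∈ Finset.univ.erase m, d' l) • (T m).t u (b''.1 (b.1 r)) := fun r => by
          rw [h.pe_pv, ← hu, ← Finset.sdiff_singleton_eq_erase, ← one_mul (∏ l ∈ _, _),
            ← Finset.prod_update_of_mem (Finset.mem_univ m), ← h.pv_smul]
          congr 1; ext1 l
          by_cases c : l = m
          · simp [c, OG_mul_apply]
          · simp [c, c3]
        have c6 := a1.map (k := ⟨_, h.iso (h.pe_Om (b := update b' m (b'' * b)) fun l => ?_)⟩) (h.pe_Om fun l => ?_)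
        · rw [← update_eq_self m (fun _ => e), map_smul, update_idem] at c6
          simp only [c5, b2, b3, map_add, map_smul, e2, e3, smul_smul] at c6
          rw [show (T m).t u w = pv x by rw [← hxm, ← hu, update_eq_self]] at c6
          convert (c6.of_smul_left (by simp [Finset.prod_ne_zero_iff, *])).sub (AS.self (h.Q0 (hx m).1)
            (s * (d * (∏ l ∈ Finset.univ.erase m, d' l) ^ 2 * (t / ζ)) * (s₀ * s))) using 1
          module
        all_goals
          by_cases c : l = m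
          · simpa [c] using mul_mem e1 b1
          · simpa [c] using c1 l
    obtain ⟨s, s', b4⟩ := exists_mul_sq_add_mul_sq_eq (a := d * (∏ l ∈ Finset.univ.erase m, d' l) ^ 2 * (t / ζ))
      (b := d * (∏ l ∈ Finset.univ.erase m, d' l) ^ 2 * (t / ζ)) (by simp [Finset.prod_ne_zero_iff, *])
      (by simp [Finset.prod_ne_zero_iff, *]) c
    have c5 : ∀ s : F, AS (M.comap (OG Q).subtype) (pv x)
        ((s ^ 2 * (d * (∏ l ∈ Finset.univ.erase m, d' l) ^ 2 * (t / ζ))) • (T m).t u f) := fun s => by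
      by_cases s0 : s = 0
      · simpa [s0] using AS.zero (h.Q0 (hx m).1)
      · exact c4 _ _ (torus_sq_Om hW.nd hW.two hp (Units.mk0 s s0)) ((hp.torus_left _).trans (by simp)) (hp.torus_pp _ f) (by simpa)
    convert (c5 s).add (c5 s') using 1
    rw [hu, ← b4]; module
  have a3 : ∀ x, Sg q x → ∀ y, y m = x m → AS (M.comap (OG Q).subtype) (pv x) (pv y) := fun x hx y hy => by
    refine h.mind hx (fun _ _ => AS.sub) (Finset.univ.erase m) x (fun y a b => ?_) y (by simpa)
    replace b := b m (by simp)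
    obtain ⟨f, b1, b2, b3⟩ := a2 _ (hx m).1 (hx m).2
    have b4 : ∏ l ∈ Finset.univ.erase m, polar q (y l) (x l) ≠ 0 :=
      Finset.prod_ne_zero_iff.mpr fun m hm => by rw [polar_comm]; exact (a m hm).2
    have b5 := fun w w' => pv_upd_map h.pv y x m w w'
    have b6 := (b3 x hx rfl (ζ * (∏ l ∈ Finset.univ.erase m, polar q (y l) (x l)) * 2 * q f)⁻¹).act (b3 y (fun l => by
      by_cases c : l = m
      · simpa [c, b] using hx m
      · exact (a l (by simpa)).imp_right fun d e => d (by simp [e])) b 1)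
      (by simpa [show polar q (y m) (x m) = 0 by simp [b, (hx m).1]] using b5 (y m) (x m)) (by simpa [polar_comm q f, b1] using b5 f (x m))
    have := hW.two
    convert b6 using 1
    simp [b5, show polar Q (pv y) (pv (update x m f)) = 0 by
      simpa [show polar q (y m) f = 0 by simp [b, b1]] using b5 (y m) f]
    match_scalars; field_simp
  have a4 : ∀ l x, Sg q x → ∀ y, polar q (x l) (y l) = 0 → AS (M.comap (OG Q).subtype) (pv x) (pv y) := fun l x hx => by
    by_cases c : l = m
    · exact c ▸ h.as_step hm.symm (fun x hx y hy => h.as_step hm a3 hx y (by simp [hy, (hx _).1])) hx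
    · exact h.as_step c a3 hx
  have a5 : ∀ e e', HP q e e' → EO (M.comap (OG Q).subtype) (pv fun _ => e) := fun e e' hp => by
    have b0 : Sg q fun _ : κ => e := fun _ => ⟨hp.Qu, hp.ne_left⟩
    have b1 : ∀ (c : F) l y, polar q e (y l) = 0 → AS (M.comap (OG Q).subtype) (pv fun _ => e) (c • pv y) := fun c l y hy => by
      obtain ⟨u, hu⟩ := pv_upd h.pv y l
      simpa [hu, ← hu (y l)] using a4 l _ b0 (update y l (c • y l)) (by simp [hy])
    refine ⟨h.Q0 (l := m) hp.Qu, fun v hv => ?_⟩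
    suffices AS (M.comap (OG Q).subtype) (pv fun _ => e) (v - (polar Q (pv fun _ => e) v / ζ) • pv fun _ => e') by
      simpa [hv] using this
    refine pv_ind h.pv (p := fun v => AS (M.comap (OG Q).subtype) (pv fun _ => e)
      (v - (polar Q (pv fun _ => e) v / ζ) • pv fun _ => e')) (fun c y => ?_) (fun _ _ a b => by
        convert a.add b using 1; simp; module) v
    have b2 : ∀ A : Finset κ, AS (M.comap (OG Q).subtype) (pv fun _ => e)
        (c • pv y - (c * ∏ l ∈ A, polar q e (y l)) • pv (A.piecewise (fun _ => e') y)) := fun A => by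
      induction A using Finset.induction_on with
      | empty => simpa using AS.zero (h.Q0 (l := m) hp.Qu)
      | insert l A a ih =>
        obtain ⟨u, hu⟩ := pv_upd h.pv (A.piecewise (fun _ => e') y) l
        convert ih.add (b1 (c * ∏ l ∈ A, polar q e (y l)) l (update (A.piecewise (fun _ => e') y) l
          (y l - polar q e (y l) • e')) (by simp [hp.uv])) using 1
        rw [Finset.piecewise_insert, Finset.prod_insert a, hu, hu, ← update_eq_self l (A.piecewise _ _), hu]
        simp [a]; module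
    convert b2 Finset.univ using 2
    simp [pv_map h.pv]; congr 1; field_simp
  obtain ⟨e', hp⟩ := hW.nd.exists_hp he e0
  exact Om_le_of_EO h.nd h.dim (a5 _ _ hp) (a5 _ _ hp.symm) (by simp [pv_map h.pv, hp.uv, a0])

end OF

end Cfsg.Agent.H18
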