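import Mathlib
import Cfsg.Agent.H18.OwB

/-!
Tensor powers of orthogonal spaces: no products of highest weight vectors in a proper overgroup.
-/

set_option autoImplicit false

namespace Cfsg.Agent.H18

open Module QuadraticMap H13 H12 Function

variable {F V U W : Type*} [Field F] [AddCommGroup V] [Module F V] [AddCommGroup U] [Module F U]
  [AddCommGroup W] [Module F W] {q : QuadraticForm F W} {Q : QuadraticForm F V} {γ : U →ₗ[F] U →ₗ[F] F}
  {M : Subgroup (V ≃ₗ[F] V)} {e e' f g y z : W}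

theorem og_wd (b : OG q) (y z : W) :
    b.1.toLinearMap * wdg q y z * (b⁻¹).1.toLinearMap = wdg q (b.1 y) (b.1 z) := by
  simp only [wdg, mul_sub, sub_mul, og_rk]

theorem wd_sq (he : q e = 0) (hg : polar q e g = 0) : wdg q e g * wdg q e g = -(2 * q g) • rk q e e := by
  ext; simp [he, hg, polar_comm q g e, smul_smul, mul_comm]

theorem rk_sq (he : q e = 0) : rk q e e * rk q e e = 0 := by ext; simp [he]

theorem WH.wd_ne [FiniteDimensional F W] (H : WH q) (he : q e = 0) (e0 : e ≠ 0) (hg : polar q e g = 0) (g0 : q g ≠ 0) :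
    wdg q e g ≠ 0 := fun h => by
  simpa [h, H.two, g0, H.rk_ne e0 e0] using wd_sq he hg

theorem EN.comm' {X Y : End F V} (h : EN M X) (h' : EN M Y) (h1 : X * X = 0) (h2 : Y * Y = 0) (h3 : X * Y * X = 0)
    (h4 : Y * X * Y = 0) : EN M (X * Y - Y * X) := by
  convert (h'.conj_en h (LinearMap.congr_fun h1)).mul (h'.neg (LinearMap.congr_fun h2)) using 1
  simp only [h3, mul_neg, add_mul, sub_mul, h2, h4, mul_assoc X Y Y]; simp

variable {κ : Type*} [Fintype κ] [DecidableEq κ] {T : κ → TS F U W V} {pv : (κ → W) → V} {ζ : F}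
  {a : κ → End F W} {D S B : Finset κ} {ρ : End F V} {i l : κ}

/-- Coefficients of a pattern in `M`. -/
def XP (h : Wr T) (M : Subgroup (V ≃ₗ[F] V)) (a : κ → End F W) (D : Finset κ) (ρ : End F V) : Prop :=
  (∀ l ∈ D, (T l).Cm ρ) ∧ EN M (ρ * h.ph a)

theorem xp_sq (h : Wr T) (h1 : ∀ l ∉ D, a l = 1) (h2 : a i * a i = 0) {ρ' : End F V} (H : ∀ l ∈ D, (T l).Cm ρ') (v : V) :
    (ρ * h.ph a) ((ρ' * h.ph a) v) = 0 := by
  rw [← End.mul_apply, mul_assoc, ← mul_assoc (h.ph a), ← (ph_comm h H h1).eq, mul_assoc, ← map_mul,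
    ph_zero h (a := a * a) h2]; simp

/-- The group of coefficients. -/
def XA (h : Wr T) (M : Subgroup (V ≃ₗ[F] V)) (h1 : ∀ l ∉ D, a l = 1) (h2 : a i * a i = 0) : AddSubgroup (End F V) where
  carrier := {ρ | XP h M a D ρ}
  add_mem' x y := ⟨fun l c b => (x.1 l c b).add_left (y.1 l c b), add_mul _ _ (h.ph a) ▸ x.2.add y.2 (xp_sq h h1 h2 y.1)⟩
  zero_mem' := ⟨fun _ _ _ => Commute.zero_left _, by simp [EN.zero]⟩
  neg_mem' x := ⟨fun l c b => (x.1 l c b).neg_left, neg_mul _ (h.ph a) ▸ x.2.neg (xp_sq h h1 h2 x.1)⟩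

/-- A pattern with symmetric part `S` and alternating part `B`. -/
def PT (h : Wr T) (M : Subgroup (V ≃ₗ[F] V)) (q : QuadraticForm F W) (e : W) (S B : Finset κ) : Prop :=
  ∃ a ρ, ρ ≠ 0 ∧ Disjoint S B ∧ (∀ l ∈ S, a l = rk q e e) ∧
    (∀ l ∈ B, ∃ g, polar q e g = 0 ∧ q g ≠ 0 ∧ a l = wdg q e g) ∧ (∀ l ∉ S ∪ B, a l = 1) ∧ XP h M a (S ∪ B) ρ

namespace OF
variable (h : OF Q γ q M T pv ζ)
include h

theorem xa_conj (h1 : ∀ l ∉ D, a l = 1) (hl : l ∉ D) (hi : i ∈ D) {b b' : OG q} (hb : (T l).ie b.1 * (T i).ie b'.1 ∈ M)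
    (h2 : Commute b'.1.toLinearMap (a i)) (H : XP h.wr M a D ρ) :
    XP h.wr M a D ((T l).i b.1.toLinearMap * ρ * (T l).i (b⁻¹).1.toLinearMap) := by
  refine ⟨fun m hm => ?_, H.2.conj hb fun v => ?_⟩
  · have : l ≠ m := by rintro rfl; exact hl hm
    exact TS.Cm.mul (TS.Cm.mul (h.wr.cm l m this _) (H.1 m hm)) (h.wr.cm l m this _)
  have a1 : Commute ((T i).i b'.1.toLinearMap) (h.wr.ph a) := by
    rw [← update_eq_self i a, h.wr.ph_update]
    exact (h.wr.ph_cm (by simp) _).symm.mul_right (h2.map (T i).i)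
  have a2 : (T l).i (b⁻¹).1.toLinearMap * (T l).i b.1.toLinearMap = 1 := by rw [← map_mul, og_inv', map_one]
  refine LinearMap.congr_fun (show (T l).i b.1.toLinearMap * ρ * (T l).i (b⁻¹).1.toLinearMap * h.wr.ph a *
    ((T l).i b.1.toLinearMap * (T i).i b'.1.toLinearMap) =
    (T l).i b.1.toLinearMap * (T i).i b'.1.toLinearMap * (ρ * h.wr.ph a) from ?_) v
  rw [mul_assoc, ← mul_assoc (h.wr.ph a), (h.wr.ph_cm (h1 l hl) _).eq, mul_assoc _ _ ((T i).i _), ← a1.eq, mul_assoc,
    ← mul_assoc ((T l).i (b⁻¹).1.toLinearMap), a2, one_mul, mul_assoc, ← mul_assoc ρ, (H.1 i hi _).eq,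
    mul_assoc, mul_assoc]

theorem iv (h1 : ∀ l ∉ D, a l = 1) (h2 : a i * a i = 0) (hl : l ∉ D) (hi : i ∈ D) : IV (T l) q (XA h.wr M h1 h2) :=
  fun b hb _ hc => h.xa_conj (b' := 1) h1 hl hi (by simpa using h.rt l hb) (Commute.one_left _) hc

variable [FiniteDimensional F W] [Nontrivial κ]

theorem xp_ins (h1 : ∀ l ∉ D, a l = 1) (hl : l ∉ D) (H : ∀ m ∈ D, (T m).Cm ρ) {k : F} {n : End F W}
    (H' : XP h.wr M a D (k • ((T l).co (polarBilin q) y z ρ * (T l).i n))) :
    XP h.wr M (update a l n) (insert l D) (k • (T l).co (polarBilin q) y z ρ) := by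
  have := h.wh.nt
  refine ⟨fun m hm b => Commute.smul_left ?_ k, ?_⟩
  · rcases Finset.mem_insert.mp hm with rfl | hm
    exacts [TS.co_cm _ _ _ _ b, TS.co_comm (h.wr.cm m l fun c => hl (c ▸ hm)) (H m hm b) _ _]
  · rw [ph_upd h.wr (h1 l hl), (h.wr.ph_cm (h1 l hl) n).eq, ← mul_assoc, smul_mul_assoc]
    exact H'.2

variable [Finite F] (he : q e = 0) (e0 : e ≠ 0)
include he e0

theorem grow {x y : κ → End F W} {c c' : F} (c0 : c ≠ 0) (c0' : c' ≠ 0) (Hx : EN M (c • h.wr.ph x))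
    (Hy : EN M (c' • h.wr.ph y)) {l₁ l₂ l₃ l₄ : κ} (z1 : x l₁ * x l₁ = 0) (z2 : y l₂ * y l₂ = 0)
    (z3 : x l₃ * y l₃ * x l₃ = 0) (z4 : y l₄ * x l₄ * y l₄ = 0) {m : κ} {A : Finset κ} (hi : i ∉ A)
    (hm : m ∉ insert i A) {μ : F} (μ0 : μ ≠ 0) (h1 : x i * y i = μ • rk q e e) (h2 : y i * x i = μ • rk q e e)
    (h3 : ∀ l ∉ insert i A, l ≠ m → x l = 1 ∧ y l = 1) (h4 : (∏ l ∈ A, polar q e (x l (y l e))) • (x m * y m) -
      (∏ l ∈ A, polar q e (y l (x l e))) • (y m * x m) ≠ 0) : PT h.wr M q e (insert i A) ∅ := by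
  have := h.wh.nt
  have a1 : EN M ((c * c') • (h.wr.ph (x * y) - h.wr.ph (y * x))) := by
    convert EN.comm' Hx Hy ?_ ?_ ?_ ?_ using 1 <;> simp only [smul_mul_smul_comm, ← map_mul]
    · rw [smul_sub, mul_comm c']
    exacts [by rw [ph_zero h.wr (a := x * x) z1, smul_zero], by rw [ph_zero h.wr (a := y * y) z2, smul_zero],
      by rw [ph_zero h.wr (a := x * y * x) z3, smul_zero], by rw [ph_zero h.wr (a := y * x * y) z4, smul_zero]]
  obtain ⟨k, k0, hk⟩ := ex1 (U := U) (V := V) h.wh he e0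
  have a2 : ∀ A : Finset κ, i ∉ A → ∃ t : F, t ≠ 0 ∧ XP h.wr M ((insert i A).piecewise (fun _ => rk q e e) 1) (insert i A)
      ((t * ∏ l ∈ A, polar q e (x l (y l e))) • h.wr.ph ((insert i A).piecewise 1 (x * y)) -
        (t * ∏ l ∈ A, polar q e (y l (x l e))) • h.wr.ph ((insert i A).piecewise 1 (y * x))) := fun A hA => by
    induction A using Finset.induction_on with
    | empty =>
      refine ⟨c * c' * μ, by simp [*], fun l hl b => ((h.wr.ph_cm (Finset.piecewise_eq_of_mem _ _ _ hl) b).smul_left _).sub_left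
        ((h.wr.ph_cm (Finset.piecewise_eq_of_mem _ _ _ hl) b).smul_left _), ?_⟩
      convert a1 using 1
      conv_rhs => rw [← update_eq_self i (x * y), ← update_eq_self i (y * x), h.wr.ph_update, h.wr.ph_update (y * x)]
      simp only [Finset.piecewise_insert, Finset.piecewise_empty]
      simp [ph_upd h.wr (a := 1) rfl, h1, h2, sub_mul, smul_sub, smul_smul]
    | insert l A a ih =>
      obtain ⟨t, t0, b⟩ := ih (by simp at hA; exact hA.2)
      have b1 : l ∉ insert i A := by simp at hA ⊢; exact ⟨fun c => hA.1 c.symm, a⟩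
      have b2 : ∀ m ∉ insert i A, (insert i A).piecewise (fun _ => rk q e e) 1 m = 1 := fun m hm => by simp [hm]
      refine ⟨k * t, by simp [*], ?_⟩
      convert h.xp_ins b2 b1 b.1 (hk _ _ (h.iv (i := i) b2 (by simp [rk_sq he]) b1 (by simp)) _ b) using 1
      · rw [Finset.insert_comm, Finset.piecewise_insert]
      · rw [Finset.insert_comm]
      · rw [Finset.insert_comm, Finset.piecewise_insert (insert i A), Finset.piecewise_insert (insert i A),
          Finset.prod_insert a, Finset.prod_insert a,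
          show ∀ (s t : F) X Y, (T l).co (polarBilin q) e e (s • X - t • Y) = s • (T l).co (polarBilin q) e e X -
            t • (T l).co (polarBilin q) e e Y from fun _ _ _ _ => (T l).ext fun _ _ => by simp [TS.co], co_ph, co_ph]
        rw [Finset.piecewise_eq_of_notMem _ _ _ b1, Finset.piecewise_eq_of_notMem _ _ _ b1]
        simp; module
  obtain ⟨t, t0, a3⟩ := a2 A hi
  have a4 : ∀ f : κ → End F W, (∀ l ∉ insert i A, l ≠ m → f l = 1) →
      h.wr.ph ((insert i A).piecewise 1 f) = (T m).i (f m) := fun f hf => by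
    rw [← h.wr.ph_single]; congr 1; ext1 l
    by_cases c : l = m
    · simp [c, hm]
    · by_cases d : l ∈ insert i A <;> simp [c, d, hf]
  rw [← Finset.union_empty (insert i A)] at a3
  refine ⟨_, _, fun b => h4 ((h.ot m).i_inj ?_), by simp, fun l hl => Finset.piecewise_eq_of_mem _ _ _ (by simpa using hl),
    by simp, fun l hl => Finset.piecewise_eq_of_notMem _ _ _ hl, a3⟩
  rw [Finset.union_empty] at b
  rw [a4 _ fun l a b => by simp [h3 l a b], a4 _ fun l a b => by simp [h3 l a b], mul_smul, mul_smul, ← smul_sub] at b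
  simpa [t0] using b

variable [FiniteDimensional F U] [FiniteDimensional F V] (hM : ¬ Om Q ≤ M.comap (OG Q).subtype)
include hM

theorem no_pat (hS : S.Nonempty) : ¬ PT h.wr M q e S B := fun H => by
  have hW := h.wh
  have := hW.nt
  have h2 := hW.two
  obtain ⟨S, ⟨⟨i, hi⟩, H⟩, m1⟩ := Set.exists_max_image {S | S.Nonempty ∧ ∃ B, PT h.wr M q e S B} Finset.card
    (Set.toFinite _) ⟨S, hS, B, H⟩
  obtain ⟨B, ⟨a, ρ, ρ0, d0, a1, a2, a3, a4⟩, m2⟩ := Set.exists_max_image {B | PT h.wr M q e S B} Finset.card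
    (Set.toFinite _) H
  have a5 : a i * a i = 0 := by rw [a1 i hi, rk_sq he]
  have a6 : i ∈ S ∪ B := by simp [hi]
  have c1 : ∀ l ∉ S ∪ B, ∀ ρ, XP h.wr M a (S ∪ B) ρ → ∀ y, q y = 0 → (T l).co (polarBilin q) y y ρ = 0 :=
    fun l hl ρ H y hy => by_contra fun b0 => by
      obtain ⟨b, b1, c, c0, b2⟩ := hW.pt hy (by rintro rfl; exact b0 ((T l).ext fun _ _ => by simp [TS.co])) he e0
      obtain ⟨k, k0, hk⟩ := ex1 (U := U) (V := V) hW he e0
      have b3 := h.iv a3 a5 hl a6 b b1 ρ H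
      have b4 := h.xp_ins a3 hl b3.1 (hk _ _ (h.iv a3 a5 hl a6) _ b3)
      rw [← co_conj (T l) b, b2, co_smul, co_smul'] at b0
      simp only [Finset.mem_union, not_or] at hl
      refine (m1 (insert l S) ⟨by simp, B, _, _, smul_ne_zero k0 fun c => b0 (by rw [c]; simp), by simp [d0, hl.2],
        fun m hm => ?_, fun m hm => ?_, fun m hm => ?_, Finset.insert_union l S B ▸ b4⟩).not_gt (by simp [hl.1])
      · by_cases c : m = l
        · simp [c]
        · simpa [c] using a1 m (by simpa [c] using hm)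
      · simpa [show m ≠ l by rintro rfl; exact hl.2 hm] using a2 m hm
      · simp at hm; simpa [hm.1] using a3 m (by simp [hm])
  obtain ⟨d, rfl⟩ := h.wr.cen (c := ρ) fun l => by
    by_cases hl : l ∈ S ∪ B
    · exact a4.1 l hl
    refine cm_of_co hW (c1 l hl ρ a4) fun y f hy hf f0 => by_contra fun b0 => ?_
    obtain ⟨b, b1, c, c0, b2⟩ := hW.pt hy (by rintro rfl; exact b0 ((T l).ext fun _ _ => by simp [TS.co])) he e0
    have b3 := h.iv a3 a5 hl a6 b b1 ρ a4
    have b5 : polar q e (b.1 f) = 0 := by simpa [b2, c0, hf] using OG_polar b y f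
    have b6 := (h.iv a3 a5 hl a6).dd hW he b5 b3
    have b7 := (XA h.wr M a3 a5).sub_mem b6 (h.xa_conj a3 hl a6 (h.two l i (refl q (b.1 f))) (by
      rw [a1 i hi, refl_inv]; ext; simp [refl_apply, polar_comm q _ e, b5]) b6)
    rw [refl_inv, dd_refl hW (c1 l hl _ b3) he b5 (by simpa)] at b7
    rw [← co_conj (T l) b, b2, co_smul'] at b0
    have b4 := h.xp_ins a3 hl b3.1 b7
    simp only [Finset.mem_union, not_or] at hl
    refine (m2 (insert l B) ⟨_, _, smul_ne_zero (by simpa) fun c => b0 (by rw [c]; simp), by simp [d0, hl.1],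
      fun m hm => ?_, fun m hm => ?_, fun m hm => ?_, Finset.union_insert l S B ▸ b4⟩).not_gt (by simp [hl.2])
    · simpa [show m ≠ l by rintro rfl; exact hl.1 hm] using a1 m hm
    · by_cases c : m = l
      · exact ⟨_, b5, by simpa, by simp [c]⟩
      · simpa [c] using a2 m (by simpa [c] using hm)
    · simp at hm; simpa [hm.1] using a3 m (by simp [hm])
  have d1 : d ≠ 0 := by rintro rfl; simp at ρ0
  replace a4 : EN M (d • h.wr.ph a) := by simpa using a4.2
  obtain ⟨e', hp⟩ := hW.nd.exists_hp he e0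
  obtain ⟨b₁, c2, s, s0, c3⟩ := hW.pt he e0 hp.Qv hp.ne_right
  have c4 : ∀ f ∈ pp q e e', ∃ b ∈ Om q, ∃ t : F, t ≠ 0 ∧ b.1 e = t • (-q f • e + (1 : F) • e' + f) := fun f hf =>
    hW.pt he e0 ((hp.Q_comb _ _ ⟨f, hf⟩).trans (by simp)) fun b => by
      simpa [hp.uu, hp.uv, (mem_perp_pair.mp hf).1] using congrArg (polar q e) b
  have c5 : ∀ b : OG q, b.1.toLinearMap * 1 * (b⁻¹).1.toLinearMap = 1 := fun b => by rw [mul_one, og_inv]
  have c6 : ∀ n : End F W, (1 : OG q).1.toLinearMap * n * ((1 : OG q)⁻¹).1.toLinearMap = n := fun n => by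
    rw [inv_one]; exact (mul_one _).trans (one_mul _)
  rcases B.eq_empty_or_nonempty with rfl | ⟨j, hj⟩
  · obtain ⟨k, c7, c8⟩ := a4
    have := OG_polar ⟨k, h.iso c7⟩ (pv (S.piecewise (fun _ => e') fun _ => e)) (pv fun _ => e')
    simp only [c8, LinearMap.smul_apply, h.wr.ph_pv h.pv, polar_add_left, polar_add_right, polar_smul_left,
      polar_smul_right, pv_map h.pv] at this
    rw [Finset.prod_eq_zero (Finset.mem_univ i) (f := fun l => polar q (a l _) (a l _)) (by simp [a1 i hi, he]),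
      Finset.prod_eq_one (f := fun l => polar q (a l _) _) fun l _ => by
        by_cases c : l ∈ S <;> simp [c, a1, a3 l, hp.uv], Finset.prod_eq_one (f := fun l => polar q _ (a l _)) fun l _ => by
        by_cases c : l ∈ S <;> simp [c, a1, a3 l, hp.uv, hp.vu]] at this
    exact mul_ne_zero h2 (mul_ne_zero d1 h.pv.ne) (by simp at this; linear_combination this)
  obtain ⟨g, g1, g0, g2⟩ := a2 j hj
  have j0 : j ∉ S := fun c => Finset.disjoint_left.mp d0 c hj
  have i0 : i ≠ j := by rintro rfl; exact j0 hi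
  by_cases c7 : B = {j}
  · subst c7
    by_cases c8 : ∀ l ≠ j, l ∈ S
    · exact hM (h.Om_le he e0 g1 g0 (fun l a => a1 l (c8 l a)) g2 d1 a4)
    push Not at c8
    obtain ⟨m, m0, m3⟩ := c8
    have m4 : m ≠ i := by rintro rfl; exact m3 hi
    obtain ⟨π, k, c8, c9, p1, p2, p3, p4⟩ := h.cyc m4 m0 i0
    obtain ⟨s', g', g3⟩ := hp.symm.exists_eq_of_perp (x := b₁.1 g) (by simpa [c3, s0, g1] using OG_polar b₁ e g)
    have g4 : q g' = q g := by simpa [← g3] using (hp.symm.Q_comb s' 0 g').symm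
    obtain ⟨b₂, d2, t, t0, d3⟩ := c4 g' (by rw [pp_comm]; exact g'.2)
    have d4 : ∀ l, (a ∘ π.symm) (π l) = a l := fun l => by simp
    have d5 : a m = 1 := a3 m (by simp [m0, m3])
    refine (m1 _ ⟨by simp, _, h.grow he e0 (A := insert j (S.erase i)) (i := i) (m := m) (μ := 1) d1 d1
      (h.mv (b := update (fun _ => b₁) i 1) (fun l => by by_cases c : l = i <;> simp [c, c2]) a4)
      (h.mv (a := a ∘ π.symm) (b := fun _ => b₂) (fun _ => d2) (a4.conj c8 fun v => by simp [h.wr.ph_conj c9]))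
      (l₁ := i) (l₂ := j) (l₃ := i) (l₄ := j) ?_ ?_ ?_ ?_ (by simp [i0]) (by simp [m0, m3, m4]) one_ne_zero ?_ ?_
      (fun l hl hm => ?_) ?_⟩).not_gt (by
        rw [Finset.insert_comm, Finset.insert_erase hi, Finset.card_insert_of_notMem j0]; simp)
    · simp only [update_self, c6, a5]
    · rw [← p2, d4, a1 i hi, og_rk, rk_sq (by simpa)]
    · rw [update_self, c6, ← p1, d4, d5, c5, mul_one, p1, a5]
    · rw [update_of_ne i0.symm, g2, og_wd, ← p2, d4, a1 i hi, og_rk]; ext; simp [polar_comm q (b₁.1 e), polar_comm q (b₁.1 g), mul_comm]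
    · rw [update_self, c6, ← p1, d4, d5, c5, mul_one, p1, a1 i hi, one_smul]
    · rw [update_self, c6, ← p1, d4, d5, c5, one_mul, p1, a1 i hi, one_smul]
    · simp at hl
      rw [← p4 l hm hl.1 hl.2.1, d4, p4 l hm hl.1 hl.2.1, a3 l (by simp [hl.2.1, hl.2.2 hl.1]), c5, c5]; simp
    have d6 : ∀ l ∈ S.erase i, a l = rk q e e ∧ (a ∘ π.symm) l = rk q e e ∧ update (fun _ => b₁) i 1 l = b₁ := fun l hl => by
      simp at hl
      have := p4 l (by rintro rfl; exact m3 hl.2) hl.1 (by rintro rfl; exact j0 hl.2)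
      exact ⟨a1 l hl.2, by rw [← this, d4, a1 l hl.2], by simp [hl.1]⟩
    have d7 : (a ∘ π.symm) j = rk q e e := by rw [← p2, d4, a1 i hi]
    have d8 : (a ∘ π.symm) m = wdg q e g := by rw [← p3, d4, g2]
    rw [Finset.prod_insert (by simp [j0]), Finset.prod_insert (by simp [j0]), Finset.prod_congr rfl (g := fun _ =>
      -(s ^ 2 * t ^ 2 * q g)) fun l hl => ?_, Finset.prod_congr rfl (g := fun _ => -(s ^ 2 * t ^ 2 * q g))
        (f := fun l => polar q e ((b₂.1.toLinearMap * (a ∘ π.symm) l * _) _)) fun l hl => ?_,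
      d5, c5, one_mul, mul_one, ← sub_smul, d7, d8, g2, og_wd, og_wd, og_rk, update_of_ne i0.symm]
    · refine smul_ne_zero ?_ (hW.wd_ne (by simpa) (by simpa) (by simpa) (by simpa))
      rw [← sub_mul]
      refine mul_ne_zero ?_ (by simp [*])
      simp [c3, d3, g3, hp.uu, hp.uv, hp.vu, hp.vv, pp_left, pp_right, pp_left', pp_right', g4]
      intro H
      exact mul_ne_zero (mul_ne_zero (mul_ne_zero h2 h2) (mul_ne_zero s0 g0)) (pow_ne_zero 2 t0) (by linear_combination H)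
    all_goals
      simp only [(d6 l hl).1, (d6 l hl).2.1, (d6 l hl).2.2, og_rk]
      simp [c3, d3, hp.uu, hp.uv, hp.vu, hp.vv, pp_left, pp_right, pp_left', pp_right', g4]; ring
  obtain ⟨f, f1, f0⟩ := hW.pp_ne hp
  obtain ⟨b₂, d2, t, t0, d3⟩ := c4 f f1
  rw [mem_perp_pair] at f1
  have d4 : wdg q e g * wdg q e g * wdg q e g = 0 := by rw [wd_sq he g1]; ext; simp [he, g1]
  refine (m1 _ ⟨by simp, _, h.grow he e0 (A := ((S ∪ B).erase i).erase j) (i := j) (m := i) (μ := -(2 * q g)) d1 d1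
    (h.mv (b := update (update (fun _ => b₁) i 1) j 1) (fun l => by
      by_cases c : l = j <;> by_cases c' : l = i <;> simp [*]) a4)
    (h.mv (b := update ((S.erase i).piecewise (fun _ => b₂) fun _ => b₁) j 1) (fun l => by
      by_cases c : l = j <;> by_cases c' : l ∈ S.erase i <;> simp [*]) a4)
    (l₁ := i) (l₂ := i) (l₃ := j) (l₄ := j) ?_ ?_ ?_ ?_ (by simp) (by simp [i0]) (by simp [*]) ?_ ?_
    (fun l hl hm => ?_) ?_⟩).not_gt ?_
  · simp only [update_of_ne i0, update_self, c6, a5]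
  · rw [a1 i hi, og_rk, rk_sq (by simpa)]
  · simp only [update_self, c6, g2, d4]
  · simp only [update_self, c6, g2, d4]
  · simp only [update_self, c6, g2, wd_sq he g1]
  · simp only [update_self, c6, g2, wd_sq he g1]
  · simp at hl
    rw [a3 l (by simpa using hl.2 hl.1 hm), c5, c5]; simp
  · have d5 : ∀ l ∈ ((S ∪ B).erase i).erase j, ∃ c ≠ 0, ∀ x y, x = (update (update (fun _ => b₁) i 1) j 1 l).1.toLinearMap *
        a l * ((update (update (fun _ => b₁) i 1) j 1 l)⁻¹).1.toLinearMap → y = (update ((S.erase i).piecewise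
          (fun _ => b₂) fun _ => b₁) j 1 l).1.toLinearMap * a l * ((update ((S.erase i).piecewise
            (fun _ => b₂) fun _ => b₁) j 1 l)⁻¹).1.toLinearMap → polar q e (x (y e)) = c ∧ polar q e (y (x e)) = c :=
      fun l hl => by
        simp only [Finset.mem_erase, Finset.mem_union] at hl
        simp only [update_of_ne hl.1, update_of_ne hl.2.1]
        by_cases c : l ∈ S
        · refine ⟨-(s ^ 2 * t ^ 2 * q f), by simp [*], ?_⟩
          rintro _ _ rfl rfl
          simp only [a1 l c, og_rk, Finset.piecewise_eq_of_mem _ _ _ (Finset.mem_erase.mpr ⟨hl.2.1, c⟩)]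
          simp [c3, d3, hp.uu, hp.uv, hp.vu, hp.vv, f1.1, f1.2, polar_comm q f]; constructor <;> ring
        · obtain ⟨g, g1, g0, g2⟩ := a2 l (hl.2.2.resolve_left c)
          refine ⟨-(2 * q g) * s ^ 2, by simp [*], ?_⟩
          rintro _ _ rfl rfl
          simp only [g2, og_wd, Finset.piecewise_eq_of_notMem _ _ _ (fun a => c (Finset.mem_of_mem_erase a)), and_self]
          rw [← End.mul_apply, wd_sq (by simpa) (by simpa)]
          simp [c3, hp.uv, hp.vu, pow_two]
    choose! c d6 d7 using d5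
    rw [Finset.prod_congr rfl fun l hl => (d7 l hl _ _ rfl rfl).1, Finset.prod_congr rfl fun l hl => (d7 l hl _ _ rfl rfl).2,
      ← smul_sub]
    refine smul_ne_zero (Finset.prod_ne_zero_iff.mpr d6) fun H => ?_
    simp only [update_of_ne i0, update_self, c6, a1 i hi, og_rk, Finset.piecewise_eq_of_notMem _ _ _ (S.notMem_erase i)] at H
    simpa [c3, hp.uu, hp.uv, hp.vu, s0, e0] using LinearMap.congr_fun H e
  · rw [Finset.insert_erase (by simp [hj, i0.symm]), Finset.card_erase_of_mem a6, Finset.card_union_of_disjoint d0]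
    have := Finset.card_pos.mpr ⟨j, hj⟩
    have : B.card ≠ 1 := fun c => by
      obtain ⟨x, rfl⟩ := Finset.card_eq_one.mp c
      exact c7 (by simp at hj; rw [hj])
    omega

end OF

end Cfsg.Agent.H18
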