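import Mathlib
import Cfsg.Agent.H18.OwC

/-!
Tensor powers of orthogonal spaces: unipotent radicals.
-/

set_option autoImplicit false

namespace Cfsg.Agent.H18

open Module QuadraticMap H13 H12 Function

variable {F V U W : Type*} [Field F] [AddCommGroup V] [Module F V] [AddCommGroup U] [Module F U]
  [AddCommGroup W] [Module F W] {q : QuadraticForm F W} {Q : QuadraticForm F V} {γ : U →ₗ[F] U →ₗ[F] F}
  {M : Subgroup (V ≃ₗ[F] V)} {e e' f g s y z : W} {N Y Y' Y'' : End F V} {k : V ≃ₗ[F] V}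

/-- Maps raising the filtration attached to `N`. -/
structure LY (N Y : End F V) : Prop where
  l : N * Y = 0
  r : Y * N = 0
  m : ∀ v, N v = 0 → ∃ w, Y v = N w

namespace LY

theorem mm (h : LY N Y) (h' : LY N Y') (v : V) : ∃ w, Y (Y' v) = N w := h.m _ (LinearMap.congr_fun h'.l v)

theorem mk' (h : LY N Y) (h' : LY N Y') (v : V) (hv : N v = 0) : Y (Y' v) = 0 := by
  obtain ⟨w, hw⟩ := h'.m v hv
  exact hw ▸ LinearMap.congr_fun h.r w

theorem mul3 (h : LY N Y) (h' : LY N Y') (h'' : LY N Y'') : Y * (Y' * Y'') = 0 :=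
  LinearMap.ext fun v => h.mk' h' _ (LinearMap.congr_fun h''.l v)

theorem mul4 (h : LY N Y) (h' : LY N Y') (h'' : LY N Y'') (X : End F V) : Y * (Y' * (Y'' * X)) = 0 := by
  rw [← mul_assoc Y', ← mul_assoc, h.mul3 h' h'', zero_mul]

theorem add (h : LY N Y) (h' : LY N Y') : LY N (Y + Y') :=
  ⟨by simp [mul_add, h.l, h'.l], by simp [add_mul, h.r, h'.r], fun v hv =>
    (h.m v hv).elim fun w a => (h'.m v hv).elim fun w' b => ⟨w + w', by simp [a, b]⟩⟩

theorem smul (h : LY N Y) (c : F) : LY N (c • Y) :=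
  ⟨by simp [h.l], by simp [h.r], fun v hv => (h.m v hv).elim fun w a => ⟨c • w, by simp [a]⟩⟩

theorem mul (h : LY N Y) (h' : LY N Y') : LY N (Y * Y') :=
  ⟨by rw [← mul_assoc, h.l, zero_mul], by rw [mul_assoc, h'.r, mul_zero], fun v hv => ⟨0, by simp [h.mk' h' v hv]⟩⟩

theorem conj (h : LY N Y) (hk : ∀ x, N (k x) = k (N x)) (H : ∀ x, Y' (k x) = k (Y x)) : LY N Y' :=
  ⟨LinearMap.ext fun v => by
    obtain ⟨v, rfl⟩ := k.surjective v
    simp [H, hk, show N (Y v) = 0 from LinearMap.congr_fun h.l v], LinearMap.ext fun v => by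
    obtain ⟨v, rfl⟩ := k.surjective v
    simp [H, hk, show Y (N v) = 0 from LinearMap.congr_fun h.r v], fun v hv => by
    obtain ⟨v, rfl⟩ := k.surjective v
    obtain ⟨w, a⟩ := h.m v (by simpa [hk] using hv)
    exact ⟨k w, by rw [H, hk, a]⟩⟩

theorem neg (h : LY N Y) (h2 : (2 : F) ≠ 0) (H : EN M (Y + (2 : F)⁻¹ • (Y * Y))) :
    ∃ g ∈ M, (∀ x, g x = x + (Y + (2 : F)⁻¹ • (Y * Y)) x) ∧ ∀ x, g.symm x = x + (-Y + (2 : F)⁻¹ • (-Y * -Y)) x :=
  H.imp fun g ⟨a, b⟩ => ⟨a, b, fun x => g.symm_apply_eq.mpr (by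
    have := LinearMap.congr_fun (h.mul3 h h)
    simp only [End.mul_apply, LinearMap.zero_apply] at this
    simp [b, this]
    match_scalars <;> field_simp <;> ring)⟩

theorem anti (h : LY N Y) (h2 : (2 : F) ≠ 0) (hM : M ≤ OG Q) (H : EN M (Y + (2 : F)⁻¹ • (Y * Y))) (v w : V) :
    polar Q v (Y w) = -polar Q (Y v) w := by
  obtain ⟨g, a, b, c⟩ := h.neg h2 H
  have d := OG_polar_left ⟨g, hM a⟩ v w
  have d' := OG_polar_right ⟨g, hM a⟩ v w
  simp [OG_inv_apply, b, c] at d d'
  exact mul_left_cancel₀ h2 (by linear_combination d' + d)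

end LY

theorem z_eq (T : TS F U W V) (hp : HP q e e') (h1 : ∀ v, T.i (rk q e e) v = 0 → Y v = 0)
    (h2 : ∀ v, ∃ w, Y v = T.i (rk q e e) w) : Y = T.co (polarBilin q) e' e' Y * T.i (rk q e e) := by
  rw [← rk_c_rk]; ext v
  obtain ⟨w, hw⟩ := h2 v
  have := h1 (v - T.i (rk q e' e) v) (by simp [i_rk, hp.uv])
  rw [map_sub, sub_eq_zero] at this
  simp only [End.mul_apply, ← this, hw]; simp [i_rk, hp.vu]

theorem ly_wd (T : TS F U W V) (he : q e = 0) (hs : polar q e s = 0) [FiniteDimensional F W] (hp : HP q e e') :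
    LY (T.i (rk q e e)) (T.i (wdg q e s)) :=
  ⟨by rw [← map_mul]; convert map_zero T.i; ext; simp [he, hs], by
    rw [← map_mul]; convert map_zero T.i; ext; simp [he, hs, polar_comm q s], fun v hv =>
    ⟨T.i (rk q e' s) v, by
      have := congrArg (T.r (polarBilin q e')) hv
      simp [i_rk, hp.vu] at this
      simp [wdg, i_rk, this, hp.uv]⟩⟩

theorem ie_sieg (T : TS F U W V) (h2 : (2 : F) ≠ 0) (he : q e = 0) (hs : polar q e s = 0) (v : V) :
    T.ie (sieg q e s).1 v = v + (T.i (wdg q e s) + (2 : F)⁻¹ • (T.i (wdg q e s) * T.i (wdg q e s))) v := by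
  rw [T.ie_apply, sieg_eq he hs, ← map_mul, wd_sq he hs]
  simp [smul_smul, h2]; abel

theorem co_dd [FiniteDimensional F W] [Finite F] (H : WH q) {T : TS F U W V} {c : End F V}
    (h : ∀ y, q y = 0 → T.co (polarBilin q) y y c = 0) (hp : HP q e e') (hf : f ∈ pp q e e') :
    T.co (polarBilin q) f e' (DD T q e f c) = (2 * q f) • T.co (polarBilin q) f e c := T.ext fun u w => by
  rw [mem_perp_pair] at hf
  have := LinearMap.congr_fun (co_anti H h hf.1) (T.t u w)
  simp [TS.co] at this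
  simp [TS.co, DD, wdg, i_rk, hp.uv, hf.1, hf.2, polar_comm q f, this]
  module

variable {κ : Type*} [Fintype κ] [DecidableEq κ] {T : κ → TS F U W V} {pv : (κ → W) → V} {ζ : F} {i l : κ}
  {x x' : κ → W} {ρ : End F V}

namespace OF
variable (h : OF Q γ q M T pv ζ) [FiniteDimensional F W] [Nontrivial κ]
include h

theorem co_ent (c : End F V) : polar Q (pv x) ((T l).co (polarBilin q) y z c (pv x')) =
    polar q (x l) (x' l) * polar Q (pv (update x l y)) (c (pv (update x' l z))) := by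
  have := h.wh.nt
  obtain ⟨u, hu⟩ := pv_upd h.pv x l
  obtain ⟨u', hu'⟩ := pv_upd h.pv x' l
  conv_lhs => rw [← update_eq_self l x, ← update_eq_self l x']
  rw [hu, hu, hu', hu']
  simp [TS.co, (h.ot l).map, (h.ot l).B_r, mul_comm]

theorem co_zero {c : End F V} : (T l).co (polarBilin q) y z c = 0 ↔
    ∀ x x', x l = y → x' l = z → polar Q (pv x) (c (pv x')) = 0 := by
  refine ⟨fun H x x' a b => ?_, fun H => LinearMap.ext_on_range h.pv.span fun x' => pv_ext h.pv h.nd fun x => ?_⟩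
  · obtain ⟨w, w', d⟩ := (h.ot l).exists_one
    subst a b
    simpa [H, d] using (h.co_ent (l := l) (y := x l) (z := x' l) (x := update x l w) (x' := update x' l w') c).symm
  · simp [h.co_ent, H]

theorem ph_rk (v : V) : h.wr.ph (fun m => rk q (x m) (x m)) v = (ζ⁻¹ * polar Q (pv x) v) • pv x :=
  LinearMap.congr_fun (LinearMap.ext_on_range h.pv.span (g := ζ⁻¹ • rk Q (pv x) (pv x)) fun y => by
    simp [h.wr.ph_pv h.pv, h.pv_smul, pv_map h.pv, smul_smul, h.pv.ne]) v |>.trans (by simp [smul_smul])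

variable [Finite F]

theorem ph_span (φ : End F V →ₗ[F] F) (D : Finset κ) (H : ∀ b : κ → OG q, (∀ l, b l ∈ Om q) →
    φ (h.wr.ph (D.piecewise (fun l => (b l).1.toLinearMap) 1)) = 0) (a : κ → End F W) :
    φ (h.wr.ph (D.piecewise a 1)) = 0 := by
  induction D using Finset.induction_on generalizing φ with
  | empty => exact H 1 fun _ => one_mem _
  | insert l D c ih =>
    rw [Finset.piecewise_insert, ph_upd h.wr (by simp [c])]
    refine h.wh.mem_of_Om (A := LinearMap.ker (φ ∘ₗ LinearMap.mulLeft F _ ∘ₗ (T l).i.toLinearMap)) (fun b hb =>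
      ih (φ ∘ₗ LinearMap.mulRight F _) fun b' hb' => ?_) (a l)
    have := H (update b' l b) fun m => by by_cases d : m = l <;> simp [*]
    rw [Finset.piecewise_insert, ph_upd h.wr (by simp [c]), Finset.piecewise_congr (f' := fun l => (b' l).1.toLinearMap)
      (g' := 1) _ (fun m hm => by rw [update_of_ne (by rintro rfl; exact c hm)]) fun _ _ => rfl, update_self] at this
    exact this

variable [FiniteDimensional F U] [FiniteDimensional F V] (hM : ¬ Om Q ≤ M.comap (OG Q).subtype)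
include hM

theorem no1 (hy : q y = 0) (y0 : y ≠ 0) (h1 : (T l).Cm ρ) (H : EN M (ρ * (T l).i (rk q y y))) : ρ = 0 :=
  by_contra fun c => h.no_pat hy y0 hM (S := {l}) (B := ∅) (by simp) ⟨Pi.mulSingle l (rk q y y), ρ, c, by simp,
    by simp, by simp, fun m hm => by simp [show m ≠ l by simpa using hm], by simpa, by rwa [h.wr.ph_single]⟩

theorem z0 (hp : HP q e e') (h1 : ∀ v, (T i).i (rk q e e) v = 0 → Y v = 0) (h2 : ∀ v, ∃ w, Y v = (T i).i (rk q e e) w)
    (H : EN M Y) : Y = 0 := by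
  rw [z_eq _ hp h1 h2] at H ⊢
  rw [h.no1 hM hp.Qu hp.ne_left (TS.co_cm _ _ _ _) H, zero_mul]

variable (hp : HP q e e')
include hp

theorem ly_comm (a : LY ((T i).i (rk q e e)) Y) (a' : LY ((T i).i (rk q e e)) Y') (b : EN M (Y + (2 : F)⁻¹ • (Y * Y)))
    (b' : EN M (Y' + (2 : F)⁻¹ • (Y' * Y'))) : Y * Y' = Y' * Y := by
  obtain ⟨g, c1, -, c2⟩ := a.neg h.wh.two b
  obtain ⟨g', d1, -, d2⟩ := a'.neg h.wh.two b'
  refine sub_eq_zero.mp (h.z0 (i := i) hM hp (fun v hv => by simp [a.mk' a' v hv, a'.mk' a v hv]) (fun v =>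
    (a.mm a' v).elim fun w c => (a'.mm a v).elim fun w' d => ⟨w - w', by simp [c, d]⟩) ?_)
  convert ((b.mul b').mul ⟨_, inv_mem c1, c2⟩).mul ⟨_, inv_mem d1, d2⟩ using 1
  have := h.wh.two
  simp only [mul_add, add_mul, smul_mul_assoc, mul_smul_comm, mul_assoc, neg_mul, mul_neg, a.mul3 a a, a.mul3 a a',
    a.mul3 a' a, a.mul3 a' a', a'.mul3 a a, a'.mul3 a a', a'.mul3 a' a, a'.mul3 a' a', a.mul4 a a, a.mul4 a a',
    a.mul4 a' a, a.mul4 a' a', a'.mul4 a a, a'.mul4 a a', a'.mul4 a' a, a'.mul4 a' a', neg_neg,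
    smul_zero, neg_zero, add_zero, smul_neg, mul_zero]
  match_scalars <;> field_simp <;> ring

/-- Logarithms of the elements of the unipotent radical. -/
def XL (i : κ) : AddSubgroup (End F V) := AddSubgroup.ofSub
  {Y | LY ((T i).i (rk q e e)) Y ∧ EN M (Y + (2 : F)⁻¹ • (Y * Y))}
  ⟨0, ⟨by simp, by simp, fun _ _ => ⟨0, by simp⟩⟩, by simp [EN.zero]⟩ fun Y a Y' b => by
    obtain ⟨g, c1, -, c2⟩ := b.1.neg h.wh.two b.2
    refine ⟨by simpa using a.1.add (b.1.smul (-1)), ?_⟩
    convert a.2.mul ⟨_, inv_mem c1, c2⟩ using 1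
    have := h.wh.two
    simp only [mul_add, add_mul, smul_mul_assoc, mul_smul_comm, mul_assoc, neg_mul, mul_neg, a.1.mul3 a.1 b.1,
      a.1.mul3 b.1 b.1, a.1.mul4 a.1 b.1, ← h.ly_comm hM hp a.1 b.1 a.2 b.2, neg_neg, smul_zero,
      neg_zero, add_zero, smul_neg, mul_zero]
    match_scalars <;> field_simp <;> ring

omit [Finite F] in
theorem xl_conj' (hk : k ∈ M) (h1 : ∀ x, N (k x) = k (N x)) (H : ∀ x, Y' (k x) = k (Y x))
    (a : LY N Y ∧ EN M (Y + (2 : F)⁻¹ • (Y * Y))) : LY N Y' ∧ EN M (Y' + (2 : F)⁻¹ • (Y' * Y')) :=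
  ⟨a.1.conj h1 H, a.2.conj hk fun x => by simp [H]⟩

theorem xl_iv (hl : l ≠ i) : IV (T l) q (h.XL hM hp i) := fun b hb c hc =>
  h.xl_conj' hM hp (h.rt l hb) (fun x => LinearMap.congr_fun (h.wr.cm i l hl.symm _ _).eq x) (fun x => by
    rw [TS.ie_apply, TS.ie_apply, ← End.mul_apply, mul_assoc, ← map_mul, og_inv', map_one, mul_one]; rfl) hc

theorem wd_xl (hs : polar q e s = 0) : (T i).i (wdg q e s) ∈ h.XL hM hp i :=
  ⟨ly_wd _ hp.Qu hs hp, _, h.rt i (h.wh.sieg_Om e s), ie_sieg _ h.wh.two hp.Qu hs⟩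

theorem xl_co (hl : l ≠ i) (H : Y ∈ h.XL hM hp i) (y : W) (hy : q y = 0) : (T l).co (polarBilin q) y y Y = 0 := by
  by_cases y0 : y = 0
  · exact (T l).ext fun _ _ => by simp [TS.co, y0]
  obtain ⟨k, k0, hk⟩ := ex1 (U := U) (V := V) h.wh hy y0
  have := (hk _ _ (h.xl_iv hM hp hl) _ H).2
  rw [smul_mul_smul_comm, mul_assoc, ← mul_assoc ((T l).i _), ← (TS.co_cm _ _ _ _ _).eq, mul_assoc, ← map_mul, rk_sq hy,
    ← smul_mul_assoc] at this
  simpa [k0] using h.no1 hM hy y0 (fun a => (TS.co_cm _ _ _ _ a).smul_left k) (by simpa using this)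

theorem xl_sym (H : Y ∈ h.XL hM hp i) (hs : s ∈ pp q e e') (u u' : U) :
    polar Q ((T i).t u s) (Y ((T i).t u' e')) = polar Q ((T i).t u' s) (Y ((T i).t u e')) := by
  rw [mem_perp_pair] at hs
  have a := h.wd_xl hM hp (i := i) hs.1
  have := congrArg (fun c => polar Q ((T i).t u e') (c ((T i).t u' e'))) (h.ly_comm hM hp H.1 a.1 H.2 a.2)
  rw [End.mul_apply, End.mul_apply, H.1.anti h.wh.two h.iso H.2, a.1.anti h.wh.two h.iso a.2 ((T i).t u e')] at this
  simpa [hp.uv, polar_comm q s, hs.2, polar_comm Q (Y _)] using this.symm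

theorem xl_ent (hl : l ≠ i) (H : Y ∈ h.XL hM hp i) (hy : q y = 0) (hf : polar q y f = 0) (f0 : q f ≠ 0)
    (hs : s ∈ pp q e e') (s0 : q s ≠ 0) (h1 : x i = s) (h2 : x l = f) (h3 : x' i = e') (h4 : x' l = y) :
    polar Q (pv x) (Y (pv x')) = 0 := by
  have hW := h.wh
  have := hW.nt
  by_cases y0 : y = 0
  · exact h.co_zero.mp ((T l).ext fun _ _ => by simp [TS.co, y0]) x x' h2 h4
  by_cases c : ∀ m, m = i ∨ m = l
  · obtain ⟨u, hu⟩ := pv_upd h.pv x i
    obtain ⟨u', hu'⟩ := pv_upd h.pv x' i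
    have a1 := h.xl_sym hM hp H hs u u'
    have a2 := fun y z => h.co_ent (l := l) (y := y) (z := z) (x := update x l e) (x' := update x' l e') Y
    have a3 := a2 f y
    rw [co_anti hW (h.xl_co hM hp hl H) hf, LinearMap.neg_apply, polar_neg_right, a2] at a3
    rw [← hu, ← hu', ← hu', ← hu, show update x' i s = update x l y from funext fun m => by
      rcases c m with rfl | rfl <;> simp [*, hl.symm], show update x i e' = update x' l f from funext fun m => by
      rcases c m with rfl | rfl <;> simp [*, hl.symm], ← h1, ← h3] at a1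
    subst h2 h4
    simp only [update_eq_self] at a1
    simp [hp.uv, ← a1] at a3
    exact mul_left_cancel₀ hW.two (by linear_combination -a3)
  obtain ⟨m, c⟩ := not_forall.mp c
  simp only [not_or] at c
  obtain ⟨y', b1, b2, b3⟩ := hW.nd.exists_partner (F ∙ f) hy (fun d => by
    obtain ⟨d, rfl⟩ := Submodule.mem_span_singleton.mp d
    simp [Q_smul, f0] at hy; simp [hy] at y0) fun _ d => by
    obtain ⟨d, rfl⟩ := Submodule.mem_span_singleton.mp d; simp [hf]
  have hq : HP q y y' := ⟨hy, b1, b2⟩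
  have b4 : f ∈ pp q y y' := mem_perp_pair.mpr ⟨hf, b3 f (Submodule.mem_span_singleton_self f)⟩
  have b5 := (h.xl_iv hM hp hl).dd hW hy hf H
  have b6 := h.co_ent (l := l) (y := f) (z := y') (x := update x l e) (x' := update x' l e') (DD (T l) q y f Y)
  rw [co_dd hW (h.xl_co hM hp hl H) hq b4, LinearMap.smul_apply, polar_smul_right, h.co_ent] at b6
  simp only [update_self, update_idem, hp.uv, one_mul, ← h2, ← h4, update_eq_self] at b6
  have b7 : ∀ x : κ → W, x l ∈ F ∙ y → DD (T l) q y f Y (pv x) = 0 := fun x hx => by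
    obtain ⟨u, hu⟩ := pv_upd h.pv x l
    obtain ⟨d, hd⟩ := Submodule.mem_span_singleton.mp hx
    have := LinearMap.congr_fun (h.xl_co hM hp hl H y hy) ((T l).t u y)
    rw [← update_eq_self l x, hu, ← hd]
    simp [TS.co] at this
    simp [DD, hy, polar_comm q f, hf, i_rk, this]
  rw [h2, h4] at b6
  generalize DD (T l) q y f Y = Z at b5 b6 b7
  have b8 : ∀ (g g' : OG q), g.1 e = e → g'.1 y' ∈ F ∙ y → polar Q (Z (pv (update x' l y'))) (h.wr.ph (update (update
      (fun m => rk q (x m) (x m)) i g.1.toLinearMap) l g'.1.toLinearMap) (Z (pv (update x' l y')))) = 0 :=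
    fun g g' c1 c2 => by
      let t : κ → OG q := Pi.mulSingle i g * Pi.mulSingle m g⁻¹ * (Pi.mulSingle l g' * Pi.mulSingle m g'⁻¹)
      have c3 : pe h.wr q t ∈ M := by
        simp only [t, map_mul, pe_single]; exact mul_mem (h.two i m g) (h.two l m g')
      convert h.ph_span ((polarBilin Q (Z (pv (update x' l y')))) ∘ₗ LinearMap.applyₗ (Z (pv (update x' l y'))) ∘ₗ
        LinearMap.mulLeft F (pe h.wr q t).toLinearMap) ((Finset.univ.erase i).erase l) (fun b hb => ?_)
        fun m => ((t m)⁻¹).1.toLinearMap * rk q (x m) (x m) using 1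
      · rw [pe_coe]
        simp only [LinearMap.comp_apply, LinearMap.mulLeft_apply, ← map_mul]
        congr 3; ext1 n
        by_cases d : n = l
        · ext; simp [d, t, hl, c.2, Ne.symm c.2]
        by_cases d' : n = i
        · ext; simp [d', t, hl.symm, Ne.symm c.1]
        · simp only [update_of_ne d, update_of_ne d', Pi.mul_apply, Finset.piecewise_eq_of_mem _ _ _
            (show n ∈ (Finset.univ.erase i).erase l by simp [*]), ← mul_assoc, og_inv, one_mul]
      let b' := t * ((Finset.univ.erase i).erase l).piecewise b 1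
      have c4 : pe h.wr q b' ∈ M := map_mul (pe h.wr q) _ _ ▸ mul_mem c3 (h.pe_Om fun n => by
        by_cases d : n ∈ (Finset.univ.erase i).erase l <;> simp [-Finset.mem_erase, *])
      have c5 := h.xl_conj' hM hp c4 (Y' := (pe h.wr q b').toLinearMap * Z * (pe h.wr q b').symm.toLinearMap)
        (fun v => LinearMap.congr_fun (show (T i).i (rk q e e) * (pe h.wr q b').toLinearMap = (pe h.wr q b').toLinearMap *
          (T i).i (rk q e e) by
          rw [pe_coe, ← h.wr.ph_single, ← map_mul, ← map_mul]; congr 1; ext1 n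
          by_cases d : n = i
          · ext w; simp [d, b', t, hl.symm, Ne.symm c.1, c1, ← OG_polar g e w]
          · simp [d]) v) (by simp) b5
      have c6 := congrArg (fun c => polar Q (pv (update x' l y')) (c (pe h.wr q b' (pv (update x' l y')))))
        (h.ly_comm hM hp b5.1 c5.1 b5.2 c5.2)
      simp only [End.mul_apply, LinearEquiv.coe_coe, LinearEquiv.symm_apply_apply, h.pe_pv,
        b7 (fun n => (b' n).1 (update x' l y' n)) (by simpa [b', t, hl, Ne.symm c.2]), map_zero, polar_zero_right,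
        b5.1.anti hW.two h.iso b5.2, neg_eq_zero] at c6
      rw [← h.pe_pv, LinearEquiv.symm_apply_apply, map_mul, LinearEquiv.mul_apply] at c6
      rw [show ((Finset.univ.erase i).erase l).piecewise (fun l => (b l).1.toLinearMap) 1 = fun n =>
        (((Finset.univ.erase i).erase l).piecewise b 1 n).1.toLinearMap from funext fun n => by
          by_cases d : n ∈ (Finset.univ.erase i).erase l <;> simp [-Finset.mem_erase, d]; rfl, ← pe_coe]
      exact c6
  have b9 : (refl q (y - (1 : F) • y')).1 y' ∈ F ∙ y := by rw [hq.refl_right one_ne_zero]; simp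
  have c1 : (refl q s).1 e = e := refl_apply_of_perp (by rw [polar_comm]; exact (mem_perp_pair.mp hs).1)
  have c2 : (refl q (y - (1 : F) • y') * refl q f).1 y' ∈ F ∙ y := by
    rwa [OG_mul_apply, refl_apply_of_perp (v := f) (by rw [polar_comm]; exact (mem_perp_pair.mp b4).2)]
  have c3 := h.ph_rk (x := x) (Z (pv (update x' l y')))
  rw [← update_eq_self i (fun m => rk q (x m) (x m)), ← update_eq_self l (update _ _ _), update_of_ne hl, h1, h2,
    show rk q s s = q s • ((1 : OG q).1.toLinearMap - (refl q s).1.toLinearMap) by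
      rw [refl_eq]; ext; simp [smul_smul, s0], show rk q f f = q f • ((refl q (y - (1 : F) • y')).1.toLinearMap -
        (refl q (y - (1 : F) • y') * refl q f).1.toLinearMap) by
      rw [og_mul, refl_eq f]; ext; simp [smul_smul, f0, -one_smul, hq.refl_pp 1 ⟨f, b4⟩]] at c3
  have c4 := congrArg (polar Q (Z (pv (update x' l y')))) c3
  have c0 : ∀ a b, h.wr.ph (update (update (fun m => rk q (x m) (x m)) i a) l b) =
      h.wr.ph (update (update (fun m => rk q (x m) (x m)) l 1) i 1) * (T i).i a * (T l).i b := fun a b => by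
    rw [h.wr.ph_update, update_comm hl.symm, h.wr.ph_update]
  have c5 := fun g g' a b => by simpa only [c0] using b8 g g' a b
  simp only [c0, map_smul, map_sub, mul_sub, sub_mul, mul_smul_comm, smul_mul_assoc,
    LinearMap.smul_apply, LinearMap.sub_apply, polar_smul_right, polar_sub_right, c5 1 _ rfl b9, c5 1 _ rfl c2,
    c5 _ _ c1 b9, c5 _ _ c1 c2, polar_comm Q (Z _) (pv x), ← b6] at c4
  simpa [h.pv.ne, f0, hW.two] using c4

theorem xl_eq (H : Y ∈ h.XL hM hp i) : ∃ s, polar q e s = 0 ∧ Y = (T i).i (wdg q e s) := by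
  have hW := h.wh
  have := hW.nt
  have a1 := hW.pp_ind hp (p := fun s => ∃ d : F, ∀ u, (T i).r (polarBilin q s) (Y ((T i).t u e')) = d • u) (fun s hs s0 => by
    obtain ⟨d, hd⟩ := h.wr.cen (c := (T i).co (polarBilin q) s e' Y) fun l => by
      by_cases hl : l = i
      · exact hl ▸ TS.co_cm _ _ _ _
      exact cm_of_co hW (fun y hy => h.co_zero.mpr fun x x' a b => by
        rw [h.co_ent, h.co_zero.mp (h.xl_co hM hp hl H y hy) _ _ (by simpa [hl]) (by simpa [hl]), mul_zero])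
        fun y f hy hf f0 => h.co_zero.mpr fun x x' a b => by
          rw [h.co_ent, h.xl_ent hM hp hl H hy hf f0 hs s0 (by simp) (by simpa [hl]) (by simp) (by simpa [hl]), mul_zero]
    exact ⟨d, fun u => ten_left_inj (T i).h hp.ne_left (by simpa [TS.co] using LinearMap.congr_fun hd ((T i).t u e))⟩)
    fun _ _ ⟨d, a⟩ ⟨d', b⟩ => ⟨d - d', fun u => by simp [a, b, sub_smul]⟩
  obtain ⟨u₀, hu⟩ := @exists_ne _ (h.ot i).nt (0 : U)
  obtain ⟨φ, hφ⟩ := Module.Projective.exists_dual_eq_one F hu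
  obtain ⟨z, hz⟩ := hW.exists_repr (φ ∘ₗ (T i).r.flip (Y ((T i).t u₀ e')) ∘ₗ polarBilin q)
  have a2 : ∀ v, (T i).r (polarBilin q e) (Y v) = 0 := fun v => ten_left_inj (T i).h hp.ne_left (by
    simpa [i_rk] using LinearMap.congr_fun H.1.l v)
  have a3 : polar q e z = 0 := by simpa [a2, polar_comm q z] using LinearMap.congr_fun hz e
  have a4 := add_mem H (h.wd_xl hM hp a3)
  have a5 : ∀ v, ∃ w, (Y + (T i).i (wdg q e z)) v = (T i).i (rk q e e) w := fun v => by
    obtain ⟨w, b⟩ := a4.1.m (v - (T i).t ((T i).r (polarBilin q e) v) e') (by simp [i_rk, hp.uv])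
    obtain ⟨u, c⟩ := (h.ot i).eq_right hp.ne_left (v := (Y + (T i).i (wdg q e z)) ((T i).t ((T i).r (polarBilin q e) v) e'))
      fun w hw => by
        obtain ⟨a, w, rfl⟩ := hp.exists_eq_of_perp (x := w) (by rwa [polar_comm])
        obtain ⟨d, hd⟩ := a1 w w.2
        have := LinearMap.congr_fun hz w
        simp [hd, hφ] at this
        simp [a2, hd, hp.uu, hp.uv, a3, pp_left', polar_comm q w.1 z, this]
    exact ⟨w + (T i).t u e', by rw [map_sub, c, sub_eq_iff_eq_add] at b; simp [b, hp.uv]⟩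
  have a6 : ∀ v, (T i).i (rk q e e) v = 0 → (Y + (T i).i (wdg q e z)) v = 0 := fun v hv => h.nd _ fun w => by
    obtain ⟨w', b⟩ := a5 w
    rw [polar_comm, a4.1.anti hW.two h.iso a4.2, b, (h.ot i).adj (b' := rk q e e) (by simp [polar_comm q e, mul_comm]), hv]
    simp
  refine ⟨-z, by simp [a3], ?_⟩
  rw [eq_neg_of_add_eq_zero_left (h.z0 hM hp a6 a5 ?_), ← map_neg]
  · congr 1; ext; simp; abel
  · convert a4.2 using 1
    rw [left_eq_add, show (Y + (T i).i (wdg q e z)) * (Y + (T i).i (wdg q e z)) = 0 from LinearMap.ext fun v =>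
      (a5 v).elim fun w b => by rw [End.mul_apply, b]; exact LinearMap.congr_fun a4.1.r w, smul_zero]

theorem ls (hk : k ∈ M) (H : LY ((T i).i (rk q e e)) (k.toLinearMap - 1)) :
    ∃ s, polar q e s = 0 ∧ k = (T i).ie (sieg q e s).1 := by
  have h2 := h.wh.two
  have a1 : ∀ v, k v = v + ((k.toLinearMap - 1 + -(2 : F)⁻¹ • ((k.toLinearMap - 1) * (k.toLinearMap - 1))) + (2 : F)⁻¹ •
      ((k.toLinearMap - 1 + -(2 : F)⁻¹ • ((k.toLinearMap - 1) * (k.toLinearMap - 1))) *
        (k.toLinearMap - 1 + -(2 : F)⁻¹ • ((k.toLinearMap - 1) * (k.toLinearMap - 1))))) v := fun v => by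
    simp only [mul_add, add_mul, smul_mul_assoc, mul_smul_comm, mul_assoc, H.mul3 H H, H.mul4 H H]
    simp
  obtain ⟨s, a, b⟩ := h.xl_eq hM hp (i := i) ⟨H.add ((H.mul H).smul _), k, hk, a1⟩
  exact ⟨s, a, LinearEquiv.ext fun v => by rw [a1, b, ie_sieg _ h2 hp.Qu a]⟩

end OF

end Cfsg.Agent.H18
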