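import Mathlib
import Cfsg.Agent.H18.OwD

/-!
Tensor powers of orthogonal spaces: two factors with a common parabolic subspace.
-/

set_option autoImplicit false

namespace Cfsg.Agent.H18

open Module QuadraticMap H13 H12 Function

variable {F V U W : Type*} [Field F] [AddCommGroup V] [Module F V] [AddCommGroup U] [Module F U]
  [AddCommGroup W] [Module F W] {q : QuadraticForm F W} {Q : QuadraticForm F V} {γ : U →ₗ[F] U →ₗ[F] F}
  {M : Subgroup (V ≃ₗ[F] V)} {e e' f g s y y' z : W} {N Y X : End F V} {k : V ≃ₗ[F] V} {T T' : TS F U W V}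

theorem n_zero (e0 : e ≠ 0) {v : V} : T.i (rk q e e) v = 0 ↔ T.r (polarBilin q e) v = 0 :=
  ⟨fun h => ten_left_inj T.h e0 (by simpa [i_rk] using h), fun h => by simp [i_rk, h]⟩

theorem ly_iff (hp : HP q e e') : LY (T.i (rk q e e)) Y ↔ (∀ v, T.r (polarBilin q e) (Y v) = 0) ∧
    (∀ u, Y (T.t u e) = 0) ∧ ∀ v, T.r (polarBilin q e) v = 0 → ∃ u, Y v = T.t u e :=
  ⟨fun h => ⟨fun v => (n_zero hp.ne_left).mp (LinearMap.congr_fun h.l v), fun u => by
    simpa [hp.uv] using LinearMap.congr_fun h.r (T.t u e'), fun v hv =>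
      (h.m v ((n_zero hp.ne_left).mpr hv)).elim fun w a => ⟨_, a.trans (i_rk ..)⟩⟩,
    fun h => ⟨LinearMap.ext fun v => (n_zero hp.ne_left).mpr (h.1 v), LinearMap.ext fun v => by simp [i_rk, h.2.1],
      fun v hv => (h.2.2 v ((n_zero hp.ne_left).mp hv)).elim fun u a => ⟨T.t u e', by simp [a, hp.uv]⟩⟩⟩

theorem torus_act (hp : HP q e e') (c : Fˣ) {v : V} (hv : T.r (polarBilin q e) v = 0) :
    ∃ u, T.ie (hp.torus c).1 v = v + T.t u e :=
  T.ind_ker hp.uv (p := fun v => ∃ u, T.ie (hp.torus c).1 v = v + T.t u e) ⟨0, by simp⟩ (fun u w hw => by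
    obtain ⟨a, w, rfl⟩ := hp.exists_eq_of_perp (x := w) hw
    exact ⟨((c - 1) * a) • u, by simp [hp.torus_left, hp.torus_pp]; module⟩)
    (fun _ _ ⟨u, a⟩ ⟨u', b⟩ => ⟨u + u', by simp [a, b]; abel⟩) hv

variable [FiniteDimensional F W]

theorem WH.pair [Finite F] (H : WH q) (hp : HP q e e') (h3 : ∀ c : F, c ≠ 0 → c ^ 2 = 1) (hs : s ∈ pp q e e')
    (s0 : q s ≠ 0) : ∃ v ∈ pp q e e', polar q s v = 0 ∧ q v = q s := by
  have h4 := H.hq.resolve_left fun ⟨c, a, b⟩ => b (h3 c a)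
  have a0 : ∀ v, q v ≠ 0 → q v = q s ∨ q v = -q s := fun v hv => sq_eq_sq_iff_eq_or_eq_neg.mp ((h3 _ hv).trans (h3 _ s0).symm)
  obtain ⟨v, c1, c2, c3⟩ := exists_orth H.two (hp.nd_pp H.nd) (by have := hp.finrank_pp; omega) hs s0
  refine (a0 v c3).elim (fun a => ⟨v, c1, c2, a⟩) fun a => ?_
  have h2 := H.two
  have a1 : q (s + v) = 0 := by simp [Q_add, a, c2]
  have a2 := mem_perp_pair.mp (add_mem hs c1)
  have a3 := H.nl e (s + v) hp.Qu a1 a2.1 hp.ne_left fun d => by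
    obtain ⟨d, hd⟩ := Submodule.mem_span_singleton.mp d
    simpa [← hd, (mem_perp_pair.mp hs).1, polar_comm q s e, c2, h2, s0] using
      (show polar q s (s + v) = 2 * q s by simp [c2]).symm
  have a4 : HP (q.restrict (pp q e e')) ⟨s + v, add_mem hs c1⟩ ⟨(2 * 2 * q s)⁻¹ • (s - v),
      Submodule.smul_mem _ _ (sub_mem hs c1)⟩ := ⟨a1, by simp [Q_smul, Q_sub, a, c2], by
    change polar q (s + v) ((2 * 2 * q s)⁻¹ • (s - v)) = 1
    simp [c2, polar_comm q v s, a]; field_simp; ring⟩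
  obtain ⟨w, hw⟩ := a4.exists_pp_ne_zero (hp.nd_pp H.nd) (by have := hp.finrank_pp; omega)
  have b1 : polar q (s + v) w.1.1 = 0 := pp_left w
  have b2 : polar q ((2 * 2 * q s)⁻¹ • (s - v)) w.1.1 = 0 := pp_right w
  simp [h2, s0] at b1 b2
  have b3 : polar q s w.1.1 = 0 := mul_left_cancel₀ h2 (by linear_combination b1 + b2)
  refine (a0 w.1.1 hw).elim (fun b => ⟨_, w.1.2, b3, b⟩) fun b => ⟨v + w.1.1, add_mem c1 w.1.2, by simp [b3, c2], ?_⟩
  rw [Q_add, a, b]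
  linear_combination b1 - b3 - q s * h3 2 h2

namespace OT
variable (h : OT Q γ q T) (h' : OT Q γ q T')
include h

theorem exists_γ : ∃ u u', γ u u' = 1 := by
  obtain ⟨u, hu⟩ := @exists_ne _ h.nt (0 : U)
  obtain ⟨u', a⟩ := not_forall.mp fun c : ∀ y, γ y u = 0 => hu (h.ext (x' := 0) fun y => (c y).trans (by simp))
  exact ⟨(γ u' u)⁻¹ • u', u, by simp [a]⟩

theorem ly_of (hp : HP q e e') (hk : k ∈ OG Q) (h1 : ∀ u, k (T.t u e) = T.t u e)
    (h2 : ∀ v, T.r (polarBilin q e) v = 0 → ∃ u, k v = v + T.t u e) : LY (T.i (rk q e e)) (k.toLinearMap - 1) :=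
  (ly_iff hp).mpr ⟨fun v => h.ext fun u => by
    simpa [← h.B_r, h1, sub_eq_zero] using OG_polar ⟨k, hk⟩ (T.t u e) v, by simp [h1], fun v hv =>
      (h2 v hv).imp fun u a => by simp [a]⟩

theorem rk_adj (v w : V) : polar Q (T.i (rk q y z) v) w = polar Q v (T.i (rk q z y) w) :=
  h.adj (fun w w' => by simp [polar_comm q w z, mul_comm]) v w

variable [FiniteDimensional F U]
include h'

theorem sim (H : T.SA T') : ∃ (b : W ≃ₗ[F] W) (μ : F), μ ≠ 0 ∧ (∀ w w', polar q (b w) (b w') = μ * polar q w w') ∧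
    ∀ θ, T'.i θ = T.i (b.toLinearMap * θ * b.symm.toLinearMap) := by
  have := h.nt
  have := h.wh.nt
  obtain ⟨a, b, H⟩ := H.equiv
  obtain ⟨u, u', c⟩ := h.exists_γ
  obtain ⟨w, w', d⟩ := h.exists_one
  have a1 := fun w w' => h'.map u w u' w'
  simp only [H, h.map, c, one_mul] at a1
  have a2 : γ (a u) (a u') ≠ 0 := fun e => by simpa [e, d] using a1 w w'
  exact ⟨b, (γ (a u) (a u'))⁻¹, by simpa, fun w w' => by rw [← a1 w w']; field_simp,
    fun θ => T'.ext fun x z => by rw [TS.i_t]; simp [H]⟩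

theorem sa_Om (H : T.SA T') {ω : OG q} (hω : ω ∈ Om q) : ∃ ω' ∈ Om q, T.ie ω.1 = T'.ie ω'.1 := by
  obtain ⟨b, μ, a1, a2, a3⟩ := h.sim h' H
  let φ : OG q →* OG q := ((MulAut.conj b⁻¹).toMonoidHom.comp (OG q).subtype).codRestrict _ fun g =>
    og_of_polar h.wh.two fun x y => mul_left_cancel₀ a1 (by simp [← a2])
  exact ⟨φ ω, map_mem_commutator φ hω, LinearEquiv.ext fun v => by
    rw [TS.ie_apply, TS.ie_apply, a3]; congr 2; ext; simp [φ]⟩

theorem sa_rk (H : T.SA T') (he : q e = 0) (e0 : e ≠ 0) :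
    ∃ y, q y = 0 ∧ y ≠ 0 ∧ ∃ c : F, c ≠ 0 ∧ T.i (rk q e e) = c • T'.i (rk q y y) := by
  obtain ⟨b, μ, a1, a2, a3⟩ := h.sim h' H
  refine ⟨b.symm e, mul_left_cancel₀ (mul_ne_zero a1 h.wh.two) ?_, by simpa, μ, a1, ?_⟩
  · simpa [he, mul_assoc] using (a2 (b.symm e) (b.symm e)).symm
  · rw [a3, ← map_smul]; congr 1; ext w; simp [smul_smul, ← a2]

end OT

/-- A factor with known unipotent radicals. -/
structure OW (Q : QuadraticForm F V) (γ : U →ₗ[F] U →ₗ[F] F) (q : QuadraticForm F W) (M : Subgroup (V ≃ₗ[F] V))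
    (T : TS F U W V) : Prop extends OT Q γ q T where
  iso : M ≤ OG Q
  rt : ∀ b ∈ Om q, T.ie b.1 ∈ M
  no1 : ∀ y, q y = 0 → y ≠ 0 → ∀ ρ, T.Cm ρ → EN M (ρ * T.i (rk q y y)) → ρ = 0
  lg : ∀ e e', HP q e e' → ∀ Y, LY (T.i (rk q e e)) Y → EN M (Y + (2 : F)⁻¹ • (Y * Y)) →
    ∃ s, polar q e s = 0 ∧ Y = T.i (wdg q e s)
  ls : ∀ e e', HP q e e' → ∀ k ∈ M, LY (T.i (rk q e e)) (k.toLinearMap - 1) →
    ∃ s, polar q e s = 0 ∧ k = T.ie (sieg q e s).1

/-- The centre of the unipotent radical. -/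
structure ZZ (Q : QuadraticForm F V) (N X : End F V) : Prop where
  a : ∀ v w, polar Q v (X w) = -polar Q (X v) w
  k : ∀ v, N v = 0 → X v = 0
  r : ∀ v, ∃ w, X v = N w

omit [FiniteDimensional F W] in
theorem ZZ.mul {X' : End F V} (h : ZZ Q N X) (h' : ZZ Q N X') (hN : N * N = 0) (v : V) : X (X' v) = 0 :=
  (h'.r v).elim fun w a => h.k _ (a ▸ LinearMap.congr_fun hN w)

omit [FiniteDimensional F W] in
theorem n_sq (he : q e = 0) : T.i (rk q e e) * T.i (rk q e e) = 0 := by rw [← map_mul, rk_sq he, map_zero]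

variable [Finite F]

theorem OF.ow {κ : Type*} [Fintype κ] [DecidableEq κ] [Nontrivial κ] {T : κ → TS F U W V} {pv : (κ → W) → V} {ζ : F}
    [FiniteDimensional F U] [FiniteDimensional F V] (h : OF Q γ q M T pv ζ) (hM : ¬ Om Q ≤ M.comap (OG Q).subtype)
    (i : κ) : OW Q γ q M (T i) :=
  ⟨h.ot i, h.iso, fun _ => h.rt i, fun _ a b _ => h.no1 hM a b, fun _ _ hp _ a b => h.xl_eq hM hp ⟨a, b⟩,
    fun _ _ hp _ => h.ls hM hp⟩

namespace OW
variable (h : OW Q γ q M T) (h' : OW Q γ q M T')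
include h

theorem nil_zero (hp : HP q e e') (hX : ZZ Q (T.i (rk q e e)) X) {D : End F V} (h1 : D * D * D = 0)
    (h2 : X = D * T.i (rk q e e)) (h3 : ∀ ω ∈ Om q, ex X * T.ie ω.1 * (ex X)⁻¹ ∈ M) : X = 0 := by
  have hW := h.wh
  have := hW.nt
  have t2 := hW.two
  obtain ⟨ξ, a1⟩ := TS.exists_j (T.co_cm e' e' X (β := polarBilin q))
  have a2 := z_eq T hp hX.k hX.r
  rw [a1] at a2
  have a3 : ∀ u, D (T.t u e) = T.t (ξ u) e := fun u => by
    simpa [hp.uv] using LinearMap.congr_fun (h2.symm.trans a2) (T.t u e')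
  have a4 : ∀ u, ξ (ξ (ξ u)) = 0 := fun u => ten_left_inj T.h hp.ne_left (by
    simpa [a3] using LinearMap.congr_fun h1 (T.t u e))
  let E : End F W → End F W → Prop := fun a b => EN M (T.j ξ * T.i a + T.j ξ * T.j ξ * T.i b)
  have b1 : ∀ {a b a' b'}, E a b → E a' b' → E (a + a') (b + b' + a * a') := fun x y => by
    convert x.mul y using 1
    exact T.ext fun _ _ => by simp [a4]; abel
  have b2 : ∀ {a b}, E a b → E (-a) (a * a - b) := fun ⟨g, x, y⟩ => ⟨g⁻¹, inv_mem x, fun v => g.symm_apply_eq.mpr (by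
    rw [y]; exact T.h.inductionOn v (by simp) (fun _ _ => by simp [a4]; abel) fun _ _ a b => by
      simp only [map_add] at a b ⊢; linear_combination (norm := abel) a + b)⟩
  have b3 : ∀ ω ∈ Om q, ∀ {a b}, E a b → E (ω.1.toLinearMap * a * (ω⁻¹).1.toLinearMap)
      (ω.1.toLinearMap * b * (ω⁻¹).1.toLinearMap) := fun ω hω a b x => x.conj (h.rt ω hω) fun v =>
    T.h.inductionOn v (by simp) (fun _ _ => by simp [-OG_inv_apply, OG_inv_apply_apply]) fun _ _ a b => by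
      simp only [map_add, a, b]
  let Y₁ : AddSubgroup (End F V) := AddSubgroup.ofSub {c | ∃ a b, c = T.i a ∧ E a b}
    ⟨0, 0, 0, by simp, by simp [E, EN.zero]⟩ (by
      rintro _ ⟨a, b, rfl, x⟩ _ ⟨a', b', rfl, y⟩; exact ⟨_, _, by simp, b1 x (b2 y)⟩)
  obtain ⟨ω, c1, c, c0, c2⟩ := hW.pt hp.Qu hp.ne_left hp.Qv hp.ne_right
  obtain ⟨κ, κ0, c3⟩ := ex1 (U := U) (V := V) hW hp.Qu hp.ne_left
  have c4 := hX.mul hX (n_sq hp.Qu)
  obtain ⟨a, b, c5, c6⟩ := c3 T Y₁ (by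
    rintro ω hω _ ⟨a, b, rfl, x⟩; exact ⟨_, _, by simp only [map_mul], b3 ω hω x⟩)
    (T.i (rk q e e - rk q (ω.1 e) (ω.1 e))) ⟨_, -(rk q e e * rk q (ω.1 e) (ω.1 e)), rfl, _,
      mul_mem (h3 ω c1) (inv_mem (h.rt ω c1)), fun v => by
        rw [← map_inv]
        simp only [LinearEquiv.mul_apply, LinearEquiv.coe_inv, ex_apply c4, ex_symm c4]
        rw [a2]
        exact T.h.inductionOn v (by simp) (fun u w => by
          obtain ⟨w, rfl⟩ := ω.1.surjective w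
          simp [hp.Qu, (T.ie ω.1).symm_apply_eq.mpr (T.ie_t ω.1 u w).symm]; module) fun _ _ a b => by
            simp only [map_add, map_sub] at a b ⊢; linear_combination (norm := abel) a + b⟩
  obtain rfl : a = (-(κ * c ^ 2)) • rk q e e := sub_eq_zero.mp (h.i_inj (by
    rw [map_sub, ← c5]; exact T.ext fun _ _ => by simp [TS.co, c2, hp.uu, hp.uv, hp.vu]; module))
  obtain ⟨f, d1, d2⟩ := hW.pp_ne hp
  rw [mem_perp_pair] at d1
  have d3 := b3 ω c1 c6
  have d4 := b1 (b1 (b1 c6 d3) (b2 c6)) (b2 d3)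
  have d5 := b1 d4 (b2 (b3 _ (hW.sieg_Om e f) d4))
  rw [mul_smul_comm, smul_mul_assoc, og_rk] at d5
  have d6 : EN M ((κ ^ 2 * c ^ 6) • (T.j ξ * T.j ξ * T.i (wdg q e f))) := by
    convert d5 using 1
    refine T.ext fun u w => ?_
    simp [← sieg_neg hp.Qu d1.1, sieg_apply hp.Qu d1.1, sieg_apply hp.Qu (show polar q e (-f) = 0 by simp [d1.1]), c2,
      hp.uu, hp.uv, hp.vu, hp.vv, d1.1, d1.2, polar_comm q f, hp.Qu]
    module
  obtain ⟨s, -, d7⟩ := h.lg e e' hp ((κ ^ 2 * c ^ 6) • (T.j ξ * T.j ξ * T.i (wdg q e f))) ((ly_iff hp).mpr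
    ⟨fun v => by simp [wdg, i_rk, hp.Qu, d1.1], fun u => by simp [hp.Qu, polar_comm q f, d1.1], fun v hv =>
      ⟨_, by simp only [wdg, i_rk, map_sub, LinearMap.smul_apply, End.mul_apply, LinearMap.sub_apply, hv, map_zero,
        LinearMap.zero_apply, sub_zero, TS.j_t]; rw [← LinearMap.smul_apply, ← map_smul]⟩⟩) (by
      convert d6 using 1
      rw [add_eq_left]; exact T.ext fun _ _ => by simp [a4])
  have d8 : ∀ u, ξ (ξ u) = ((κ ^ 2 * c ^ 6 * (2 * q f))⁻¹ * polar q f s) • u := fun u => by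
    have := congrArg (T.r (polarBilin q f)) (LinearMap.congr_fun d7 (T.t u e'))
    simp [hp.uv, polar_comm q f e', polar_comm q f e, d1, smul_smul] at this
    rw [mul_smul, ← this, smul_smul, inv_mul_cancel₀ (by simp [*]), one_smul]
  have d9 : ∀ u, ξ (ξ u) = 0 := fun u => by
    have := a4 u
    rw [d8, smul_eq_zero] at this
    exact this.elim (fun a => by rw [d8, a, zero_smul]) fun a => by simp [a]
  have := h.no1 e hp.Qu hp.ne_left ((-(κ * c ^ 2)) • T.j ξ) (fun a => (T.comm_ij a ξ).smul_left _) (by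
    convert c6 using 1; exact T.ext fun _ _ => by simp [d9])
  simp [κ0, c0] at this
  simp [a2, this]

variable [FiniteDimensional F U] {a : End F U} (hy : HP q y y') (H : ∀ x, T'.t x y = T.t (a x) e)
include h' hy H

omit [Finite F] in
theorem basic : Bijective a ∧ e ≠ 0 ∧ q e = 0 ∧ ∀ v, T.r (polarBilin q e) v = 0 ↔ T'.r (polarBilin q y) v = 0 := by
  have a0 : Injective a := (injective_iff_map_eq_zero _).mpr fun x c => by_contra fun d =>
    ten_ne_zero T'.h d hy.ne_left (by simp [H, c])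
  have a1 := LinearMap.injective_iff_surjective.mp a0
  obtain ⟨x, x', a2⟩ := h.exists_γ
  have a3 : e ≠ 0 := fun c => ten_ne_zero T'.h (show x ≠ 0 by rintro rfl; simp at a2) hy.ne_left (by simp [H, c])
  obtain ⟨x, rfl⟩ := a1 x
  obtain ⟨x', rfl⟩ := a1 x'
  refine ⟨⟨a0, a1⟩, a3, by simpa [H, h.map, a2, hy.Qu, h.wh.two] using h'.map x y x' y, fun v =>
    ⟨fun c => h.ext fun u => by rw [← h'.B_r, H, h.B_r, c]; simp, fun c => h.ext fun u => ?_⟩⟩
  obtain ⟨u, rfl⟩ := a1 u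
  rw [← h.B_r, ← H, h'.B_r, c]; simp

variable (hp : HP q e e')
include hp

omit [Finite F] in
theorem ly_tr : LY (T.i (rk q e e)) Y ↔ LY (T'.i (rk q y y)) Y := by
  obtain ⟨a1, -, -, a2⟩ := h.basic h' hy H
  simp only [ly_iff hp, ly_iff hy, a2, H]
  exact and_congr_right' (and_congr a1.2.forall (forall₂_congr fun _ _ => a1.2.exists))

theorem rf (hs : s ∈ pp q e e') (s0 : q s ≠ 0) (hf : polar q y f = 0) (h1 : T.i (wdg q e s) = T'.i (wdg q y f)) {c : F}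
    (h2 : T'.i (rk q y y) = c • T.i (rk q e e)) (h3 : c * q f = q s) {v : V} (hv : T.r (polarBilin q e) v = 0) :
    ∃ u, T'.ie (refl q f).1 v = T.ie (refl q s).1 v + T.t u e := by
  obtain ⟨a1, -, -, a2⟩ := h.basic h' hy H
  rw [mem_perp_pair] at hs
  have b1 := LinearMap.congr_fun h1 v
  obtain ⟨u, b2⟩ := ((ly_iff hp).mp (ly_wd T hp.Qu hs.1 hp)).2.2 (c • T'.i (rk q y' f) v - T.i (rk q e' s) v)
    ((n_zero hp.ne_left).mp (by
      rw [map_sub, map_smul, ← LinearMap.smul_apply, ← h2]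
      simp [wdg, i_rk, hv, (a2 v).mp hv] at b1
      simp [i_rk, hy.uv, hp.uv, b1]))
  rw [map_sub, map_smul, h1, ← End.mul_apply, ← map_mul, ← h1, ← End.mul_apply, ← map_mul] at b2
  have f0 : q f ≠ 0 := fun d => s0 (by simp [← h3, d])
  have c0 : c ≠ 0 := fun d => s0 (by simp [← h3, d])
  refine ⟨(q s)⁻¹ • (u - (c * polar q f y') • a (T'.r (polarBilin q f) v)), ?_⟩
  simp [wdg, sub_mul, rk_mul, i_rk, hy.uv, hp.uv, polar_comm q s e', hs.2, H] at b2
  simp only [TS.ie_apply, refl_eq, map_sub, map_smul, map_one, LinearMap.sub_apply, LinearMap.smul_apply, i_rk,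
    End.one_apply, ← b2, ← h3]
  match_scalars <;> field_simp <;> ring

theorem stab_a : ∃ X, ZZ Q (T.i (rk q e e)) X ∧ (T.act (ex X)).SA T' := by
  have hW := h.wh
  have t2 := hW.two
  obtain ⟨a1, -, -, a2⟩ := h.basic h' hy H
  have a3 : ∀ f, polar q y f = 0 → ∃ s, polar q e s = 0 ∧ T'.i (wdg q y f) = T.i (wdg q e s) := fun f hf =>
    h.lg e e' hp _ ((h.ly_tr h' hy H hp).mpr (ly_wd T' hy.Qu hf hy)) ⟨_, h'.rt _ (hW.sieg_Om y f), ie_sieg _ t2 hy.Qu hf⟩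
  obtain ⟨c, c0, a4⟩ : ∃ c : F, c ≠ 0 ∧ T'.i (rk q y y) = c • T.i (rk q e e) := by
    obtain ⟨f, b1, b2⟩ := hW.pp_ne hy
    obtain ⟨s, b3, b4⟩ := a3 f (mem_perp_pair.mp b1).1
    have := congrArg₂ (· * ·) b4 b4
    simp only [← map_mul, wd_sq hy.Qu (mem_perp_pair.mp b1).1, wd_sq hp.Qu b3, map_smul] at this
    have b5 : T'.i (rk q y y) = (q s / q f) • T.i (rk q e e) := by
      rw [← inv_smul_smul₀ (show -(2 * q f) ≠ 0 by simp [*]) (T'.i (rk q y y)), this, smul_smul]; congr 1; field_simp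
    exact ⟨_, fun d => hW.rk_ne hy.ne_left hy.ne_left (h'.i_inj (by simp [b5, d])), b5⟩
  have a5 : ∀ s s' f f', polar q e s = 0 → polar q e s' = 0 → polar q y f = 0 → polar q y f' = 0 →
      T.i (wdg q e s) = T'.i (wdg q y f) → T.i (wdg q e s') = T'.i (wdg q y f') → c * polar q f f' = polar q s s' :=
    fun s s' f f' b1 b2 b3 b4 b5 b6 => by
      have := congrArg₂ (· * ·) b5 b6
      simp only [← map_mul, wdg, mul_sub, sub_mul, rk_mul, b1, b2, b3, b4, polar_comm q s e, polar_comm q f y, hp.uu,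
        hy.uu, zero_smul, map_sub, map_smul, a4, smul_smul, map_zero] at this
      simpa [hW.rk_ne hp.ne_left hp.ne_left, mul_comm, eq_comm] using h.i_inj (b := (polar q s s' - polar q f f' * c) •
        rk q e e) (by rw [map_smul, sub_smul]; linear_combination (norm := abel) -this) |> smul_eq_zero.mp |>.imp_left
          sub_eq_zero.mp
  have a6 : ∀ u, a u = c • T.r (polarBilin q e) (T'.t u y') := fun u => ten_left_inj T.h hp.ne_left (by
    simpa [hy.uv, H, i_rk] using LinearMap.congr_fun a4 (T'.t u y'))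
  have a7 : ∀ g ∈ Om q, ∀ g' ∈ Om q, ∀ l μ : F, l ≠ μ → ∀ s, polar q e s = 0 → g'.1 y' = l • y' →
      (∀ w, polar q s (g.1 w) = μ * polar q s w) → (∀ u, T'.ie g'.1 (T.t u e) = T.ie g.1 (T.t u e)) →
      (∀ v, T.r (polarBilin q e) v = 0 → ∃ u, T'.ie g'.1 v = T.ie g.1 (v + T.t u e)) →
      ∃ d : F, ∀ u, T.r (polarBilin q s) (T'.t u y') = d • a u := fun g b1 g' b2 l μ b3 s b4 b5 b6 b7 b8 => by
    have c1 := mul_mem (inv_mem (h.rt g b1)) (h'.rt g' b2)
    obtain ⟨s₀, c2, c3⟩ := h.ls e e' hp _ c1 (h.ly_of hp (h.iso c1) (fun u => (T.ie g.1).symm_apply_eq.mpr (b7 u))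
      fun v hv => (b8 v hv).imp fun u c => (T.ie g.1).symm_apply_eq.mpr c)
    refine ⟨-(l - μ)⁻¹ * μ * polar q s s₀ * c⁻¹, fun u => ?_⟩
    have c4 := congrArg (T.r (polarBilin q s)) (DFunLike.congr_fun (inv_mul_eq_iff_eq_mul.mp c3) (T'.t u y'))
    rw [← map_mul, T.ie_apply, T.r_i, show polarBilin q s ∘ₗ (g.1 * (sieg q e s₀).1).toLinearMap =
      μ • (polarBilin q s - polar q s s₀ • polarBilin q e) from LinearMap.ext fun w => by
        simp [b6, sieg_apply hp.Qu c2, polar_comm q s e, b4]; ring] at c4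
    simp [b5] at c4
    have := sub_ne_zero.mpr b3
    rw [a6, ← inv_smul_smul₀ this (T.r _ _), sub_smul, c4]
    match_scalars <;> field_simp <;> ring
  have a8 := hW.pp_ind hp (p := fun s => ∃ d : F, ∀ u, T.r (polarBilin q s) (T'.t u y') = d • a u) (fun s hs s0 => by
    have b0 := mem_perp_pair.mp hs
    by_cases b1 : ∃ t : F, t ≠ 0 ∧ t ^ 2 ≠ 1
    · obtain ⟨t, t0, t1⟩ := b1
      refine a7 _ (torus_sq_Om hW.nd t2 hp (Units.mk0 t t0)) _ (torus_sq_Om hW.nd t2 hy (Units.mk0 t t0)) _ 1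
        (by simpa using t1) s b0.1 (hy.torus_right _) (fun w => by
          rw [OG_polar_right, ← map_inv, hp.torus_pp _ ⟨s, hs⟩, one_mul]) (fun u => ?_) fun v hv => ?_
      · obtain ⟨u, rfl⟩ := a1.2 u
        rw [T.ie_t, ← H, T'.ie_t, hy.torus_left, hp.torus_left, map_smul, map_smul, H]
      · obtain ⟨u, b2⟩ := torus_act hp (Units.mk0 t t0 ^ 2) hv
        obtain ⟨u', b3⟩ := torus_act hy (Units.mk0 t t0 ^ 2) ((a2 v).mp hv)
        exact ⟨(t ^ 2)⁻¹ • (a u' - u), by rw [map_add, b2, b3, T.ie_t, hp.torus_left]; simp [H, smul_smul, t0]⟩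
    obtain ⟨s', b2, b3, b4⟩ := hW.pair hp (fun c a => by_contra fun b => b1 ⟨c, a, b⟩) hs s0
    have b5 : ∀ s ∈ pp q e e', ∃ f ∈ pp q y y', T.i (wdg q e s) = T'.i (wdg q y f) := fun s hs => by
      obtain ⟨f, c1, c2⟩ := h'.lg y y' hy _ ((h.ly_tr h' hy H hp).mp (ly_wd T hp.Qu (mem_perp_pair.mp hs).1 hp))
        ⟨_, h.rt _ (hW.sieg_Om e s), ie_sieg _ t2 hp.Qu (mem_perp_pair.mp hs).1⟩
      obtain ⟨d, f, rfl⟩ := hy.exists_eq_of_perp c1
      exact ⟨f, f.2, c2.trans (congrArg _ (by ext; simp; module))⟩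
    obtain ⟨f, c1, c2⟩ := b5 s hs
    obtain ⟨f', c3, c4⟩ := b5 s' b2
    have c5 := mem_perp_pair.mp b2
    rw [mem_perp_pair] at c1 c3
    have c6 : c * q f = q s := mul_left_cancel₀ t2 (by
      simpa [mul_left_comm] using a5 _ _ _ _ b0.1 b0.1 c1.1 c1.1 c2 c2)
    have c7 : c * q f' = q s' := mul_left_cancel₀ t2 (by
      simpa [mul_left_comm] using a5 _ _ _ _ c5.1 c5.1 c3.1 c3.1 c4 c4)
    have c8 : ∀ f, polar q y f = 0 → ∀ u, T'.ie (refl q f).1 (T.t u e) = T.t u e := fun f hf u => by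
      obtain ⟨u, rfl⟩ := a1.2 u
      rw [← H, T'.ie_t, refl_apply_of_perp (by rwa [polar_comm])]
    have c9 : ∀ s, polar q e s = 0 → (refl q s).1 e = e := fun s hs => refl_apply_of_perp (by rwa [polar_comm])
    refine a7 _ (hW.nd.refl_mul_refl_mem_commutator s0 b4.symm) _ (hW.nd.refl_mul_refl_mem_commutator (a := f) (b := f')
      (fun d => s0 (by simp [← c6, d])) (mul_left_cancel₀ c0 (by rw [c6, c7, b4]))) 1 (-1)
      (fun d => t2 (by linear_combination d)) s b0.1 (by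
        simp [OG_mul_apply, refl_apply, polar_comm q f, polar_comm q f', c1, c3]) (fun w => by
        simp [OG_mul_apply, refl_apply, b3]; field_simp; ring) (fun u => by
        simp [c8 _ c1.1, c8 _ c3.1, c9 _ b0.1, c9 _ c5.1]) fun v hv => ?_
    obtain ⟨u, d1⟩ := h.rf h' hy H hp b2 (b4 ▸ s0) c3.1 c4 a4 c7 hv
    obtain ⟨u', d2⟩ := h.rf h' hy H hp hs s0 c1.1 c2 a4 c6 (v := T.ie (refl q s').1 v) (by
      rw [T.ie_apply, T.r_i, ← hv]; congr 2; ext; simp [refl_apply, c5.1])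
    exact ⟨u + u', by simp [d1, d2, c8 _ c1.1, c9 _ b0.1, c9 _ c5.1]; abel⟩)
    fun _ _ ⟨d, a⟩ ⟨d', b⟩ => ⟨d - d', fun u => by simp [a, b, sub_smul]⟩
  obtain ⟨u₀, hu⟩ := @exists_ne _ h.nt (0 : U)
  obtain ⟨u₀, rfl⟩ := a1.2 u₀
  obtain ⟨φ, hφ⟩ := Module.Projective.exists_dual_eq_one F hu
  obtain ⟨z, hz⟩ := hW.exists_repr (φ ∘ₗ T.r.flip (T'.t u₀ y') ∘ₗ polarBilin q)
  have b0 : ∀ u, T.r (polarBilin q e) (T'.t u y') = c⁻¹ • a u := fun u => by simp [a6 u, c0]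
  have b1 : polar q e z = c⁻¹ := by simpa [b0, hφ, polar_comm q z] using LinearMap.congr_fun hz e
  have b2 : polar q e (z - (c * q z) • e) = c⁻¹ := by simp [b1, hp.Qu]
  have b3 : q (z - (c * q z) • e) = 0 := by simp [Q_sub, Q_smul, hp.Qu, polar_comm q z, b1]; field_simp; ring
  have b4 : ∀ u, ∃ u', T'.t u y' - T.t (a u) (z - (c * q z) • e) = T.t u' e := fun u => h.eq_right hp.ne_left fun w hw => by
    obtain ⟨a, w, rfl⟩ := hp.exists_eq_of_perp (x := w) (by rwa [polar_comm])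
    obtain ⟨d, hd⟩ := a8 w w.2
    have := LinearMap.congr_fun hz w
    simp [hd, hφ] at this
    simp [b0, b1, hd, hp.uu, pp_left', polar_comm q w.1 z, this]
  generalize z - (c * q z) • e = z' at b2 b3 b4
  let A := LinearEquiv.ofBijective a a1
  let ξ : End F U := c • T.r (polarBilin q e') ∘ₗ (T'.t.flip y' ∘ₗ A.symm.toLinearMap - T.t.flip z')
  have b5 : ∀ u, T'.t u y' = T.t (a u) z' + c⁻¹ • T.t (ξ (a u)) e := fun u => by
    obtain ⟨u', b⟩ := b4 u
    have : A.symm (a u) = u := A.symm_apply_apply u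
    rw [sub_eq_iff_eq_add'] at b
    simp [ξ, this, b, hp.vu, c0]
  have b6 : ZZ Q (T.i (rk q e e)) (T.j ξ * T.i (rk q e e)) := ⟨fun v w => by
    obtain ⟨u, d1⟩ := a1.2 (T.r (polarBilin q e) v)
    obtain ⟨u', d2⟩ := a1.2 (T.r (polarBilin q e) w)
    have := h'.map u y' u' y'
    simp [b5, h.map, hy.Qv, hp.Qu, b3, b2, polar_comm q z', d1, d2] at this
    simp only [End.mul_apply, i_rk, TS.j_t, polar_comm Q v, h.B_r, h.symm (ξ (T.r _ w))]
    exact mul_left_cancel₀ (pow_ne_zero 2 (inv_ne_zero c0)) (by linear_combination this),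
    fun v hv => by simp [hv], fun v => ⟨T.j ξ v, LinearMap.congr_fun (T.comm_ij _ _).eq v⟩⟩
  have b7 := b6.mul b6 (n_sq hp.Qu)
  refine ⟨_, b6, TS.act_of_SA _ hφ fun w => ?_⟩
  obtain ⟨α, β, f, rfl⟩ := hy.exists_eq w
  obtain ⟨s, d1, d2⟩ := a3 f (pp_left f)
  refine ⟨α • e + β • z' + (c⁻¹ • s - polar q s z' • e), fun x => ?_⟩
  have := LinearMap.congr_fun d2 (T'.t x y')
  conv_rhs at this => rw [b5]
  simp [hy.uv, pp_right', b2, hp.Qu, polar_comm q s e, d1, neg_eq_iff_eq_neg] at this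
  simp [ex_apply b7, H, b5, this, hp.Qu, b2, d1]
  module

end OW

end Cfsg.Agent.H18
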