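import Mathlib
import Cfsg.Agent.H18.OwE

/-!
Tensor powers of orthogonal spaces: stabilisers of parabolic subspaces.
-/

set_option autoImplicit false

namespace Cfsg.Agent.H18

open Module QuadraticMap H13 H12 Function

variable {F V U W : Type*} [Field F] [AddCommGroup V] [Module F V] [AddCommGroup U] [Module F U]
  [AddCommGroup W] [Module F W] {q : QuadraticForm F W} {Q : QuadraticForm F V} {γ : U →ₗ[F] U →ₗ[F] F}
  {M : Subgroup (V ≃ₗ[F] V)} {e e' f g s y y' z : W} {N Y X X' : End F V} {k : V ≃ₗ[F] V} {T T' : TS F U W V}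

theorem ex_zero : ex (0 : End F V) = 1 := LinearEquiv.ext fun v => by rw [ex_apply (by simp)]; simp

namespace ZZ

theorem zero : ZZ Q N 0 := ⟨by simp, by simp, fun _ => ⟨0, by simp⟩⟩

theorem add (h : ZZ Q N X) (h' : ZZ Q N X') : ZZ Q N (X + X') :=
  ⟨fun v w => by simp [h.a, h'.a, add_comm], fun v hv => by simp [h.k v hv, h'.k v hv], fun v =>
    (h.r v).elim fun w a => (h'.r v).elim fun w' b => ⟨w + w', by simp [a, b]⟩⟩

theorem neg (h : ZZ Q N X) : ZZ Q N (-X) :=
  ⟨fun v w => by simp [h.a], fun v hv => by simp [h.k v hv], fun v => (h.r v).elim fun w a => ⟨-w, by simp [a]⟩⟩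

theorem smul {c : F} (h : ZZ Q (c • N) X) : ZZ Q N X :=
  ⟨h.a, fun v hv => h.k v (by simp [hv]), fun v => (h.r v).elim fun w a => ⟨c • w, by simp [a]⟩⟩

theorem conj (h : ZZ Q N X) (hk : k ∈ OG Q) (h1 : ∀ v, N (k v) = k (N v)) (H : ∀ v, X' (k v) = k (X v)) : ZZ Q N X' :=
  ⟨k.surjective.forall₂.mpr fun v w => by
    rw [H, H]; exact (OG_polar ⟨k, hk⟩ ..).trans ((h.a v w).trans (congrArg _ (OG_polar ⟨k, hk⟩ ..).symm)),
  k.surjective.forall.mpr fun v hv => by rw [H, h.k v (by simpa [h1] using hv), map_zero],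
  k.surjective.forall.mpr fun v => (h.r v).elim fun w a => ⟨k w, by rw [H, h1, a]⟩⟩

theorem og (h : ZZ Q N X) (hN : N * N = 0) (h2 : (2 : F) ≠ 0) : ex X ∈ OG Q :=
  og_of_polar h2 fun v w => by simp [ex_apply (h.mul h hN), h.a, h.mul h hN]

theorem ex_add (h : ZZ Q N X) (h' : ZZ Q N X') (hN : N * N = 0) : ex (X + X') = ex X * ex X' :=
  LinearEquiv.ext fun v => by
    rw [LinearEquiv.mul_apply, ex_apply (h.mul h hN), ex_apply (h'.mul h' hN), ex_apply ((h.add h').mul (h.add h') hN)]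
    simp [h.mul h' hN]; abel

theorem act_i (h : ZZ Q (T.i (rk q e e)) X) (he : q e = 0) : (T.act (ex X)).i (rk q e e) = T.i (rk q e e) :=
  LinearMap.ext fun v => by
    have a := h.mul h (n_sq he)
    have b := LinearMap.congr_fun (n_sq (T := T) he)
    obtain ⟨w, c⟩ := h.r v
    simp only [End.mul_apply, LinearMap.zero_apply] at b
    simp [TS.act_i, ex_apply a, ex_symm a, c, b, h.k _ (b _)]

end ZZ

variable [FiniteDimensional F W]

theorem OT.zz_zero (h : OT Q γ q T) (hp : HP q e e') (hX : ZZ Q (T.i (rk q e e)) X)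
    (H : ∀ v w, polar Q v (T.co (polarBilin q) e' e' X w) = polar Q w (T.co (polarBilin q) e' e' X v)) : X = 0 :=
  LinearMap.ext fun w => h.nd _ fun v => mul_left_cancel₀ h.wh.two (by
    have := hX.a v w
    have a := fun v w => congrArg (fun c => polar Q v (c w)) (z_eq T hp hX.k hX.r)
    have b := a w v
    rw [← (T.co_cm _ _ _ _).symm.eq, End.mul_apply, ← h.rk_adj, H, ← End.mul_apply, ← a] at b
    rw [polar_comm Q (X v), b, polar_comm] at this
    linear_combination this)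

/-- The factors of the families. -/
def GG (Q : QuadraticForm F V) (γ : U →ₗ[F] U →ₗ[F] F) (q : QuadraticForm F W) (M : Subgroup (V ≃ₗ[F] V))
    (κ : Type*) [Fintype κ] [DecidableEq κ] (ζ : F) : Set (TS F U W V) :=
  {T | ∃ (T' : κ → TS F U W V) (pv : (κ → W) → V) (i : κ), OF Q γ q M T' pv ζ ∧ T' i = T}

variable {κ : Type*} [Fintype κ] [DecidableEq κ] {ζ : F} {G : Set (TS F U W V)}

omit [FiniteDimensional F W] in
theorem GG.act (h : T ∈ GG Q γ q M κ ζ) (hk : k ∈ M) : T.act k ∈ GG Q γ q M κ ζ :=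
  let ⟨_, _, i, a, b⟩ := h; ⟨_, _, i, a.act hk, b ▸ rfl⟩

/-- The displacements to factors with the same parabolic subspace. -/
def NN (Q : QuadraticForm F V) (G : Set (TS F U W V)) (T : TS F U W V) (N X : End F V) : Prop :=
  ZZ Q N X ∧ ∃ T' ∈ G, (T.act (ex X)).SA T'

variable [FiniteDimensional F U] [Nontrivial U] [Nontrivial W]

theorem NN.shift (h : NN Q G T N X) (hN : N * N = 0) (h' : ZZ Q N X') (H : (T.act (ex X')).SA T') :
    NN Q G T' N (X + -X') := by
  obtain ⟨a, T'', b, c⟩ := h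
  refine ⟨a.add h'.neg, T'', b, (H.act (k := ex (X + -X'))).symm.trans ?_⟩
  rwa [TS.act_act, ← (a.add h'.neg).ex_add h' hN, neg_add_cancel_right]

omit [FiniteDimensional F W] [FiniteDimensional F U] [Nontrivial U] [Nontrivial W] in
theorem NN.conj (h : NN Q (GG Q γ q M κ ζ) T N X) (hN : N * N = 0) (hM : M ≤ OG Q) (hk : k ∈ M) (h0 : T.SA (T.act k))
    (h1 : ∀ v, N (k v) = k (N v)) (H : ∀ v, X' (k v) = k (X v)) : NN Q (GG Q γ q M κ ζ) T N X' := by
  obtain ⟨a, T'', b, c⟩ := h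
  have d := a.conj (hM hk) h1 H
  refine ⟨d, _, GG.act b hk, (h0.act (k := ex X')).trans ?_⟩
  convert c.act (k := k) using 1
  rw [TS.act_act, TS.act_act]; congr 1; ext v
  simp [ex_apply (a.mul a hN), ex_apply (d.mul d hN), H]

omit [Nontrivial U] [FiniteDimensional F U] in
theorem sa_of_cm (h : T.Cm k.toLinearMap) : T.SA (T.act k) := by
  obtain ⟨θ, a⟩ := TS.exists_j h
  exact ⟨θ, 1, fun x z => by simpa using LinearMap.congr_fun a (T.t x z)⟩

variable [Finite F] [Nontrivial κ]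

omit [Nontrivial U] [FiniteDimensional F U] [Nontrivial W] [Nontrivial κ] in
theorem WH.cm (H : WH q) (h : ∀ b ∈ Om q, ∀ v, X (T.ie b.1 v) = T.ie b.1 (X v)) : T.Cm X := fun a =>
  H.mem_of_Om (A := ((Subalgebra.centralizer F {X}).comap T.i).toSubmodule) (fun b hb _ c => by
    rw [c]; exact LinearMap.ext (h b hb)) a X rfl

section
variable {T : κ → TS F U W V} {pv : (κ → W) → V} {i l : κ} (h : OF Q γ q M T pv ζ)
include h

omit [Nontrivial U] [FiniteDimensional F U] in
theorem OF.sum_nn (hp : HP q e e') {c : F} {S : Finset (End F V)}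
    (hS : ∀ X, X ∈ S ↔ NN Q (GG Q γ q M κ ζ) (T i) (c • (T i).i (rk q e e)) X) : ∑ X ∈ S, X = 0 := by
  have a0 : c • (T i).i (rk q e e) * c • (T i).i (rk q e e) = 0 := by simp [n_sq hp.Qu]
  have a1 : ∀ l ≠ i, ∀ b ∈ Om q, ∀ X X', (∀ v, X' ((T l).ie b.1 v) = (T l).ie b.1 (X v)) → X ∈ S → X' ∈ S :=
    fun l hl b hb X X' a d => (hS _).mpr (((hS _).mp d).conj a0 h.iso (h.rt l hb) (sa_of_cm (h.wr.cm l i hl _))
      (LinearMap.congr_fun ((h.wr.cm i l hl.symm (rk q e e) b.1.toLinearMap).smul_left c).eq) a)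
  obtain ⟨d, hd⟩ := h.wr.cen (c := (T i).co (polarBilin q) e' e' (∑ X ∈ S, X)) fun l => by
    by_cases hl : l = i
    · exact hl ▸ TS.co_cm _ _ _ _
    refine fun a => TS.co_comm (h.wr.cm l i hl) (h.wh.cm (fun b hb v => ?_) a) _ _
    have := Finset.sum_equiv (((T l).ie b.1).conjAlgEquiv F).toEquiv (s := S) (t := S) (g := fun X => X) (fun X =>
      ⟨a1 l hl b hb _ _ (by simp [LinearEquiv.conjAlgEquiv_apply]), a1 l hl b⁻¹ (inv_mem hb) _ _ fun v => by
        rw [Subgroup.coe_inv, map_inv]; simp [LinearEquiv.conjAlgEquiv_apply]⟩) fun _ _ => rfl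
    simpa [LinearEquiv.conjAlgEquiv_apply] using (LinearMap.congr_fun this ((T l).ie b.1 v)).symm
  exact (h.ot i).zz_zero hp (Finset.sum_induction _ (ZZ Q _) (fun _ _ => ZZ.add) ZZ.zero fun X hX =>
    ((hS X).mp hX).1.smul) fun v w => by simp [hd, polar_comm Q v]

variable [FiniteDimensional F V] (hM : ¬ Om Q ≤ M.comap (OG Q).subtype)
include hM

omit h [Nontrivial U] [Nontrivial W] in
theorem GG.ow {T : TS F U W V} (h : T ∈ GG Q γ q M κ ζ) : OW Q γ q M T :=
  let ⟨_, _, i, a, b⟩ := h; b ▸ a.ow hM i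

theorem OF.fix_nn (hp : HP q e e') (H : NN Q (GG Q γ q M κ ζ) (T i) ((T i).i (rk q e e)) X)
    (h1 : ∀ l ≠ i, ∀ s ∈ pp q e e', Commute X ((T l).i (sieg q e s).1.toLinearMap)) : X = 0 := by
  have hW := h.wh
  have t2 := hW.two
  have a0 := n_sq (T := T i) hp.Qu
  have a1 := z_eq _ hp H.1.k H.1.r
  have a2 := (T i).co_cm e' e' X (β := polarBilin q)
  have a3 := fun l a s b => TS.co_comm (β := polarBilin q) (h.wr.cm l i a) (h1 l a s b) e' e'
  refine (h.ot i).zz_zero hp H.1 ?_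
  generalize (T i).co (polarBilin q) e' e' X = η at a1 a2 a3
  have a4 : ∀ l ≠ i, ∀ s ∈ pp q e e', Commute η ((T l).i (wdg q e s)) := fun l a s b => by
    have c := (mem_perp_pair.mp b).1
    have := ((a3 l a s b).sub_right (a3 l a _ (neg_mem b))).smul_right (2 : F)⁻¹
    rwa [← map_sub, ← map_smul, show _ • _ = wdg q e s by
      rw [sieg_eq hp.Qu c, sieg_eq hp.Qu (by simp [c])]; ext; simp; match_scalars <;> field_simp <;> ring] at this
  have a5 : ∀ l ≠ i, ∀ v, η ((T l).i (rk q e e) v) = (T l).i (rk q e e) (η v) := fun l a => by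
    obtain ⟨f, b, c⟩ := hW.pp_ne hp
    have := (a4 l a f b).mul_right (a4 l a f b)
    rw [← map_mul, wd_sq hp.Qu (mem_perp_pair.mp b).1, map_smul] at this
    have := this.smul_right (-(2 * q f))⁻¹
    rw [inv_smul_smul₀ (by simp [t2, c])] at this
    exact LinearMap.congr_fun this.eq
  have a6 : ∀ w, (hp.torus (-1)).1 w = w - (2 * polar q e' w) • e - (2 * polar q e w) • e' := fun w => by
    obtain ⟨a, b, w, rfl⟩ := hp.exists_eq w
    rw [hp.torus_apply]; simp [hp.uu, hp.uv, hp.vu, hp.vv, pp_left, pp_right]; module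
  have a7 : (hp.torus (-1))⁻¹ = hp.torus (-1) := by rw [← map_inv, inv_neg_one]
  have a8 : ∀ l v, (T l).i (hp.torus (-1)).1.toLinearMap v =
      v - (2 : F) • (T l).i (rk q e e') v - (2 : F) • (T l).i (rk q e' e) v := fun l v =>
    (T l).h.inductionOn v (by simp) (fun _ _ => by simp [a6, smul_smul]) fun _ _ a b => by
      simp only [map_add, a, b]; module
  have b1 : ∀ l ≠ i, Commute η ((T l).i (hp.torus (-1)).1.toLinearMap) := fun l hl => by
    let t := (T l).i (hp.torus (-1)).1.toLinearMap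
    have c0 : t * t = 1 := by rw [← map_mul, ← og_mul, ← map_mul, neg_mul_neg, one_mul, map_one]; exact map_one _
    have c1 : Commute ((T i).i (rk q e e)) t := h.wr.cm i l hl.symm _ _
    have c2 : Commute ((T i).i (rk q e e)) ((T i).i (hp.torus (-1)).1.toLinearMap) := Commute.map (LinearMap.ext fun w => by
      simp [a6, hp.uu, hp.uv, hp.vu]; module) _
    have c2' := h.two l i (hp.torus (-1))
    rw [a7] at c2'
    have c3 := H.conj (X' := t * η * t * (T i).i (rk q e e)) a0 h.iso c2'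
      ((sa_of_cm (k := (T l).ie (hp.torus (-1)).1) (h.wr.cm l i hl _)).trans (((T i).sa_ie _).act))
      (fun v => LinearMap.congr_fun (c1.mul_right c2).eq v) fun v => LinearMap.congr_fun (show t * η * t *
        (T i).i (rk q e e) * (t * (T i).i (hp.torus (-1)).1.toLinearMap) = t * (T i).i (hp.torus (-1)).1.toLinearMap * X by
        rw [a1, mul_assoc, (c1.mul_right c2).eq, ← mul_assoc, ← mul_assoc, mul_assoc _ t t, c0, mul_one, mul_assoc t η,
          (a2 _).eq, mul_assoc, mul_assoc, mul_assoc]) v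
    obtain ⟨T', c4, c5⟩ := c3.2
    obtain ⟨c6, T'', c7, c8⟩ := H.shift a0 c3.1 c5
    have c9 := GG.ow hM c4
    obtain ⟨y, d1, d2, c, d3, d4⟩ := ((h.ot i).act (c3.1.og a0 t2)).sa_rk c9.toOT c5 hp.Qu hp.ne_left
    rw [c3.1.act_i hp.Qu] at d4
    obtain ⟨y', d5⟩ := hW.nd.exists_hp d1 d2
    have d6 : LY ((T l).i (rk q e e)) (η - t * η * t) := by
      have e1 : ∀ v, t ((T l).i (rk q e e) v) = -(T l).i (rk q e e) v := fun v => by
        simp [t, a8, i_rk, hp.uu, hp.vu]; module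
      have e2 : ∀ v, (T l).i (rk q e e) (t v) = -(T l).i (rk q e e) v := fun v => by
        simp [t, a8, i_rk, hp.uu, hp.uv]; module
      refine ⟨LinearMap.ext fun v => by simp [e2, ← a5 l hl], LinearMap.ext fun v => by simp [e1, a5 l hl], fun v hv =>
        ⟨(2 : F) • (T l).i (rk q e' e') (η v) - (2 : F) • η ((T l).i (rk q e' e') v), ?_⟩⟩
      have e3 := (n_zero hp.ne_left).mp hv
      have e4 := (n_zero hp.ne_left).mp ((a5 l hl v).symm.trans (by rw [hv, map_zero]))
      have e5 : ∀ v, (T l).i (rk q e e') v = (T l).i (rk q e e) ((T l).i (rk q e' e') v) := fun v => by simp [i_rk, hp.uv]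
      rw [LinearMap.sub_apply, End.mul_apply, End.mul_apply, show t v = _ from a8 l v, e5, map_sub, map_sub, map_sub, map_sub,
        map_smul, map_smul, map_smul, a5 l hl, e1, show t (η v) = _ from a8 l _, e5]
      simp [i_rk _ e' e, e3, e4]; abel
    have d7 := c9.nil_zero d5 (X := X + -(t * η * t * (T i).i (rk q e e))) (ZZ.smul (c := c) (by rwa [← d4]))
      (D := c • (η - t * η * t)) (by simp only [smul_mul_smul_comm, mul_assoc _ (η - _), d6.mul3 d6 d6, smul_zero]) (by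
      rw [smul_mul_assoc, ← mul_smul_comm, ← d4, sub_mul, ← a1, sub_eq_add_neg]) fun ω hω => by
        obtain ⟨ω', e1, e2⟩ := (c9.toOT.act (c6.og a0 t2)).sa_Om (GG.ow hM c7).toOT c8 hω
        rw [← TS.act_ie, e2]; exact (GG.ow hM c7).rt _ e1
    rw [a1, ← sub_eq_add_neg, ← sub_mul] at d7
    have d8 := sub_eq_zero.mp (TS.Cm.eq_zero (fun a => (a2 a).sub_left (TS.Cm.mul (TS.Cm.mul (h.wr.cm l i hl _) a2)
      (h.wr.cm l i hl _) a)) (hW.rk_ne hp.ne_left hp.ne_left) d7)
    change η * t = t * η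
    nth_rw 1 [d8]; rw [mul_assoc, c0, mul_one]
  refine sym_of_all h.pv (c := (polarBilin Q).compl₂ η) fun l u w u' w' => ?_
  change polar Q _ (η _) = polar Q _ (η _)
  by_cases hl : l = i
  · obtain ⟨θ, rfl⟩ := TS.exists_j (hl ▸ a2 : (T l).Cm η)
    simp [(h.ot l).map, polar_comm q w]
  have b2 : ∀ w w', polar Q ((T l).t u ((hp.torus (-1)).1 w)) (η ((T l).t u' ((hp.torus (-1)).1 w'))) =
      polar Q ((T l).t u w) (η ((T l).t u' w')) := fun w w' => by
    rw [← TS.ie_t, ← TS.ie_t, show η ((T l).ie (hp.torus (-1)).1 ((T l).t u' w')) = (T l).ie (hp.torus (-1)).1 (η ((T l).t u' w'))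
      from LinearMap.congr_fun (b1 l hl).eq _]
    exact OG_polar ((h.ot l).oi (hp.torus (-1))) _ _
  have b3 : ∀ x, x = e ∨ x = e' → ∀ p : pp q e e', polar Q ((T l).t u x) (η ((T l).t u' p)) = 0 ∧
      polar Q ((T l).t u p) (η ((T l).t u' x)) = 0 := fun x hx p => by
    have c1 := b2 x p
    have c2 := b2 p x
    rw [hp.torus_pp, show (hp.torus (-1)).1 x = -x by
      rcases hx with rfl | rfl <;> simp [hp.torus_left, hp.torus_right]] at c1 c2
    simp only [map_neg, polar_neg_left, polar_neg_right] at c1 c2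
    exact ⟨mul_left_cancel₀ t2 (by linear_combination -c1), mul_left_cancel₀ t2 (by linear_combination -c2)⟩
  have b4 : polar Q ((T l).t u e) (η ((T l).t u' e')) = polar Q ((T l).t u e') (η ((T l).t u' e)) := by
    simpa [← a5 l hl, hp.uv] using (h.ot l).rk_adj (y := e) (z := e) ((T l).t u e') (η ((T l).t u' e'))
  have b5 : ∀ p p' : pp q e e', polar Q ((T l).t u p) (η ((T l).t u' p')) =
      polar q p.1 p' * polar Q ((T l).t u e') (η ((T l).t u' e)) := fun p p' => by
    have := (h.ot l).adj (b := wdg q e p) (b' := -wdg q e p) (fun w w' => by simp [polar_comm q w]; ring) ((T l).t u e')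
      (η ((T l).t u' p'))
    rw [map_neg, LinearMap.neg_apply, ← End.mul_apply, ← (a4 l hl p p.2).eq] at this
    simpa [hp.uv, pp_left, pp_right'] using this
  obtain ⟨a, b, p, rfl⟩ := hp.exists_eq w
  obtain ⟨a', b', p', rfl⟩ := hp.exists_eq w'
  simp [b3, b4, b5, polar_comm q p.1]; ring

theorem OF.nn_zero (hp : HP q e e') (H : NN Q (GG Q γ q M κ ζ) (T i) ((T i).i (rk q e e)) X) : X = 0 := by
  classical
  have hW := h.wh
  have a0 := n_sq (T := T i) hp.Qu
  have := Module.finite_of_finite F (M := End F V)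
  have := Fintype.ofFinite (End F V)
  by_contra X0
  obtain ⟨T', a1, a2⟩ := H.2
  obtain ⟨y, d1, d2, c, d3, d4⟩ := ((h.ot i).act (H.1.og a0 hW.two)).sa_rk (GG.ow hM a1).toOT a2 hp.Qu hp.ne_left
  rw [H.1.act_i hp.Qu] at d4
  obtain ⟨y', d5⟩ := hW.nd.exists_hp d1 d2
  obtain ⟨T', pv', j, h', rfl⟩ := a1
  let A := {X // NN Q (GG Q γ q M κ ζ) (T i) ((T i).i (rk q e e)) X}
  have a3 : (Nat.card A : F) = 0 := by
    have b1 := h.sum_nn (i := i) hp (c := 1) (S := Finset.univ.filter (NN Q (GG Q γ q M κ ζ) (T i) ((T i).i (rk q e e))))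
      (by simp)
    have b2 := h'.sum_nn (i := j) d5 (c := c) (S := Finset.univ.filter (NN Q (GG Q γ q M κ ζ) (T' j) ((T i).i (rk q e e))))
      (by simp [d4])
    rw [← Finset.sum_equiv (Equiv.addRight (-X)) (s := Finset.univ.filter (NN Q (GG Q γ q M κ ζ) (T i) ((T i).i (rk q e e))))
      (fun X' => by
        simp only [Finset.mem_filter, Finset.mem_univ, true_and, Equiv.coe_addRight]
        exact ⟨fun a => a.shift a0 H.1 a2, fun a => by simpa using a.shift a0 H.1.neg (by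
          simpa [TS.act_act, ← H.1.neg.ex_add H.1 a0, ex_zero, TS.act_one] using (a2.act (k := ex (-X))).symm)⟩)
      fun _ _ => rfl] at b2
    simp only [Equiv.coe_addRight, Finset.sum_add_distrib, b1, zero_add, Finset.sum_const, ← Nat.cast_smul_eq_nsmul F,
      smul_eq_zero, neg_eq_zero, X0, or_false] at b2
    rwa [Nat.card_eq_fintype_card, Fintype.card_subtype]
  obtain ⟨p, _⟩ := CharP.exists F
  have := Fact.mk (CharP.char_is_prime F p)
  let φ : Multiplicative (κ → pp q e e') →* V ≃ₗ[F] V := (pe h.wr q).comp (MonoidHom.mk'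
    (fun s => update (fun l => sieg q e (s.toAdd l)) i 1) fun s s' => funext fun l => by
      by_cases c : l = i <;> simp [c, sieg_add hp.Qu, pp_left])
  have a4 : ∀ s, (T i).Cm (φ s).toLinearMap := fun s => pe_coe h.wr _ ▸ h.wr.ph_cm (by simp; rfl)
  let _ : MulAction (Multiplicative (κ → pp q e e')) A :=
    { smul := fun s X => ⟨(φ s).conjAlgEquiv F X.1, X.2.conj (k := φ s) a0 h.iso (h.pe_Om fun l => by
        by_cases c : l = i <;> simp [c, hW.sieg_Om]) (sa_of_cm (a4 s)) (fun v => LinearMap.congr_fun (a4 s _).eq.symm v)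
          (by simp [LinearEquiv.conjAlgEquiv_apply])⟩
      one_smul := fun X => Subtype.ext (LinearMap.ext fun v => show φ 1 (X.1 ((φ 1).symm v)) = _ by rw [map_one]; rfl)
      mul_smul := fun s s' X => Subtype.ext (LinearMap.ext fun v => show φ (s * s') (X.1 ((φ (s * s')).symm v)) =
        φ s (φ s' (X.1 ((φ s').symm ((φ s).symm v)))) by rw [map_mul]; rfl) }
  obtain ⟨⟨X', b1⟩, b2, b3⟩ := IsPGroup.exists_fixed_point_of_prime_dvd_card_of_fixed_point (p := p)
    (G := Multiplicative (κ → pp q e e')) (fun s => ⟨1, by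
      rw [pow_one, ← ofAdd_toAdd s, ← ofAdd_nsmul, ← Nat.cast_smul_eq_nsmul F, CharP.cast_eq_zero, zero_smul]; rfl⟩) A
    ((CharP.cast_eq_zero_iff F p _).mp a3) (a := ⟨0, ZZ.zero, T i, ⟨T, pv, i, h, rfl⟩, ex_zero (F := F) (V := V) ▸ TS.SA.refl⟩)
    fun s => Subtype.ext (map_zero ((φ s).conjAlgEquiv F))
  refine b3 (Subtype.ext (h.fix_nn hM hp b1 fun l hl s hs => LinearMap.ext fun v => ?_).symm)
  have b4 : φ (.ofAdd (Pi.single l ⟨s, hs⟩)) = (T l).ie (sieg q e s).1 := by
    rw [← pe_single h.wr]; refine congrArg (pe h.wr q) (funext fun m => ?_)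
    by_cases c : m = i
    · simp [c, hl.symm]
    · by_cases d : m = l <;> simp [c, d, hl, sieg_zero]
  have b5 : (φ (.ofAdd (Pi.single l ⟨s, hs⟩))).conjAlgEquiv F X' = X' := congrArg Subtype.val (b2 _)
  simpa [b4, LinearEquiv.conjAlgEquiv_apply, ← TS.ie_apply] using
    (LinearMap.congr_fun b5 ((T l).ie (sieg q e s).1 v)).symm

end

theorem GG.stab [FiniteDimensional F V] (hM : ¬ Om Q ≤ M.comap (OG Q).subtype) (h : T ∈ GG Q γ q M κ ζ)
    (h' : T' ∈ GG Q γ q M κ ζ) (hy : q y = 0) (y0 : y ≠ 0) (H : ∀ x, ∃ x', T'.t x y = T.t x' e) : T.SA T' := by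
  have a := GG.ow hM h
  have a' := GG.ow hM h'
  obtain ⟨u, hu⟩ := exists_ne (0 : U)
  obtain ⟨χ, hχ⟩ := Module.Projective.exists_dual_eq_one F (show e ≠ 0 from fun c => (H u).elim fun _ d =>
    ten_ne_zero T'.h hu y0 (by simp [d, c]))
  replace H : ∀ x, T'.t x y = T.t ((T.r χ ∘ₗ T'.t.flip y) x) e := fun x => (H x).elim fun _ d => by simp [d, hχ]
  obtain ⟨y', b⟩ := a.wh.nd.exists_hp hy y0
  obtain ⟨-, c1, c2, -⟩ := a.basic a' b H
  obtain ⟨e', c⟩ := a.wh.nd.exists_hp c2 c1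
  obtain ⟨X, d1, d2⟩ := a.stab_a a' b H c
  obtain ⟨T, pv, i, h, rfl⟩ := h
  rwa [h.nn_zero hM c ⟨d1, T', h', d2⟩, ex_zero] at d2

end Cfsg.Agent.H18
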