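import Mathlib
import Cfsg.Agent.H18.OwF

/-!
Tensor powers of orthogonal spaces: root elements normalising a factor.
-/

set_option autoImplicit false

namespace Cfsg.Agent.H18

open Module QuadraticMap H13 H12 Function

variable {F V U W : Type*} [Field F] [AddCommGroup V] [Module F V] [AddCommGroup U] [Module F U]
  [AddCommGroup W] [Module F W] {q : QuadraticForm F W} {Q : QuadraticForm F V} {γ : U →ₗ[F] U →ₗ[F] F}
  {M : Subgroup (V ≃ₗ[F] V)} {e e' f g s y y' z : W} {k : V ≃ₗ[F] V} {T T' : TS F U W V} {A : End F U} {b : OG q}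

theorem inj_of (H : ∀ u w, k (T.t u w) = T.t (A u) (b.1 w)) (hA : IsNilpotent (A - 1)) {S : Submodule F V}
    (h1 : ∀ v ∈ S, T.j (A - 1) v ∈ S) (h2 : ∀ v ∈ S, T.i (b.1.toLinearMap - 1) v = 0 → v = 0) {v : V} (hv : v ∈ S)
    (h3 : k v = v) : v = 0 := by
  obtain ⟨m, hm⟩ := hA
  have a1 : ∀ v, T.i (b.1.toLinearMap - 1) v = k v - v - T.i b.1.toLinearMap (T.j (A - 1) v) := fun v =>
    T.h.inductionOn v (by simp) (by simp [H]) fun _ _ a b => by simp only [map_add, a, b]; abel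
  have a2 : ∀ v, k (T.j (A - 1) v) = T.j (A - 1) (k v) := fun v =>
    T.h.inductionOn v (by simp) (by simp [H]) fun _ _ a b => by simp only [map_add, a, b]
  suffices ∀ m, ∀ v ∈ S, k v = v → T.j ((A - 1) ^ m) v = 0 → v = 0 from this m v hv h3 (by simp [hm])
  intro m
  induction m with
  | zero => simp +contextual
  | succ m ih => exact fun v a b c => h2 v a (by
      rw [a1, b, ih _ (h1 v a) (by rw [a2, b]) (by rwa [pow_succ, map_mul] at c)]; simp)

variable [FiniteDimensional F W] [FiniteDimensional F U] [Finite F]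

omit [FiniteDimensional F U] in
theorem OT.unip (h : OT Q γ q T) (hk : k ∈ OG Q) (h3 : (k.toLinearMap - 1) ^ 3 = 0) (H : T.SA (T.act k)) :
    ∃ (A : End F U) (b : OG q), (∀ u w, k (T.t u w) = T.t (A u) (b.1 w)) ∧ IsNilpotent (A - 1) := by
  have := h.nt
  have := h.wh.nt
  obtain ⟨a, b, H⟩ := H
  simp only [TS.act_t] at H
  obtain ⟨u, u', hu⟩ := h.exists_γ
  obtain ⟨w, w', hw⟩ := h.exists_one
  have w0 : w' ≠ 0 := by rintro rfl; simp at hw
  have : Nontrivial V := ⟨_, 0, ten_ne_zero T.h (show u' ≠ 0 by rintro rfl; simp at hu) w0⟩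
  obtain ⟨p, _⟩ := CharP.exists F
  have hp := Fact.mk (CharP.char_is_prime F p)
  have := charP_of_injective_algebraMap (algebraMap F (End F V)).injective p
  have := charP_of_injective_algebraMap (algebraMap F (End F U)).injective p
  have a0 : 3 ≤ p := by
    have := hp.1.two_le
    by_contra c
    obtain rfl : p = 2 := by omega
    exact h.wh.two (CharP.cast_eq_zero F 2)
  have a1 : k.toLinearMap ^ p = 1 := by
    rw [← sub_eq_zero, ← one_pow p, ← sub_pow_char_of_commute _ (Commute.one_right _)]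
    exact pow_eq_zero_of_le a0 h3
  have a2 : ∀ (n : ℕ) x z, (k.toLinearMap ^ n) (T.t x z) = T.t ((a ^ n) x) ((b ^ n) z) := fun n => by
    induction n with
    | zero => simp
    | succ n ih => intro x z; simp [pow_succ, H, ih]
  obtain ⟨ν, a3⟩ := (frobeniusEquiv F p).surjective (polar q w ((b ^ p) w'))
  have a4 : (ν • a) ^ p = 1 := LinearMap.ext fun x => by
    simpa [a1, smul_pow, ← a3, frobenius_def, hw] using (congrArg (T.r (polarBilin q w)) (a2 p x w')).symm
  have ν0 : ν ≠ 0 := fun c => by simp [c, hp.1.ne_zero] at a4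
  have a5 : ∀ x z, k (T.t x z) = T.t ((ν • a) x) ((ν⁻¹ • b) z) := fun x z => by simp [H, smul_smul, ν0]
  generalize ν • a = A at a4 a5
  generalize ν⁻¹ • b = b at a5
  have a6 : ∀ x x' z z', γ (A x) (A x') * polar q (b z) (b z') = γ x x' * polar q z z' := fun x x' z z' => by
    rw [← h.map, ← h.map, ← a5, ← a5]; exact OG_polar ⟨k, hk⟩ _ _
  have a7 : ∀ (n : ℕ) x x', polar q (b w) (b w') ^ n * γ ((A ^ n) x) ((A ^ n) x') = γ x x' := fun n => by
    induction n with
    | zero => simp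
    | succ n ih => intro x x'; rw [pow_succ, pow_succ', mul_assoc, End.mul_apply, End.mul_apply, mul_comm (polar ..), a6,
        hw, mul_one, ih]
  have a8 : polar q (b w) (b w') = 1 := (frobeniusEquiv F p).injective (by simpa [a4, hu, frobenius_def] using a7 p u u')
  have a9 : ∀ z z', polar q (b z) (b z') = polar q z z' := fun z z' => by
    simpa [hu, show γ (A u) (A u') = 1 by simpa [a8, hu, hw] using a6 u u' w w'] using a6 u u' z z'
  exact ⟨A, ⟨.ofInjectiveEndo b ((injective_iff_map_eq_zero _).mpr fun z c => h.wh.nd z fun z' => by simp [← a9 z, c]),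
    og_of_polar h.wh.two a9⟩, a5, p, by rw [sub_pow_char_of_commute _ (Commute.one_right _), a4, one_pow, sub_self]⟩

omit [Finite F] in
theorem OT.rank3 (h : OT Q γ q T) (h3 : (k.toLinearMap - 1) ^ 3 = 0) (H : ∀ u w, k (T.t u w) = T.t (A u) (b.1 w))
    (hA : IsNilpotent (A - 1)) {Φ : V →ₗ[F] U × U} (hΦ : ∀ v, Φ v = 0 → k v = v) : A = 1 ∨ b = 1 ∨ (finrank F W = 3 ∧
      ∃ (w : W) (n : End F W), (∀ x, b.1 x = x + n x) ∧ (∀ x, n (n (n x)) = 0) ∧ n (n w) ≠ 0) := by
  have := h.nt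
  have hW := h.wh
  have := finrank_pos (R := F) (M := U)
  refine or_iff_not_imp_left.mpr fun a1 => or_iff_not_imp_left.mpr fun a2 => ?_
  have a0 := fun S a b v c d => inj_of H hA (S := S) a b (v := v) c (hΦ v d)
  obtain ⟨n, hn⟩ : ∃ n : End F W, b.1.toLinearMap - 1 = n := ⟨_, rfl⟩
  have a3 : ∀ x, b.1 x = x + n x := fun x => by simp [← hn]
  rw [hn] at a0
  obtain ⟨x₀, b1, b2⟩ := (Submodule.ne_bot_iff _).mp (show LinearMap.ker (A - 1) ≠ ⊥ from fun c =>
    hA.not_isUnit ((LinearMap.isUnit_iff_ker_eq_bot _).mpr c))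
  have a4 : ∀ w, n (n (n w)) = 0 := fun w => ten_right_inj T.h b2 (by
    have : ∀ w, (k.toLinearMap - 1) (T.t x₀ w) = T.t x₀ (n w) := fun w => by
      simp [H, a3, show A x₀ = x₀ from sub_eq_zero.mp b1]
    simpa only [pow_succ, pow_zero, one_mul, End.mul_apply, this, map_zero, LinearMap.zero_apply] using LinearMap.congr_fun h3 (T.t x₀ w))
  obtain ⟨x, hx⟩ := not_forall.mp fun c : ∀ x, n x = 0 => a2 (OG_ext fun x => by simp [a3, c])
  obtain ⟨w₁, w₂, a5⟩ := exists_inj_pair hW.nd hW.two hx a4 (ν := 1) (by simp [← a3])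
  have a6 : ∀ w₁ w₂, (∀ s t : F, n (s • w₁ + t • w₂) = 0 → s = 0 ∧ t = 0) → ∀ u u',
      T.t u (n w₁) + T.t u' (n w₂) = 0 → u = 0 ∧ u' = 0 := fun w₁ w₂ a u u' c => by
    have := fun l : Dual F U => a (l u) (l u') (by simpa using congrArg (cL T.h l) c)
    exact ⟨(forall_dual_apply_eq_zero_iff F u).mp fun l => (this l).1,
      (forall_dual_apply_eq_zero_iff F u').mp fun l => (this l).2⟩
  by_cases c : ∃ w, n w ∉ Submodule.span F {n w₁, n w₂}
  · obtain ⟨w, c⟩ := c
    obtain ⟨z, c1, c2⟩ := hW.nd.exists_perp_one _ c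
    obtain ⟨⟨⟨u, u'⟩, u''⟩, d1, d2⟩ := (Submodule.ne_bot_iff _).mp (LinearMap.ker_ne_bot_of_finrank_lt
      (f := Φ ∘ₗ ((T.t.flip w₁).coprod (T.t.flip w₂)).coprod (T.t.flip w)) (by simp; omega))
    have d3 : ∀ u u' u'', T.i n (T.t u w₁ + T.t u' w₂ + T.t u'' w) = 0 → u = 0 ∧ u' = 0 ∧ u'' = 0 := fun u u' u'' d => by
      obtain rfl : u'' = 0 := by
        simpa [c2, c1 (n w₁) (Submodule.subset_span (by simp)), c1 (n w₂) (Submodule.subset_span (by simp))] using
          congrArg (T.r (polarBilin q z)) d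
      simpa using a6 _ _ a5 u u' (by simpa using d)
    have := a0 (LinearMap.range (((T.t.flip w₁).coprod (T.t.flip w₂)).coprod (T.t.flip w)))
      (by rintro _ ⟨⟨⟨u, u'⟩, u''⟩, rfl⟩; exact ⟨(((A - 1) u, (A - 1) u'), (A - 1) u''), by
        simp only [LinearMap.coprod_apply, LinearMap.flip_apply, map_add, TS.j_t]⟩)
      (by rintro _ ⟨⟨⟨u, u'⟩, u''⟩, rfl⟩ d; simp [d3 u u' u'' d]) _ ⟨_, rfl⟩ d1
    exact absurd (by simpa [and_assoc] using d3 u u' u'' ((congrArg _ this).trans (map_zero _))) d2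
  push Not at c
  have a7' := finrank_span_pair_eq (LinearIndependent.pair_iff.mpr fun s t (c : s • n w₁ + t • n w₂ = 0) =>
    a5 s t (by simpa))
  have a7 : finrank F (LinearMap.range n) ≤ 2 := (Submodule.finrank_mono (show _ ≤ Submodule.span F {n w₁, n w₂} by
    rintro _ ⟨w, rfl⟩; exact c w)).trans_eq a7'
  have a8 := n.finrank_range_add_finrank_ker
  by_cases d : LinearMap.ker n ≤ LinearMap.range n
  · have b3 := Submodule.finrank_mono d
    have b4 : ∀ x ∈ LinearMap.ker n, ∀ y ∈ LinearMap.ker n, polar q x y = 0 := fun x hx y hy => by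
      obtain ⟨z, rfl⟩ := d hy
      simpa [a3, LinearMap.mem_ker.mp hx] using OG_polar b x z
    have b5 : finrank F W = 3 := by_contra fun b5 => by
      have := hW.h3
      obtain ⟨x, b6, b7⟩ := (Submodule.ne_bot_iff _).mp (show LinearMap.ker n ≠ ⊥ from fun c => by rw [c, finrank_bot] at a8; omega)
      obtain ⟨y, b8, b9⟩ := SetLike.not_le_iff_exists.mp fun c : LinearMap.ker n ≤ F ∙ x => by
        have := (Submodule.finrank_mono c).trans_eq (finrank_span_singleton b7); omega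
      have := hW.nl x y (by simpa [hW.two] using b4 x b6 x b6) (by simpa [hW.two] using b4 y b8 y b8) (b4 x b6 y b8) b7 b9
      omega
    refine ⟨b5, by_contra fun b6 => ?_⟩
    have := Submodule.finrank_mono (show LinearMap.range n ≤ LinearMap.ker n by
      rintro _ ⟨w, rfl⟩; exact by_contra fun c => b6 ⟨w, n, a3, a4, c⟩)
    have := a7'.ge.trans
      (Submodule.finrank_mono (show Submodule.span F {n w₁, n w₂} ≤ LinearMap.range n by simp [Submodule.span_le, Set.pair_subset_iff]))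
    omega
  obtain ⟨w, b3, b4⟩ := SetLike.not_le_iff_exists.mp d
  replace b3 : n w = 0 := b3
  obtain ⟨z, c1, c2⟩ := hW.nd.exists_perp_one _ b4
  replace c1 : ∀ x, polar q z (n x) = 0 := fun x => c1 _ ⟨x, rfl⟩
  obtain ⟨x₁, hx₁⟩ := not_forall.mp fun c : ∀ x, A x = x => a1 (LinearMap.ext c)
  obtain ⟨⟨⟨u, u'⟩, t⟩, d1, d2⟩ := (Submodule.ne_bot_iff _).mp (LinearMap.ker_ne_bot_of_finrank_lt
    (f := Φ ∘ₗ ((T.t.flip (w₁ - polar q z w₁ • w)).coprod (T.t.flip (w₂ - polar q z w₂ • w))).coprod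
      (LinearMap.toSpanSingleton F V (T.t x₁ w))) (by simp))
  obtain rfl : t = 0 := by
    have := congrArg (T.r (polarBilin q z)) (hΦ _ d1)
    simp [H, a3, b3, c1, c2] at this
    exact by_contra fun c => hx₁ (smul_right_injective U c this)
  have d3 : ∀ u u', T.i n (T.t u (w₁ - polar q z w₁ • w) + T.t u' (w₂ - polar q z w₂ • w)) = 0 → u = 0 ∧ u' = 0 :=
    fun u u' d => a6 _ _ a5 u u' (by simpa [b3] using d)
  have := a0 (LinearMap.range ((T.t.flip (w₁ - polar q z w₁ • w)).coprod (T.t.flip (w₂ - polar q z w₂ • w))))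
    (by rintro _ ⟨⟨u, u'⟩, rfl⟩; exact ⟨((A - 1) u, (A - 1) u'), by simp only [LinearMap.coprod_apply, LinearMap.flip_apply,
      map_add, TS.j_t]⟩) (by rintro _ ⟨⟨u, u'⟩, rfl⟩ d; simp [d3 u u' d]) _ ⟨(u, u'), rfl⟩ (by simpa using d1)
  exact absurd (by simpa using d3 u u' ((congrArg _ this).trans (map_zero _))) d2

omit [FiniteDimensional F W] [FiniteDimensional F U] [Finite F] in
theorem sieg_sq (he : q e = 0) (hs : polar q e s = 0) : ((T.ie (sieg q e s).1).toLinearMap - 1) *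
    ((T.ie (sieg q e s).1).toLinearMap - 1) = -(2 * q s) • T.i (rk q e e) := T.ext fun u w => by
  simp [sieg_apply he hs, he, hs, polar_comm q s e]; module

variable {κ : Type*} [Fintype κ] [DecidableEq κ] [Nontrivial κ] {ζ : F} [FiniteDimensional F V] [Nontrivial U]
  [Nontrivial W] (hM : ¬ Om Q ≤ M.comap (OG Q).subtype) (h : T ∈ GG Q γ q M κ ζ) (h' : T' ∈ GG Q γ q M κ ζ)
  (he : q e = 0) (e0 : e ≠ 0)
include hM h he e0

namespace GG

include h' in
theorem sa_of_mem {b : End F W} (hb : T.i (rk q e e) = T'.i b) : T'.SA T := by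
  obtain ⟨e', hp⟩ := (GG.ow hM h).wh.nd.exists_hp he e0
  obtain ⟨u, hu⟩ := exists_ne (0 : U)
  obtain ⟨w, hw⟩ : ∃ w, b w ≠ 0 := by
    by_contra! c
    simpa [hp.uv, show b = 0 from LinearMap.ext c, ten_ne_zero T.h hu e0] using LinearMap.congr_fun hb (T.t u e')
  have a3 : ∀ x, T.t ((T.r (polarBilin q e) ∘ₗ T'.t.flip w) x) e = T'.t x (b w) := fun x => by
    simpa [i_rk] using LinearMap.congr_fun hb (T'.t x w)
  refine GG.stab hM h' h he e0 (e := b w) fun x => ?_
  obtain ⟨x, rfl⟩ := (LinearMap.injective_iff_surjective (f := T.r (polarBilin q e) ∘ₗ T'.t.flip w)).mp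
    (fun x x' c => ten_left_inj T'.h hw (by rw [← a3, ← a3, c])) x
  exact ⟨x, a3 x⟩

variable (hs : polar q e s = 0) (s0 : q s ≠ 0)
include hs s0

theorem sa_of_comm (hk : k ∈ M) (H : Commute k.toLinearMap (T.ie (sieg q e s).1).toLinearMap) : T.SA (T.act k) := by
  obtain ⟨e', hp⟩ := (GG.ow hM h).wh.nd.exists_hp he e0
  have := (H.sub_right (Commute.one_right _)).mul_right (H.sub_right (Commute.one_right _))
  rw [sieg_sq he hs] at this
  exact GG.stab hM h (GG.act h hk) he e0 fun x => ⟨_, by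
    simpa [i_rk, hp.uv, s0, (GG.ow hM h).wh.two] using LinearMap.congr_fun this.eq (T.t x e')⟩

include h'

theorem sa_of_i {b : End F W} (H : ∀ u w, T.ie (sieg q e s).1 (T'.t u w) = T'.t u (b w)) : T'.SA T :=
  sa_of_mem hM h h' he e0 (b := (-(2 * q s))⁻¹ • ((b - 1) * (b - 1))) (by
    rw [← inv_smul_smul₀ (show -(2 * q s) ≠ 0 by simp [s0, (GG.ow hM h).wh.two]) (T.i _), ← sieg_sq he hs]
    exact T'.ext fun _ _ => by simp [H])

omit s0 in
theorem tri (H : T'.SA (T'.act (T.ie (sieg q e s).1))) : ∃ (A : End F U) (b : OG q),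
    (∀ u w, T.ie (sieg q e s).1 (T'.t u w) = T'.t (A u) (b.1 w)) ∧ (A = 1 ∨ b = 1 ∨ (finrank F W = 3 ∧
      ∃ (w : W) (n : End F W), (∀ x, b.1 x = x + n x) ∧ (∀ x, n (n (n x)) = 0) ∧ n (n w) ≠ 0)) := by
  have a := GG.ow hM h
  have a1 : ((T.ie (sieg q e s).1).toLinearMap - 1) ^ 3 = 0 := by
    rw [pow_three, sieg_sq he hs]; exact T.ext fun _ _ => by simp [sieg_apply_self]
  obtain ⟨A, b, c, d⟩ := (GG.ow hM h').unip (a.iso (a.rt _ (a.wh.sieg_Om e s))) a1 H
  exact ⟨A, b, c, (GG.ow hM h').rank3 a1 c d (Φ := (T.r (polarBilin q e)).prod (T.r (polarBilin q s))) fun v hv => by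
    simp at hv; simp [ie_sieg T a.wh.two he hs, wdg, i_rk, hv]⟩

theorem di (H : ∀ c : F, T'.SA (T'.act (T.ie (sieg q e (c • s)).1))) :
    T'.SA T ∨ T'.Cm (T.ie (sieg q e s).1).toLinearMap := by
  have hW := (GG.ow hM h).wh
  have t2 := hW.two
  obtain ⟨A, b, a1, rfl | rfl | ⟨a2, w, n, a3, a4, a5⟩⟩ := tri hM h h' he e0 hs (one_smul F s ▸ H 1)
  · exact .inl (sa_of_i hM h h' he e0 hs s0 (b := b.1) a1)
  · exact .inr fun a => (show _ = T'.j A from T'.ext fun u w => (a1 u w).trans (T'.j_t ..).symm) ▸ T'.comm_ij a A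
  obtain ⟨c, c0, c1⟩ := hW.hq.resolve_right (by omega)
  obtain ⟨A', b', a6⟩ := H c
  have a7 : ∀ v, T.ie (sieg q e (c • s)).1 (T.ie (sieg q e s).1 v) = (1 - c ^ 2) • T.ie (sieg q e s).1 v +
      ((c ^ 2 + c) / 2) • T.ie (sieg q e s).1 (T.ie (sieg q e s).1 v) + ((c ^ 2 - c) / 2) • v := fun v =>
    T.h.inductionOn v (by simp) (fun _ _ => by
      simp [sieg_apply he hs, sieg_apply he (show polar q e (c • s) = 0 by simp [hs]), he, hs, polar_comm q s e, Q_smul]
      match_scalars <;> field_simp <;> ring) fun _ _ a b => by simp only [map_add, a, b]; module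
  have a8 : LinearIndependent F ![w, n w, n (n w)] := Fintype.linearIndependent_iff.mpr fun g hg => by
    simp [Fin.sum_univ_three] at hg
    have b1 : g 0 = 0 := by simpa [a4, a5] using congrArg (fun x => n (n x)) hg
    have b2 : g 1 = 0 := by simpa [a4, a5, b1] using congrArg n hg
    simpa [Fin.forall_fin_succ, b1, b2, a5] using hg
  obtain ⟨z, b1⟩ := hW.nd.exists_polar_eq a8 ![1, -1, 1]
  obtain ⟨z', b2⟩ := hW.nd.exists_polar_eq a8 ![0, 1, -2]
  simp [Fin.forall_fin_succ] at b1 b2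
  have b3 := fun u => a7 (T'.t u w)
  simp only [a1, show ∀ u w, T.ie (sieg q e (c • s)).1 (T'.t u w) = _ from a6] at b3
  have b4 := fun u => congrArg (T'.r (polarBilin q z)) (b3 u)
  have b5 := fun u => congrArg (T'.r (polarBilin q z')) (b3 u)
  simp [a3, b1, b2, one_add_one_eq_two, add_assoc] at b4 b5
  replace b4 : ∀ u, (polar q z (b' w) + polar q z (b' (n w))) • A' (A u) = ((c ^ 2 - c) / 2) • u := fun u => by
    linear_combination (norm := module) b4 u
  replace b5 : ∀ u, (polar q z' (b' w) + polar q z' (b' (n w))) • A' (A u) = (1 - c ^ 2) • A u := fun u => by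
    linear_combination (norm := module) b5 u
  have b6 : (c ^ 2 - c) / 2 ≠ 0 := by
    simp [t2, sub_eq_zero]; intro d; exact c1 (by rw [mul_left_cancel₀ c0 (show c * c = c * 1 by linear_combination d)]; simp)
  refine .inl (sa_of_i hM h h' he e0 hs s0 (b := ((1 - c ^ 2)⁻¹ * (polar q z' (b' w) + polar q z' (b' (n w))) *
    (polar q z (b' w) + polar q z (b' (n w)))⁻¹ * ((c ^ 2 - c) / 2)) • b.1.toLinearMap) fun u x => ?_)
  obtain ⟨u₀, hu⟩ := exists_ne (0 : U)
  rw [a1, ← inv_smul_smul₀ (sub_ne_zero.mpr c1.symm) (A u), ← b5, ← inv_smul_smul₀ (show polar q z (b' w) +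
    polar q z (b' (n w)) ≠ 0 from fun d => by simpa [d, b6, hu] using (b4 u₀).symm) (A' (A u)), b4]
  simp [smul_smul, mul_assoc]

theorem rel_of_cm (H : T'.Cm (T.ie (sieg q e s).1).toLinearMap) : T.Rel T' := by
  have a := GG.ow hM h'
  refine or_iff_not_imp_left.mpr fun c b b' => (a.wh.mem_of_rk (A := ((Subalgebra.centralizer F {T.i b}).comap
    T'.i).toSubmodule) (fun _ x _ y => Subalgebra.mul_mem _ x y) (fun y hy y0 _ d => ?_) b' _ rfl)
  obtain ⟨y', hp⟩ := a.wh.nd.exists_hp hy y0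
  obtain ⟨f, b1, b2⟩ := a.wh.pp_ne hp
  replace b1 := (mem_perp_pair.mp b1).1
  have b3 := (di hM h' h hy y0 b1 b2 fun t => sa_of_comm hM h he e0 hs s0 (a.rt _ (a.wh.sieg_Om _ _))
    (H _).symm).resolve_left c b
  have b4 := ((b3.sub_left (Commute.one_left _)).mul_left (b3.sub_left (Commute.one_left _))).smul_left (-(2 * q f))⁻¹
  rw [sieg_sq hy b1, inv_smul_smul₀ (by simp [b2, a.wh.two])] at b4
  exact d ▸ b4.symm

theorem ti (H : T'.SA (T'.act (T.ie (sieg q e s).1))) : T.Rel T' := by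
  have a := GG.ow hM h'
  obtain ⟨A, b, a1, rfl | rfl | ⟨a2, w, n, a3, a4, a5⟩⟩ := tri hM h h' he e0 hs H
  · exact .inl (sa_of_i hM h h' he e0 hs s0 (b := b.1) a1).symm
  · exact rel_of_cm hM h h' he e0 hs s0 fun a =>
      (show _ = T'.j A from T'.ext fun u w => (a1 u w).trans (T'.j_t ..).symm) ▸ T'.comm_ij a A
  have b1 : ∀ x, polar q (n (n w)) (n x) = 0 := fun x => by simpa [a3, a4] using OG_polar b (n (n w)) x
  have b2 : q (n (n w)) = 0 := by simpa [a.wh.two] using b1 (n w)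
  have b3 : q (n w) ≠ 0 := fun c => by
    have := a.wh.nl _ _ b2 c (b1 w) a5 fun d => by
      obtain ⟨d, hd⟩ := Submodule.mem_span_singleton.mp d
      simpa [a4, a5.symm] using congrArg n hd
    omega
  refine ((di hM h' h b2 a5 (b1 w) b3 fun t => sa_of_comm hM h he e0 hs s0 (a.rt _ (a.wh.sieg_Om _ _))
    (T'.ext fun u x => ?_)).elim .inl fun c => (rel_of_cm hM h' h b2 a5 (b1 w) b3 c).symm)
  have b4 := conj_sieg b (n (n w)) (t • n w)
  rw [map_smul, a3, a3 (n w), a4, add_zero, smul_add, sieg_add_smul_self b2 (by simp [b1]), mul_inv_eq_iff_eq_mul] at b4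
  simpa [a1] using congrArg (fun g : OG q => T'.t (A u) (g.1 x)) b4.symm

end GG

end Cfsg.Agent.H18
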