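import Mathlib
import Cfsg.Agent.H18.OwG

/-!
Tensor powers of orthogonal spaces: the averaging argument.
-/

set_option autoImplicit false

namespace Cfsg.Agent.H18

open Module QuadraticMap H13 H12 Function

variable {F V U W : Type*} [Field F] [AddCommGroup V] [Module F V] [AddCommGroup U] [Module F U]
  [AddCommGroup W] [Module F W] {q : QuadraticForm F W} {Q : QuadraticForm F V} {γ : U →ₗ[F] U →ₗ[F] F}
  {M : Subgroup (V ≃ₗ[F] V)} {e e' f g s y y' z : W} {k : V ≃ₗ[F] V} {T T' : TS F U W V}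

/-- The weight of a vector. -/
def Ty (q : QuadraticForm F W) (e e' w : W) (i : ℕ) : Prop := w = e ∧ i = 0 ∨ w ∈ pp q e e' ∧ i = 1 ∨ w = e' ∧ i = 2

theorem Ty.symm {w : W} {i : ℕ} (h : Ty q e e' w i) : Ty q e' e w (2 - i) ∧ i ≤ 2 := by
  rcases h with ⟨a, rfl⟩ | ⟨a, rfl⟩ | ⟨a, rfl⟩ <;> simp [Ty, a, pp_comm e' e]

section deg
variable {r : ℕ} {ι : (Fin r → F) →ₗ[F] W} (hp : HP q e e') (hι : ∀ c, ι c ∈ pp q e e') (h2 : (2 : F) ≠ 0)

theorem pd_lin {Y : Type*} [AddCommGroup Y] [Module F Y] (N : (Fin r → F) →ₗ[F] Y) : PD 1 N := by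
  have : ∀ s : Finset (Fin r), PD 1 fun c : Fin r → F => ∑ i ∈ s, c i • N (Pi.single i 1) := fun s => by
    induction s using Finset.induction_on with
    | empty => simpa using PD.const 0
    | insert i s hi ih => simpa [Finset.sum_insert hi] using (PD.coord i _).add ih
  convert this Finset.univ with c
  exact LinearMap.pi_apply_eq_sum_univ N c |>.trans (by congr; ext; congr; ext; simp [Pi.single_apply, eq_comm])

include hp hι h2

theorem Ty.dec {w : W} {i : ℕ} (h : Ty q e e' w i) : ∃ (x : (Fin r → F) → W) (l : (Fin r → F) → F),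
    (∀ c, (sieg q e (ι c)).1 w = x c + l c • e) ∧ PD (i / 2) x ∧ PD i l ∧ (i = 0 → ∀ c, x c = 0) := by
  have a := fun c => sieg_apply hp.Qu (mem_perp_pair.mp (hι c)).1
  rcases h with ⟨rfl, rfl⟩ | ⟨b, rfl⟩ | ⟨rfl, rfl⟩
  · exact ⟨0, 1, by simp [sieg_apply_self], PD.const _, PD.const _, by simp⟩
  · exact ⟨fun _ => w, _, fun c => sieg_apply_of_perp hp.Qu (mem_perp_pair.mp (hι c)).1 (mem_perp_pair.mp b).1,
      PD.const _, (pd_lin ι).map ((polarBilin q).flip w), by simp⟩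
  · exact ⟨fun c => w - ι c, fun c => polarBilin q (ι c) (ι c) • -(2 : F)⁻¹, fun c => by
      simp [a, hp.uv, polar_comm q (ι c), (mem_perp_pair.mp (hι c)).2, h2, mul_right_comm]; abel,
      (PD.const _).sub (pd_lin ι), (((pd_lin ι).map _).app (pd_lin ι)).smul (PD.const (d := 0) _), by simp⟩

theorem Ty.one {w : W} {i : ℕ} (h : Ty q e e' w i) : PD i fun c => (sieg q e (ι c)).1 w := by
  obtain ⟨x, l, a, b, c, -⟩ := h.dec hp hι h2
  simpa [a] using (b.mono (by omega)).add (c.smul (PD.const (d := 0) e))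

theorem Ty.two {w w' : W} {i j : ℕ} (h : Ty q e e' w i) (h' : Ty q e e' w' j) {Y : Type*} [AddCommGroup Y] [Module F Y]
    (ω : W →ₗ[F] W →ₗ[F] Y) : PD (i + j - 1) fun c => ω ((sieg q e (ι c)).1 w) ((sieg q e (ι c)).1 w') -
      ω ((sieg q e (ι c)).1 w') ((sieg q e (ι c)).1 w) := by
  obtain ⟨x, l, a, b, c, d⟩ := h.dec hp hι h2
  obtain ⟨x', l', a', b', c', d'⟩ := h'.dec hp hι h2
  have := h.symm.2
  have := h'.symm.2
  have e1 : ∀ {i j : ℕ} {x : (Fin r → F) → W} {l : (Fin r → F) → F}, PD (i / 2) x → PD j l → (i = 0 → ∀ c, x c = 0) →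
      PD (i + j - 1) fun c : Fin r → F => l c • (ω - ω.flip).flip e (x c) := fun {i j x l} b c d => by
    by_cases i0 : i = 0
    · simpa [d i0] using PD.const (F := F) (0 : Y)
    · exact (c.smul (b.map _)).mono (by omega)
  convert ((((b.map (ω - ω.flip)).app b').mono (by omega)).add (e1 b c' d)).sub (add_comm i j ▸ e1 b' c d') using 2 with t
  simp [a, a']; module

end deg

variable [FiniteDimensional F W]

theorem Ty.ind (hp : HP q e e') {p : W → Prop} (h1 : ∀ x y, p x → p y → p (x + y)) (h2 : ∀ (c : F) x, p x → p (c • x))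
    (h3 : ∀ w i, Ty q e e' w i → p w) (w : W) : p w := by
  obtain ⟨a, b, w, rfl⟩ := hp.exists_eq w
  exact h1 _ _ (h1 _ _ (h2 _ _ (h3 _ 0 (.inl ⟨rfl, rfl⟩))) (h2 _ _ (h3 _ 2 (.inr (.inr ⟨rfl, rfl⟩)))))
    (h3 _ 1 (.inr (.inl ⟨w.2, rfl⟩)))

theorem WH.cfg [Fintype F] (H : WH q) : ∃ e e' r, ∃ ι : (Fin r → F) →ₗ[F] W, HP q e e' ∧ (∀ c, ι c ∈ pp q e e') ∧
    (∀ c ≠ 0, q (ι c) ≠ 0) ∧ 3 < (Fintype.card F - 1) * r := by
  have c0 : 3 ≤ Fintype.card F := by
    have := two_ne_zero_iff_odd.mp H.two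
    have := Fintype.one_lt_card (α := F)
    grind
  rcases H.hq with ⟨c, c1, c2⟩ | h4
  · obtain ⟨e, e0, he⟩ := exists_singular q H.h3
    obtain ⟨e', hp⟩ := H.nd.exists_hp he e0
    obtain ⟨f, a, b⟩ := H.pp_ne hp
    have c3 : Fintype.card F ≠ 3 := fun e => c2 (by simpa [e] using FiniteField.pow_card_sub_one_eq_one c c1)
    have := two_ne_zero_iff_odd.mp H.two
    exact ⟨e, e', 1, (LinearMap.proj 0).smulRight f, hp, fun c => Submodule.smul_mem _ _ a, fun c d => by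
      simpa [Q_smul, b] using fun e => d (funext fun i => by rw [Subsingleton.elim i 0]; exact e), by grind⟩
  · obtain ⟨z, z', s₁, s₂, a1, a2, a3, a4, -⟩ := exists_config H.nd H.two h4 H.nl
    exact ⟨z, z', 2, (LinearMap.proj 0).smulRight s₁ + (LinearMap.proj 1).smulRight s₂, a1, fun c =>
      add_mem (Submodule.smul_mem _ _ a2) (Submodule.smul_mem _ _ a3), fun c d e =>
        d (funext (Fin.forall_fin_two.mpr (a4 _ _ e))), by omega⟩

variable [FiniteDimensional F U] [Nontrivial U] [Nontrivial W]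

omit [FiniteDimensional F U] [Nontrivial U] in
theorem OT.S_sym (h : OT Q γ q T) (H : T.CM T') (u u' : U) (w w' : W) :
    T'.S (T.t u w) (polarBilin Q (T.t u' w')) = T'.S (T.t u w') (polarBilin Q (T.t u' w)) :=
  T'.ext fun x z => sub_eq_zero.mp (eq_zero_of_cR T'.h fun χ => by
    obtain ⟨θ, hθ⟩ := TS.exists_j fun a => (H a (χ.smulRight z)).symm
    rw [map_sub]
    exact sub_eq_zero.mpr ((T'.r_S ..).trans (((T'.r_S ..).trans (by simp [hθ, h.map, polar_comm q w])).symm)))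

variable [Finite F] {κ : Type*} [Fintype κ] [DecidableEq κ] [Nontrivial κ] {ζ : F} [FiniteDimensional F V]
  (hM : ¬ Om Q ≤ M.comap (OG Q).subtype) (h : T ∈ GG Q γ q M κ ζ) (h' : T' ∈ GG Q γ q M κ ζ)
include hM h

namespace GG

include h' in
theorem sa_of_S (H : T.S = T'.S) : T.SA T' := by
  have a := GG.ow hM h
  obtain ⟨e, e0, he⟩ := exists_singular q a.wh.h3
  obtain ⟨u, hu⟩ := exists_ne (0 : U)
  obtain ⟨l, hl⟩ := Module.Projective.exists_dual_eq_one F hu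
  obtain ⟨b, hb⟩ := T.S_mem (T'.t u e) (l ∘ₗ T'.r (polarBilin q e))
  exact sa_of_mem hM h' h he e0 (by rw [← hb, H, T'.S_rk, hl, one_smul]; rfl)

theorem nc_sym {S : Finset (V →ₗ[F] Dual F V →ₗ[F] End F V)} (hS : ∀ ξ, ξ ∈ S ↔ (∃ T' ∈ GG Q γ q M κ ζ, ξ = T'.S) ∧
    ∀ T' ∈ GG Q γ q M κ ζ, ξ = T'.S → ¬ T.Rel T') (u u' : U) (w w' : W) :
    (∑ ξ ∈ S, ξ) (T.t u w) (polarBilin Q (T.t u' w')) = (∑ ξ ∈ S, ξ) (T.t u w') (polarBilin Q (T.t u' w)) := by
  have := Fintype.ofFinite F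
  have a := GG.ow hM h
  have t2 := a.wh.two
  obtain ⟨e, e', r, ι, hp, a1, a2, a3⟩ := a.wh.cfg
  have a4 : ∀ e e', HP q e e' → (∀ c, ι c ∈ pp q e e') → ∀ w₁ w₂ w₃ w₄ i₁ i₂ i₃ i₄, Ty q e e' w₁ i₁ → Ty q e e' w₂ i₂ →
      Ty q e e' w₃ i₃ → Ty q e e' w₄ i₄ → i₂ + i₃ - 1 + i₄ + i₁ ≤ 3 → ∀ u₁ u₄,
      polar Q (T.t u₁ w₁) ((∑ ξ ∈ S, ξ) (T.t u w₂) (polarBilin Q (T.t u' w₃)) (T.t u₄ w₄)) =
      polar Q (T.t u₁ w₁) ((∑ ξ ∈ S, ξ) (T.t u w₃) (polarBilin Q (T.t u' w₂)) (T.t u₄ w₄)) :=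
    fun e e' hp a1 w₁ w₂ w₃ w₄ i₁ i₂ i₃ i₄ b1 b2 b3 b4 b5 u₁ u₄ => by
      have c0 := fun c => (mem_perp_pair.mp (a1 c)).1
      have c1 := fun c => a.rt _ (a.wh.sieg_Om e (ι c))
      simp only [LinearMap.sum_apply, polar_sum_right]
      rw [← sub_eq_zero, ← Finset.sum_sub_distrib]
      refine sum_eq_zero_of_free (fun c (ξ : V →ₗ[F] Dual F V →ₗ[F] End F V) => H12.cjS (T.ie (sieg q e (ι c)).1)⁻¹ ξ) (fun ξ => by simp [sieg_zero]; rfl)
        (fun c c' ξ => by rw [add_comm, map_add, sieg_add hp.Qu (c0 _) (c0 _), Subgroup.coe_mul, map_mul, mul_inv_rev]; rfl)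
        (fun ξ => polar Q (T.t u₁ w₁) (ξ (T.t u w₂) (polarBilin Q (T.t u' w₃)) (T.t u₄ w₄)) -
          polar Q (T.t u₁ w₁) (ξ (T.t u w₃) (polarBilin Q (T.t u' w₂)) (T.t u₄ w₄))) S (fun ξ hξ c => ?_)
        (fun ξ hξ c d => by_contra fun c0' => ?_) fun ξ => ?_
      · obtain ⟨⟨T', d1, rfl⟩, d2⟩ := (hS ξ).mp hξ
        refine (hS _).mpr ⟨⟨_, GG.act d1 (inv_mem (c1 c)), (T'.act_S' _).symm⟩, fun T'' d3 d4 d5 =>
          d2 _ (GG.act d3 (c1 c)) ?_ ((T.sa_ie _).rel d5.act)⟩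
        rw [TS.act_S', ← d4, ← TS.act_S', ← TS.act_S', TS.act_act, mul_inv_cancel, TS.act_one]
      · obtain ⟨⟨T', d1, rfl⟩, d2⟩ := (hS ξ).mp hξ
        refine d2 T' d1 rfl (ti hM h d1 hp.Qu hp.ne_left (c0 c) (a2 c c0') (sa_of_S hM d1 (GG.act d1 (c1 c)) ?_))
        rw [TS.act_S', ← d, ← TS.act_S', ← TS.act_S', TS.act_act, mul_inv_cancel, TS.act_one, TS.act_S', d]
      have c2 : ∀ c v, polarBilin Q v ∘ₗ (T.ie (sieg q e (ι c)).1).symm.toLinearMap =
          polarBilin Q (T.ie (sieg q e (ι c)).1 v) := fun c v =>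
        LinearMap.ext fun v' => (OG_polar_left ⟨_, a.iso (c1 c)⟩ v v').symm
      convert ((((b2.two hp a1 t2 b3 ((ξ ∘ₗ T.t u).compl₂ (polarBilin Q ∘ₗ T.t u'))).app
        ((b4.one hp a1 t2).map (T.t u₄))).map (polarBilin Q)).app ((b1.one hp a1 t2).map (T.t u₁))).sum (by
          simp; omega) using 2 with c
      simp [show ∀ k : V ≃ₗ[F] V, k⁻¹ = k.symm from fun _ => rfl, H12.cjS_apply, c2, ← OG_polar_left ⟨_, a.iso (c1 c)⟩, polar_comm Q (T.t u₁ _),
        show ∀ v v', polar Q ((T.ie (sieg q e (ι c)).1).symm v) v' = polar Q v (T.ie (sieg q e (ι c)).1 v') from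
          fun v v' => (OG_polar_right ⟨_, a.iso (c1 c)⟩ v v').symm]
  refine T.ext fun u₄ w₄ => sub_eq_zero.mp (a.nd _ fun v => T.h.inductionOn v (by simp) (fun u₁ w₁ => ?_)
    fun _ _ a b => by simp only [polar_add_right, a, b, add_zero])
  rw [polar_comm, polar_sub_right, sub_eq_zero]
  generalize ∑ ξ ∈ S, ξ = δ at a4
  revert w w' w₁ w₄
  refine Ty.ind hp (fun _ _ a b => by simp [a, b]) (fun _ _ a => by simp [a]) fun w₂ i₂ b2 =>
    Ty.ind hp (fun _ _ a b => by simp [a, b]) (fun _ _ a => by simp [a]) fun w₃ i₃ b3 =>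
      Ty.ind hp (fun _ _ a b => by simp [a, b]) (fun _ _ a => by simp [a]) fun w₄ i₄ b4 =>
        Ty.ind hp (fun _ _ a b => by simp [a, b]) (fun _ _ a => by simp [a]) fun w₁ i₁ b1 => ?_
  by_cases c : i₂ + i₃ - 1 + i₄ + i₁ ≤ 3
  · exact a4 _ _ hp a1 _ _ _ _ _ _ _ _ b1 b2 b3 b4 c ..
  · exact a4 _ _ hp.symm (pp_comm (Q := q) e e' ▸ a1) _ _ _ _ _ _ _ _ b1.symm.1 b2.symm.1 b3.symm.1 b4.symm.1 (by
      have := b1.symm.2; have := b2.symm.2; have := b3.symm.2; have := b4.symm.2; omega) ..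

include h'

theorem wd_mem (hy : polar q s y = 0) : ∃ θ b, T'.i (wdg q y s) = T.j θ + T.i b := by
  classical
  have := Module.finite_of_finite F (M := V →ₗ[F] Dual F V →ₗ[F] End F V)
  have := Fintype.ofFinite (V →ₗ[F] Dual F V →ₗ[F] End F V)
  let O := Finset.univ.filter fun ξ => ∃ T' ∈ GG Q γ q M κ ζ, ξ = T'.S
  have a1 : ∀ (T : κ → TS F U W V) pv, OF Q γ q M T pv ζ → ∀ v v', (∑ ξ ∈ O, ξ) v (polarBilin Q v') -
      (∑ ξ ∈ O, ξ) v' (polarBilin Q v) = ∑ l, ((T l).S v (polarBilin Q v') - (T l).S v' (polarBilin Q v)) :=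
    fun T pv h v v' => by
      have := sym_of_all h.pv (c := ((∑ ξ ∈ O, ξ) - ∑ l, (T l).S).compl₂ (polarBilin Q)) (fun l u w u' w' => by
        have b0 : T l ∈ GG Q γ q M κ ζ := ⟨T, pv, l, h, rfl⟩
        have b1 := nc_sym hM b0 (S := O.filter fun ξ => ¬ ∃ T' ∈ GG Q γ q M κ ζ, ξ = T'.S ∧ (T l).Rel T')
          (fun ξ => by simp [O]) u u' w w'
        rw [← Finset.sum_filter_add_sum_filter_not O fun ξ => ∃ T' ∈ GG Q γ q M κ ζ, ξ = T'.S ∧ (T l).Rel T',
          ← Finset.add_sum_erase _ _ (a := (T l).S) (by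
            simp only [O, Finset.mem_filter, Finset.mem_univ, true_and]
            exact ⟨⟨_, b0, rfl⟩, _, b0, rfl, .inl TS.SA.refl⟩), ← Finset.add_sum_erase _ _ (Finset.mem_univ l)]
        simp only [LinearMap.compl₂_apply, LinearMap.sub_apply, LinearMap.add_apply, b1, add_assoc, add_sub_add_left_eq_sub]
        simp only [LinearMap.sum_apply]
        congr 1
        · congr 1
          refine Finset.sum_congr rfl fun ξ hξ => ?_
          obtain ⟨c1, c2⟩ := Finset.mem_erase.mp hξ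
          obtain ⟨T', -, rfl, c | c⟩ := (Finset.mem_filter.mp c2).2
          exacts [absurd c.S_eq c1, (h.ot l).S_sym c ..]
        · exact Finset.sum_congr rfl fun m hm => (h.ot l).S_sym (h.wr.cm l m (Finset.ne_of_mem_erase hm).symm) ..) v v'
      simp only [LinearMap.compl₂_apply, LinearMap.sub_apply] at this
      rw [Finset.sum_sub_distrib, sub_eq_sub_iff_sub_eq_sub]
      simpa only [LinearMap.sum_apply] using this
  obtain ⟨T, pv, i, h, rfl⟩ := h
  obtain ⟨T', pv', j, h', rfl⟩ := h'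
  obtain ⟨u', u, hu⟩ := (h.ot i).exists_γ
  have a2 := (a1 T' pv' h' ((T' j).t u y) ((T' j).t u' s)).symm.trans (a1 T pv h ((T' j).t u y) ((T' j).t u' s))
  have a3 : ∀ u w, polarBilin Q ((T' j).t u w) = γ u ∘ₗ (T' j).r (polarBilin q w) := fun u w =>
    LinearMap.ext ((h'.ot j).B_r u w)
  rw [a3, a3, Finset.sum_eq_single j (fun m _ c => by
    rw [(h'.wr.cm j m c.symm).S_eq_zero hy, (h'.wr.cm j m c.symm).S_eq_zero (by simpa [polar_comm q y]), sub_zero])
    (by simp), TS.S_rk, TS.S_rk, hu, (h.ot i).symm, hu, one_smul, one_smul, ← map_sub] at a2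
  have a4 : (T' j).i (wdg q y s) ∈ LinearMap.range (T i).j.toLinearMap ⊔ LinearMap.range (T i).i.toLinearMap := by
    have b : ∀ l v f, (T l).S v f ∈ LinearMap.range (T i).j.toLinearMap ⊔ LinearMap.range (T i).i.toLinearMap :=
      fun l v f => by
        obtain ⟨a, ha⟩ := (T l).S_mem v f
        by_cases c : l = i
        · exact Submodule.mem_sup_right ⟨a, c ▸ ha.symm⟩
        · obtain ⟨θ, hθ⟩ := TS.exists_j (h.wr.cm l i c a)
          exact Submodule.mem_sup_left ⟨θ, by rw [ha, hθ]; rfl⟩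
    exact (show (T' j).i (wdg q y s) = _ from a2) ▸ Submodule.sum_mem _ fun l _ => sub_mem (b _ _ _) (b _ _ _)
  obtain ⟨_, ⟨θ, rfl⟩, _, ⟨b, rfl⟩, c⟩ := Submodule.mem_sup.mp a4
  exact ⟨θ, b, c.symm⟩

theorem rel : T.Rel T' := by
  have a := GG.ow hM h
  have a' := GG.ow hM h'
  have hW := a.wh
  have a1 : ∀ (T : TS F U W V) (X : End F V), (∀ y s, polar q s y = 0 → Commute X (T.i (wdg q y s))) → T.Cm X :=
    fun T X H b => hW.mem_of_rk (A := ((Subalgebra.centralizer F {X}).comap T.i).toSubmodule)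
      (fun _ x _ y => Subalgebra.mul_mem _ x y) (fun y hy y0 _ d => by
        obtain ⟨y', hp⟩ := hW.nd.exists_hp hy y0
        obtain ⟨f, b1, b2⟩ := hW.pp_ne hp
        replace b1 := (mem_perp_pair.mp b1).1
        have b3 := H y f (by rwa [polar_comm])
        have b4 := (b3.mul_right b3).smul_right (-(2 * q f))⁻¹
        rw [← map_mul, wd_sq hy b1, map_smul, inv_smul_smul₀ (by simp [b2, hW.two])] at b4
        exact d ▸ b4) b X rfl
  have a2 : ∀ y s θ, polar q s y = 0 → (∃ b, T'.i θ = T.i b) → ∃ b, T'.i (wdg q y s * θ - θ * wdg q y s) = T.i b :=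
    fun y s θ c ⟨b, d⟩ => by
      obtain ⟨θ', b', d'⟩ := wd_mem hM h h' c
      exact ⟨b' * b - b * b', by simp [d, d', mul_add, add_mul, (T.comm_ij b θ').eq]⟩
  refine or_iff_not_imp_right.mpr fun c => ?_
  obtain ⟨θ, b1, b2, b3⟩ : ∃ θ ≠ 0, (∀ w w', polar q w (θ w') = -polar q (θ w) w') ∧ ∃ b, T'.i θ = T.i b := by
    by_contra! d
    refine c fun b => a1 T' _ fun y s hy => (a1 T _ (fun z r hz => ?_) b).symm
    obtain ⟨θ, b, d1⟩ := wd_mem hM h h' hy
    obtain ⟨θ', b', d2⟩ := wd_mem hM h' h hz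
    have d3 : T'.i (wdg q y s * b' - b' * wdg q y s) = T'.i (wdg q y s) * T.i (wdg q z r) - T.i (wdg q z r) * T'.i (wdg q y s) := by
      simp [d2, mul_add, add_mul, (T'.comm_ij _ θ').eq]
    refine sub_eq_zero.mp (d3.symm.trans (by_contra fun d4 => d (wdg q y s * b' - b' * wdg q y s) (fun d5 => d4 (by rw [d5, map_zero])) (fun w w' => ?_)
      (b * wdg q z r - wdg q z r * b) (by simp [d3, d1, mul_add, add_mul, (T.comm_ij _ θ).eq])))
    obtain ⟨u, u', hu⟩ := a.exists_γ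
    have d5 : ∀ {T : TS F U W V}, OT Q γ q T → ∀ y s v v', polar Q (T.i (wdg q y s) v) v' = -polar Q v (T.i (wdg q y s) v') :=
      fun a y s v v' => by simp [wdg, a.rk_adj]
    have d6 : ∀ v v', polar Q v (T'.i (wdg q y s * b' - b' * wdg q y s) v') =
        -polar Q (T'.i (wdg q y s * b' - b' * wdg q y s) v) v' := fun v v' => by simp [d3, d5 a.toOT, d5 a'.toOT]
    simpa only [TS.i_t, a'.map, hu, one_mul] using d6 (T'.t u w) (T'.t u' w')
  obtain ⟨y, c1, c2, c3⟩ : ∃ y, q y = 0 ∧ y ≠ 0 ∧ θ y ∉ F ∙ y := by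
    by_contra! d
    obtain ⟨t, ht⟩ := hW.scalar (θ := θ) fun e a b => (Submodule.mem_span_singleton.mp (d e a b)).imp fun _ => Eq.symm
    obtain ⟨w, w', d1⟩ := a.exists_one
    have := b2 w w'
    simp [ht, d1] at this
    exact b1 (LinearMap.ext fun w => by simp [ht, show t = 0 from mul_left_cancel₀ hW.two (by linear_combination this)])
  have c4 : polar q y (θ y) = 0 := mul_left_cancel₀ hW.two (by
    linear_combination b2 y y - polar_comm q (θ y) y)
  obtain ⟨s, s', d1, d2, d3⟩ : ∃ s s', polar q y s = 0 ∧ polar q y s' = 0 ∧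
      q (polar q s (θ y) • s' - polar q s s' • θ y + polar q s' (θ y) • s) ≠ 0 := by
    by_cases d : q (θ y) = 0
    · obtain ⟨s', d1, d2⟩ := hW.nd.exists_nonsingular_perp (Submodule.span F {y, θ y}) (by
        have := hW.nl y _ c1 d c4 c2 c3
        rw [finrank_span_pair_eq (linearIndependent_pair_of_notMem c2 c3)]; omega)
      obtain ⟨s, d3, d4⟩ := hW.nd.exists_perp_one _ c3
      rw [mem_perp_pair] at d1
      exact ⟨s, s', by rw [polar_comm]; exact d3 y (Submodule.mem_span_singleton_self y), d1.1, by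
        simp [d4, polar_comm q s' (θ y), d1.2, Q_sub, Q_smul, d, d2]⟩
    · exact ⟨_, _, c4, c4, by simp [Q_smul, d, hW.two]⟩
  obtain ⟨b, d4⟩ := a2 y s _ (by rwa [polar_comm]) (a2 y s' θ (by rwa [polar_comm]) b3)
  rw [show _ - _ = -wdg q y (polar q s (θ y) • s' - polar q s s' • θ y + polar q s' (θ y) • s) from LinearMap.ext fun w => by
    simp [b2 y w, b2 s' w, b2 y s', b2 s' s, c1, c4, d1, d2, polar_comm q s y, polar_comm q s' y, polar_comm q s' s,
      polar_comm q (θ s') s, polar_comm q (θ y) s', b2 y s, polar_comm q (θ y) s]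
    module] at d4
  have d5 := congrArg₂ (· * ·) d4 d4
  simp only [← map_mul, neg_mul_neg] at d5
  rw [wd_sq c1 (by simp [c4, d1, d2]), map_smul, ← eq_inv_smul_iff₀ (by simp [-Q_add, d3, hW.two]), ← map_smul] at d5
  exact sa_of_mem hM h' h c1 c2 d5

end GG

omit h in
theorem OF.pw {T : κ → TS F U W V} {pv : (κ → W) → V} (h : OF Q γ q M T pv ζ) (hk : k ∈ M) : PW T k :=
  h.wr.pw_of_rel (by have := h.wh.h3; omega) fun i j => GG.rel hM ⟨T, pv, j, h, rfl⟩ (GG.act ⟨T, pv, i, h, rfl⟩ hk)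

end Cfsg.Agent.H18
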