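import Mathlib
import Cfsg.Agent.H18.OwH

/-!
Stabilisers of tensor powers of orthogonal spaces are maximal in orthogonal groups.
-/

set_option autoImplicit false

namespace Cfsg.Agent.H18

open Module QuadraticMap H13 H12 Function Matrix Cfsg.Geo

variable {ι : Type} [Fintype ι] [DecidableEq ι] {F : Type*} [Field F] {s m : ℕ} {e : ι ≃ (Fin (s + 1) → Fin m)}
  {P : GL ι F} {B : (ι → F) →ₗ[F] (ι → F) →ₗ[F] F} {β : (Fin m → F) →ₗ[F] (Fin m → F) →ₗ[F] F}

theorem pv_bil (hT : IsTensorPowerFormStructure id (B · ·) (β · ·) e P) :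
    ∃ ζ, PV B β (wT e P) (fun y => P.1 *ᵥ (pureV y ∘ e)) ζ ∧ ∃ γ : _ →ₗ[F] _ →ₗ[F] F,
      ∀ i u w u' w', B ((wT e P i).t u w) ((wT e P i).t u' w') = γ u u' * β w w' := by
  obtain ⟨c, hc, H⟩ := hT
  have a1 : ∀ x y, β x y = frm (RingHom.id F) (gramMatrix (β · ·)) x y :=
    congrFun₂ (Sesq.eq_frm ⟨by simp, by simp, by simp, by simp⟩)
  refine ⟨c, ⟨hc, fun l b y => ?_, fun x y => ?_, eq_top_iff.mpr fun v _ => ?_⟩,
    c • (sesq_frm (RingHom.id F) (pureT fun _ : Fin s => gramMatrix (β · ·))).toMap.flip, fun i u w u' w' => ?_⟩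
  · obtain ⟨b, rfl⟩ := toLin'.surjective b
    rw [wT_i, toLin'_apply, trans_mulVec, embT, pureT_mulVec]
    congr 3
    funext i
    by_cases e' : i = l
    · subst e'; simp
    · simp [e']
  · rw [show B _ _ = _ from H _ _, Finset.prod_congr rfl fun l _ => a1 (x l) (y l)]
    simp only [frm_eq_sum, pureV, Finset.prod_univ_sum, Fintype.piFinset_univ, Finset.prod_mul_distrib, id, RingHom.id_apply]
  · obtain ⟨x, rfl⟩ := exists_eq_mulVec_comp e P v
    rw [← Finset.univ_sum_single x, show (∑ i, Pi.single i (x i)) ∘ e = ∑ i, x i • (pureV fun l =>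
      Pi.single (i l) (1 : F)) ∘ e by
        ext j; simp [pureV, Pi.single_apply, Finset.prod_boole, ← funext_iff], mulVec_sum]
    exact sum_mem fun i _ => by rw [mulVec_smul]; exact Submodule.smul_mem _ _ (Submodule.subset_span ⟨_, rfl⟩)
  · refine (H (kronV u w ∘ ((Fin.insertNthEquiv (fun _ => Fin m) i).symm.trans (Equiv.prodComm _ _)))
      (kronV u' w' ∘ ((Fin.insertNthEquiv (fun _ => Fin m) i).symm.trans (Equiv.prodComm _ _)))).trans ?_
    change _ = c * frm (RingHom.id F) _ u u' * _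
    rw [a1, mul_assoc, ← frm_kronV, frm_eq_sum]
    congr 1
    refine Fintype.sum_equiv ((Fin.insertNthEquiv (fun _ => Fin m) i).symm.trans (Equiv.prodComm _ _)) _ _ fun x =>
      Fintype.sum_equiv ((Fin.insertNthEquiv (fun _ => Fin m) i).symm.trans (Equiv.prodComm _ _)) _ _ fun y => ?_
    simp [pureT_apply, Fin.prod_univ_succAbove _ i, Fin.removeNth, mul_comm]

theorem wP_iso {ζ : F} (h : PV B β (wT e P) (fun y => P.1 *ᵥ (pureV y ∘ e)) ζ) (π : Equiv.Perm (Fin (s + 1)))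
    (x y : ι → F) : B (glEq ι F (wP e P π) x) (glEq ι F (wP e P π) y) = B x y := by
  have b1 : ∀ y, glEq ι F (wP e P π) (P.1 *ᵥ (pureV y ∘ e)) = P.1 *ᵥ (pureV (y ∘ π.symm) ∘ e) := fun y => by
    rw [glEq_apply, ← permT_mulVec, ← trans_mulVec]; rfl
  refine LinearMap.congr_fun₂ (f := (B ∘ₗ (glEq ι F (wP e P π)).toLinearMap).compl₂
    (glEq ι F (wP e P π)).toLinearMap) (LinearMap.ext_on_range h.span fun x => LinearMap.ext_on_range h.span fun y => ?_) x y
  simp only [LinearMap.compl₂_apply, LinearMap.comp_apply, LinearEquiv.coe_coe, b1, h.map]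
  exact congrArg _ (Equiv.prod_comp π.symm fun l => β (x l) (y l))

theorem max_owreath [Fintype F] {Q : (ι → F) → F} (hQ : IsNondegenerateQuadraticForm Q) (h2 : Odd (Fintype.card F))
    {t : ℕ} (hm : 3 ≤ m) (ht : 2 ≤ t) (hq : ¬ (Fintype.card F = 3 ∧ m = 3)) {e : ι ≃ (Fin t → Fin m)}
    {f₁ : (Fin m → F) → (Fin m → F) → F} (hf₁ : IsSymmetricForm f₁)
    (h5 : m = 4 → ¬ IsPlusTypeOn (fun v => f₁ v v) ⊤) (hT : IsTensorPowerFormStructure id (polar Q) f₁ e P) :
    IsMaximalIn (omegaGL Q) (tensorWreathSubgroup m t e P ⊓ omegaGL Q) := by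
  obtain ⟨s, rfl⟩ : ∃ s, t = s + 1 := ⟨t - 1, by omega⟩
  have a1 : 9 ≤ Fintype.card ι := by
    rw [Fintype.card_congr e]; simp
    exact (show 9 = 3 ^ 2 from rfl).trans_le ((Nat.pow_le_pow_left hm 2).trans (Nat.pow_le_pow_right (by omega) ht))
  have a2 := two_ne_zero_iff_odd.mpr h2
  have g1 := hform_of_symmetric hf₁
  obtain ⟨q, rfl⟩ : ∃ q : QuadraticForm F (Fin m → F), f₁ = (polarBilin q · ·) :=
    ⟨LinearMap.BilinMap.toQuadraticMap ((2 : F)⁻¹ • g1.toSesq.toMap), funext₂ fun x y => by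
      rw [polarBilin_apply_apply, polar_toQuadraticMap_symm fun x y => congrArg (_ * ·) (hf₁.symm y x)]
      exact (hf₁.symm x y).trans (mul_inv_cancel_left₀ a2 _).symm⟩
  obtain ⟨ζ, a3, γ, a4⟩ := pv_bil (B := polarBilin (mkQ hQ)) hT
  have a5 : ND q := g1.nondeg'
  have : NeZero m := ⟨by omega⟩
  have : Nontrivial (Fin (s + 1)) := Fin.nontrivial_iff_two_le.mpr ht
  have a6 : WH q := ⟨a5, a2, by simpa, nl_of a5 fun e ⟨X, a, b⟩ => h5 (by simpa using e)
    ⟨X, le_top, fun w hw => by simp [b w hw], by simpa using a⟩, by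
      by_cases h4 : 4 ≤ m
      · exact .inr (by simpa)
      have a2 := Fintype.one_lt_card (α := F)
      classical
      obtain ⟨c, hc⟩ := Finset.exists_mem_notMem_of_card_lt_card (s := ({0, 1, -1} : Finset F))
        (t := Finset.univ) (Finset.card_le_three.trans_lt (by rw [Finset.card_univ]; grind))
      exact .inl ⟨c, by simpa [not_or] using hc⟩⟩
  have a7 : ∀ g, glEq ι F (ofOG hQ g) = g.1 := fun g => LinearEquiv.ext (ofOG_mulVec hQ g)
  refine max_omega hQ ((tensorWreathSubgroup m (s + 1) e P).comap (jO hQ)) (fun _ => Iff.rfl) (fun H => ?_)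
    fun M c1 c2 g c3 c4 => by_contra fun H => c4 (mem_wreath_of_PW (by omega) ?_)
  · by_cases b : s = 1
    · subst b; exact omega_not_le_wreath hQ (by omega) a2 hm e P H
    obtain ⟨u, a, g, h1, h3, h4, h5⟩ := exists_rt hQ (by omega)
    obtain ⟨x, hx⟩ := h1.exists_eq hQ h4 h5
    have := H13.finrank_span_pair_le (F := F) u a
    obtain ⟨c, hc⟩ := scalar_of_mem_wreath (H h3) h1.mem ht (.inr (by omega))
    rw [eq_one_of_scalar_small hc h1.mem (by omega)] at hx
    exact h5 (by simp [← hx])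
  have := a6.nt
  refine (a7 g).symm ▸ OF.pw (γ := γ) (M := M.map (OG _).subtype) (by
    rwa [Subgroup.comap_map_eq_self_of_injective Subtype.val_injective]) ⟨wr_wT, fun l => ⟨a6, nd_mkQ hQ,
      inferInstance, a4 l⟩, a3, by rintro _ ⟨k, -, rfl⟩; exact k.2, fun g a b => ⟨g, c1 g a (mem_wreath_of_PW (by omega)
        ((a7 g).symm ▸ b)), rfl⟩, ⟨((glEq ι F).toMonoidHom.comp (wP e P)).codRestrict _ fun π =>
          og_of_polar a2 (wP_iso a3 π), act_wP⟩, by simp; omega⟩ ⟨g, c3, rfl⟩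

end Cfsg.Agent.H18
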