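import Cfsg.Agent.H18.O4
import Cfsg.Agent.H18.SpMax

/-! The tensor product subgroup `Sp₂ ⊗ O₄⁺` is not maximal in `Sp₈`. -/

set_option autoImplicit false

namespace Cfsg.Agent.H18

open Cfsg.Geo QuadraticMap Module
open scoped MatrixGroups Matrix Kronecker commutatorElement

variable {ι : Type} [Fintype ι] [DecidableEq ι] {F : Type*} [Field F]

lemma adj_alt_two {f : (Fin 2 → F) → (Fin 2 → F) → F} (hf : IsSymplecticForm f)
    (X : Matrix (Fin 2) (Fin 2) F) : adj (RingHom.id F) f X = adj (RingHom.id F) (fJ F) X := by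
  have h := hform_of_symplectic hf
  have h1 : ∀ u v, f u v = f (Pi.single 0 1) (Pi.single 1 1) * (u 0 * v 1 - u 1 * v 0) := fun u v => by
    rw [h.eq_frm, frm_eq_sum, ← h.eq_frm]
    simp [gramMatrix, hf.alternating, hf.skew (Pi.single 1 1) (Pi.single 0 1)]; ring
  refine h.adj_eq fun u v => ?_
  rw [h1, h1 u, ← frm_J2, ← frm_J2, hform_J2.adj_spec]

theorem SpH.not_plus [Fintype F] {f : (ι → F) → (ι → F) → F} {H : Subgroup (GL ι F)} (h : SpH f H)
    (h2 : (2 : F) ≠ 0) {e : ι ≃ Fin 2 × Fin 4} {P : GL ι F} {f₁ : _} {f₂ : _}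
    (h1 : KronD (RingHom.id F) f e P (-1) f₁ 1 f₂) (h3 : IsSymplecticForm f₁)
    (hle : H ≤ tensorProductSubgroup 2 4 e P) : ¬ IsPlusTypeOn (fun v => f₂ v v) ⊤ := fun hp => by
  have hn := h1.card
  have : Nonempty ι := Fintype.card_pos_iff.mp (by omega)
  have hf := h.hf.toHForm
  obtain ⟨e₂, P₂, h4⟩ := h1.hf₂.exists_JJ h2 (by simp) hp
  let ψ := (trans e P).toAlgHom.comp ((kronRight (Fin 2) _ F).comp (trans e₂ P₂).toAlgHom)
  let φ : Fin 3 → Matrix (Fin 2) (Fin 2) F →ₐ[F] Matrix ι ι F :=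
    ![(trans e P).toAlgHom.comp (kronLeft _ _ F), ψ.comp (kronLeft _ _ F), ψ.comp (kronRight _ _ F)]
  have a0 : ∀ X, φ 0 X = trans e P (X ⊗ₖ (1 : Matrix (Fin 4) (Fin 4) F)) := fun _ => rfl
  have a1 : ∀ X, φ 1 X = trans e P ((1 : Matrix (Fin 2) (Fin 2) F) ⊗ₖ
    trans e₂ P₂ (X ⊗ₖ (1 : Matrix (Fin 2) (Fin 2) F))) := fun _ => rfl
  have a2 : ∀ X, φ 2 X = trans e P ((1 : Matrix (Fin 2) (Fin 2) F) ⊗ₖ
    trans e₂ P₂ ((1 : Matrix (Fin 2) (Fin 2) F) ⊗ₖ X)) := fun _ => rfl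
  have a3 : ∀ i j, i ≠ j → ∀ X Y, Commute (φ i X) (φ j Y) := fun i j hij X Y => by
    fin_cases i <;> fin_cases j
    exacts [absurd rfl hij, (kron_commute X _).map (trans e P), (kron_commute X _).map (trans e P),
      (kron_commute Y _).symm.map (trans e P), absurd rfl hij, (kron_commute X Y).map ψ,
      (kron_commute Y _).symm.map (trans e P), (kron_commute Y X).symm.map ψ, absurd rfl hij]
  obtain ⟨e', P', a4⟩ := exists_trans_pow φ a3 fun A hA => by
    have b1 := eq_top_of_kron (A := A.comap ψ) (hA 1) (hA 2)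
    have b2 := eq_top_of_kron (A := A.comap (trans e P).toAlgHom) (hA 0) fun Y => by
      have : (trans e₂ P₂).symm Y ∈ A.comap ψ := b1 ▸ Algebra.mem_top
      simpa [ψ, kronRight_apply] using this
    refine eq_top_iff.mpr fun Y _ => ?_
    have : (trans e P).symm Y ∈ A.comap (trans e P).toAlgHom := b2 ▸ Algebra.mem_top
    simpa using this
  have a5 : PowD (RingHom.id F) f e' P' (-1) (fJ F) := ⟨le_rfl, by decide, hform_J2, fun i X => by
    rw [a4, a4]
    fin_cases i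
    · exact (h1.adj₁ X).trans (by rw [adj_alt_two h3]; rfl)
    · change adj _ f (φ 1 X) = φ 1 _
      rw [a1, a1, h1.adj₂, h1.hf₂.adj_trans, h4, adj_JJ_kron, hform_J2.adj_one]
    · change adj _ f (φ 2 X) = φ 2 _
      rw [a2, a2, h1.adj₂, h1.hf₂.adj_trans, h4, adj_JJ_kron, hform_J2.adj_one]⟩
  obtain ⟨g, hg, U, b1, b2, b3⟩ := h.has.exists_small
  refine false_of_overgroup h.max hle (K := tensorWreathSubgroup 2 3 e' P') (fun g hg => ?_)
    (fun h7 => not_mem_wreath_of_small (by omega) b1 b2 b3 (by decide) (Or.inr ⟨le_rfl, le_rfl⟩) e' P'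
      (h7 hg)) (a5.perm_mem hf (Equiv.swap 0 1)) ((mem_map_trans _ _ _ _).mpr ⟨_, permGL_mem _, rfl⟩)
    fun h7 => ?_
  · obtain ⟨x, -, y, ⟨d, hy⟩, b4⟩ := h1.sim hf (hle hg) (isoG_le_sim _ (h.le hg))
    have b5 : y.1 = trans e₂ P₂ (unitsBack (trans e₂ P₂) y).1 := by simp [unitsBack_coe]
    have b6 : Mult (fJJ F) (unitsBack (trans e₂ P₂) y) d := fun u v => by
      rw [← h4, trF, ← trans_mulVec, ← trans_mulVec, ← b5, hy]; rfl
    have b8 : ∀ X, cj g (φ 0 X) = φ 0 (cj x X) := fun X => by rw [a0, a0, cj_kron b4, map_one]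
    rcases sim_JJ h2 b6 with ⟨s, t, b7, -⟩ | ⟨s, t, b7, -⟩
    · rw [b7] at b5
      refine mem_tensorWreath_of_permutes two_pos three_pos 1 fun i X => ?_
      simp only [a4]
      fin_cases i
      · exact ⟨_, b8 X⟩
      · exact ⟨cj s X, show cj g (φ 1 X) = φ 1 _ by
          rw [a1, a1, cj_kron b4, cj_kron b5, map_one, map_one]⟩
      · exact ⟨cj t X, show cj g (φ 2 X) = φ 2 _ by
          rw [a2, a2, cj_kron b4, cj_kron b5, map_one, map_one]⟩
    · have b9 : ∀ X Y, cj y (trans e₂ P₂ (X ⊗ₖ Y)) = trans e₂ P₂ (cj t Y ⊗ₖ cj s X) := fun X Y => by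
        rw [cj_trans b5, ← cj_flipGL (cj s X), ← inv_mul_cancel_left (flipGL (Fin 2) F) (unitsBack _ y),
          cj_mul]
        exact congrArg (fun Z => trans e₂ P₂ (cj (flipGL (Fin 2) F) Z)) (cj_kron (e := Equiv.refl _)
          (P := 1) (by rw [b7, trans_apply, cj_one]; rfl) X Y |> fun h => by
            simpa [trans_apply, cj_one] using h)
      refine mem_tensorWreath_of_permutes two_pos three_pos (Equiv.swap 1 2) fun i X => ?_
      simp only [a4]
      fin_cases i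
      · exact ⟨_, b8 X⟩
      · exact ⟨cj s X, show cj g (φ 1 X) = φ 2 _ by rw [a1, a2, cj_kron b4, b9, map_one, map_one]⟩
      · exact ⟨cj t X, show cj g (φ 2 X) = φ 1 _ by rw [a1, a2, cj_kron b4, b9, map_one, map_one]⟩
  · obtain ⟨x, y, b4⟩ := mem_tensorProductSubgroup.mp h7
    refine matrix_not_comm (F := F) (ι := Fin 2) (by simp) fun X Y => algHom_matrix_injective (φ 1) ?_
    have b5 := cj_trans (transGL_coe e' P' (permGL F (Fin 2) (Equiv.swap 0 1))) (embT 0 X)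
    rw [a4, a0, cj_kron b4, map_one, ← a0, embT, cj_permGL, mulSingle_comp_symm, ← embT, a4,
      Equiv.swap_apply_left] at b5
    rw [map_mul, map_mul, ← b5]
    exact a3 0 1 (by decide) _ _

end Cfsg.Agent.H18
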