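import Mathlib
import Cfsg.Agent.H18.OwI
import Cfsg.Agent.H18.TsA
import Cfsg.Agent.H12.FtK

/-!
Tensor powers of symplectic spaces in orthogonal groups: long root coefficients.
-/

set_option autoImplicit false

namespace Cfsg.Agent.H18

open Module QuadraticMap H13 H12 Function

variable {F V U W : Type*} [Field F] [AddCommGroup V] [Module F V] [AddCommGroup U] [Module F U]
  [AddCommGroup W] [Module F W] {Q : QuadraticForm F V} {B : V →ₗ[F] V →ₗ[F] F} {γ : U →ₗ[F] U →ₗ[F] F}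
  {β : W →ₗ[F] W →ₗ[F] F} {M : Subgroup (V ≃ₗ[F] V)} {c : End F V} {y z s : W}

theorem exists_sub_flip [FiniteDimensional F U] {A : U →ₗ[F] U →ₗ[F] F} (h : ∀ x, A x x = 0) :
    ∃ φ : U →ₗ[F] U →ₗ[F] F, A = φ - φ.flip := by
  let b := finBasis F U
  refine ⟨b.constr F fun i => b.constr F fun j => if i < j then A (b i) (b j) else 0, LinearMap.ext_basis b b fun i j => ?_⟩
  have := h (b i + b j)
  simp only [LinearMap.sub_apply, LinearMap.flip_apply, Basis.constr_basis]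
  rcases lt_trichotomy i j with c | rfl | c
  · simp [c, c.not_gt]
  · simp [h]
  · simp [h] at this; simp [c, c.not_gt]; linear_combination this

theorem nd_ext (hQ : ND Q) {x y : V} (h : ∀ v, polarBilin Q v x = polarBilin Q v y) : x = y :=
  sub_eq_zero.mp (hQ _ fun w => by rw [polar_comm]; simpa [sub_eq_zero] using h w)

variable [FiniteDimensional F W] [Finite F] (hC : HC β)
include hC

section
variable {T : TS F U W V} (h : FT B γ β M T)
include h

theorem jj_id (hc : T.Cm c) (h0 : z ≠ 0) (H : EN M (c * T.n β z z)) : c ∈ T.JJ M β := by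
  have D := h.sd
  by_cases h2 : (2 : F) = 0
  swap
  · exact h.jj_of hC (.inr h2) hc (D.alt z) h0 H
  refine ⟨hc, fun y hy t _ => ?_⟩
  obtain ⟨x, rfl⟩ := FiniteField.isSquare_of_char_two
    (ringChar.eq_iff.mpr (CharTwo.of_one_ne_zero_of_two_eq_zero one_ne_zero h2)) t
  by_cases e : x • y = 0
  · rcases smul_eq_zero.mp e with rfl | rfl <;> simpa [TS.n] using EN.zero
  obtain ⟨g, a1, a2⟩ := D.erel D.ns hC.three (D.alt z) h0 (D.alt _) e
  refine H.conj (h.rt g (D.EG_le_SUG a1)) fun v => ?_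
  rw [show (x * x) • c * T.n β y y = c * T.n β (g.1 z) (g.1 z) by
    simp [a2, TS.n_smul_left, TS.n_smul_right, smul_smul], ← TS.cj_n, ← hc.cj g.1, ← map_mul]
  simp [LinearEquiv.conjAlgEquiv_apply, hc.cj]

theorem bb_jj' (h3 : 3 ≤ finrank F W) (hc : c ∈ T.BB M h.sd) :
    ∃ c' ∈ T.JJ M β, ∀ v w, B v (c' w) = B v (c w) + B (c v) w := by
  have D := h.sd
  obtain ⟨y, h0, hy⟩ := D.exists_iso D.ns hC.two
  have : Nontrivial W := ⟨_, _, h0⟩
  obtain ⟨y', hy'⟩ := D.exists_SP hy h0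
  have := hy'.nontrivial_spp D h3
  obtain ⟨s, hs⟩ := _root_.exists_ne (0 : spp β y y')
  obtain ⟨s', hs'⟩ := (hy'.sd D).exists_ne hs
  obtain ⟨k, a1, a2, a3⟩ := hc.2 y s hy (spp_left s)
  obtain ⟨δ, rfl⟩ := TS.exists_j hc.1
  rw [res_apply] at hs'
  obtain ⟨θ, b1, b2⟩ := h.comm_lv a1 hy h0 ⟨a2, fun v hv => ⟨_, by rw [a3 v hv, TS.n_apply, TS.j_t]⟩⟩
    (s := (β s s')⁻¹ • s'.1) (by simp [spp_left]) (δ := δ) fun u => by
      rw [a3 _ (by simp [spp_left])]; simp [TS.n_apply, hs']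
  exact ⟨_, jj_id hC h (fun _ => T.comm_ij _ _) h0 b1, fun v w => T.h.inductionOn v (by simp)
    (fun u z => by simp [h.B_r, b2]) fun _ _ a b => by simp only [map_add, LinearMap.add_apply, a, b]; ring⟩

theorem cw_id [Nontrivial U] (hJ : ∀ c ∈ T.JJ M β, ∃ d : F, c = d • 1) (hL : ∀ z, z ≠ 0 → ∀ k ∈ M, T.Lv β z k →
    ∀ s (δ : End F U), β z s = 0 → (∀ u, k (T.t u s) = T.t u s + T.t (δ u) z) → ∃ c : F, ∀ u, δ u = c • u) :
    CW B γ β M T := by
  refine ⟨h, fun z hz h0 k hk H => ?_⟩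
  have D := h.sd
  obtain ⟨z', hz'⟩ := D.exists_SP hz h0
  obtain ⟨u₀, hu⟩ := _root_.exists_ne (0 : U)
  obtain ⟨l, hl⟩ := Module.Projective.exists_dual_eq_one F hu
  obtain ⟨s₀, hs⟩ := D.exists_repr (-l ∘ₗ T.r (β z') ∘ₗ (k.toLinearMap - 1) ∘ₗ T.t u₀)
  have a1 : β z s₀ = 0 := D.comm0 (by simp [hs, H.1])
  obtain ⟨d, hd⟩ := exists_adm D hz a1
  have a2 := mul_mem (inv_mem (h.rho_mem z s₀ d)) hk
  obtain ⟨θ, hθ⟩ := h.lv2 (h.iso _ a2) hz h0 fun v hv => (LinearEquiv.symm_apply_eq _).mpr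
    (T.ind_ker hz'.ef (p := fun v => k v = T.ie (rho β z s₀ d).1 v) (by simp) (fun u s b => by
      obtain ⟨δ, b1⟩ := h.exists_delta hz h0 H b
      obtain ⟨c, b2⟩ := hL z h0 k hk H s δ b b1
      simp [T.ie_rho D hd, b, hs, b1, b2, hz'.fe D, hl]) (fun _ _ a b => by simp only [map_add, a, b]) hv)
  obtain ⟨c, hc⟩ := hJ _ (jj_id hC h (fun _ => T.comm_ij _ _) h0 ⟨_, a2, hθ⟩)
  refine ⟨(rho β z s₀ d).1.toLinearMap * (1 + c • (β z).smulRight z), fun v => ?_⟩
  have := (LinearEquiv.symm_apply_eq _).mp (hθ v)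
  simpa [TS.n_apply, hc, TS.ie_apply, TS.i_rk] using this

end

variable [FiniteDimensional F U]

theorem gen_om {T : TS F U W V} (h : FT (polarBilin Q) γ β M T) (t : TT Q γ β T.t (-1)) [Nontrivial U] (hM : M ≤ OG Q)
    (hn : 5 ≤ finrank F V) (h3 : 3 ≤ finrank F W) (H : ∀ θ, T.j θ ∈ T.BB M h.sd) :
    Om Q ≤ M.comap (OG Q).subtype := by
  have D := h.sd
  obtain ⟨y, h0, hy⟩ := D.exists_iso D.ns hC.two
  obtain ⟨x, hx⟩ := exists_ne (0 : U)
  refine t.le_of_all hn h3 (t.f₁.alt x) hx hy h0 fun e z _ _ hz z0 u w hw => ?_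
  have a1 := t.Qz hz e
  have a2 : polar Q (T.t e z) (T.t u w) = 0 := by simp [t.map, hw]
  obtain ⟨k, b1, -, b2⟩ := (H ((γ u).smulRight e)).2 z w hz hw
  refine ⟨a1, a2, (mul_mem_cancel_left (inv_mem b1)).mp ?_⟩
  have b3 := fun x w v => h.B_r x w v
  simp only [polarBilin_apply_apply] at b3
  let g := (⟨k, hM b1⟩ : OG Q)⁻¹ * sieg Q (T.t e z) (T.t u w)
  obtain ⟨θ, hθ⟩ := h.lv2 (k := g.1) (OG_polar g) hz z0 fun v hv => k.symm_apply_eq.mpr (by
    simp [sieg_apply a1 a2, b2 v hv, b3, hv, TS.n_apply])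
  obtain ⟨z', hz'⟩ := D.exists_SP hz z0
  obtain ⟨φ, hφ⟩ := exists_sub_flip (A := γ.compl₂ θ) fun x => by
    simpa [hθ, TS.n_apply, hz'.ef, Q_add, t.Qz hz, t.map, hz'.fe D] using g.2 (T.t x z')
  have a3 : Injective γ := (injective_iff_map_eq_zero _).mpr fun x hx => t.f₁.sep x fun y => by simp [hx]
  let ψ := LinearEquiv.ofBijective γ ⟨a3, (LinearMap.injective_iff_surjective_of_finrank_eq_finrank (by simp)).mp a3⟩
  obtain ⟨c', c1, c2⟩ := bb_jj' hC h h3 (H (-ψ.symm.toLinearMap ∘ₗ φ.flip))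
  have c3 : ∀ x u, γ (ψ.symm (φ.flip x)) u = φ u x := fun x u => LinearMap.congr_fun (ψ.apply_symm_apply (φ.flip x)) u
  obtain rfl : c' = T.j θ := LinearMap.ext fun w => nd_ext t.nd fun v => (c2 v w).trans
    (T.h.inductionOn v (by simp) (fun u x => by
      simpa [b3, t.f₁.symm u (ψ.symm _), c3, sub_eq_add_neg] using (LinearMap.congr_fun₂ hφ u (T.r (β x) w)).symm)
      fun _ _ a b => by simp only [map_add, LinearMap.add_apply, ← a, ← b]; ring)
  obtain ⟨k', c1, c2⟩ := c1.2 z hz 1 rfl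
  rwa [← show g.1 = k' from LinearEquiv.ext fun v => by simp [hθ, c2]] at c1

variable {κ : Type*} {T : κ → TS F U W V} (h : Wr T) (hF : ∀ i, FT (polarBilin Q) γ β M (T i))
include h hF

theorem jj_om [Finite κ] [Nontrivial U] (t : ∀ i, TT Q γ β (T i).t (-1)) (hM : M ≤ OG Q) (hn : 5 ≤ finrank F V)
    (h3 : 3 ≤ finrank F W) (cyc : ∀ i j k, i ≠ j → i ≠ k → j ≠ k → ∃ g ∈ M, (∀ a, ((T i).act g).i a = (T j).i a) ∧
      ∀ a, ((T j).act g).i a = (T k).i a) (H : ¬ Om Q ≤ M.comap (OG Q).subtype) (i : κ)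
    (hc : c ∈ (T i).JJ M β) : ∃ d : F, c = d • 1 := by
  classical
  have := Fintype.ofFinite κ
  have : Nontrivial W := Module.nontrivial_of_finrank_pos (R := F) (by omega)
  have D := (hF i).sd
  by_contra a0
  obtain ⟨j₀, hj₀⟩ := not_forall.mp fun e => a0 (h.cen e)
  obtain ⟨ν, a1, a2, a3⟩ := (h.inv_jj (γ := fun _ => γ) hF (show j₀ ≠ i by rintro rfl; exact hj₀ hc.1)).exists_nil D hC
    TS.jj_smul hc hj₀
  obtain ⟨j, hj⟩ := not_forall.mp fun e : ∀ j, (T j).Cm ν => a2 (by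
    obtain ⟨d, rfl⟩ := h.cen e
    by_cases e' : d = 0
    · simp [e']
    · simpa [e'] using a3)
  have a4 : ∀ {k c}, c ∈ (T i).AL M D → ¬ (T k).Cm c → ∀ a, (T k).i a ∈ (T i).AL M D := fun {k c} =>
    h.nuf D hC h3 (Finset.univ.erase i) ((T i).AL M D).toSubmodule (fun _ a _ b => ((T i).AL M D).mul_mem a b)
      (fun l hl c hc => by obtain rfl : l = i := by simpa using hl
                           exact hc.1)
      fun l hl g hg c hc => TS.al_conj ((hF l).rt g hg) (fun a => h.cm l i (Finset.ne_of_mem_erase hl) _ a) hc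
  have a5 := a4 ((hF i).nil_al a1 a3) hj
  have a6 : i ≠ j := by rintro rfl; exact hj a1.1
  obtain ⟨y, y0, hy⟩ := D.exists_iso D.ns hC.two
  obtain ⟨y', hy'⟩ := D.exists_SP hy y0
  have a7 : ∀ k ≠ i, ∀ a, (T k).i a ∈ (T i).AL M D := fun k hk => by
    by_cases e : j = k
    · exact e ▸ a5
    obtain ⟨g, b1, b2, b3⟩ := cyc i j k a6 hk.symm e
    have := hy'.nontrivial_spp D h3
    obtain ⟨s, hs⟩ := exists_ne (0 : spp β y y')
    obtain ⟨c', b4, b5⟩ := bb_jj' hC (hF i) h3 ((hF i).al_bb (a5 ((β s).smulRight y)))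
    obtain rfl : c' = (T j).i ((β s).smulRight y - (β y).smulRight s.1) := LinearMap.ext fun w => nd_ext (t i).nd fun v => by
      rw [b5, show (T j).i ((β s).smulRight y) v = (T j).n β s y v from rfl, (hF j).adj]; simp [TS.n, sub_eq_add_neg]
    have b6 := TS.jj_act b1 b2 b4
    rw [show g.conjAlgEquiv F ((T j).i _) = (T k).i _ from LinearMap.ext fun v => by rw [← b3, TS.act_i]; rfl] at b6
    generalize hb : (β s).smulRight y - (β y).smulRight s.1 = b at b6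
    obtain ⟨g', c1, c2⟩ := b6.2 y hy 1 rfl
    have c3 : (T i).Cm g' := fun a => by
      rw [show g'.toLinearMap = 1 + (T k).i b * (T j).n β y y from LinearMap.ext (by simpa using c2)]
      exact (Commute.one_left _).add_left ((h.cm k i hk _ _).mul_left (h.cm j i a6.symm _ _))
    have c4 := sub_mem (TS.al_conj c1 c3 (a5 ((β y').smulRight y))) (a5 ((β y').smulRight y))
    have c5 : g'.conjAlgEquiv F ((T j).n β y' y) - (T j).n β y' y = (T k).i b * (T j).n β y y := LinearMap.ext fun v => by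
      obtain ⟨θ, hθ⟩ : ∃ θ, (T k).i b = (T j).j θ := TS.exists_j b6.1
      have : g'.symm v = v - (T k).i b ((T j).n β y y v) := g'.symm_apply_eq.mpr (by simp [c2, hθ, TS.n_apply, hy])
      simp [LinearEquiv.conjAlgEquiv_apply, this, c2, hθ, TS.n_apply, hy, hy'.fe D]
    refine a4 (c5 ▸ c4) fun e' => hs (Subtype.ext ?_)
    obtain ⟨ψ, hψ⟩ := Module.Projective.exists_dual_eq_one F y0
    have c6 := TS.Cm.eq_zero (T := T j) (c := (T k).i (b * ψ.smulRight y' - ψ.smulRight y' * b)) (h.cm k j (Ne.symm e) _)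
      (a := (β y).smulRight y) (fun d => y0 (by simpa [hy'.ef] using LinearMap.congr_fun d y')) (by
        rw [map_sub, map_mul, map_mul, sub_mul, mul_assoc, (h.cm k j (Ne.symm e) _ _).eq, ← mul_assoc, mul_assoc _ ((T k).i b)]
        exact sub_eq_zero.mpr (e' _).eq)
    obtain ⟨u, hu⟩ := exists_ne (0 : U)
    exact ten_right_inj (T k).h hu (by
      simpa [← hb, hψ, hy, hy'.ef, D.spp_left', D.spp_right'] using LinearMap.congr_fun c6 ((T k).t u y))
  exact H (gen_om hC (hF i) (t i) hM hn h3 fun θ => (hF i).al_bb (TS.all_of_gen h i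
    (B := ((T i).AL M D).comap (T i).j) (fun k hk a θ e => show (T i).j θ ∈ _ from e ▸ a7 k hk a) θ))

end Cfsg.Agent.H18
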