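import Mathlib
import Cfsg.Agent.H18.SwA

/-!
Tensor powers of symplectic spaces of dimension at least six.
-/

set_option autoImplicit false

namespace Cfsg.Agent.H18

open Module QuadraticMap H13 H12 Function

variable {F V U W : Type*} [Field F] [AddCommGroup V] [Module F V] [AddCommGroup U] [Module F U]
  [AddCommGroup W] [Module F W] {B : V →ₗ[F] V →ₗ[F] F} {γ : U →ₗ[F] U →ₗ[F] F}
  {β : W →ₗ[F] W →ₗ[F] F} {M : Subgroup (V ≃ₗ[F] V)} {c ν ρ : End F V} {y z s : W} {k : V ≃ₗ[F] V}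

/-- Short root elements of the factor. -/
def shr (β : W →ₗ[F] W →ₗ[F] F) (z s : W) : End F W := (β s).smulRight z - (β z).smulRight s

@[simp] theorem shr_apply (w : W) : shr β z s w = β s w • z - β z w • s := rfl

theorem kd_lin {r : ℕ} {Y : Type*} [AddCommGroup Y] [Module F Y] (N : (Fin r → F) →ₗ[F] Y) : KD (RingHom.id F) 1 N := by
  have : ∀ s : Finset (Fin r), KD (RingHom.id F) 1 fun c : Fin r → F => ∑ i ∈ s, c i • N (Pi.single i 1) := fun s => by
    induction s using Finset.induction_on with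
    | empty => simpa using KD.const 0
    | insert i s hi ih => simpa [Finset.sum_insert hi] using (KD.coord (ι := RingHom.id F) i _).add ih
  convert this Finset.univ with c
  exact LinearMap.pi_apply_eq_sum_univ N c |>.trans (by congr; ext; congr; ext; simp [Pi.single_apply, eq_comm])

variable [FiniteDimensional F W]

theorem exists_ti₃ (D : SD β) (h5 : 5 ≤ finrank F W) (y s : W) :
    ∃ x, β y x = 0 ∧ β s x = 0 ∧ x ∉ Submodule.span F {y, s} := by
  obtain ⟨x, a, b⟩ := H12.exists_notMem_of_finrank_lt (H := Submodule.span F {y, s}) (W := sperp β (Submodule.span F {y, s}))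
    (by have := D.finrank_sperp (Submodule.span F {y, s}); have := H12.finrank_span_pair_le (F := F) y s; omega)
  exact ⟨x, (mem_sperp_pair.mp a).1, (mem_sperp_pair.mp a).2, b⟩

theorem shr_mv (D : SD β) (h0 : z ≠ 0) (hs : β z s = 0) (h1 : s ∉ F ∙ z) {z' s' : W} (h0' : z' ≠ 0) (hs' : β z' s' = 0)
    (h1' : s' ∉ F ∙ z') : ∃ g ∈ SUG β, g.1 z = z' ∧ g.1 s = s' :=
  D.witt_SUG_two (li_pair_of_notMem h0 h1) (li_pair_of_notMem h0' h1') (by simp [D.alt]) (hs'.trans hs.symm)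
    (by simp [D.alt]) (.inl rfl)

section
variable {T : TS F U W V} (h : FT B γ β M T)
include h

theorem bb_of (hk : k ∈ M) (h0 : z ≠ 0) (H : T.Lv β z k) (hs : β z s = 0) (h1 : s ∉ F ∙ z) {δ : End F U}
    (hδ : ∀ u, k (T.t u s) = T.t u s + T.t (δ u) z) : T.j δ ∈ T.BB M h.sd := by
  have D := h.sd
  have a0 := D.alt
  have a1 := D.comm0 hs
  have a6 := mul_mem (inv_mem hk) (mul_mem (h.tv_mem s (-1)) (mul_mem hk (inv_mem (h.tv_mem s (-1)))))
  generalize hG : k⁻¹ * (T.ie (H12.tv β s (-1)).1 * (k * (T.ie (H12.tv β s (-1)).1)⁻¹)) = G at a6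
  have a7 : ∀ v, T.r (β z) v = 0 → G v = v + T.t (δ (T.r (β s) v)) z := fun v hv => by
    obtain ⟨x, hx⟩ := H.2 v hv
    have b1 : (T.ie (H12.tv β s (-1)).1).symm v = v + T.t (T.r (β s) v) s :=
      (LinearEquiv.symm_apply_eq _).mpr (by simp [T.ie_tv D (a0 s), a0])
    simp only [← hG, LinearEquiv.mul_apply, LinearEquiv.coe_inv, b1]
    exact k.symm_apply_eq.mpr (by simp [hx, hδ, H.1, T.ie_tv D (a0 s), a0, a1, tv_apply_of_perp D _ a1]; abel)
  refine ⟨fun _ => T.comm_ij _ _, fun y s' hy b => ?_⟩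
  by_cases e : y = 0
  · exact ⟨1, one_mem _, by simp [e, TS.n]⟩
  by_cases e' : s' ∈ F ∙ y
  · obtain ⟨c, rfl⟩ := Submodule.mem_span_singleton.mp e'
    exact ⟨1, one_mem _, by simp, fun v hv => by simp [TS.n_apply, hv]⟩
  obtain ⟨g, c1, rfl, rfl⟩ := shr_mv D h0 hs h1 e b e'
  have c2 : ∀ v, T.r (β (g.1 z)) v = 0 → (T.ie g.1 * G * (T.ie g.1)⁻¹) v = v + T.j δ (T.n β (g.1 s) (g.1 z) v) :=
    fun v hv => by
      obtain ⟨v, rfl⟩ := (T.ie g.1).surjective v
      rw [T.r_ie] at hv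
      simp [a7 v hv, TS.n_apply, T.r_ie]
  exact ⟨_, mul_mem (mul_mem (h.rt g c1) a6) (inv_mem (h.rt g c1)), fun u => by
    rw [c2 _ (by simp [hy])]; simp [TS.n_apply, D.comm0 b], c2⟩

variable [Finite F] (h2 : (2 : F) = 0) (h5 : 5 ≤ finrank F W)
include h2 h5

theorem short_two (hB : ∀ x, (∀ v, B v x = 0) → x = 0) (hJ : ∀ c ∈ T.JJ M β, ∃ d : F, c = d • 1) (h1 : ν ∈ T.BB M h.sd)
    (h3 : ν * ν = 0) (h0 : z ≠ 0) (hs : β z s = 0) (h4 : s ∉ F ∙ z) (t : F) : EN M (t • ν * T.i (shr β z s)) := by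
  have D := h.sd
  have a0 := D.alt
  have a1 := D.comm0 hs
  have : Nontrivial W := ⟨_, _, h0⟩
  obtain ⟨c', b1, b2⟩ := bb_jj' (.inl (by omega)) h (by omega) h1
  obtain ⟨d, rfl⟩ := hJ _ b1
  obtain ⟨δ, rfl⟩ := TS.exists_j h1.1
  have a9 : ∀ u, δ (δ u) = 0 := fun u => ten_left_inj T.h h0 (by simpa using LinearMap.congr_fun h3 (T.t u z))
  have a8 : ∀ v, T.j δ (T.j δ v) = 0 := LinearMap.congr_fun h3
  have a3 : ∀ v w, B (T.j δ v) w = -B v (T.j δ w) := fun v w => by
    have c0 : ∀ w : V, (d * d) • w = 0 := fun w => hB _ fun v => by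
      have c1 := b2 v w
      have c2 := b2 (T.j δ v) w
      have c3 := b2 v (T.j δ w)
      simp only [a8, map_smul, smul_eq_mul, LinearMap.smul_apply, End.one_apply, map_zero, LinearMap.zero_apply] at c1 c2 c3 ⊢
      linear_combination d * c1 + c2 + c3 + (B (T.j δ v) (T.j δ w)) * h2
    have c1 := b2 v w
    rw [show (d • (1 : End F V)) w = 0 by
      rcases smul_eq_zero.mp (c0 w) with e | e
      · simp [mul_self_eq_zero.mp e]
      · simp [e], map_zero] at c1
    linear_combination -c1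
  let X := fun s : W => T.j δ * (T.n β s z - T.n β z s)
  have a2 : ∀ s v, X s v = T.t (δ (T.r (β s) v)) z - T.t (δ (T.r (β z) v)) s := fun a v => by simp [X, TS.n_apply]
  have a4 : ∀ s s' v, X s (X s' v) = 0 := fun s s' v => by simp [a2, a9]
  have a5 : ∀ v w, B (X s v) w = -B v (X s w) := fun v w => by
    simp only [X, End.mul_apply, a3, LinearMap.sub_apply, map_sub, h.adj]
    simp [TS.n_apply]
  obtain ⟨G, a6, -, a7⟩ := h1.2 z s (a0 z) hs
  obtain ⟨θ, hθ⟩ := h.lv2 (k := (ex (X s)).symm * G) (fun x y => by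
    simp [ex_symm (a4 s s), a5, a4, h.iso G a6]) (a0 z) h0 fun v hv => by
      simp [ex_symm (a4 s s), a7 v hv, a2, hv, a0, a1, TS.n_apply]
  have a8 : ∀ s', β z s' = 0 → s' ∉ F ∙ z → EN M (T.j θ * T.n β z z + X s') := fun s' c1 c2 => by
    obtain ⟨g, b1, b2, rfl⟩ := shr_mv D h0 hs h4 h0 c1 c2
    refine EN.conj (N := T.j θ * T.n β z z + X s) ⟨G, a6, fun v => ?_⟩ (h.rt g b1) fun v => ?_
    · rw [show G v = _ from (ex (X s)).symm_apply_eq.mp (hθ v), ex_apply (a4 s s)]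
      simp [a2, TS.n_apply, a0, a1]; abel
    have c1 := T.r_ie g z v
    rw [b2] at c1
    simp [a2, TS.n_apply, b2, c1, T.r_ie]
  obtain ⟨x, c1, -, c2⟩ := exists_ti₃ D h5 z s
  have c3 : ∀ t : F, x + t • s ∉ F ∙ z := fun t e => c2 (by
    obtain ⟨a, ha⟩ := Submodule.mem_span_singleton.mp e
    exact Submodule.mem_span_pair.mpr ⟨a, -t, by rw [ha]; module⟩)
  convert (a8 _ (by simp [c1, hs]) (c3 t)).add ((a8 x c1 (by simpa using c3 0)).neg (by
    simp [a2, TS.n_apply, a0, a9, D.comm0 c1, c1])) (by simp [a2, TS.n_apply, a0, a9, a1, D.comm0 c1, c1, hs]) using 1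
  ext v; simp [a2, TS.n_apply, shr, TS.i_rk, smul_sub]; abel

end

variable [Finite F] {κ : Type*} [Fintype κ] [DecidableEq κ] {T : κ → TS F U W V} (h : Wr T)
  (hF : ∀ i, FT B γ β M (T i)) (hJ : ∀ i, ∀ c ∈ (T i).JJ M β, ∃ d : F, c = d • 1)
include hF hJ

theorem step_sh (h4 : 4 ≤ finrank F W) (h0 : z ≠ 0) (hs : β z s = 0) (h1 : s ∉ F ∙ z) (S : Finset κ) (j : κ)
    (ρ : End F V) (b1 : S.Nonempty) (b2 : j ∉ S) (b3 : h.XP M S (shr β z s) ρ) (b4 : ¬ (T j).Cm ρ) :
    ∃ ρ' ≠ 0, h.XP M (insert j S) (shr β z s) ρ' := by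
  have D := (hF j).sd
  have : Nontrivial W := ⟨_, _, h0⟩
  have hC : HC β := .inl h4
  obtain ⟨s', -, a1, a2⟩ := D.partner₂ (D.alt s) hs h1
  have a4 : shr β z s * shr β z s = 0 := by ext; simp [D.alt, hs, D.comm0 hs]
  have a5 : shr β z s ≠ 0 := fun e => h0 (by simpa [a1, a2] using LinearMap.congr_fun e s')
  have b5 := h.inv_XS hF a4 b1 b2
  have c2 : ∀ y y', ∀ l ∈ S, (T l).Cm ((T j).co β y y' ρ) := fun y y' l a b =>
    TS.co_comm (h.cm l j (by rintro rfl; exact b2 a)) (b3.1 l a b) y y'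
  have b6 : ∀ α y, y ≠ 0 → (T j).Cm α → (∀ l ∈ S, (T l).Cm α) → h.XP M S (shr β z s) (α * (T j).n β y y) → α = 0 :=
    fun α y e c0 c2 c1 => by
      obtain ⟨d, hd⟩ := hJ j _ (jj_id hC (hF j) (c0.mul (h.pr_cm (n := shr β z s) b2)) e (by
        simpa [mul_assoc, (h.pr_cm b2).n] using c1.2 1))
      refine h.pr_faith a5 c2 ?_
      by_cases e' : d = 0
      · simpa [e'] using hd
      have := congrArg (· * h.pr S (shr β z s)) hd
      simp only [mul_assoc, h.pr_sq a4 b1, mul_zero, smul_mul_assoc, one_mul] at this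
      rw [(smul_eq_zero_iff_right e').mp this.symm, mul_zero]
  rcases TS.exists_ex D hC b4 with ⟨-, y, y', c1, c3, c4, c5, c6, c7⟩ | ⟨c0, y, c1, c⟩
  swap
  · exact absurd (b6 _ y (by rintro rfl; simp [TS.co] at c) (TS.co_cm _ _ _ _) (c2 y y) (TS.Inv.ex2
      (X := (h.XS M a4 b1).toAddSubgroup) D b5 c0 (fun t _ _ => Submodule.smul_mem _ t) c1 b3)) c
  have c8 := TS.Inv.ex1 (X := (h.XS M a4 b1).toAddSubgroup) D b5 c1 c3 c4 b3
  have c9 := b6 _ y c5 (fun a => (TS.co_cm _ y y' ρ a).add_left (TS.co_cm _ y' y ρ a))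
    (fun l hl a => (c2 y y' l hl a).add_left (c2 y' y l hl a))
    (show _ ∈ h.XS M a4 b1 from by simpa using b5.mvA D (TS.co_cm _ _ _ _) (TS.co_cm _ _ _ _) c1 c3 c4 c6 c8 1)
  obtain ⟨g, d1, d2, d3⟩ := shr_mv D c5 c4 c6 h0 hs h1
  refine ⟨_, c7, b3.ins h b2 y y' ?_⟩
  have := b5.mv (TS.co_cm _ _ _ _) (TS.co_cm _ _ _ _) c8 d1 d2 d3
  rwa [eq_neg_of_add_eq_zero_right c9, neg_mul, ← sub_eq_add_neg, ← mul_sub, TS.n, TS.n, ← map_sub] at this

variable (h2 : (2 : F) = 0) (h5 : 5 ≤ finrank F W) [Nontrivial U]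
include h h2 h5

theorem no_sh {S : Finset κ} {i j : κ} (hi : i ∈ S) (hj : j ∈ S) (hij : j ≠ i) (h0 : z ≠ 0) (hs : β z s = 0)
    (h1 : s ∉ F ∙ z) : ¬ h.XP M S (shr β z s) 1 := fun H => by
  have D := (hF i).sd
  have a0 := D.alt
  have : Nontrivial W := ⟨_, _, h0⟩
  obtain ⟨e₃, -, a1, a2⟩ := D.exists_ti₂ (by omega) (a0 z) h0
  obtain ⟨e₁, a3, a4, a5⟩ := exists_ti₃ D h5 z e₃
  obtain ⟨f₁, a6, a7⟩ := D.exists_perp_one _ a5
  have a8 : z ∉ F ∙ e₁ := notMem_span_symm (fun e => a5 (Submodule.span_mono (by simp) e)) h0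
  obtain ⟨f₂, a9, b1⟩ := D.exists_perp_one _ a8
  have b2 := a6 z (Submodule.subset_span (by simp))
  have b3 := a6 e₃ (Submodule.subset_span (by simp))
  have b4 := a9 e₁ (Submodule.mem_span_singleton_self _)
  have b5 : ∀ {x y w : W}, β w x = 0 → β w y = 1 → y ∉ F ∙ x := fun a b e => by
    obtain ⟨c, rfl⟩ := Submodule.mem_span_singleton.mp e
    simp [a] at b
  have b6 : ∀ {y w : W}, β w y = 1 → y ≠ 0 := fun b => by rintro rfl; simp at b
  have b7 : ∀ x y, β x y = β y x := fun x y => by rw [D.skew]; simp; linear_combination -β y x * h2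
  have b8 : ∀ p : κ → W × W, (∀ l, (p l).1 ≠ 0 ∧ β (p l).1 (p l).2 = 0 ∧ (p l).2 ∉ F ∙ (p l).1) →
      EN M (h.ph (S.piecewise (fun l => shr β (p l).1 (p l).2) 1)) := fun p hp => by
    simpa using h.mv hF (a := S.piecewise (fun _ => shr β z s) 1) (t := 1) (fun l => by
      by_cases e : l ∈ S
      · obtain ⟨g, a1, a2, a3⟩ := shr_mv D h0 hs h1 (hp l).1 (hp l).2.1 (hp l).2.2
        exact ⟨g, a1, by ext; simp [e, ← a2, ← a3, UG_map]⟩
      · exact ⟨1, one_mem _, by simp [e]⟩) (by simpa [Wr.pr] using H.2 1)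
  have c1 := b8 (fun _ => (e₁, z)) fun _ => ⟨b6 ((b7 ..).trans a7), D.comm0 a3, a8⟩
  have c2 := b8 (update (update (fun _ => (f₁, z)) j (f₁, e₃)) i (e₁, f₂)) fun l => by
    by_cases e : l = i
    · simpa [e] using ⟨b6 ((b7 ..).trans a7), b4, b5 a3 b1⟩
    by_cases e' : l = j
    · simpa [e', hij] using ⟨b6 a7, D.comm0 b3, notMem_span_symm (b5 (D.comm0 a4) a7) fun d => a2 (by simp [d])⟩
    · simpa [e, e'] using ⟨b6 a7, D.comm0 b2, notMem_span_symm (b5 (D.comm0 a3) a7) h0⟩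
  set a := S.piecewise (fun _ => shr β e₁ z) 1 with ha
  set a' := S.piecewise (fun l => shr β ((update (update (fun _ => (f₁, z)) j (f₁, e₃)) i (e₁, f₂)) l).1
    ((update (update (fun _ => (f₁, z)) j (f₁, e₃)) i (e₁, f₂)) l).2) 1 with ha'
  have c3 : ∀ x : W, -x = x := fun x => by rw [neg_eq_iff_add_eq_zero, ← two_smul F, h2, zero_smul]
  have c4 : ∀ b : κ → End F W, b i = 0 → h.ph b = 0 := fun b => ph_zero h
  have c5 : ∀ x : End F V, x + x = 0 := fun x => by rw [← two_smul F, h2, zero_smul]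
  let f := update (update (S.piecewise (fun _ => (β z).smulRight z) 1) j (shr β z e₃)) i 1
  have c6 : h.ph a * h.ph a' + h.ph a' * h.ph a = h.ph f * (T i).n β e₁ e₁ := by
    rw [← map_mul, ← map_mul, ← update_eq_self j (a * a'), ← update_eq_self j (a' * a), h.ph_update, h.ph_update (a' * a),
      show update (a' * a) j 1 = update (a * a') j 1 from ?_, ← mul_add, ← map_add, ← h.ph_update, TS.n, ← ph_upd h (by simp [f])]
    · congr 1; ext1 l
      by_cases e : l = i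
      · ext; simp [e, hij.symm, ha, ha', hi, a0, b1, b4, D.comm0 a3, a3, c3]
      by_cases e' : l = j
      · ext; simp [e', hij, f, ha, ha', hj, a0, a1, a7, b2, b3, b7 f₁, a4, D.comm0 a4, D.comm0 a1, sub_eq_add_neg, c3, add_comm]
      by_cases e'' : l ∈ S
      · ext; simp [e, e', e'', f, ha, ha', a0, a7, b2, D.comm0 a3, c3]
      · simp [e, e', e'', f, ha, ha']
    ext1 l
    by_cases e' : l = j
    · simp [e']
    by_cases e : l = i
    · ext; simp [e, hij.symm, ha, ha', hi, a0, b1, b4, D.comm0 a3, a3, b7 f₂, c3]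
    by_cases e'' : l ∈ S
    · ext; simp [e, e', e'', ha, ha', a0, a7, b2, D.comm0 a3, c3, b7 f₁, a3]
    · simp [e', e'', ha, ha']
  obtain ⟨d, hd⟩ := hJ i (h.ph f) (jj_id (.inl (by omega)) (hF i) (h.ph_cm (by simp [f])) (b6 ((b7 ..).trans a7)) (by
    convert (c1.mul c2).mul (c1.mul c2) using 1
    simp only [← c6, mul_add, add_mul, ← map_mul, c5, zero_add]
    rw [c4 (a * a), c4 (a' * a'), c4 (a * a' * a), c4 (a * a' * a'), c4 (a * (a * a')), c4 (a' * (a * a')),
      c4 (a * a' * (a * a'))]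
    · simp [add_comm]
    all_goals (ext; simp [ha, ha', hi, a0, b1, b4, D.comm0 a3, a3, D.comm0 b4])))
  have d1 : h.ph f * h.ph f = 0 := by
    rw [← map_mul]; exact ph_zero h (l := j) (by ext; simp [f, hij, a0, a1, D.comm0 a1])
  rw [hd, smul_mul_smul_comm, mul_one] at d1
  obtain ⟨u, hu⟩ := exists_ne (0 : U)
  have d2 : (1 : End F V) ≠ 0 := fun e => ten_ne_zero (T i).h hu h0 (LinearMap.congr_fun e _)
  refine d2 (ph_faith h (a := f) (D := Finset.univ) (fun l _ => ⟨fun _ => Commute.one_left _, fun e => ?_⟩) (by simp) (by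
    simp [hd, mul_self_eq_zero.mp ((smul_eq_zero_iff_left d2).mp d1)]))
  replace e := LinearMap.congr_fun e f₂
  by_cases e0 : l = i
  · simp [e0, f, b6 b1] at e
  by_cases e' : l = j
  · exact a2 (Submodule.mem_span_singleton.mpr ⟨_, sub_eq_zero.mp (by simpa [e', hij, f, b1] using e)⟩)
  by_cases e'' : l ∈ S <;> simp [e0, e', e'', f, b1, h0, b6 b1] at e

theorem cw_six (hB : ∀ x, (∀ v, B v x = 0) → x = 0) (i : κ) : CW B γ β M (T i) :=
  cw_id (.inl (by omega)) (hF i) (hJ i) fun z h0 k hk H s δ hs hδ => by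
    have D := (hF i).sd
    have : Nontrivial W := ⟨_, _, h0⟩
    by_cases e : s ∈ F ∙ z
    · obtain ⟨c, rfl⟩ := Submodule.mem_span_singleton.mp e
      exact ⟨0, fun u => ten_left_inj (T i).h h0 (by simpa [H.1] using hδ u)⟩
    have a1 := bb_of (hF i) hk h0 H hs e hδ
    by_cases a0 : ∀ j, (T j).Cm ((T i).j δ)
    · exact (h.cen a0).imp fun d b u => ten_left_inj (T i).h h0 (by simpa using LinearMap.congr_fun b ((T i).t u z))
    obtain ⟨j, hj⟩ := not_forall.mp a0
    obtain ⟨ν, a2, a3, a4⟩ := TS.Inv.exists_nil (T := T j) D (.inl (by omega)) (X := ((T i).BB M D).toAddSubgroup)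
      (fun g hg _ hc => TS.bb_conj (D := D) ((hF j).rt g hg) (fun a => h.cm j i (by rintro rfl; exact hj a1.1) _ a) hc)
      (fun t _ _ => Submodule.smul_mem _ t) a1 hj
    clear hj
    obtain ⟨j, hj⟩ := not_forall.mp fun e : ∀ j, (T j).Cm ν => a3 (by
      obtain ⟨d, rfl⟩ := h.cen e
      by_cases e' : d = 0
      · simp [e']
      · simpa [e'] using a4)
    have a5 : j ≠ i := by rintro rfl; exact hj a2.1
    obtain ⟨ρ, b1, b2⟩ := step_sh h hF hJ (by omega) h0 hs e {i} j ν (by simp) (by simpa)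
      ⟨fun l hl => Finset.mem_singleton.mp hl ▸ a2.1, fun t => by
        rw [← insert_empty_eq, h.pr_insert (by simp), h.pr_empty, one_mul]
        exact short_two (hF i) h2 h5 hB (hJ i) a2 a4 h0 hs e t⟩ hj
    obtain ⟨S, b3, b4⟩ := h.extract (step_sh h hF hJ (by omega) h0 hs e) (by simp) b1 b2
    exact absurd b4 (no_sh h hF hJ h2 h5 (b3 (by simp)) (b3 (by simp)) a5 h0 hs e)

omit hF hJ h h2 in
theorem rel_six [FiniteDimensional F U] {T T' : TS F U W V} (h : CW B γ β M T) (h' : CW B γ β M T') : T.Rel T' := by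
  have := Fintype.ofFinite F
  have D := h.sd
  have hC : HC β := .inl (by omega)
  have : Nontrivial W := Module.nontrivial_of_finrank_pos (R := F) (by omega)
  refine (ws_CW D hC).rel_of_sum (fun T h T₁ h₁ S hS => T.ext fun u w => ?_) h h'
  by_cases hw0 : w = 0
  · simp [hw0]
  have hw := D.alt w
  obtain ⟨w', hw'⟩ := D.exists_SP hw hw0
  have a3 : ∀ (s : spp β w w') (c : F), Adm β w s c := fun s c => ⟨hw, spp_left s, by simp [D.alt]⟩
  let Q : Subgroup (UG β) :=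
    { carrier := {g | ∃ (s : spp β w w') (c : F), g = rho β w s c}
      mul_mem' := by
        rintro _ _ ⟨l, c, rfl⟩ ⟨l', c', rfl⟩
        exact ⟨l + l', _, rho_mul D (a3 _ _) (a3 _ _)⟩
      one_mem' := ⟨0, 0, (rho_zero D w).symm⟩
      inv_mem' := by
        rintro _ ⟨l, c, rfl⟩
        exact ⟨-l, _, rho_inv D (a3 _ _)⟩ }
  have := Module.finite_of_finite F (M := W)
  have : Finite (W ≃ₗ[F] W) := Finite.of_injective _ (DFunLike.coe_injective (F := W ≃ₗ[F] W))
  have := Fintype.ofFinite Q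
  let b := (finBasis F (spp β w w' × F)).equivFun.symm
  let π : _ → Additive Q := fun c => .ofMul ⟨_, (b c).1, (b c).2, rfl⟩
  have a4 : Bijective π := by
    refine ⟨fun c c' e => b.injective ?_, fun ⟨_, l, c, e⟩ => ⟨b.symm (l, c), Subtype.ext (by simp [π, e]; rfl)⟩⟩
    have b1 := DFunLike.congr_fun (congrArg (fun g : Additive Q => g.toMul.1.1) e) w'
    simp only [π, toMul_ofMul, rho_apply D (a3 _ _), hw'.ef] at b1
    have b2 := congrArg (β w') b1
    simp [spp_right, D.spp_right', hw'.fe D] at b2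
    exact Prod.ext (Subtype.ext (by simpa [b2, D.spp_right'] using b1)) b2
  have k1 := kd_lin ((spp β w w').subtype ∘ₗ LinearMap.fst F _ F ∘ₗ b.toLinearMap)
  have k2 := ((k1.add ((kd_lin (LinearMap.snd F _ F ∘ₗ b.toLinearMap)).smul (KD.const (d := 0) w))).map
    (LinearMap.smulRightₗ (β w))).add ((k1.map β).map (LinearMap.smulRightₗ.flip w))
  refine h.van hC h₁ hS (C := Additive Q) (fun c => c.toMul.1) (fun _ _ => rfl) (fun c => ?_) (fun c => ?_)
    (fun c c0 T' h' => ?_) π (fun φ e => a4.sum_comp φ ▸ e) (d := 1) (ι := RingHom.id F) ?_ ?_ (by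
      have := hw'.finrank_spp D
      have := Fintype.one_lt_card (α := F)
      rw [finrank_prod, finrank_self]
      exact (show 1 + (1 + 1) < 1 * _ by omega).trans_le (Nat.mul_le_mul_right _ (by omega))) u
  · obtain ⟨l, c, e⟩ := c.toMul.2
    exact e ▸ rho_mem_SUG D _ _ _
  · obtain ⟨l, c, e⟩ := c.toMul.2
    exact e ▸ rho_apply_self D _ _ _
  · obtain ⟨l, c', e⟩ := c.toMul.2
    have b0 : rho β w l c' ≠ 1 := fun e1 => c0 (Subtype.ext (e.trans e1))
    rw [e]
    by_cases e' : l = 0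
    · exact h.ti_root hC h' hw (φ := c' • β w) (fun v => by rw [rho_apply D (a3 _ _)]; simp [e']) b0
    refine h.ti_plane hC h' hw (D.alt l) (spp_left l) hw0 (fun d => ?_) (z₁ := l + c' • w) (z₂ := w) (fun z hz => ?_)
      (rho_mem_SUG D _ _ _) (fun v => by rw [rho_apply D (a3 _ _)]; module) b0
    · obtain ⟨t, ht⟩ := Submodule.mem_span_singleton.mp d
      have := spp_right l
      rw [← ht] at this
      exact e' (Subtype.ext (by simpa [show t = 0 by simpa [hw'.fe D] using this] using ht.symm))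
    · obtain ⟨x, y, rfl⟩ := Submodule.mem_span_pair.mp hz
      simp [D.alt, spp_left, D.spp_left']
  · convert (KD.const 1).add k2 using 2 with c
    refine LinearMap.ext fun v => (rho_apply D (a3 _ _) v).trans ?_
    simp; module
  · convert (KD.const 1).sub k2 using 2 with c
    change ((rho β w _ _)⁻¹).1.toLinearMap = _
    rw [rho_inv D (a3 _ _)]
    refine LinearMap.ext fun v => (rho_apply D ((a3 _ _).neg D) v).trans ?_
    simp; module

end Cfsg.Agent.H18
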