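import Mathlib
import Cfsg.Agent.H18.SwB

/-!
Tensor powers of symplectic planes in orthogonal groups.
-/

set_option autoImplicit false

namespace Cfsg.Agent.H18

open Module QuadraticMap H13 H12 Function

theorem mem_comm_of_sign {κ : Type*} [Fintype κ] [DecidableEq κ] {π : Equiv.Perm κ} (h : Equiv.Perm.sign π = 1) :
    π ∈ commutator (Equiv.Perm κ) := by
  refine (show alternatingGroup κ ≤ _ from ?_) h
  rw [← Equiv.Perm.closure_three_cycles_eq_alternating, Subgroup.closure_le]
  intro g hg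
  obtain ⟨c, hc⟩ := isConj_iff.mp (Equiv.Perm.isConj_iff_cycleType_eq.mpr (Equiv.Perm.cycleType_inv g).symm)
  have := pow_orderOf_eq_one g
  rw [Equiv.Perm.IsThreeCycle.orderOf hg] at this
  have h4 := Subgroup.commutator_mem_commutator (Subgroup.mem_top c) (Subgroup.mem_top g)
  rwa [commutatorElement_def, hc, show g⁻¹ * g⁻¹ = g by
    rw [eq_comm, eq_mul_inv_iff_mul_eq, eq_inv_iff_mul_eq_one, ← this, pow_three']] at h4

theorem exists_even_map {κ : Type*} [Fintype κ] [DecidableEq κ] {S S' : Finset κ} (e : S.card = S'.card) (h : 1 < S.card) :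
    ∃ π ∈ commutator (Equiv.Perm κ), S.map π.toEmbedding = S' := by
  obtain ⟨π, rfl⟩ := Equiv.Perm.exists_map_finset_eq S S' e
  rcases Int.units_eq_one_or (Equiv.Perm.sign π) with c | c
  · exact ⟨π, mem_comm_of_sign c, rfl⟩
  obtain ⟨a, ha, b, hb, d⟩ := Finset.one_lt_card.mp h
  refine ⟨π * Equiv.swap a b, mem_comm_of_sign (by simp [c, d]), Finset.ext fun l => ?_⟩
  rw [Finset.mem_map_equiv, Finset.mem_map_equiv]
  change Equiv.swap a b (π.symm l) ∈ S ↔ _
  rw [Equiv.swap_apply_def]; split_ifs <;> simp [*]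

variable {F V U W : Type*} [Field F] [AddCommGroup V] [Module F V] [AddCommGroup U] [Module F U]
  [AddCommGroup W] [Module F W] {Q : QuadraticForm F V} {B : V →ₗ[F] V →ₗ[F] F} {γ : U →ₗ[F] U →ₗ[F] F}
  {β : W →ₗ[F] W →ₗ[F] F} {M : Subgroup (V ≃ₗ[F] V)} {κ : Type*} [Fintype κ] [DecidableEq κ] {T : κ → TS F U W V}
  {pv : (κ → W) → V} {ζ : F} {y y' : W}

section
variable (H : PV B β T pv ζ)
include H

theorem gv_upd [Nontrivial W] (x : κ → W) (l : κ) : ∃ u, ∀ w, pv (update x l w) = (T l).t u w := by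
  obtain ⟨w, hw⟩ := exists_ne (0 : W)
  obtain ⟨φ, hφ⟩ := Module.Projective.exists_dual_eq_one F hw
  exact ⟨(T l).r φ (pv (update x l w)), fun w' => by rw [← TS.i_rk, H.i_pv]; simp [hφ]⟩

theorem gv_ind {p : V → Prop} (h1 : ∀ (c : F) y, p (c • pv y)) (h2 : ∀ v v', p v → p v' → p (v + v')) (v : V) : p v := by
  simpa using Submodule.span_induction (p := fun v _ => ∀ c : F, p (c • v)) (by rintro _ ⟨y, rfl⟩ c; exact h1 c y)
    (by simpa using h1 0 0) (fun _ _ _ _ a b c => by simpa using h2 _ _ (a c) (b c))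
    (fun d _ _ a c => by simpa [smul_smul] using a (c * d)) (H.span.ge (Submodule.mem_top (x := v))) 1

theorem gv_map (x z : κ → W) (l : κ) : B (pv x) (pv z) = ζ * (∏ m ∈ Finset.univ.erase l, β (x m) (z m)) * β (x l) (z l) := by
  rw [H.map, ← Finset.prod_erase_mul _ _ (Finset.mem_univ l), mul_assoc]

theorem gv_zero {x z : κ → W} (l : κ) (h : β (x l) (z l) = 0) : B (pv x) (pv z) = 0 := by
  rw [gv_map H _ _ l, h, mul_zero]

theorem not_pure (D : SD β) (hy : SP β y y') {i j : κ} (hij : i ≠ j) {c : F} (hc : c ≠ 0) (z : κ → W) :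
    pv z ≠ pv (update (update (fun _ => y) i y') j y') + c • pv fun _ => y := fun e => by
  have a1 : ∀ r s (z : κ → W), B (pv (update (update (fun _ => y') i r) j s)) (pv z) =
      ζ * (∏ m ∈ (Finset.univ.erase j).erase i, β y' (z m)) * β r (z i) * β s (z j) := fun r s z => by
    rw [gv_map H _ _ j, ← Finset.prod_erase_mul _ _ (show i ∈ _ by simpa), Finset.prod_congr rfl fun m hm => by
      rw [update_of_ne (by simp_all), update_of_ne (by simp_all)]]
    simp [hij, mul_assoc]
  have a2 : ∀ r s, ζ * (∏ m ∈ (Finset.univ.erase j).erase i, β y' (z m)) * β r (z i) * β s (z j) =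
      ζ * (∏ m ∈ (Finset.univ.erase j).erase i, β y' y) * (β r y' * β s y' + c * (β r y * β s y)) := fun r s => by
    rw [← a1, e, map_add, map_smul, a1, a1, Finset.prod_congr rfl fun m hm => by
      rw [update_of_ne (by simp_all), update_of_ne (by simp_all)]]
    simp [hij]; ring
  have a3 := (congrArg₂ (· * ·) (a2 y y) (a2 y' y')).symm.trans
    ((by ring : _ = _).trans (congrArg₂ (· * ·) (a2 y y') (a2 y' y)))
  simp [hy.ee, hy.ef, hy.ff, hy.fe D, H.ne, hc] at a3

theorem gv_mind [Nontrivial W] (D : SD β) {x : κ → W} (hx : ∀ l, x l ≠ 0) {p : V → Prop}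
    (hs : ∀ v v', p v → p v' → p (v - v')) (A : Finset κ) (z : κ → W)
    (H' : ∀ y, (∀ l ∈ A, β (x l) (y l) ≠ 0) → (∀ l ∉ A, y l = z l) → p (pv y)) (y : κ → W)
    (hy : ∀ l ∉ A, y l = z l) : p (pv y) := by
  induction A using Finset.induction_on generalizing z y with
  | empty => exact H' y (by simp) hy
  | insert l A a ih =>
    obtain ⟨u, hu⟩ := gv_upd H y l
    have b : ∀ w, β (x l) w ≠ 0 → p (pv (update y l w)) := fun w c => ih (update z l w)
      (fun y' d d' => H' y' (by simpa [d' l a, c] using d) fun m hm => by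
        simp at hm; simpa [hm.1] using d' m hm.2) _ fun m hm => by
      by_cases d : m = l
      · simp [d]
      · simpa [d] using hy m (by simp [d, hm])
    by_cases c : β (x l) (y l) = 0
    · obtain ⟨w, hw⟩ := D.exists_ne (hx l)
      simpa [hu, ← hu (y l)] using hs _ _ (b (y l + w) (by simpa [c])) (b w hw)
    · simpa using b _ c

end

variable [FiniteDimensional F W] (H : PV (polarBilin Q) β T pv ζ) (hQ : ND Q)
include H hQ

omit [FiniteDimensional F W] in
theorem gv_smul (c : κ → F) (x : κ → W) : pv (fun l => c l • x l) = (∏ l, c l) • pv x :=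
  nd_ext hQ <| gv_ind H (fun d y => by
    simp only [map_smul, LinearMap.smul_apply, H.map, smul_eq_mul, Finset.prod_mul_distrib]; ring) fun _ _ a b => by
      simp only [map_add, LinearMap.add_apply, a, b]

variable [Finite F] (h2 : (2 : F) ≠ 0) (hC : HC β) (h : Wr T) (hF : ∀ i, FT (polarBilin Q) γ β M (T i))
  (h4 : finrank F W = 2) (hy : SP β y y') (h0 : ∀ x, Q (pv x) = 0) (hM : M ≤ OG Q) [FiniteDimensional F V]
  (ht : 4 ≤ Fintype.card κ) (hn : 5 ≤ finrank F V)
include hC hF h4 hy h0 hM ht hn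

theorem om_of_top (A : ∀ m, h.XP M (Finset.univ.erase m) ((β y).smulRight y) 1) : Om Q ≤ M.comap (OG Q).subtype := by
  obtain ⟨m₀⟩ : Nonempty κ := Fintype.card_pos_iff.mp (by omega)
  have D := (hF m₀).sd
  have : Nontrivial W := ⟨_, _, hy.ne_left⟩
  have a0 := H.ne
  have : Subsingleton (spp β y y') := (Module.finrank_zero_iff (R := F)).mp (by have := hy.finrank_spp D; omega)
  have b0 : ∀ x w z : W, β w z • x - β x z • w = -β x w • z := fun x w z => by
    obtain ⟨a, b, s, rfl⟩ := hy.exists_eq D x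
    obtain ⟨a', b', s', rfl⟩ := hy.exists_eq D w
    obtain ⟨a'', b'', s'', rfl⟩ := hy.exists_eq D z
    simp [Subsingleton.elim s 0, Subsingleton.elim s' 0, Subsingleton.elim s'' 0, hy.ee, hy.ef, hy.ff, hy.fe D]
    module
  have a1 : ∀ (x : κ → W) m (t : F), (∀ l, x l ≠ 0) → ∃ g : OG Q, g ∈ M.comap (OG Q).subtype ∧ ∀ z, g.1 (pv z) =
      pv z + (t * ∏ l ∈ Finset.univ.erase m, β (x l) (z l)) • pv (update x m (z m)) := fun x m t hx => by
    obtain ⟨g, c1, c2⟩ := h.ps_two hC hF hy (A m) hx t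
    refine ⟨⟨g, hM c1⟩, c1, fun z => ?_⟩
    rw [c2, LinearMap.smul_apply, h.ph_pv H, mul_smul, ← Finset.sdiff_singleton_eq_erase, ← one_mul (∏ l ∈ _, _),
      ← Finset.prod_update_of_mem (Finset.mem_univ m), ← gv_smul H hQ]
    congr 3; ext1 l
    by_cases c : l = m <;> simp [c]
  have a2 : ∀ (x : κ → W) m w, (∀ l, x l ≠ 0) → ∀ c : F, AS (M.comap (OG Q).subtype) (pv x) (c • pv (update x m w)) :=
    fun x m w hx c => by
    obtain ⟨l, hl⟩ := Fintype.exists_ne_of_one_lt_card (by omega) m
    have b1 : polar Q (pv x) (c • pv (update x m w)) = 0 := by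
      rw [polar_smul_right, show polar Q _ _ = 0 from gv_zero H l (by simp [hl, D.alt]), smul_zero]
    obtain ⟨g, c1, c2⟩ := a1 x m (-(c * ζ * β (x m) w)) hx
    refine ⟨h0 x, b1, ?_⟩
    convert c1
    refine OG_ext (gv_ind H (fun d z => ?_) fun _ _ a b => by simp only [map_add, a, b])
    obtain ⟨u, hu⟩ := gv_upd H x m
    have b2 := fun x => gv_map H x z m
    have b3 := congrArg ((T m).t u) (b0 (x m) w (z m))
    simp only [polarBilin_apply_apply, map_sub, map_smul] at b2 b3
    simp only [← hu, update_eq_self] at b3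
    rw [map_smul, map_smul, c2, sieg_apply (h0 x) b1, Q_smul, h0, polar_smul_left, b2, b2, Finset.prod_congr rfl
      fun l hl => by rw [update_of_ne (Finset.ne_of_mem_erase hl)], update_self]
    linear_combination (norm := module) (d * c * ζ * ∏ l ∈ Finset.univ.erase m, β (x l) (z l)) • b3
  have a3 : ∀ (x : κ → W) j m w p, (∀ l, x l ≠ 0) → j ≠ m → β (x j) p ≠ 0 →
      (∀ c : F, AS (M.comap (OG Q).subtype) (pv x) (c • pv (update (update x j p) m w))) →
      ∀ z, z j = x j → z m = w → ∀ c : F, AS (M.comap (OG Q).subtype) (pv x) (c • pv z) :=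
    fun x j m w p hx e hp b z c1 c2 => by
    refine gv_mind H D hx (p := fun v => ∀ c : F, AS _ (pv x) (c • v)) (fun _ _ a b c => by
      simpa [smul_sub] using (a c).sub (b c)) ((Finset.univ.erase m).erase j) z (fun z' d1 d2 c => ?_) z fun _ _ => rfl
    rw [← d2 j (by simp)] at c1
    rw [← d2 m (by simp)] at c2
    have d3 : ∏ l ∈ Finset.univ.erase m, β (update z' m (x m) l) (update (update x j p) m w l) ≠ 0 :=
      Finset.prod_ne_zero_iff.mpr fun l hl => by
        have hl' := Finset.ne_of_mem_erase hl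
        by_cases d : l = j
        · simpa [d, e, c1]
        · simpa [hl', d] using D.ne0 (d1 l (by simp [*]))
    obtain ⟨g, e1, e2⟩ := a1 (update z' m (x m)) m 1 fun l => by
      by_cases d : l = m
      · simp [d, hx]
      by_cases d' : l = j
      · simp [d', e, c1, hx]
      · simpa [d] using fun e' => d1 l (by simp [*]) (by simp [e'])
    have := (b (c / ∏ l ∈ Finset.univ.erase m, β (update z' m (x m) l) (update (update x j p) m w l))).fix e1 (by
      rw [e2, Finset.prod_eq_zero (i := j) (by simpa) (by simp [e, c1, D.alt])]; simp)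
    rwa [map_smul, e2, smul_add, add_sub_cancel_left, smul_smul, one_mul, div_mul_cancel₀ _ d3, update_self, update_idem,
      ← c2, update_eq_self] at this
  have a4 : ∀ x : κ → W, (∀ l, x l ≠ 0) → ∀ j z, z j = x j → ∀ c : F, AS (M.comap (OG Q).subtype) (pv x) (c • pv z) :=
    fun x hx j z hz => by
    obtain ⟨m, hm⟩ := Fintype.exists_ne_of_one_lt_card (by omega) j
    obtain ⟨j', b1, m', b2, b3⟩ := Finset.one_lt_card.mp (show 1 < ((Finset.univ.erase m).erase j).card by
      simp [hm.symm]; omega)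
    simp at b1 b2
    obtain ⟨p, hp⟩ := D.exists_ne (hx j)
    obtain ⟨p', hp'⟩ := D.exists_ne (hx j')
    exact a3 x j m _ p hx hm.symm hp (a3 x j' m' (x m') p' hx b3 hp' (by
      rw [update_eq_self_iff.mpr (by simp [b3.symm])]; exact a2 x j' p' hx) _ (by simp [b1]) (by simp [b2])) z hz rfl
  have a5 : ∀ e e', β e e' = 1 → EO (M.comap (OG Q).subtype) (pv fun _ => e) := fun e e' hp => by
    have b1 : ∀ (c : F) l y, β e (y l) = 0 → AS (M.comap (OG Q).subtype) (pv fun _ => e) (c • pv y) := fun c l y hy => by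
      obtain ⟨u, hu⟩ := gv_upd H y l
      have b2 := b0 (y l) e e'
      rw [hp, D.comm0 hy, one_smul, neg_zero, zero_smul, sub_eq_zero] at b2
      convert a4 (fun _ => e) (fun _ => by rintro rfl; simp at hp) l (update y l e) (by simp) (c * β (y l) e') using 1
      rw [mul_smul, hu, ← map_smul, ← b2, ← hu, update_eq_self]
    refine ⟨h0 _, fun v hv => ?_⟩
    suffices AS (M.comap (OG Q).subtype) (pv fun _ => e) (v - (polar Q (pv fun _ => e) v / ζ) • pv fun _ => e') by
      simpa [hv] using this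
    refine gv_ind H (p := fun v => AS (M.comap (OG Q).subtype) (pv fun _ => e)
      (v - (polar Q (pv fun _ => e) v / ζ) • pv fun _ => e')) (fun c y => ?_) (fun _ _ a b => by
        convert a.add b using 1; simp; module) v
    have b2 : ∀ A : Finset κ, AS (M.comap (OG Q).subtype) (pv fun _ => e)
        (c • pv y - (c * ∏ l ∈ A, β e (y l)) • pv (A.piecewise (fun _ => e') y)) := fun A => by
      induction A using Finset.induction_on with
      | empty => simpa using AS.zero (h0 _)
      | insert l A a ih =>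
        obtain ⟨u, hu⟩ := gv_upd H (A.piecewise (fun _ => e') y) l
        convert ih.add (b1 (c * ∏ l ∈ A, β e (y l)) l (update (A.piecewise (fun _ => e') y) l
          (y l - β e (y l) • e')) (by simp [hp])) using 1
        rw [Finset.piecewise_insert, Finset.prod_insert a, hu, hu, ← update_eq_self l (A.piecewise _ _), hu]
        simp [a]; module
    convert b2 Finset.univ using 2
    simp [show polar Q _ _ = _ from H.map _ y]; congr 1; field_simp
  exact Om_le_of_EO hQ hn (a5 _ _ hy.ef) (a5 y' (-y) (by simp [hy.fe D])) (by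
    simp [show polar Q _ _ = _ from H.map _ _, hy.ef, a0])

include h h2 in
theorem jj_even (hq : 5 ≤ Nat.card F) (hP : ∀ π ∈ commutator (Equiv.Perm κ), ∃ g ∈ M, ∀ l a, ((T l).act g).i a = (T (π l)).i a)
    (hκ : Even (Fintype.card κ)) (hO : ¬ Om Q ≤ M.comap (OG Q).subtype) (i : κ) (c : End F V) (hc : c ∈ (T i).JJ M β) :
    ∃ d : F, c = d • 1 := by
  have D := (hF i).sd
  by_contra a0
  obtain ⟨j, hj⟩ := not_forall.mp fun e => a0 (h.cen e)
  obtain ⟨ρ, a1, a2⟩ := h.step_two hC hF h4 hq hy {i} j c (by simp) (by rintro e; exact hj (Finset.mem_singleton.mp e ▸ hc.1))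
    ⟨fun l hl => Finset.mem_singleton.mp hl ▸ hc.1, fun t => by
      rw [← insert_empty_eq, h.pr_insert (by simp), h.pr_empty, one_mul]; exact hc.2 y hy.ee t rfl⟩ hj
  obtain ⟨S, a3, a4⟩ := h.extract (h.step_two hC hF h4 hq hy) (by simp) a1 a2
  have a5 : 2 ≤ S.card := by
    have := Finset.card_le_card a3
    rwa [Finset.card_pair (by rintro rfl; exact hj hc.1)] at this
  have a6 : Odd S.card := Nat.not_even_iff_odd.mp fun e => h2 (by
    have := h.parity H (hF i).iso (Finset.card_pos.mp (by omega)) a4 (a := y') (b := y') (by simp [hy.ee]) hy.ef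
    simp [hy.ef, hy.fe D, e.neg_one_pow] at this
    linear_combination this)
  have a7 : ∀ S' : Finset κ, S.card = S'.card → h.XP M S' ((β y).smulRight y) 1 :=
    fun S' e => ⟨fun _ _ _ => Commute.one_left _, fun t => by
      obtain ⟨π, b0, rfl⟩ := exists_even_map e a5
      obtain ⟨g, b1, b2⟩ := hP π b0
      refine (a4.2 t).conj b1 fun v => ?_
      rw [Wr.pr, show (S.map π.toEmbedding).piecewise _ _ = S.piecewise (fun _ => (β y).smulRight y) 1 ∘ π.symm from
        funext fun m => by simp [Finset.piecewise]]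
      simp [h.ph_conj b2, Wr.pr]⟩
  obtain ⟨r, hr⟩ := a6
  have a8 : ∀ m, ∀ S' : Finset κ, S'.card = 2 * (r - 1 + m) + 3 → h.XP M S' ((β y).smulRight y) 1 := fun m => by
    induction m with
    | zero => exact fun S' e => a7 S' (by omega)
    | succ m ih => exact fun S' e => h.grow h2 hC hF hq hy (even_two_mul _) ih S' (by omega)
  obtain ⟨r', hr'⟩ := hκ
  exact hO (om_of_top H hQ hC h hF h4 hy h0 hM ht hn fun m => a8 (r' - 1 - r) _ (by
    have := S.card_le_univ; simp; omega))

end Cfsg.Agent.H18
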