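import Mathlib
import Cfsg.Agent.H18.SwC

/-!
Stabilisers of tensor powers of symplectic spaces are maximal in orthogonal groups.
-/

set_option autoImplicit false

namespace Cfsg.Agent.H18

open Module QuadraticMap H13 H12 Function Matrix Cfsg.Geo

section
variable {F V U W : Type*} [Field F] [AddCommGroup V] [Module F V] [AddCommGroup U] [Module F U]
  [AddCommGroup W] [Module F W] {Q : QuadraticForm F V} {γ : U →ₗ[F] U →ₗ[F] F}
  {β : W →ₗ[F] W →ₗ[F] F} {κ : Type*} [Fintype κ] [DecidableEq κ] {T : κ → TS F U W V} {pv : (κ → W) → V} {ζ : F}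

theorem tt_of_pv [Nontrivial W] (H : PV (polarBilin Q) β T pv ζ) (hQ : ND Q) (E : EF β (-1)) (h0 : ∀ x, Q (pv x) = 0) (i : κ)
    (h : ∀ u w u' w', polar Q ((T i).t u w) ((T i).t u' w') = γ u u' * β w w') : TT Q γ β (T i).t (-1) := by
  obtain ⟨w, hw⟩ := exists_ne (0 : W)
  obtain ⟨w', hw'⟩ := E.exists_one hw
  have a1 : ∀ u z, Q ((T i).t u z) = 0 := fun u z => by
    have := gv_ind H (p := fun v => Q ((T i).i ((β w).smulRight z) v) = 0) (fun c y => by
      rw [map_smul, H.i_pv, Q_smul, h0, mul_zero]) (fun v v' a b => by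
        simp only [TS.i_rk, map_add, LinearMap.add_apply, Q_add, h, E.alt] at a b ⊢
        simp [a, b]) ((T i).t u w')
    simpa [hw'] using this
  refine ⟨(T i).h, hQ, ⟨fun x y => ?_, fun x hx => by_contra fun b => ten_ne_zero (T i).h b hw (hQ _ fun v =>
    (T i).h.inductionOn v (by simp) (fun u w' => by simp [h, hx]) fun _ _ a b => by simp [a, b]), by simp,
    fun x => ⟨0, by simpa [Q_add, a1, h, hw'] using a1 x (w + w')⟩⟩, E, h, .inr a1⟩
  simpa [h, hw', E.symm w' w] using polar_comm Q ((T i).t x w) ((T i).t y w')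

theorem og_of_pv (H : PV (polarBilin Q) β T pv ζ) (h0 : ∀ x, Q (pv x) = 0) {g : V ≃ₗ[F] V}
    (h1 : ∀ x y, polar Q (g x) (g y) = polar Q x y) (h2 : ∀ x, ∃ y, g (pv x) = pv y) : g ∈ OG Q :=
  gv_ind H (fun c x => by obtain ⟨y, e⟩ := h2 x; simp [Q_smul, e, h0]) fun _ _ a b => by simp [Q_add, a, b, h1]

end

variable {ι : Type} [Fintype ι] [DecidableEq ι] {F : Type*} [Field F] {m : ℕ} {P : GL ι F}

theorem wreath_pure {t : ℕ} {e : ι ≃ (Fin t → Fin m)} {g : GL ι F} (h : g ∈ tensorWreathSubgroup m t e P)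
    (x : Fin t → Fin m → F) : ∃ y, g.1 *ᵥ (P.1 *ᵥ (pureV x ∘ e)) = P.1 *ᵥ (pureV y ∘ e) := by
  obtain ⟨s, hs, h⟩ := (mem_map_trans e P _ g).mp h
  obtain ⟨a, π, rfl⟩ := exists_eq_of_mem_wreath hs
  rw [h, trans_mulVec, Units.val_mul, ← mulVec_mulVec]
  change ∃ y, _ *ᵥ ((pureT _ *ᵥ (permT F _ π *ᵥ _)) ∘ e) = _
  rw [permT_mulVec, pureT_mulVec]
  exact ⟨_, rfl⟩

theorem max_swreath [Fintype F] {Q : (ι → F) → F} (hQ : IsNondegenerateQuadraticForm Q) (hn : 13 ≤ Fintype.card ι)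
    {t : ℕ} (ht : 2 ≤ t) (hqt : Odd (Fintype.card F) → Even t) (hq : ¬ (Fintype.card F = 3 ∧ m = 2))
    (h6 : ¬ Odd (Fintype.card F) → 6 ≤ m) {e : ι ≃ (Fin t → Fin m)} {f₁ : (Fin m → F) → (Fin m → F) → F}
    (hf₁ : IsSymplecticForm f₁) (hT : IsTensorPowerFormStructure id (polar Q) f₁ e P)
    (h0 : ∀ x, Q (P.1 *ᵥ (pureV x ∘ e)) = 0) :
    IsMaximalIn (omegaGL Q) (tensorWreathSubgroup m t e P ⊓ omegaGL Q) := by
  obtain ⟨s, rfl⟩ : ∃ s, t = s + 1 := ⟨t - 1, by omega⟩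
  have a1 := Fintype.card_congr e
  obtain ⟨r, a2⟩ := even_card_of_symplectic hf₁
  simp only [Fintype.card_fun, Fintype.card_fin] at a1 a2
  have a3 : 2 ≤ m := by
    by_contra h; obtain rfl : m = 0 := by omega
    simp at a1; omega
  have : NeZero m := ⟨by omega⟩
  have g1 := hform_of_symplectic hf₁
  obtain ⟨β, rfl⟩ : ∃ β : (Fin m → F) →ₗ[F] (Fin m → F) →ₗ[F] F, f₁ = (β · ·) := ⟨g1.toSesq.toMap.flip, rfl⟩
  have E : EF β (-1) := ⟨g1.herm, g1.nondeg', by simp, fun s => ⟨0, (hf₁.alternating s).trans (by simp)⟩⟩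
  have D := E.sd
  obtain ⟨ζ, H, γ, a4⟩ := pv_bil (B := polarBilin (mkQ hQ)) hT
  have a5 := fun i => tt_of_pv H (nd_mkQ hQ) E h0 i (a4 i)
  have a6 : 5 ≤ finrank F (ι → F) := by simp; omega
  have a7 : ∀ g, glEq ι F (ofOG hQ g) = g.1 := fun g => LinearEquiv.ext (ofOG_mulVec hQ g)
  obtain ⟨y, y0, hy⟩ := D.exists_iso D.ns (by simpa)
  obtain ⟨y', hy'⟩ := D.exists_SP hy y0
  have a8 : m < 4 → Odd (Fintype.card F) ∧ 3 ≤ s := fun b => by
    have c := by_contra fun c => absurd (h6 c) (by omega)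
    refine ⟨c, by_contra fun d => ?_⟩
    obtain ⟨_, _⟩ := hqt c
    obtain rfl : s = 1 := by omega
    obtain rfl : m = 2 := by omega
    omega
  refine max_omega hQ ((tensorWreathSubgroup m (s + 1) e P).comap (jO hQ)) (fun _ => Iff.rfl) (fun H' => ?_)
    fun M c1 c2 g c3 c4 => by_contra fun hO => c4 (mem_wreath_of_PW (by omega) ?_)
  · by_cases b : 4 ≤ m
    · obtain ⟨u, a, g, h1, h3, h4, h5⟩ := exists_rt hQ (by omega)
      obtain ⟨x, hx⟩ := h1.exists_eq hQ h4 h5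
      have := H13.finrank_span_pair_le (F := F) u a
      obtain ⟨c, hc⟩ := scalar_of_mem_wreath (H' h3) h1.mem ht (.inl (by omega))
      rw [eq_one_of_scalar_small hc h1.mem (by omega)] at hx
      exact h5 (by simp [← hx])
    obtain ⟨i, j, l, b1, b2, b3⟩ : ∃ i j l : Fin (s + 1), i ≠ j ∧ l ≠ i ∧ l ≠ j :=
      ⟨⟨0, by omega⟩, ⟨1, by omega⟩, ⟨2, by omega⟩, by simp, by simp, by simp⟩
    have b4 := gv_zero H (x := fun _ => y) (z := update (update (fun _ => y') i y) j y) j (by simpa)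
    obtain ⟨z, hz⟩ := wreath_pure (H' (ofOG_mem hQ ((nd_mkQ hQ).sieg_mem_of_Root a6 (by
      rw [← (nd_mkQ hQ).closure_Root a6]; exact Subgroup.subset_closure) _ _)))
        (update (update (fun _ => y) i y') j y')
    rw [ofOG_mulVec, sieg_apply_of_perp (h0 _) b4 (gv_zero H l (by simpa [b2, b3]))] at hz
    refine not_pure H D hy' b1 ?_ z hz.symm
    refine (H.map _ _).trans_ne (mul_ne_zero H.ne (Finset.prod_ne_zero_iff.mpr fun n _ => ?_))
    by_cases d : n = j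
    · simp [d, hy'.ef]
    by_cases d' : n = i <;> simp [d, d', b1, hy'.ef, hy'.fe D]
  set M' := M.map (OG _).subtype
  replace hO : ¬ H13.Om (mkQ hQ) ≤ M'.comap (OG _).subtype := by
    rwa [Subgroup.comap_map_eq_self_of_injective Subtype.val_injective]
  have b0 : M' ≤ OG (mkQ hQ) := by rintro _ ⟨k, -, rfl⟩; exact k.2
  have b1 : ∀ g ∈ H13.Om (mkQ hQ), PW (wT e P) g.1 → g.1 ∈ M' := fun g a b =>
    ⟨g, c1 g a (mem_wreath_of_PW (by omega) ((a7 g).symm ▸ b)), rfl⟩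
  have hF : ∀ i, FT (polarBilin (mkQ hQ)) γ β M' (wT e P i) := fun i => ⟨D, fun x hx => (a5 i).f₁.sep x fun y =>
    (a5 i).f₁.comm0 (hx y), a4 i, fun k hk => OG_polar ⟨k, b0 hk⟩, fun b _ => by
      have : ((a5 i).tR b).1 = (wT e P i).ie b.1 := LinearEquiv.toLinearMap_injective ((wT e P i).ext (by simp))
      exact this ▸ b1 _ ((a5 i).tR_Om a6 b) (this ▸ wr_wT.pw_i (i := i) (fun _ => rfl) fun _ => rfl)⟩
  have hP : ∀ π ∈ commutator (Equiv.Perm (Fin (s + 1))), ∃ g ∈ M', ∀ l a, ((wT e P l).act g).i a = (wT e P (π l)).i a :=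
    fun π hπ => ⟨_, b1 _ (map_mem_commutator (((glEq ι F).toMonoidHom.comp (wP e P)).codRestrict _ fun π =>
      og_of_pv H h0 (wP_iso H π) fun y => ⟨y ∘ π.symm, by
        change glEq ι F (wP e P π) _ = _
        rw [glEq_apply, ← permT_mulVec, ← trans_mulVec]; rfl⟩) hπ) ⟨π, fun l a => ⟨a, act_wP π l a⟩⟩, act_wP π⟩
  rw [jO_apply, a7]
  by_cases b : 4 ≤ m
  · have hC : HC β := .inl (by simpa)
    have hJ := fun i c => jj_om hC wr_wT hF (c := c) a5 b0 a6 (by simp; omega) (fun i j k h1 h2 h3 => by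
      obtain ⟨g, d1, d2⟩ := hP _ (Subgroup.commutator_mem_commutator (Subgroup.mem_top (Equiv.swap i j))
        (Subgroup.mem_top (Equiv.swap i k)))
      refine ⟨g, d1, fun a => (d2 i a).trans ?_, fun a => (d2 j a).trans ?_⟩ <;>
      simp [commutatorElement_def, Equiv.swap_apply_of_ne_of_ne, *, h1.symm, h2.symm, h3.symm]) hO i
    by_cases h2 : (2 : F) = 0
    · have h5 : 5 ≤ finrank F (Fin m → F) := by have := h6 fun c => two_ne_zero_iff_odd.mpr c h2; simp; omega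
      have := cw_six wr_wT hF hJ h2 h5 fun x hx => nd_ext (nd_mkQ hQ) (by simpa using hx)
      exact wr_wT.pw_of_rel (by simpa) fun i j => rel_six h5 (this j) ((this i).act ⟨g, c3, rfl⟩)
    have := wr_wT.cw_four h2 (by simpa) hF H hJ
    exact wr_wT.pw_of_rel (by simpa) fun i j => (this j).rel hC (.inr (by
      have := Fintype.one_lt_card (α := F); obtain ⟨_, _⟩ := two_ne_zero_iff_odd.mp h2; simp [q0_id]; omega))
        ((this i).act ⟨g, c3, rfl⟩)
  obtain ⟨d1, d2⟩ := a8 (by omega)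
  have h2 := two_ne_zero_iff_odd.mpr d1
  have d3 : 5 ≤ Fintype.card F := by have := Fintype.one_lt_card (α := F); obtain ⟨_, _⟩ := d1; omega
  have d4 : finrank F (Fin m → F) = 2 := by simp; omega
  have hC : HC β := .inr (.inr ⟨rfl, d4, by simpa [q0_id], h2⟩)
  have := fun i => (hF i).cw_two h2 hC d4 (jj_even H (nd_mkQ hQ) h2 hC wr_wT hF d4 hy' h0 b0 (by simp; omega) a6
    (by simpa) hP (by simpa using hqt d1) hO i)
  exact wr_wT.pw_of_rel (by simpa) fun i j => (this j).rel hC (.inr (by simp [q0_id]; omega)) ((this i).act ⟨g, c3, rfl⟩)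

end Cfsg.Agent.H18
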