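import Cfsg.Agent.H19.SzBasic
import Cfsg.Agent.H18.MatAlg

/-! Basics on `Sp₄` in characteristic two: transvections, symplectic bases, involutions. -/

set_option autoImplicit false
set_option linter.unusedSectionVars false

namespace Cfsg.Agent.H18.Sq

open Matrix Cfsg.Lie Cfsg.Agent.H19

scoped notation:73 g:74 " ⋆ " v:73 => Matrix.mulVec (Units.val g) v
scoped notation "𝔹" => Cfsg.Lie.altForm4

variable {F : Type*} [Field F] {g h t : GL (Fin 4) F} {a b : Fin 4 → F}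

theorem B_addl (u v w : Fin 4 → F) : 𝔹 (u + v) w = 𝔹 u w + 𝔹 v w := by
  simp only [altForm4, Pi.add_apply]; ring
theorem B_addr (u v w : Fin 4 → F) : 𝔹 u (v + w) = 𝔹 u v + 𝔹 u w := by
  simp only [altForm4, Pi.add_apply]; ring
theorem B_smull (c : F) (u v : Fin 4 → F) : 𝔹 (c • u) v = c * 𝔹 u v := by
  simp only [altForm4, Pi.smul_apply, smul_eq_mul]; ring
theorem B_smulr (c : F) (u v : Fin 4 → F) : 𝔹 u (c • v) = c * 𝔹 u v := by
  simp only [altForm4, Pi.smul_apply, smul_eq_mul]; ring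
theorem B_comm (u v : Fin 4 → F) : 𝔹 u v = 𝔹 v u := by simp only [altForm4]; ring
theorem B_zeror (u : Fin 4 → F) : 𝔹 u 0 = 0 := by simp [altForm4]
theorem B_zerol (u : Fin 4 → F) : 𝔹 0 u = 0 := by simp [altForm4]

theorem B_nd (h : ∀ v, 𝔹 v a = 0) : a = 0 := by
  have h0 := h (Pi.single 3 1)
  have h1 := h (Pi.single 2 1)
  have h2 := h (Pi.single 1 1)
  have h3 := h (Pi.single 0 1)
  simp [altForm4] at h0 h1 h2 h3
  ext i; fin_cases i <;> simp [h0, h1, h2, h3]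

theorem exists_B_one (ha : a ≠ 0) : ∃ v, 𝔹 a v = 1 := by
  obtain ⟨v, hv⟩ : ∃ v, 𝔹 v a ≠ 0 := by by_contra! H; exact ha (B_nd H)
  exact ⟨(𝔹 v a)⁻¹ • v, by rw [B_smulr, B_comm a v, inv_mul_cancel₀ hv]⟩

theorem sp (hg : g ∈ Sp4 F) (u v : Fin 4 → F) : 𝔹 (g ⋆ u) (g ⋆ v) = 𝔹 u v := hg u v

theorem ac_mul (g h : GL (Fin 4) F) (v : Fin 4 → F) : (g * h) ⋆ v = g ⋆ h ⋆ v := by
  rw [Units.val_mul, mulVec_mulVec]
theorem ac_one (v : Fin 4 → F) : (1 : GL (Fin 4) F) ⋆ v = v := by rw [Units.val_one, one_mulVec]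
theorem inv_ac (g : GL (Fin 4) F) (v : Fin 4 → F) : g⁻¹ ⋆ g ⋆ v = v := by
  rw [← ac_mul, inv_mul_cancel, ac_one]
theorem ac_inv (g : GL (Fin 4) F) (v : Fin 4 → F) : g ⋆ g⁻¹ ⋆ v = v := by
  rw [← ac_mul, mul_inv_cancel, ac_one]
theorem ac_ne (g : GL (Fin 4) F) (ha : a ≠ 0) : g ⋆ a ≠ 0 := fun e => ha (by
  rw [← inv_ac g a, e, mulVec_zero])
theorem sp' (hg : g ∈ Sp4 F) (u v : Fin 4 → F) : 𝔹 (g ⋆ u) v = 𝔹 u (g⁻¹ ⋆ v) := by
  rw [← sp hg u, ac_inv]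

theorem mat_ext {A A' : Matrix (Fin 4) (Fin 4) F} (h : ∀ v, A *ᵥ v = A' *ᵥ v) : A = A' := by
  ext i j; simpa using congrFun (h (Pi.single j 1)) i
theorem ext_ac (e : ∀ v, g ⋆ v = h ⋆ v) : g = h := Units.ext (mat_ext e)

variable [CharP F 2]

theorem B_self (u : Fin 4 → F) : 𝔹 u u = 0 := by simp only [altForm4]; grind

theorem vadd_self (u : Fin 4 → F) : u + u = 0 := by ext i; simp only [Pi.add_apply, Pi.zero_apply]; grind

theorem sq_inj {x y : F} (h : x ^ 2 = y ^ 2) : x = y := by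
  have : (x + y) ^ 2 = 0 := by grind
  have := pow_eq_zero_iff (n := 2) (by norm_num) |>.1 this
  grind

theorem exists_sq [Finite F] (c : F) : ∃ x : F, x ^ 2 = c :=
  (Finite.injective_iff_surjective (f := fun x : F => x ^ 2)).1 (fun _ _ e => sq_inj e) c

def tm (a : Fin 4 → F) : Matrix (Fin 4) (Fin 4) F := 1 + vecMulVec a ![a 3, a 2, a 1, a 0]

theorem tm_mulVec (a x : Fin 4 → F) : tm a *ᵥ x = x + 𝔹 x a • a := by
  rw [tm, add_mulVec, one_mulVec]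
  ext i
  simp [mulVec, dotProduct, vecMulVec_apply, Fin.sum_univ_four, altForm4]; ring

theorem tm_sq (a : Fin 4 → F) : tm a * tm a = 1 := mat_ext fun v => by
  rw [← mulVec_mulVec, tm_mulVec, tm_mulVec, B_addl, B_smull, B_self, one_mulVec, mul_zero, add_zero,
    add_assoc, vadd_self, add_zero]

/-- The transvection with vector `a`. -/
def tv (a : Fin 4 → F) : GL (Fin 4) F := ⟨tm a, tm a, tm_sq a, tm_sq a⟩

theorem tv_ac (a x : Fin 4 → F) : tv a ⋆ x = x + 𝔹 x a • a := tm_mulVec a x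
theorem tv_sq (a : Fin 4 → F) : tv a * tv a = 1 := Units.ext (tm_sq a)

theorem tv_mem (a : Fin 4 → F) : tv a ∈ Sp4 F := fun u v => by
  change 𝔹 (tv a ⋆ u) (tv a ⋆ v) = _
  simp only [tv_ac, B_addl, B_addr, B_smull, B_smulr, B_self, B_comm a v]; grind

theorem tv_conj (hg : g ∈ Sp4 F) (a : Fin 4 → F) : g * tv a * g⁻¹ = tv (g ⋆ a) := ext_ac fun v => by
  rw [ac_mul, ac_mul, tv_ac, tv_ac, mulVec_add, mulVec_smul, ac_inv, ← sp hg, ac_inv]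

theorem tv_inj (e : tv a = tv b) : a = b := by
  have : a + b = 0 := B_nd fun v => by
    have h1 : 𝔹 v (tv a ⋆ v) = 𝔹 v (tv b ⋆ v) := by rw [e]
    simp only [tv_ac, B_addr, B_smulr, B_self] at h1
    rw [B_addr, sq_inj (x := 𝔹 v a) (y := 𝔹 v b) (by grind)]; grind
  rw [← add_zero b, ← vadd_self a, ← add_assoc, add_comm b, this, zero_add]

theorem tv_zero : tv (0 : Fin 4 → F) = 1 := ext_ac fun v => by rw [tv_ac, smul_zero, add_zero, ac_one]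

theorem tv_ne (ha : a ≠ 0) : tv a ≠ 1 := fun e => ha (tv_inj (e.trans tv_zero.symm))

theorem trace_tv (a : Fin 4 → F) (g : GL (Fin 4) F) :
    (tv a * g).1.trace = g.1.trace + 𝔹 (g ⋆ a) a := by
  change (tm a * g.1).trace = _
  rw [tm, add_mul, one_mul, trace_add]
  simp [trace, mul_apply, vecMulVec_apply, Fin.sum_univ_four, altForm4, mulVec, dotProduct]; ring

theorem trace_one4 : (1 : GL (Fin 4) F).1.trace = 0 := by
  simp only [Units.val_one, trace_one, Fintype.card_fin]; grind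

theorem exists_sb {a b c d : Fin 4 → F} (ab : 𝔹 a b = 0) (ac : 𝔹 a c = 0) (ad : 𝔹 a d = 1)
    (bc : 𝔹 b c = 1) (bd : 𝔹 b d = 0) (cd : 𝔹 c d = 0) :
    ∃ A ∈ Sp4 F, ∀ v, A ⋆ v = v 0 • a + v 1 • b + v 2 • c + v 3 • d := by
  let A : Matrix (Fin 4) (Fin 4) F := (Matrix.of ![a, b, c, d])ᵀ
  have h1 : ∀ v, A *ᵥ v = v 0 • a + v 1 • b + v 2 • c + v 3 • d := fun v => by
    ext i; simp [A, mulVec, dotProduct, Fin.sum_univ_four]; ring
  have h2 : ∀ u v, 𝔹 (A *ᵥ u) (A *ᵥ v) = 𝔹 u v := fun u v => by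
    simp only [h1, B_addl, B_addr, B_smull, B_smulr, B_self, B_comm b a, B_comm c a, B_comm d a,
      B_comm c b, B_comm d b, B_comm d c, ab, ac, ad, bc, bd, cd]
    simp only [altForm4]; ring
  have h3 : IsUnit A := mulVec_injective_iff_isUnit.1 fun u v e => by
    have : u - v = 0 := B_nd fun w => by rw [← h2, mulVec_sub, e, sub_self, B_zeror]
    exact sub_eq_zero.1 this
  obtain ⟨A', e⟩ := h3
  exact ⟨A', fun u v => by simpa [e] using h2 u v, fun v => by rw [e, h1]⟩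

def zm (δ : F) : Matrix (Fin 4) (Fin 4) F := !![1, 0, 1, δ; 0, 1, 0, 1; 0, 0, 1, 0; 0, 0, 0, 1]

theorem zm_sq (δ : F) : zm δ * zm δ = 1 := by
  ext i j; fin_cases i <;> fin_cases j <;> simp [zm, mul_apply, Fin.sum_univ_four] <;> grind

/-- Normal forms of the involutions of rank two. -/
def zz (δ : F) : GL (Fin 4) F := ⟨zm δ, zm δ, zm_sq δ, zm_sq δ⟩

theorem zz_ac (δ : F) (v : Fin 4 → F) : zz δ ⋆ v = ![v 0 + v 2 + δ * v 3, v 1 + v 3, v 2, v 3] := by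
  ext i; fin_cases i <;> simp [zz, zm, mulVec, dotProduct, Fin.sum_univ_four]

theorem zz_mem (δ : F) : zz δ ∈ Sp4 F := fun u v => by
  change 𝔹 (zz δ ⋆ u) (zz δ ⋆ v) = _
  simp [zz_ac, altForm4]; grind

theorem conj_zz {a b c d : Fin 4 → F} (δ : F) (ab : 𝔹 a b = 0) (ac : 𝔹 a c = 0) (ad : 𝔹 a d = 1)
    (bc : 𝔹 b c = 1) (bd : 𝔹 b d = 0) (cd : 𝔹 c d = 0) (ta : t ⋆ a = a) (tb : t ⋆ b = b)
    (tc : t ⋆ c = c + a) (td : t ⋆ d = d + b + δ • a) : ∃ A ∈ Sp4 F, t = A * zz δ * A⁻¹ := by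
  obtain ⟨A, hA, e⟩ := exists_sb ab ac ad bc bd cd
  refine ⟨A, hA, eq_mul_inv_of_mul_eq (ext_ac fun v => ?_)⟩
  rw [ac_mul, ac_mul, e, e, zz_ac]
  simp only [mulVec_add, mulVec_smul, ta, tb, tc, td]
  ext i; simp; ring

theorem nf_c (ht : t ∈ Sp4 F) (t2 : t * t = 1) {x w : Fin 4 → F} (hx : 𝔹 x (t ⋆ x) = 1)
    (hw : 𝔹 w (t ⋆ w) = 1) (h1 : 𝔹 x w = 0) (h2 : 𝔹 x (t ⋆ w) = 0) :
    ∃ A ∈ Sp4 F, t = A * zz 1 * A⁻¹ := by
  have tt : ∀ v, t ⋆ t ⋆ v = v := fun v => by rw [← ac_mul, t2, ac_one]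
  have h3 : 𝔹 (t ⋆ x) w = 0 := by rw [← sp ht, tt, h2]
  have h4 : 𝔹 (t ⋆ x) (t ⋆ w) = 0 := by rw [sp ht, h1]
  refine conj_zz (a := t ⋆ x + x + (t ⋆ w + w)) (b := t ⋆ w + w) (c := x + w) (d := x) 1
    ?_ ?_ ?_ ?_ ?_ ?_ ?_ ?_ ?_ ?_
  iterate 6
    simp only [B_addl, B_addr, B_self, B_comm (t ⋆ x) x, B_comm (t ⋆ w) w, B_comm w x,
      B_comm (t ⋆ w) x, B_comm (t ⋆ w) (t ⋆ x), B_comm w (t ⋆ x), hx, hw, h1, h2, h3, h4] <;> grind
  all_goals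
    ext i; simp only [mulVec_add, tt, Pi.add_apply, Pi.smul_apply, smul_eq_mul]; grind

theorem nf [Finite F] (ht : t ∈ Sp4 F) (t2 : t * t = 1) (t1 : t ≠ 1) :
    (∃ a, a ≠ 0 ∧ t = tv a) ∨ (∃ A ∈ Sp4 F, t = A * zz 0 * A⁻¹) ∨
      ∃ A ∈ Sp4 F, t = A * zz 1 * A⁻¹ := by
  have tt : ∀ v, t ⋆ t ⋆ v = v := fun v => by rw [← ac_mul, t2, ac_one]
  have sa : ∀ u v, 𝔹 (t ⋆ u) v = 𝔹 u (t ⋆ v) := fun u v => by rw [← sp ht, tt]
  have sc : ∀ x, 𝔹 x (t ⋆ x) ≠ 0 → ∃ c : F, 𝔹 (c • x) (t ⋆ (c • x)) = 1 := fun x hx => by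
    obtain ⟨c, hc⟩ := exists_sq (𝔹 x (t ⋆ x))⁻¹
    exact ⟨c, by rw [mulVec_smul, B_smull, B_smulr, ← mul_assoc, ← sq, hc, inv_mul_cancel₀ hx]⟩
  by_cases H : ∀ x, 𝔹 x (t ⋆ x) = 0
  · obtain ⟨x, hx⟩ : ∃ x, t ⋆ x + x ≠ 0 := by
      by_contra! H2
      exact t1 (ext_ac fun v => by
        rw [ac_one, ← add_zero (t ⋆ v), ← vadd_self v, ← add_assoc, H2, zero_add])
    obtain ⟨w, hw⟩ := exists_B_one hx
    have h1 := H x
    have h2 := H w
    have h3 := sp ht x w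
    rw [B_addl, sa] at hw
    refine .inr (.inl (conj_zz (a := t ⋆ x + x) (b := t ⋆ w + w) (c := x)
      (d := w + 𝔹 x w • (t ⋆ w + w)) 0 ?_ ?_ ?_ ?_ ?_ ?_ ?_ ?_ ?_ ?_))
    iterate 6
      simp only [B_addl, B_addr, B_smulr, B_self, B_comm (t ⋆ x) x, B_comm (t ⋆ w) w, B_comm w x,
        B_comm (t ⋆ w) x, h1, h2, h3, sa x w] <;> grind
    all_goals
      ext i; simp only [mulVec_add, mulVec_smul, tt, Pi.add_apply, Pi.smul_apply, smul_eq_mul]; grind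
  · push Not at H
    obtain ⟨x0, hx0⟩ := H
    obtain ⟨c, hx⟩ := sc x0 hx0
    generalize c • x0 = x at hx
    obtain ⟨y, hy⟩ : ∃ y, y = t ⋆ x + x := ⟨_, rfl⟩
    have xy : 𝔹 x y = 1 := by rw [hy, B_addr, B_self, hx, add_zero]
    have ty : t ⋆ y = y := by rw [hy, mulVec_add, tt, add_comm]
    have tx : t ⋆ x = x + y := by rw [hy, add_comm, add_assoc, vadd_self, add_zero]
    -- projection to the perp of `x, y`
    have pr : ∀ w, ∃ w', 𝔹 x w' = 0 ∧ 𝔹 y w' = 0 ∧ w' = w + 𝔹 x w • y + 𝔹 y w • x := fun w =>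
      ⟨_, by simp only [B_addr, B_smulr, B_self, xy]; grind,
        by simp only [B_addr, B_smulr, B_self, B_comm y x, xy]; grind, rfl⟩
    have fin : ∀ w, 𝔹 x w = 0 → 𝔹 y w = 0 → 𝔹 w (t ⋆ w) ≠ 0 → ∃ A ∈ Sp4 F, t = A * zz 1 * A⁻¹ :=
      fun w h1 h2 h3 => by
        obtain ⟨c, hc⟩ := sc w h3
        refine nf_c ht t2 hx hc (by rw [B_smulr, h1, mul_zero]) ?_
        rw [← sa, tx, B_smulr, B_addl, h1, h2, add_zero, mul_zero]
    by_cases H2 : t = tv y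
    · exact .inl ⟨y, fun e => by rw [e, B_zeror] at xy; exact zero_ne_one xy, H2⟩
    obtain ⟨w0, hw0⟩ : ∃ w, t ⋆ w ≠ w + 𝔹 w y • y := by
      by_contra! H3; exact H2 (ext_ac fun v => by rw [H3, tv_ac])
    obtain ⟨w, xw, yw, e⟩ := pr w0
    have hu : t ⋆ w + w ≠ 0 := fun e2 => hw0 (by
      rw [e] at e2
      simp only [mulVec_add, mulVec_smul, tx, ty] at e2
      ext i
      have := congrFun e2 i
      simp only [Pi.add_apply, Pi.smul_apply, smul_eq_mul, Pi.zero_apply, B_comm w0 y] at this ⊢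
      grind)
    refine .inr (.inr ?_)
    by_cases H3 : 𝔹 w (t ⋆ w) = 0
    swap
    · exact fin w xw yw H3
    obtain ⟨u, hu'⟩ : ∃ u, u = t ⋆ w + w := ⟨_, rfl⟩
    rw [← hu'] at hu
    have xu : 𝔹 x u = 0 := by rw [hu', B_addr, ← sa, tx, B_addl, xw, yw, add_zero, add_zero]
    have yu : 𝔹 y u = 0 := by rw [hu', B_addr, ← sa, ty, yw, add_zero]
    have tu : t ⋆ u = u := by rw [hu', mulVec_add, tt, add_comm]
    obtain ⟨v0, hv0⟩ := exists_B_one hu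
    obtain ⟨v, xv, yv, e'⟩ := pr v0
    have uv : 𝔹 u v = 1 := by
      rw [e', B_addr, B_addr, B_smulr, B_smulr, B_comm u y, B_comm u x, xu, yu, hv0]; ring
    obtain ⟨A, hA, eA⟩ := exists_sb (a := y) (b := u) (c := v) (d := x) yu yv
      (by rw [B_comm, xy]) uv (by rw [B_comm, xu]) (by rw [B_comm, xv])
    have e3 := eA (A⁻¹ ⋆ w)
    rw [ac_inv] at e3
    generalize A⁻¹ ⋆ w = s at e3
    have wu : 𝔹 u w = 0 := by rw [hu', B_addl, B_self, B_comm, H3, add_zero]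
    rw [e3] at xw yw wu
    simp only [B_addr, B_smulr, B_self, xy, xu, xv, yu, yv, uv, B_comm y x, B_comm u y,
      B_comm u x] at xw yw wu
    have s0 : s 0 = 0 := by grind
    have s2 : s 2 = 0 := by grind
    have s3 : s 3 = 0 := by grind
    rw [s0, s2, s3, zero_smul, zero_smul, zero_smul, zero_add, add_zero, add_zero] at e3
    rw [e3, mulVec_smul, tu, vadd_self] at hu'
    exact absurd hu' hu

end Cfsg.Agent.H18.Sq
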