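import Cfsg.Agent.H18.SzA
import Cfsg.Agent.H18.MiA

/-! Subgroups of `Sp₄` (characteristic two) containing transvections: root fields. -/

set_option autoImplicit false
set_option linter.unusedSectionVars false

namespace Cfsg.Agent.H18.Sq

open Matrix Cfsg.Lie Cfsg.Agent.H19

variable {F : Type*} [Field F] [CharP F 2] [Finite F] {P : Subgroup (GL (Fin 4) F)}
  {g h k : GL (Fin 4) F} {x y w u v : Fin 4 → F}

/-- Pointwise stabiliser of the perp of `x, y`. -/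
def Fx (x y : Fin 4 → F) : Subgroup (GL (Fin 4) F) where
  carrier := {g | ∀ w, 𝔹 w x = 0 → 𝔹 w y = 0 → g ⋆ w = w}
  mul_mem' {a b} ha hb w h1 h2 := by rw [ac_mul, hb w h1 h2, ha w h1 h2]
  one_mem' w _ _ := ac_one w
  inv_mem' {a} ha w h1 h2 := by
    conv_lhs => rw [← ha w h1 h2]
    exact inv_ac a w

theorem tv_mem_Fx (a b : F) : tv (a • x + b • y) ∈ Fx x y := fun w h1 h2 => by
  rw [tv_ac, B_addr, B_smulr, B_smulr, h1, h2]; simp

theorem Fx_ext (h0 : 𝔹 x y ≠ 0) (hg : g ∈ Fx x y) (hh : h ∈ Fx x y) (e1 : g ⋆ x = h ⋆ x)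
    (e2 : g ⋆ y = h ⋆ y) : g = h := ext_ac fun v => by
  obtain ⟨w, hw⟩ : ∃ w, w = v + (𝔹 v y / 𝔹 x y) • x + (𝔹 v x / 𝔹 x y) • y := ⟨_, rfl⟩
  have h1 : 𝔹 w x = 0 := by
    simp only [hw, B_addl, B_smull, B_self, B_comm y x, div_mul_cancel₀ _ h0]; grind
  have h2 : 𝔹 w y = 0 := by
    simp only [hw, B_addl, B_smull, B_self, div_mul_cancel₀ _ h0]; grind
  have h3 : v = w + (𝔹 v y / 𝔹 x y) • x + (𝔹 v x / 𝔹 x y) • y := by
    rw [hw]; ext i; simp only [Pi.add_apply, Pi.smul_apply, smul_eq_mul]; grind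
  rw [h3]
  simp only [mulVec_add, mulVec_smul, e1, e2, hg w h1 h2, hh w h1 h2]

theorem tv_img (hP : P ≤ Sp4 F) (hg : g ∈ P) (hx : tv x ∈ P) : tv (g ⋆ x) ∈ P := by
  rw [← tv_conj (hP hg)]; exact mul_mem (mul_mem hg hx) (inv_mem hg)

theorem sw_x {c : F} (hc : c ^ 2 * 𝔹 x y = 1) : tv (c • (x + y)) ⋆ x = y := by
  rw [tv_ac, B_smulr, B_addr, B_self]
  ext i; simp only [Pi.add_apply, Pi.smul_apply, smul_eq_mul]; grind

theorem sw_y {c : F} (hc : c ^ 2 * 𝔹 x y = 1) : tv (c • (x + y)) ⋆ y = x := by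
  rw [add_comm]; exact sw_x (by rwa [B_comm])

theorem sw (hP : P ≤ Sp4 F) (hx : tv x ∈ P) (hy : tv y ∈ P) (h0 : 𝔹 x y ≠ 0) :
    ∃ c : F, c ^ 2 * 𝔹 x y = 1 ∧ tv (c • (x + y)) ∈ P := by
  obtain ⟨c, hc⟩ := exists_sq (𝔹 x y)⁻¹
  have hc' : c ^ 2 * 𝔹 x y = 1 := by rw [hc, inv_mul_cancel₀ h0]
  refine ⟨c, hc', ?_⟩
  have a1 : tv x ∈ P ⊓ Fx x y := ⟨hx, by simpa using tv_mem_Fx (x := x) (y := y) 1 0⟩
  have a2 : tv y ∈ P ⊓ Fx x y := ⟨hy, by simpa using tv_mem_Fx (x := x) (y := y) 0 1⟩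
  rcases Mi.exists_inv_or_central a1 a2 (tv_sq x) (tv_sq y) with ⟨k, hk, e1, e2⟩ | ⟨z, hz, z1, -, c1, c2⟩
  · have e3 : k ⋆ y = x := tv_inj (by rw [← tv_conj (hP hk.1), e1, mul_inv_cancel_right])
    have e4 : k ⋆ x = y := tv_inj (by rw [← tv_conj (hP hk.1), e2, mul_inv_cancel_right])
    rw [← Fx_ext (h := tv (c • (x + y))) h0 hk.2 (by rw [smul_add]; exact tv_mem_Fx c c) (by rw [e4, sw_x hc'])
      (by rw [e3, sw_y hc'])]
    exact hk.1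
  · have e3 : z ⋆ y = y := tv_inj (by rw [← tv_conj (hP hz.1), c2.eq, mul_inv_cancel_right])
    have e4 : z ⋆ x = x := tv_inj (by rw [← tv_conj (hP hz.1), c1.eq, mul_inv_cancel_right])
    exact absurd (Fx_ext h0 hz.2 (one_mem _) (by rw [e4, ac_one]) (by rw [e3, ac_one])) z1

theorem sw' (hP : P ≤ Sp4 F) (hx : tv x ∈ P) (hy : tv y ∈ P) (h0 : 𝔹 x y ≠ 0) :
    ∃ k ∈ P, k ⋆ x = y ∧ k ⋆ y = x ∧ ∀ w, 𝔹 w x = 0 → 𝔹 w y = 0 → k ⋆ w = w := by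
  obtain ⟨c, hc, hk⟩ := sw hP hx hy h0
  exact ⟨_, hk, sw_x hc, sw_y hc, by rw [smul_add]; exact tv_mem_Fx c c⟩

theorem exists_B (hP : P ≤ Sp4 F) (hi : Irr P) (hx : x ≠ 0) (hv : v ≠ 0) :
    ∃ g ∈ P, 𝔹 (g ⋆ x) v ≠ 0 := by
  let W : Submodule F (Fin 4 → F) :=
    { carrier := {v | ∀ g ∈ P, 𝔹 (g ⋆ x) v = 0}
      add_mem' := fun ha hb g hg => by rw [B_addr, ha g hg, hb g hg, add_zero]
      zero_mem' := fun g _ => B_zeror _
      smul_mem' := fun c _ ha g hg => by rw [B_smulr, ha g hg, mul_zero] }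
  by_contra! H
  rcases hi W (fun k hk v hv g hg => by
    rw [B_comm, sp' (hP hk), B_comm, ← ac_mul]; exact hv _ (mul_mem (inv_mem hk) hg)) with e | e
  · exact hv ((Submodule.mem_bot F).1 (e ▸ (show v ∈ W from H)))
  · exact hx (B_nd fun w => by
      have := (show w ∈ W from e ▸ Submodule.mem_top) 1 (one_mem _)
      rwa [ac_one, B_comm] at this)

theorem tor (hP : P ≤ Sp4 F) (hx : tv x ∈ P) (hw : tv w ∈ P) (h0 : 𝔹 x w ≠ 0) {s : F} (s0 : s ≠ 0)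
    (hs : tv (s • x) ∈ P) : ∃ k ∈ P, k ⋆ x = s • x ∧ k ⋆ w = s⁻¹ • w := by
  obtain ⟨j, hj, e1, e2, -⟩ := sw' hP hx hw h0
  obtain ⟨j', hj', e3, e4, -⟩ := sw' hP hs hw (by rw [B_smull]; exact mul_ne_zero s0 h0)
  refine ⟨j' * j, mul_mem hj' hj, by rw [ac_mul, e1, e4], ?_⟩
  rw [ac_mul, e2, ← e3, mulVec_smul, smul_smul, inv_mul_cancel₀ s0, one_smul]

theorem tv_add (a b : F) (x : Fin 4 → F) : tv ((a + b) • x) = tv (a • x) * tv (b • x) :=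
  ext_ac fun v => by
    simp only [ac_mul, tv_ac, B_addl, B_smull, B_smulr, B_self]
    ext i; simp only [Pi.add_apply, Pi.smul_apply, smul_eq_mul]; grind

/-- The root field of the point `x`. -/
def rootF (hP : P ≤ Sp4 F) (hx : tv x ∈ P) (hw : tv w ∈ P) (h0 : 𝔹 x w ≠ 0) : Subfield F where
  carrier := {s | tv (s • x) ∈ P}
  add_mem' {a b} ha hb := by
    change tv ((a + b) • x) ∈ P
    rw [tv_add]; exact mul_mem ha hb
  zero_mem' := by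
    change tv ((0 : F) • x) ∈ P
    rw [zero_smul, tv_zero]; exact one_mem _
  one_mem' := by
    change tv ((1 : F) • x) ∈ P
    rwa [one_smul]
  neg_mem' {a} ha := by rwa [CharTwo.neg_eq]
  mul_mem' {a b} ha hb := by
    change tv ((a * b) • x) ∈ P
    by_cases b0 : b = 0
    · rw [b0, mul_zero, ← b0]; exact hb
    obtain ⟨k, hk, e, -⟩ := tor hP hx hw h0 b0 hb
    have := tv_img hP hk ha
    rwa [mulVec_smul, e, smul_smul] at this
  inv_mem' a ha := by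
    change tv (a⁻¹ • x) ∈ P
    by_cases a0 : a = 0
    · rw [a0, _root_.inv_zero, ← a0]; exact ha
    obtain ⟨k, hk, e, -⟩ := tor hP hx hw h0 a0 ha
    have h1 := tv_img hP (inv_mem hk) hx
    have h2 : k⁻¹ ⋆ x = a⁻¹ • x := by
      have := inv_ac k x
      rw [e, mulVec_smul] at this
      rw [eq_comm, inv_smul_eq_iff₀ a0, this]
    rwa [h2] at h1

theorem big (hP : P ≤ Sp4 F) (hx : tv x ∈ P) (hy : tv y ∈ P) {s : F} (s0 : s ≠ 0) (s1 : s ≠ 1)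
    (hs : tv (s • x) ∈ P) (K : Subfield F) (hK : ∀ c, tv (c • x) ∈ P → c ∈ K) : 𝔹 x y ∈ K := by
  by_cases h0 : 𝔹 x y = 0
  · rw [h0]; exact zero_mem _
  have hP' : P ⊓ Fx x y ≤ Sp4 F := inf_le_left.trans hP
  have a1 : tv x ∈ P ⊓ Fx x y := ⟨hx, by simpa using tv_mem_Fx (x := x) (y := y) 1 0⟩
  have a2 : tv y ∈ P ⊓ Fx x y := ⟨hy, by simpa using tv_mem_Fx (x := x) (y := y) 0 1⟩
  have a3 : tv (s • x) ∈ P ⊓ Fx x y := ⟨hs, by simpa using tv_mem_Fx (x := x) (y := y) s 0⟩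
  obtain ⟨c, hc, a4⟩ := sw hP' a1 a2 h0
  have c0 : c ≠ 0 := by rintro rfl; simp at hc
  obtain ⟨k, hk, e1, e2⟩ := tor hP' a1 a2 h0 s0 a3
  obtain ⟨k', hk', e3, e4⟩ := tor hP' a1 a4 (by
    rw [B_smulr, B_addr, B_self, zero_add]; exact mul_ne_zero c0 h0) s0 a3
  have e5 : k' ⋆ y = s⁻¹ • y + (s + s⁻¹) • x := by
    rw [mulVec_smul, smul_comm, mulVec_add, e3] at e4
    have := smul_right_injective _ c0 e4
    ext i
    have := congrFun this i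
    simp only [Pi.add_apply, Pi.smul_apply, smul_eq_mul] at this ⊢
    grind
  obtain ⟨e, he⟩ := exists_sq ((1 + s⁻¹ ^ 2) / 𝔹 x y)
  have e6 : k' = k * tv (e • x) := Fx_ext h0 hk'.2 (mul_mem hk.2 (by
      simpa using tv_mem_Fx (x := x) (y := y) e 0))
    (by rw [ac_mul, tv_ac, B_smulr, B_self, mul_zero, zero_smul, add_zero, e1, e3]) (by
      rw [ac_mul, tv_ac, B_smulr, mulVec_add, mulVec_smul, mulVec_smul, e1, e2, e5, smul_smul,
        smul_smul, B_comm y x]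
      congr 2
      rw [show e * 𝔹 x y * e * s = e ^ 2 * 𝔹 x y * s by ring, he]
      field_simp)
  have e7 : e ∈ K := hK e (by
    rw [← inv_mul_cancel_left k (tv (e • x)), ← e6]; exact mul_mem (inv_mem hk.1) hk'.1)
  have e8 : 1 + s⁻¹ ^ 2 ≠ 0 := fun e0 => s1 (inv_eq_one.1 (sq_inj (by grind)))
  have e9 : 𝔹 x y = (1 + s⁻¹ ^ 2) / e ^ 2 := by rw [he, div_div_cancel₀ e8]
  rw [e9]
  exact div_mem (add_mem (one_mem _) (pow_mem (inv_mem (hK s hs)) 2)) (pow_mem e7 2)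

theorem ind [IsSimpleGroup P] (hP : P ≤ Sp4 F) (hx : tv x ∈ P) (x0 : x ≠ 0)
    {p : GL (Fin 4) F → Prop} (h1 : p 1) (h2 : ∀ g ∈ P, ∀ k ∈ P, p k → p (tv (g ⋆ x) * k)) :
    ∀ k ∈ P, p k := by
  intro k hk
  have h3 : Subgroup.normalClosure {(⟨tv x, hx⟩ : P)} = ⊤ :=
    (IsSimpleGroup.eq_bot_or_eq_top_of_normal _ inferInstance).resolve_left fun e =>
      tv_ne x0 (congrArg Subtype.val (Subgroup.mem_bot.1 (show (⟨tv x, hx⟩ : P) ∈ ⊥ from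
        e ▸ Subgroup.subset_normalClosure rfl)))
  have h4 : (⟨k, hk⟩ : P) ∈ Subgroup.closure (Group.conjugatesOfSet {(⟨tv x, hx⟩ : P)}) :=
    show _ ∈ Subgroup.normalClosure _ from h3 ▸ Subgroup.mem_top _
  have h5 : ∀ a ∈ Group.conjugatesOfSet {(⟨tv x, hx⟩ : P)}, ∃ g ∈ P, a.1 = tv (g ⋆ x) := by
    intro a ha
    obtain ⟨b, rfl, hb⟩ := Group.mem_conjugatesOfSet_iff.1 ha
    obtain ⟨c, rfl⟩ := isConj_iff.1 hb
    exact ⟨c, c.2, tv_conj (hP c.2) x⟩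
  refine Subgroup.closure_induction_left (p := fun a _ => p a.1) h1 ?_ ?_ h4
  · intro a ha b _ hb
    obtain ⟨g, hg, e⟩ := h5 a ha
    rw [Subgroup.coe_mul, e]; exact h2 g hg b b.2 hb
  · intro a ha b _ hb
    obtain ⟨g, hg, e⟩ := h5 a ha
    rw [Subgroup.coe_mul, Subgroup.coe_inv, e, inv_eq_of_mul_eq_one_right (tv_sq _)]
    exact h2 g hg b b.2 hb

theorem traces [IsSimpleGroup P] (hP : P ≤ Sp4 F) (hx : tv x ∈ P) (x0 : x ≠ 0) (K : Subfield F)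
    (hK : ∀ g ∈ P, 𝔹 x (g ⋆ x) ∈ K) : ∀ k ∈ P, k.1.trace ∈ K := by
  refine ind hP hx x0 (by rw [trace_one4]; exact zero_mem _) fun g hg k hk h => ?_
  rw [trace_tv, B_comm, sp' (hP hg), ← ac_mul, ← ac_mul]
  exact add_mem h (hK _ (mul_mem (mul_mem (inv_mem hg) hk) hg))

theorem trace_tv_tv (x y : Fin 4 → F) : (tv x * tv y).1.trace = 𝔹 x y ^ 2 := by
  have := trace_tv y 1
  rw [mul_one, trace_one4, ac_one, B_self] at this
  rw [trace_tv, this, tv_ac, B_addl, B_smull, B_self, B_comm y x]; ring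

end Cfsg.Agent.H18.Sq
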