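import Cfsg.Agent.H18.SzB

/-! Irreducible subgroups of `Sp₄` (characteristic two) containing a full root subgroup. -/

set_option autoImplicit false
set_option linter.unusedSectionVars false

namespace Cfsg.Agent.H18.Sq

open Matrix Cfsg.Lie Cfsg.Agent.H19

variable {F : Type*} [Field F] [CharP F 2] [Finite F] {P : Subgroup (GL (Fin 4) F)}
  {g h k : GL (Fin 4) F} {x y w u v : Fin 4 → F}

theorem zz_one : zz (1 : F) = tv ![1, 1, 0, 0] * tv ![0, 1, 0, 0] := ext_ac fun v => by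
  rw [ac_mul, zz_ac, tv_ac, tv_ac]
  ext i; fin_cases i <;> simp [altForm4, vecHead, vecTail] <;> grind

theorem zz_zero : zz (0 : F) = tv ![1, 0, 0, 0] * zz 1 := ext_ac fun v => by
  rw [ac_mul, zz_ac, tv_ac, zz_ac]
  ext i; fin_cases i <;> simp [altForm4, vecHead, vecTail] <;> grind

theorem eq_sp_of_all (hP : P ≤ Sp4 F) (H : ∀ v, tv v ∈ P) : P = Sp4 F := by
  have c1 : ∀ A ∈ Sp4 F, A * zz 1 * A⁻¹ ∈ P := fun A hA => by
    rw [zz_one, ← conj_mul, tv_conj hA, tv_conj hA]; exact mul_mem (H _) (H _)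
  have c2 : ∀ g ∈ Sp4 F, g * g = 1 → g ∈ P := fun g hg g2 => by
    by_cases g1 : g = 1
    · rw [g1]; exact one_mem _
    rcases nf hg g2 g1 with ⟨a, -, rfl⟩ | ⟨A, hA, rfl⟩ | ⟨A, hA, rfl⟩
    · exact H a
    · rw [zz_zero, ← conj_mul, tv_conj hA]; exact mul_mem (H _) (c1 A hA)
    · exact c1 A hA
  have key : ∀ W : Submodule F (Fin 4 → F), ∀ g ∈ Sp4 F, (∀ v, v ∈ W ↔ g ⋆ v = v) → g ∈ P := by
    intro W
    induction W using WellFoundedGT.induction with
    | ind W ih =>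
      intro g hg hW
      by_cases H2 : ∀ x, 𝔹 x (g ⋆ x) = 0
      · refine c2 g hg (ext_ac fun v => ?_)
        have : g ⋆ g ⋆ v + v = 0 := B_nd fun w => by
          have h1 := H2 (w + g ⋆ v)
          have h2 := sp hg (g⁻¹ ⋆ w) v
          have h3 := H2 (g⁻¹ ⋆ w + v)
          have h4 := H2 (g⁻¹ ⋆ w)
          have h5 := sp hg w v
          simp only [mulVec_add, B_addl, B_addr, H2, ac_inv, B_comm (g ⋆ v) (g ⋆ w)] at h1 h2 h3 h4
          rw [B_addr]; grind
        rw [ac_mul, ac_one, ← add_zero (g ⋆ g ⋆ v), ← vadd_self v, ← add_assoc, this, zero_add]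
      push Not at H2
      obtain ⟨x, hx⟩ := H2
      obtain ⟨c, hc⟩ := exists_sq (𝔹 x (g ⋆ x))⁻¹
      have hc' : c ^ 2 * 𝔹 x (g ⋆ x) = 1 := by rw [hc, inv_mul_cancel₀ hx]
      let W' : Submodule F (Fin 4 → F) :=
        { carrier := {v | (tv (c • (x + g ⋆ x)) * g) ⋆ v = v}
          add_mem' := fun {a b} ha hb => by
            change _ ⋆ (a + b) = a + b
            rw [mulVec_add, ha, hb]
          zero_mem' := mulVec_zero _
          smul_mem' := fun c a ha => by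
            change _ ⋆ (c • a) = c • a
            rw [mulVec_smul, ha] }
      have h1 : W < W' := by
        refine lt_of_le_of_ne (fun v hv => ?_) fun e => ?_
        · change _ ⋆ v = v
          have h2 := (hW v).1 hv
          have h3 := sp hg v x
          rw [h2] at h3
          rw [ac_mul, h2, tv_ac, B_smulr, B_addr, h3, CharTwo.add_self_eq_zero, mul_zero, zero_smul,
            add_zero]
        · have h2 : x ∈ W' := show _ ⋆ x = x by rw [ac_mul, sw_y hc']
          rw [← e, hW] at h2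
          rw [h2, B_self] at hx
          exact hx rfl
      have h2 := ih W' h1 _ (mul_mem (tv_mem _) hg) fun v => Iff.rfl
      exact (mul_mem_cancel_left (H _)).1 h2
  refine le_antisymm hP fun g hg => key
    { carrier := {v | g ⋆ v = v}
      add_mem' := fun {a b} ha hb => by
        change _ ⋆ (a + b) = a + b
        rw [mulVec_add, ha, hb]
      zero_mem' := mulVec_zero _
      smul_mem' := fun c a ha => by
        change _ ⋆ (c • a) = c • a
        rw [mulVec_smul, ha] } g hg fun v => Iff.rfl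

/-- Centres of full root subgroups. -/
def XF (P : Subgroup (GL (Fin 4) F)) (v : Fin 4 → F) : Prop := ∀ c : F, tv (c • v) ∈ P

theorem XF.tv (h : XF P v) : tv v ∈ P := by simpa using h 1
theorem XF.smul (h : XF P v) (c : F) : XF P (c • v) := fun d => by rw [smul_smul]; exact h _
theorem XF.img (hP : P ≤ Sp4 F) (hg : g ∈ P) (h : XF P v) : XF P (g ⋆ v) := fun c => by
  rw [← mulVec_smul]; exact tv_img hP hg (h c)

theorem XF.add (hP : P ≤ Sp4 F) (hv : XF P v) (hw : XF P w) (h0 : 𝔹 v w ≠ 0) : XF P (v + w) := by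
  obtain ⟨c, hc⟩ := exists_sq (𝔹 v w)⁻¹
  have := XF.img hP (hw c) hv
  rwa [tv_ac, B_smulr, smul_smul, show c * 𝔹 v w * c = c ^ 2 * 𝔹 v w by ring, hc,
    inv_mul_cancel₀ h0, one_smul] at this

theorem XF.nb [IsSimpleGroup P] (hP : P ≤ Sp4 F) (hi : Irr P) (hv : XF P v) (v0 : v ≠ 0)
    (w0 : w ≠ 0) (hw : XF P w) (h0 : 𝔹 v w = 0) : ∃ u, XF P u ∧ 𝔹 u v ≠ 0 ∧ 𝔹 u w ≠ 0 := by
  by_contra! H
  obtain ⟨g1, hg1, e1⟩ := exists_B hP hi v0 v0
  obtain ⟨g2, hg2, e2⟩ := exists_B hP hi v0 w0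
  have x1 := hv.img hP hg1
  have x2 := hv.img hP hg2
  generalize g1 ⋆ v = a at e1 x1
  generalize g2 ⋆ v = b at e2 x2
  have aw := H a x1 e1
  have bv : 𝔹 b v = 0 := by_contra fun e => e2 (H b x2 e)
  have ab : 𝔹 a b = 0 := by_contra fun e => e2 (by
    have := H _ (x1.add hP x2 e) (by rwa [B_addl, bv, add_zero])
    rwa [B_addl, aw, zero_add] at this)
  have h1 : ∀ y, XF P y → 𝔹 y v ≠ 0 → 𝔹 y w = 0 ∧ 𝔹 y b = 0 := fun y hy e => ⟨H y hy e, by
    by_contra e'
    refine e2 ?_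
    have := H _ (hy.add hP x2 e') (by rwa [B_addl, bv, add_zero])
    rwa [B_addl, H y hy e, zero_add] at this⟩
  have h2 : ∀ y, XF P y → (𝔹 y v ≠ 0 ∨ 𝔹 y a ≠ 0) → 𝔹 y w = 0 := fun y hy e => by
    by_cases e' : 𝔹 y v = 0
    · have := (h1 _ (hy.add hP x1 (e.resolve_left (fun f => f e'))) (by rwa [B_addl, e', zero_add])).1
      rwa [B_addl, aw, add_zero] at this
    · exact H y hy e'
  let C : Set (Fin 4 → F) := {y | XF P y ∧ (𝔹 y v ≠ 0 ∨ 𝔹 y a ≠ 0)}
  have h3 : ∀ k ∈ P, ∀ y ∈ Submodule.span F C, k ⋆ y ∈ Submodule.span F C := by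
    refine ind hP hv.tv v0 (fun y hy => by rwa [ac_one]) fun g hg k _ hk y hy => ?_
    rw [ac_mul]
    have x3 := hv.img hP hg
    generalize g ⋆ v = u at x3
    refine Submodule.span_induction (p := fun z _ => Sq.tv u ⋆ z ∈ Submodule.span F C) ?_ ?_ ?_ ?_
      (hk y hy)
    · intro z hz
      by_cases hu : u ∈ C
      · rw [tv_ac]
        exact add_mem (Submodule.subset_span hz) (Submodule.smul_mem _ _ (Submodule.subset_span hu))
      · have : 𝔹 u v = 0 ∧ 𝔹 u a = 0 := by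
          by_contra e; exact hu ⟨x3, by tauto⟩
        refine Submodule.subset_span ⟨hz.1.img hP x3.tv, ?_⟩
        simpa only [tv_ac, B_addl, B_smull, this.1, this.2, mul_zero, add_zero] using hz.2
    · rw [mulVec_zero]; exact zero_mem _
    · intro _ _ _ _ a b; rw [mulVec_add]; exact add_mem a b
    · intro c _ _ a; rw [mulVec_smul]; exact Submodule.smul_mem _ _ a
  rcases hi _ h3 with e | e
  · have : a ∈ Submodule.span F C := Submodule.subset_span ⟨x1, .inl e1⟩
    rw [e, Submodule.mem_bot] at this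
    exact e1 (by rw [this, B_zerol])
  · refine w0 (B_nd fun z => ?_)
    refine Submodule.span_induction (p := fun z _ => 𝔹 z w = 0) (fun z hz => h2 z hz.1 hz.2)
      (B_zerol _) ?_ ?_ (show z ∈ Submodule.span F C from e ▸ Submodule.mem_top)
    · intro _ _ _ _ a b; rw [B_addl, a, b, add_zero]
    · intro c _ _ a; rw [B_smull, a, mul_zero]

theorem XF.add' (hP : P ≤ Sp4 F) (hv : XF P v) (hw : XF P w) (h0 : 𝔹 v w = 0) (hu : XF P u)
    (h1 : 𝔹 u v ≠ 0) (h2 : 𝔹 u w ≠ 0) (h3 : 𝔹 u v ≠ 𝔹 u w) : XF P (v + w) := by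
  have := (hu.add hP hv h1).add hP (hu.add hP hw h2) (by
    rw [B_addl, B_addr, B_addr, B_self, B_comm v u, h0]; grind)
  rwa [show u + v + (u + w) = v + w by
    ext i; simp only [Pi.add_apply]; grind] at this

theorem XF.add'' [IsSimpleGroup P] (hP : P ≤ Sp4 F) (hi : Irr P) {c : F} (c0 : c ≠ 0) (c1 : c ≠ 1)
    (hv : XF P v) (hw : XF P w) (h0 : 𝔹 v w = 0) (v0 : v ≠ 0) (w0 : w ≠ 0) (hy : XF P y)
    (y1 : 𝔹 y v ≠ 0) (y2 : 𝔹 y w = 0) : XF P (v + w) := by
  obtain ⟨u, hu, u1, u2⟩ := hv.nb hP hi v0 w0 hw h0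
  by_cases e : 𝔹 u v = 𝔹 u w
  swap
  · exact hv.add' hP hw h0 hu u1 u2 e
  obtain ⟨u', hu', u3, u4, u5⟩ : ∃ u', XF P u' ∧ 𝔹 u' v = 𝔹 u v ∧ 𝔹 u' w = 𝔹 u v ∧ 𝔹 y u' ≠ 0 := by
    by_cases e' : 𝔹 y u = 0
    · exact ⟨u + v, hu.add hP hv u1, by rw [B_addl, B_self, add_zero],
        by rw [B_addl, h0, add_zero, e], by rwa [B_addr, e', zero_add]⟩
    · exact ⟨u, hu, rfl, e.symm, e'⟩
  have d0 : c * 𝔹 y v / 𝔹 u v ≠ 0 := div_ne_zero (mul_ne_zero c0 y1) u1
  refine hv.add' hP hw h0 (hy.add hP (hu'.smul (c * 𝔹 y v / 𝔹 u v)) (by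
    rw [B_smulr]; exact mul_ne_zero d0 u5)) ?_ ?_ ?_
  all_goals simp only [B_addl, B_smull, u3, u4, y2, div_mul_cancel₀ _ u1, zero_add]
  · rw [← one_add_mul]; exact mul_ne_zero (fun e => c1 (by grind)) y1
  · exact mul_ne_zero c0 y1
  · simpa using y1

theorem full [IsSimpleGroup P] (hP : P ≤ Sp4 F) (hi : Irr P) {c : F} (c0 : c ≠ 0) (c1 : c ≠ 1)
    (hx : XF P x) (x0 : x ≠ 0) : P = Sp4 F := by
  let W : Submodule F (Fin 4 → F) :=
    { carrier := {v | XF P v}
      zero_mem' := fun c => by rw [smul_zero, tv_zero]; exact one_mem _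
      smul_mem' := fun c _ h => XF.smul h c
      add_mem' := fun {v w} hv hw => by
        change XF P (v + w)
        by_cases h0 : 𝔹 v w = 0
        swap
        · exact XF.add hP hv hw h0
        by_cases v0 : v = 0
        · rwa [v0, zero_add]
        by_cases w0 : w = 0
        · rwa [w0, add_zero]
        by_cases s0 : v + w = 0
        · rw [s0]; exact fun c => by rw [smul_zero, tv_zero]; exact one_mem _
        obtain ⟨g, hg, e⟩ := exists_B hP hi x0 s0
        have hy := hx.img hP hg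
        rw [B_addr] at e
        by_cases y1 : 𝔹 (g ⋆ x) v = 0
        · rw [add_comm]
          exact XF.add'' hP hi c0 c1 hw hv (by rwa [B_comm]) w0 v0 hy (by rwa [y1, zero_add] at e) y1
        by_cases y2 : 𝔹 (g ⋆ x) w = 0
        · exact XF.add'' hP hi c0 c1 hv hw h0 v0 w0 hy y1 y2
        · exact XF.add' hP hv hw h0 hy y1 y2 (fun f => e (by grind)) }
  rcases hi W (fun g hg v hv => XF.img hP hg hv) with e | e
  · exact absurd ((Submodule.mem_bot F).1 (e ▸ (show x ∈ W from hx))) x0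
  · exact eq_sp_of_all hP fun v => XF.tv (show v ∈ W from e ▸ Submodule.mem_top)

end Cfsg.Agent.H18.Sq
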